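import Cfsg.Statements.S0014
import Cfsg.Agent.H4.Basic
import Cfsg.Agent.H1.Frattini

set_option autoImplicit false
open Cfsg

namespace Cfsg.Agent.S0014

/-- Burnside's basis Theorem: in a finite p-group whose Frattini quotient has order p ^ n, every generating set contains n elements that already generate, and no set with fewer than n elements generates. -/
theorem result {G : Type*} [Group G] [Finite G] (p n : ℕ) [Fact p.Prime]
    (hG : IsPGroup p G) (hn : (frattini G).index = p ^ n) :
    (∀ S : Finset G, Subgroup.closure (S : Set G) = ⊤ → ∃ T : Finset G, T ⊆ S ∧ T.card = n ∧ Subgroup.closure (T : Set G) = ⊤) ∧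
    (∀ T : Finset G, Subgroup.closure (T : Set G) = ⊤ → n ≤ T.card) := by
  classical
  have nrm : ∀ T : Finset G, (frattini G ⊔ Subgroup.closure (T : Set G)).Normal := fun T =>
    H4.normal_of_commutator_le fun x _ g => Subgroup.mem_sup_left (H4.commutatorElement_mem_frattini hG x g)
  have ins : ∀ (T : Finset G) (s : G), frattini G ⊔ Subgroup.closure ((insert s T : Finset G) : Set G) =
      (frattini G ⊔ Subgroup.closure (T : Set G)) ⊔ Subgroup.zpowers s := fun T s => by
    rw [Finset.coe_insert, Set.insert_eq, Subgroup.closure_union, ← Subgroup.zpowers_eq_closure,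
      sup_comm (Subgroup.zpowers s), sup_assoc]
  have step : ∀ (T : Finset G) (s : G), s ∉ frattini G ⊔ Subgroup.closure (T : Set G) →
      Nat.card ↥(frattini G ⊔ Subgroup.closure ((insert s T : Finset G) : Set G)) =
      Nat.card ↥(frattini G ⊔ Subgroup.closure (T : Set G)) * p := fun T s hs => by
    have := nrm T
    rw [ins, H4.card_sup_zpowers hs (Subgroup.mem_sup_left (H4.pow_mem_frattini hG s))]
  have hp : p.Prime := Fact.out
  have tot : Nat.card G = Nat.card (frattini G) * p ^ n := by
    rw [← hn, Subgroup.card_mul_index]
  have pos : 0 < Nat.card (frattini G) := Nat.card_pos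
  refine ⟨fun S hS => ?_, fun T hT => ?_⟩
  · have key : ∀ k, k ≤ n → ∃ T : Finset G, T ⊆ S ∧ T.card = k ∧
        Nat.card ↥(frattini G ⊔ Subgroup.closure (T : Set G)) = Nat.card (frattini G) * p ^ k := by
      intro k
      induction k with
      | zero => exact fun _ => ⟨∅, Finset.empty_subset _, rfl, by simp⟩
      | succ k ih =>
        intro hk
        obtain ⟨T, h1, h2, h3⟩ := ih (by omega)
        have : ∃ s ∈ S, s ∉ frattini G ⊔ Subgroup.closure (T : Set G) := by
          by_contra hc
          push Not at hc
          have : frattini G ⊔ Subgroup.closure (T : Set G) = ⊤ :=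
            top_le_iff.1 (hS ▸ (Subgroup.closure_le _).2 hc)
          rw [this, Subgroup.card_top, tot] at h3
          have := Nat.pow_right_injective hp.two_le (Nat.eq_of_mul_eq_mul_left pos h3)
          omega
        obtain ⟨s, hs, hs'⟩ := this
        refine ⟨insert s T, Finset.insert_subset hs h1, ?_, by rw [step T s hs', h3, pow_succ, mul_assoc]⟩
        rw [Finset.card_insert_of_notMem fun h => hs' (Subgroup.mem_sup_right (Subgroup.subset_closure h)), h2]
    obtain ⟨T, h1, h2, h3⟩ := key n le_rfl
    refine ⟨T, h1, h2, H1.eq_top_of_sup_of_le_frattini le_rfl ?_⟩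
    rw [sup_comm]; exact Subgroup.eq_top_of_card_eq _ (h3.trans tot.symm)
  · have key : ∀ T : Finset G, Nat.card ↥(frattini G ⊔ Subgroup.closure (T : Set G)) ≤
        Nat.card (frattini G) * p ^ T.card := by
      intro T
      induction T using Finset.induction_on with
      | empty => simp
      | insert s T hs ih =>
        rw [Finset.card_insert_of_notMem hs, pow_succ, ← mul_assoc]
        by_cases h : s ∈ frattini G ⊔ Subgroup.closure (T : Set G)
        · rw [ins, sup_eq_left.2 (Subgroup.zpowers_le.2 h)]
          exact ih.trans (Nat.le_mul_of_pos_right _ hp.pos)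
        · rw [step T s h]; exact Nat.mul_le_mul_right _ ih
    have := key T
    rw [hT, sup_top_eq, Subgroup.card_top, tot] at this
    exact (Nat.pow_le_pow_iff_right hp.one_lt).1 (Nat.le_of_mul_le_mul_left this pos)

end Cfsg.Agent.S0014
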