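import Cfsg.Statements.S0031
import Mathlib

set_option autoImplicit false
open Cfsg

namespace Cfsg.Agent.S0031

/-- A fixed-point-free automorphism of a finite group maps some Sylow p-subgroup to itself. -/
theorem result {G : Type*} [Group G] [Finite G] (φ : G ≃* G)
    (hφ : MonoidHom.FixedPointFree (φ : G →* G)) (p : ℕ) [Fact p.Prime] :
    ∃ P : Sylow p G, (P : Subgroup G).map (φ : G →* G) = P := by
  obtain ⟨P⟩ : Nonempty (Sylow p G) := inferInstance
  obtain ⟨g, hg⟩ := MulAction.exists_smul_eq G P ((φ : MulAut G) • P)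
  obtain ⟨y, hy⟩ := hφ.commutatorMap_surjective g⁻¹
  have hy : y * (φ y)⁻¹ = g⁻¹ := by simpa [div_eq_mul_inv] using hy
  have h1 : (φ : MulAut G) • (y⁻¹ • P) = y⁻¹ • P := by
    have h2 : (φ : MulAut G) * MulAut.conj y⁻¹ = MulAut.conj (φ y)⁻¹ * (φ : MulAut G) := by
      ext x
      simp
    have h3 : (φ y)⁻¹ * g = y⁻¹ := by
      rw [← inv_inv g, ← hy]
      simp
    rw [Sylow.smul_def, ← mul_smul, h2, mul_smul, ← hg, ← Sylow.smul_def, ← mul_smul, h3,
      Sylow.smul_def]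
  exact ⟨y⁻¹ • P, congrArg (fun Q : Sylow p G => (Q : Subgroup G)) h1⟩

end Cfsg.Agent.S0031
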