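import Cfsg.Statements.S0046
import Cfsg.Agent.H6.Elem

set_option autoImplicit false
open Cfsg

namespace Cfsg.Agent.S0046

/-- Schmidt's Theorem on minimal non-nilpotent groups: a finite group in which every maximal subgroup is nilpotent is solvable. -/
theorem result {G : Type*} [Group G] [Finite G]
    (h : ∀ M : Subgroup G, IsCoatom M → Group.IsNilpotent M) : Group.IsSolvable G := by
  by_cases hn : Group.IsNilpotent G
  · infer_instance
  obtain ⟨p, q, hp, hq, -, P, Q, hP, hQ, hs⟩ := H6.El.schmidt hn (fun H hH => by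
    obtain ⟨M, hM, hle⟩ := (eq_top_or_exists_le_coatom H).resolve_left hH
    exact H19.nil_mono (h M hM) hle)
  have h1 : H19.Sol ((Q : Subgroup G) ⊔ P) :=
    H19.sol_sup (H19.PiN.of_isPGroup hq Q.isPGroup').sol (H19.sol_of_cyc hP)
      Subgroup.le_normalizer_of_normal
  rw [sup_comm, hs] at h1
  exact Group.isSolvable_of_surjective (f := (⊤ : Subgroup G).subtype) fun x => ⟨⟨x, trivial⟩, rfl⟩

end Cfsg.Agent.S0046
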