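import Cfsg.Statements.S0047
import Cfsg.Agent.H2.Factor

set_option autoImplicit false
open Cfsg

namespace Cfsg.Agent.S0047

/-- A finite group which is the product AB of two abelian subgroups A and B is solvable. -/
theorem result {G : Type*} [Group G] [Finite G] (A B : Subgroup G)
    [IsMulCommutative A] [IsMulCommutative B] (hAB : ∀ g : G, ∃ a ∈ A, ∃ b ∈ B, g = a * b) :
    Group.IsSolvable G := by
  exact ⟨2, H2.derivedSeries_two_of_facIn (H2.facIn_top.2 hAB)⟩

end Cfsg.Agent.S0047
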