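import Cfsg.Statements.S0053
import Cfsg.Agent.H1.Frattini

set_option autoImplicit false
open Cfsg

namespace Cfsg.Agent.S0053

/-- An abelian minimal normal subgroup N of a finite group is complemented exactly when N is not inside the Frattini subgroup. -/
theorem result {G : Type*} [Group G] [Finite G]
    (N : Subgroup G) [N.Normal] [IsMulCommutative N] (hN : N ≠ ⊥)
    (hmin : ∀ M : Subgroup G, M.Normal → M ≤ N → M = ⊥ ∨ M = N) :
    (∃ H : Subgroup G, Subgroup.IsComplement' N H) ↔ ¬ N ≤ frattini G := by
  constructor
  · rintro ⟨H, hH⟩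
    exact H1.not_le_frattini_of_isComplement' hN hH
  · intro h
    obtain ⟨M, hM, h1⟩ := H1.exists_coatom_not_le h
    exact ⟨M, H1.isComplement'_of_minimal_normal_of_coatom inferInstance hmin hM h1⟩

end Cfsg.Agent.S0053
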