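import Cfsg.Statements.S0055
import Cfsg.Agent.H2.CoprimeAbelian

set_option autoImplicit false
open Cfsg

namespace Cfsg.Agent.S0055

/-- If A normalises an abelian subgroup V of coprime order, then V is the internal direct product of its A-fixed points and its commutator with A: the two meet trivially and generate V. -/
theorem result {G : Type*} [Group G] [Finite G] (A V : Subgroup G) [IsMulCommutative V]
    (hAV : A ≤ Subgroup.normalizer (V : Set G)) (hcop : (Nat.card A).Coprime (Nat.card V)) :
    (V ⊓ Subgroup.centralizer (A : Set G)) ⊓ ⁅V, A⁆ = ⊥ ∧ (V ⊓ Subgroup.centralizer (A : Set G)) ⊔ ⁅V, A⁆ = V := by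
  refine ⟨?_, ?_⟩
  · rw [inf_assoc, H2.centralizer_inf_commutator_eq_bot hAV hcop, inf_bot_eq]
  · rw [sup_comm]
    exact H2.commutator_sup_centralizer hAV hcop (Or.inr (H2.isSolvable_of_isMulCommutative V))

end Cfsg.Agent.S0055
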