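import Cfsg.Statements.S0060
import Cfsg.Agent.H24.Brodkey

set_option autoImplicit false
open Pointwise
open Cfsg

namespace Cfsg.Agent.S0060

/-- Brodkey's Theorem: in a finite group with abelian Sylow p-subgroups and no nontrivial normal p-subgroup, some conjugate of a Sylow p-subgroup meets it trivially. -/
theorem result {G : Type*} [Group G] [Finite G] (p : ℕ) [Fact p.Prime]
    (S : Sylow p G) (hS : IsMulCommutative S) (hOp : Cfsg.pCore p G = ⊥) :
    ∃ g : G, (S : Subgroup G) ⊓ MulAut.conj g • (S : Subgroup G) = ⊥ := by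
  obtain ⟨U, hU⟩ := H24.exists_sylow_inf_eq_pCore S hS
  obtain ⟨g, rfl⟩ := MulAction.exists_smul_eq G S U
  exact ⟨g, by rw [inf_comm, ← hOp, ← hU]; rfl⟩

end Cfsg.Agent.S0060
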