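import Cfsg.Statements.S0063
import Cfsg.Agent.H4.Basic

set_option autoImplicit false
open Cfsg

namespace Cfsg.Agent.S0063

universe u
theorem aux (p : ℕ) [hp : Fact p.Prime] (m : ℕ) : ∀ (G : Type u) [Group G] [Finite G],
    Nat.card G ∣ p ^ (m + 2) → Group.nilpotencyClass G ≤ m + 1 := by
  have key : ∀ (G : Type u) [Group G] [Finite G] (k : ℕ), Nat.card G ∣ p ^ (k + 1) → Nontrivial G →
      Nat.card (G ⧸ Subgroup.center G) ∣ p ^ k := by
    intro G _ _ k h _
    have hG : IsPGroup p G := IsPGroup.of_card_dvd_pow h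
    have h1 := (hG.to_subgroup (Subgroup.center G)).nontrivial_iff_card.1 (hG.center_nontrivial)
    obtain ⟨n, hn, e⟩ := h1
    rw [Subgroup.card_eq_card_quotient_mul_card_subgroup (Subgroup.center G), e, pow_succ] at h
    exact Nat.dvd_of_mul_dvd_mul_right hp.out.pos
      ((Nat.mul_dvd_mul_left _ (dvd_pow_self p hn.ne')).trans h)
  induction m with
  | zero =>
    intro G _ _ h
    have hG : IsPGroup p G := IsPGroup.of_card_dvd_pow h
    have := hG.isNilpotent
    rw [Group.IsNilpotent.nilpotencyClass_le_one_iff]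
    by_cases hn : Nontrivial G
    · have h1 := key G 1 h hn
      rw [pow_one] at h1
      have := isCyclic_of_card_dvd_prime h1
      exact ⟨⟨commutative_of_cyclic_center_quotient (QuotientGroup.mk' (Subgroup.center G))
        (QuotientGroup.ker_mk' _).le⟩⟩
    · rw [not_nontrivial_iff_subsingleton] at hn
      exact ⟨⟨fun a b => Subsingleton.elim _ _⟩⟩
  | succ m ih =>
    intro G _ _ h
    have hG : IsPGroup p G := IsPGroup.of_card_dvd_pow h
    have := hG.isNilpotent
    by_cases hn : Nontrivial G
    · rw [nilpotencyClass_eq_quotient_center_plus_one]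
      exact Nat.succ_le_succ (ih _ (key G _ h hn))
    · rw [not_nontrivial_iff_subsingleton] at hn
      rw [nilpotencyClass_zero_iff_subsingleton.2 hn]; exact Nat.zero_le _

/-- A finite group of prime-power order p ^ m with m > 1 is nilpotent of class at most m - 1. -/
theorem result {G : Type*} [Group G] [Finite G] (p m : ℕ) [Fact p.Prime]
    (hG : Nat.card G = p ^ m) (hm : 1 < m) : Group.nilpotencyClass G ≤ m - 1 := by
  obtain ⟨k, rfl⟩ : ∃ k, m = k + 2 := ⟨m - 2, by omega⟩
  exact aux p k G hG.dvd

end Cfsg.Agent.S0063
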