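import Cfsg.Statements.S0068
import Cfsg.Agent.H3.Frobenius

set_option autoImplicit false
open Cfsg

namespace Cfsg.Agent.S0068

/-- Frobenius complements of even order: if H complements a nontrivial normal subgroup K, each nonidentity element of H has trivial centraliser in K, and H has even order, then H contains a unique involution s, K is abelian, and s inverts every element of K. -/
theorem result {G : Type*} [Group G] [Finite G] (K H : Subgroup G) [K.Normal]
    (hc : Subgroup.IsComplement' K H) (hK : K ≠ ⊥) (hfpf : ∀ h ∈ H, h ≠ 1 → K ⊓ Subgroup.centralizer {h} = ⊥)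
    (heven : 2 ∣ Nat.card H) :
    (∃ s ∈ H, orderOf s = 2 ∧ (∀ t ∈ H, orderOf t = 2 → t = s) ∧ ∀ k ∈ K, s * k * s⁻¹ = k⁻¹) ∧ IsMulCommutative K := by
  have hHK : H ≤ Subgroup.normalizer (K : Set G) := fun x _ => H28.mem_normalizer_of_normal K x
  obtain ⟨s, hs, hs2⟩ := H28.exists_orderOf_eq_of_dvd_card heven
  have h1 : ∀ k ∈ K, s * k * s⁻¹ = k⁻¹ := by
    intro k hk
    refine H3.conj_eq_inv_of_fpf (hHK hs) ?_ (hfpf s hs ?_) hk
    · rw [← sq, orderOf_dvd_iff_pow_eq_one.1 hs2.dvd]; exact one_mem _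
    · rintro rfl; simp at hs2
  exact ⟨⟨s, hs, hs2, fun t ht ht2 => H3.involution_unique_of_fpf hHK hK hfpf hs ht hs2 ht2, h1⟩,
    H3.isMulCommutative_of_conj_eq_inv h1⟩

end Cfsg.Agent.S0068
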