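import Cfsg.Statements.S0073
import Cfsg.Agent.H3.Transfer

set_option autoImplicit false
open Cfsg

namespace Cfsg.Agent.S0073

/-- For a finite non-abelian simple group, either the cube of the least prime divisor of the order divides the order, or 12 does. -/
theorem result {G : Type*} [Group G] [Finite G] [IsSimpleGroup G] (hG : ∃ x y : G, x * y ≠ y * x) : (Nat.card G).minFac ^ 3 ∣ Nat.card G ∨ 12 ∣ Nat.card G := by
  obtain ⟨x, y, hxy⟩ := hG
  have hp : (Nat.card G).minFac.Prime := Nat.minFac_prime (by
    intro h
    have := (Nat.card_eq_one_iff_unique.1 h).1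
    exact hxy (Subsingleton.elim _ _))
  set p := (Nat.card G).minFac with hpdef
  have := Fact.mk hp
  obtain ⟨P⟩ : Nonempty (Sylow p G) := inferInstance
  have hn : ¬ HasNormalPComplement p G := by
    intro h
    have h1 := H3.hasNPC_iff_not_dvd.1 h
    rcases IsSimpleGroup.eq_bot_or_eq_top_of_normal (pResidual p G) inferInstance with h2 | h2
    · have h3 : IsPGroup p G := by
        rw [← H28.isPGroup_top_iff]
        exact H28.isPGroup_of_pResidualOf_eq_bot (by rw [H28.pResidualOf_top, h2])
      have := h3.isNilpotent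
      have h4 := (IsSimpleGroup.eq_bot_or_eq_top_of_normal (Subgroup.center G) inferInstance).resolve_left
        ((Subgroup.nontrivial_iff_ne_bot _).1 h3.center_nontrivial)
      exact hxy (Subgroup.mem_center_iff.1 (h4.ge (Subgroup.mem_top y)) x)
    · rw [h2, Subgroup.card_top] at h1
      exact h1 (Nat.minFac_dvd _)
  obtain ⟨q, i, hq, hqp, hqG, hi, hpi, hqi⟩ := H3.exists_prime_of_not_hasNPC P hn
  have hpq : p < q := lt_of_le_of_ne (Nat.minFac_le_of_dvd hq.two_le hqG) hqp.symm
  have hPG := hpi.trans (Subgroup.card_subgroup_dvd_card _)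
  by_cases h3 : 3 ≤ i
  · exact Or.inl ((pow_dvd_pow p h3).trans hPG)
  right
  have hp2 := hp.two_le
  have hi' : i = 1 ∨ i = 2 := by omega
  rcases hi' with rfl | rfl
  · have := Nat.le_of_dvd (by rw [pow_one]; omega) hqi
    rw [pow_one] at this
    omega
  · have h4 : p ^ 2 - 1 = (p + 1) * (p - 1) := by
      rw [← Nat.sq_sub_sq]
    rw [h4] at hqi
    rcases (Nat.Prime.dvd_mul hq).1 hqi with h5 | h5
    · have h6 : q = p + 1 := le_antisymm (Nat.le_of_dvd (by omega) h5) hpq
      have h7 : p = 2 := by
        by_contra hh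
        have := hp.odd_of_ne_two hh
        have h8 := hq.eq_two_or_odd'
        rw [h6] at h8
        rcases h8 with h8 | h8
        · omega
        · exact (Nat.not_odd_iff_even.2 this.add_one) h8
      rw [h7] at hPG h6
      rw [h6] at hqG
      exact Nat.Coprime.mul_dvd_of_dvd_of_dvd (m := 4) (n := 3) (by norm_num) hPG hqG
    · have := Nat.le_of_dvd (by omega) h5
      omega

end Cfsg.Agent.S0073
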