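import Cfsg.Statements.S0078
import Cfsg.Agent.H3.Transfer

set_option autoImplicit false
open Cfsg

namespace Cfsg.Agent.S0078

/-- In a p-normal group, a Sylow p-subgroup P meets O^p(G) exactly where it meets O^p(V), for any subgroup V containing the normalizer of the centre of P. -/
theorem result {G : Type*} [Group G] [Finite G] {p : ℕ} [Fact p.Prime] (P : Sylow p G) (hn : ∀ Q : Sylow p G, (P : Subgroup G) ⊓ Subgroup.centralizer (P : Set G) ≤ (Q : Subgroup G) → (Q : Subgroup G) ⊓ Subgroup.centralizer (Q : Set G) = (P : Subgroup G) ⊓ Subgroup.centralizer (P : Set G)) (V : Subgroup G) (hV : Subgroup.normalizer (((P : Subgroup G) ⊓ Subgroup.centralizer (P : Set G) : Subgroup G) : Set G) ≤ V) : (P : Subgroup G) ⊓ Cfsg.pResidual p G = (P : Subgroup G) ⊓ (Cfsg.pResidual p V).map V.subtype := by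
  have hPZ : (P : Subgroup G) ≤ Subgroup.centralizer
      (((P : Subgroup G) ⊓ Subgroup.centralizer (P : Set G) : Subgroup G) : Set G) :=
    H28.le_centralizer_comm.1 inf_le_right
  have hW : IsWeaklyClosed ((P : Subgroup G) ⊓ Subgroup.centralizer (P : Set G)) P := by
    refine ⟨inf_le_left, fun g hg => ?_⟩
    have h1 := hn (g⁻¹ • P) (H28.cj_le_iff.1 hg)
    refine H28.cj_eq_iff.2 (h1.symm.trans ?_)
    rw [H28.cj_inf]
    exact congrArg _ (H28.cj_centralizer g⁻¹ (P : Subgroup G)).symm
  refine H3.inf_pResidual_eq_of_control P (fun T hT g hg _ => ?_)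
    ((H28.le_normalizer_of_le_centralizer hPZ).trans hV)
  obtain ⟨n, hn, h⟩ := H3.weaklyClosed_fusion P hW (g := g) (hT.trans hPZ)
    (by rw [H28.cj_eq_self hg]; exact hT.trans hPZ)
  exact ⟨n, hV hn, h⟩

end Cfsg.Agent.S0078
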