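import Cfsg.Statements.S0080
import Cfsg.Agent.H3.Focal

set_option autoImplicit false
open Cfsg

namespace Cfsg.Agent.S0080

/-- When the index of H is prime to the order of H/H', the focal subgroup of H is G' ∩ H, and H/(G' ∩ H) has a normal complement. -/
theorem result {G : Type*} [Group G] [Finite G] (H : Subgroup G) (h : Nat.Coprime H.index (⁅H, H⁆.relIndex H)) : Subgroup.focalSubgroup H = commutator G ⊓ H ∧ ∃ N : Subgroup G, N.Normal ∧ N ⊓ H = commutator G ⊓ H ∧ N ⊔ H = ⊤ := by
  have h1 : IsPGroup (⁅H, H⁆.relIndex H) (H ⧸ Subgroup.focalSubgroupOf H) := by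
    apply IsPGroup.of_card_dvd_pow (n := 1)
    rw [pow_one]
    exact Subgroup.relIndex_dvd_of_le_left H H.commutator_le_focalSubgroup
  have h2 := H3.commutator_inf_eq_focalSubgroup' h1 h
  exact ⟨h2.symm, _, inferInstance, (H3.ker_transferFocal_inf h1 h).trans h2.symm,
    H3.ker_transferFocal_sup h1 h⟩

end Cfsg.Agent.S0080
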