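import Cfsg.Statements.S0082
import Cfsg.Agent.H3.Transfer

set_option autoImplicit false
open Cfsg

namespace Cfsg.Agent.S0082

/-- With a cyclic Sylow p-subgroup, either there is a normal p-complement or the elements of order prime to p generate the whole group. -/
theorem result {G : Type*} [Group G] [Finite G] {p : ℕ} [Fact p.Prime] (P : Sylow p G) (hP : IsCyclic P) : Cfsg.HasNormalPComplement p G ∨ Cfsg.pResidual p G = ⊤ := by
  refine (P.normalizer_le_centralizer_or_le_commutator).imp
    (H3.hasNPC_of_normalizer_le_centralizer P) fun h => ?_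
  have hQ : IsPGroup p (G ⧸ pResidual p G) := H28.isPGroup_quotient_pResidual p G
  have hs := QuotientGroup.mk'_surjective (pResidual p G)
  have h1 := H4.eq_top_of_sup_commutator hQ (H := ⊥) (by
    rw [bot_sup_eq, eq_top_iff, ← Subgroup.map_top_of_surjective _ hs, ← H3.pResidual_sup_sylow P,
      Subgroup.map_sup, H1.map_mk'_eq_bot_iff.2 le_rfl, bot_sup_eq]
    refine (Subgroup.map_mono h).trans ?_
    rw [commutator_def, Subgroup.map_commutator]
    exact Subgroup.commutator_mono le_top le_top)
  rw [eq_top_iff, ← H1.map_mk'_eq_bot_iff, eq_bot_iff, h1]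
  exact le_top

end Cfsg.Agent.S0082
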