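import Cfsg.Statements.S0083
import Cfsg.Agent.H3.Transfer

set_option autoImplicit false
open Cfsg

namespace Cfsg.Agent.S0083

/-- For an abelian Sylow p-subgroup P, a normal p-complement exists exactly when the normalizer of P is an internal direct product of P with some subgroup. -/
theorem result {G : Type*} [Group G] [Finite G] {p : ℕ} [Fact p.Prime] (P : Sylow p G) (hP : IsMulCommutative P) : Cfsg.HasNormalPComplement p G ↔ ∃ Q : Subgroup G, Q ≤ Subgroup.centralizer (P : Set G) ∧ Q ⊓ (P : Subgroup G) = ⊥ ∧ Q ⊔ (P : Subgroup G) = Subgroup.normalizer (P : Set G) := by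
  have hS := H28.isSylowIn_of_sylow_le P Subgroup.le_normalizer
  constructor
  · intro h
    refine ⟨pResidualOf p (Subgroup.normalizer (P : Set G)), ?_, ?_, hS.pResidualOf_sup⟩
    · exact H28.pResidualOf_le_iff.2 fun x hx hc =>
        H3.mem_centralizer_of_hasNPC h P.isPGroup' hx hc
    · exact eq_bot_iff.2 ((inf_le_inf_right _ (H3.pResidualOf_le_pResidual _)).trans
        ((H3.hasNPC_iff_inf_eq_bot P).1 h).le)
  · rintro ⟨Q, h1, -, h3⟩
    refine H3.hasNPC_of_normalizer_le_centralizer P ?_
    rw [← h3]
    exact sup_le h1 (H28.le_centralizer_self_iff.2 hP)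

end Cfsg.Agent.S0083
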