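import Cfsg.Statements.S0085
import Cfsg.Agent.H3.Transfer

set_option autoImplicit false
open Cfsg

namespace Cfsg.Agent.S0085

/-- A group whose Sylow 2-subgroups are elementary abelian of order 8 and whose order is prime to 3 and to 7 has a normal 2-complement. -/
theorem result {G : Type*} [Group G] [Finite G] (T : Sylow 2 G) (h8 : Nat.card T = 8) (he : ∀ x : T, x * x = 1) (h3 : ¬ 3 ∣ Nat.card G) (h7 : ¬ 7 ∣ Nat.card G) : Cfsg.HasNormalPComplement 2 G := by
  by_contra hn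
  obtain ⟨q, i, hq, hqp, hqG, hi, hpi, hqi⟩ := H3.exists_prime_of_not_hasNPC T hn
  have h4 : Nat.card T = 2 ^ 3 := h8
  rw [h4] at hpi
  have h5 : i ≤ 3 := (Nat.pow_dvd_pow_iff_le_right (by norm_num)).1 hpi
  interval_cases i
  · exact hq.one_lt.ne' (Nat.dvd_one.1 hqi)
  · exact h3 ((Nat.prime_dvd_prime_iff_eq hq Nat.prime_three).1 hqi ▸ hqG)
  · exact h7 ((Nat.prime_dvd_prime_iff_eq hq (by norm_num : Nat.Prime 7)).1 hqi ▸ hqG)

end Cfsg.Agent.S0085
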