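import Cfsg.Statements.S0089
import Cfsg.Agent.H3.Transfer

set_option autoImplicit false
open Cfsg

namespace Cfsg.Agent.S0089

/-- When all Sylow subgroups are abelian, the derived subgroup meets the centre trivially. -/
theorem result {G : Type*} [Group G] [Finite G] (h : ∀ p : ℕ, p.Prime → ∀ P : Sylow p G, IsMulCommutative P) : commutator G ⊓ Subgroup.center G = ⊥ := by
  by_contra hn
  obtain ⟨p, hp, hd⟩ := Nat.exists_prime_and_dvd
    (n := Nat.card (commutator G ⊓ Subgroup.center G : Subgroup G)) (by rwa [Ne, Subgroup.card_eq_one])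
  have := Fact.mk hp
  obtain ⟨x, hx, hxp⟩ := H28.exists_orderOf_eq_of_dvd_card hd
  obtain ⟨P, hP⟩ := (H28.isPGroup_zpowers_of_orderOf (k := 1) (hxp.trans (pow_one p).symm)).exists_le_sylow
  have h1 := H3.inf_commutator_inf_center_le P.card_coprime_index
    (⟨⟨hP (Subgroup.mem_zpowers x), hx.1⟩, hx.2⟩ : x ∈ (P : Subgroup G) ⊓ commutator G ⊓ _)
  rw [H28.commutator_eq_bot_iff.2 (H28.le_centralizer_self_iff.2 (h p hp P)), Subgroup.mem_bot] at h1
  rw [h1, orderOf_one] at hxp
  exact hp.one_lt.ne hxp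

end Cfsg.Agent.S0089
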