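import Cfsg.Statements.S0090
import Cfsg.Agent.H3.Transfer

set_option autoImplicit false
open Cfsg

namespace Cfsg.Agent.S0090

/-- An abelian normal Hall subgroup A splits as the internal direct product of G' ∩ A and Z(G) ∩ A, and [A, G] = G' ∩ A. -/
theorem result {G : Type*} [Group G] [Finite G] (A : Subgroup G) [A.Normal] (hc : IsMulCommutative A) (hHall : Nat.Coprime (Nat.card A) A.index) : ⁅A, (⊤ : Subgroup G)⁆ = commutator G ⊓ A ∧ (commutator G ⊓ A) ⊓ (Subgroup.center G ⊓ A) = ⊥ ∧ (commutator G ⊓ A) ⊔ (Subgroup.center G ⊓ A) = A := by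
  have h1 : ⁅A, (⊤ : Subgroup G)⁆ = commutator G ⊓ A := by
    refine le_antisymm (le_inf (Subgroup.commutator_mono le_top le_top)
      (Subgroup.commutator_le_left _ _)) ?_
    rw [H3.commutator_inf_eq_focalSubgroup' (n := Nat.card A) (IsPGroup.card.to_quotient _)
      hHall.symm, H3.focalSubgroup_le_iff]
    exact fun x hx g _ => H3.inv_mul_conj_mem_commutator hx (Subgroup.mem_top g)
  refine ⟨h1, ?_, ?_⟩
  · rw [eq_bot_iff, ← H28.commutator_eq_bot_iff.2 (H28.le_centralizer_self_iff.2 hc)]
    exact fun x hx => H3.inf_commutator_inf_center_le hHall ⟨⟨hx.1.2, hx.1.1⟩, hx.2.1⟩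
  · obtain ⟨K, hK⟩ := Subgroup.exists_right_complement'_of_coprime hHall
    have h2 := H2.commutator_sup_centralizer (A := K) (K := A)
      (fun x _ => H28.mem_normalizer_of_normal A x) (by rw [← hK.symm.index_eq_card]; exact hHall.symm)
      (Or.inr (H2.isSolvable_of_isMulCommutative A))
    refine le_antisymm (sup_le inf_le_right inf_le_right) ?_
    conv_lhs => rw [← h2]
    refine sup_le_sup (h1 ▸ Subgroup.commutator_mono le_rfl le_top) (le_inf ?_ inf_le_left)
    rw [← H28.centralizer_top, ← hK.sup_eq_top, H28.centralizer_sup]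
    exact inf_le_inf_right _ (H28.le_centralizer_self_iff.2 hc)

end Cfsg.Agent.S0090
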