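import Cfsg.Statements.S0092
import Cfsg.Agent.H3.Util

set_option autoImplicit false
open Cfsg

namespace Cfsg.Agent.S0092

open Cfsg Subgroup H28 H3

/-- If the Sylow p-subgroups of O^p(G) are abelian then G splits over O^p(G). -/
theorem result {G : Type*} [Group G] [Finite G] {p : ℕ} [Fact p.Prime] (h : ∀ Q : Sylow p (Cfsg.pResidual p G), IsMulCommutative Q) : ∃ K : Subgroup G, K.IsComplement' (Cfsg.pResidual p G) := by
  set R := pResidual p G with hR
  obtain ⟨S⟩ : Nonempty (Sylow p R) := inferInstance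
  have hQ := isSylowIn_map_subtype S
  set Q := (S : Subgroup R).map R.subtype
  have hab : Q ≤ 𝐂 Q := by
    have := h S
    exact le_centralizer_self_iff.2 inferInstance
  have h1 := inf_pResidualOf_eq_of_abelian hQ hab
  have h2 : pResidualOf p R = R := by rw [hR, ← pResidualOf_top, pResidualOf_pResidualOf]
  rw [h2, inf_eq_left.2 hQ.le] at h1
  have hQM : IsSylowIn p Q (R ⊓ 𝐍 Q) := hQ.mono (le_inf hQ.le le_normalizer) inf_le_left
  obtain ⟨D, hD1, hD2, hD3⟩ := exists_complement_sylow hQM inf_le_right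
  have hDM : D ≤ R ⊓ 𝐍 Q := hD2 ▸ le_sup_right
  have hD : D ≤ 𝐍 Q := hDM.trans inf_le_right
  have hc := H2.coprime_card_of_isPGroup hQ.isPGroup hD3
  have h3 := (commutator_prod_centralizer hQM inf_le_right hab).1
  rw [← h1] at h3
  obtain ⟨K, hK⟩ := exists_isSylowIn p (𝐍 Q ⊓ 𝐍 D)
  refine ⟨K, (isComplement'_of_normal ?_ ?_).symm⟩
  · have h4 : R ⊓ K ≤ Q := hQ.le_of_le_normalizer (hK.isPGroup.to_inf_right) inf_le_left
      (inf_le_right.trans (hK.le.trans inf_le_left))
    rw [eq_bot_iff, ← h3, ← hD2, centralizer_sup]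
    refine le_inf h4 (le_inf (h4.trans hab) (commutator_eq_bot_iff.1 (eq_bot_iff.2 ?_)))
    rw [← hD1]
    refine le_inf ((commutator_mono h4 le_rfl).trans (commutator_le_of_le_normalizer hD)) ?_
    exact commutator_le_of_le_normalizer' (inf_le_right.trans (hK.le.trans inf_le_right))
  · rw [eq_top_iff]
    intro g _
    obtain ⟨k, hk, n, hn, rfl⟩ := hQ.frattini (mem_normalizer_of_normal R g)
    refine mul_mem (mem_sup_left hk) ?_
    have hnM : n ∈ 𝐍 (R ⊓ 𝐍 Q) := le_normalizer_inf (A := zpowers n)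
      (zpowers_le.2 (mem_normalizer_of_normal R n))
      (le_normalizer_normalizer (zpowers_le.2 hn)) (mem_zpowers n)
    obtain ⟨q, hq, e⟩ := H2.exists_conj_smul_eq_of_sup_eq (N := Q) (H := D) (K := cj n D) hD
      (hD2 ▸ cj_le_of_mem_normalizer hDM hnM) (card_cj n D).ge (by rw [card_cj]; exact hc)
      (Or.inr (H2.isSolvable_of_isPGroup hQ.isPGroup))
    rw [smul_eq_cj] at e
    have h5 : q⁻¹ * n ∈ 𝐍 Q ⊓ 𝐍 D := by
      refine mem_inf.2 ⟨mul_mem (inv_mem (le_normalizer hq)) hn, mem_normalizer_iff_cj.2 ?_⟩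
      rw [← cj_cj, ← e, cj_inv_cj]
    rw [← hK.pResidualOf_sup] at h5
    have h6 := sup_le_sup (pResidualOf_le_pResidual (𝐍 Q ⊓ 𝐍 D)) (le_refl K) h5
    have h7 := mul_mem (mem_sup_left (hQ.le hq)) h6
    rwa [mul_inv_cancel_left] at h7

end Cfsg.Agent.S0092
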