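import Cfsg.Statements.S0096
import Cfsg.Agent.H4.Critical

set_option autoImplicit false
open Cfsg

namespace Cfsg.Agent.S0096

/-- For odd p, in a p-group of class at most two the elements of order dividing p generate a subgroup of exponent dividing p. -/
theorem result {P : Type*} [Group P] [Finite P] {p : ℕ} [Fact p.Prime] (hp : p ≠ 2) (hP : IsPGroup p P) (h2 : ⁅commutator P, (⊤ : Subgroup P)⁆ = ⊥) (g : P) (hg : g ∈ Subgroup.closure {x : P | x ^ p = 1}) : g ^ p = 1 := by
  have hp' : p.Prime := Fact.out
  refine H4.pow_eq_one_of_mem_closure (fun x hx => hx) ?_ hg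
  intro x _ y _ hx hy
  have hc := H4.commutator_mem_center_of_class_two h2 y x
  rw [H4.mul_pow_of_odd (hp'.odd_of_ne_two hp) (H4.commute_of_mem_center hc x)
    (H4.commute_of_mem_center hc y), hx, hy, one_mul]
  rw [← H4.commutator_pow_left (H4.commute_of_mem_center hc y), hy, commutatorElement_one_left]

end Cfsg.Agent.S0096
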