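import Cfsg.Statements.S0097
import Cfsg.Agent.H4.Extra

set_option autoImplicit false
open Cfsg

namespace Cfsg.Agent.S0097

/-- For odd p and E extraspecial, the subgroup generated by the elements of order dividing p has exponent dividing p and index at most p. -/
theorem result {E : Type*} [Group E] [Finite E] {p : ℕ} [Fact p.Prime] (hp : p ≠ 2) (h : Cfsg.IsExtraspecial p E) : (Subgroup.closure {x : E | x ^ p = 1}).index ≤ p ∧ ∀ g ∈ Subgroup.closure {x : E | x ^ p = 1}, g ^ p = 1 := by
  have hodd : Odd p := (Fact.out : p.Prime).odd_of_ne_two hp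
  have hz : ∀ z ∈ Subgroup.center E, z ^ p = 1 := fun z hz => by
    have := pow_card_eq_one' (x := (⟨z, hz⟩ : Subgroup.center E))
    rw [h.2] at this
    exact congrArg Subtype.val this
  have hm : ∀ x y : E, (x * y) ^ p = x ^ p * y ^ p := fun x y =>
    H4.mul_pow_of_odd hodd (H4.commute_of_mem_center (H4.special_comm h.1 _ _) _)
      (H4.commute_of_mem_center (H4.special_comm h.1 _ _) _) (hz _ (H4.special_comm h.1 _ _))
  let f : E →* E := MonoidHom.mk' (fun x => x ^ p) hm
  have e : Subgroup.closure {x : E | x ^ p = 1} = f.ker := Subgroup.closure_eq f.ker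
  rw [e]
  refine ⟨?_, fun g hg => hg⟩
  rw [Subgroup.index_ker, ← h.2]
  exact Subgroup.card_le_of_le (by rintro _ ⟨x, rfl⟩; exact H4.special_pow h.1 x)

end Cfsg.Agent.S0097
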