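import Cfsg.Statements.S0099
import Cfsg.Agent.H0.ES2

set_option autoImplicit false
open Cfsg

open Subgroup H19 H0
open scoped commutatorElement

namespace Cfsg.Agent.S0099

/-- Among three extraspecial 2-groups of equal order, some two are isomorphic. -/
theorem result {E₁ : Type*} {E₂ : Type*} {E₃ : Type*} [Group E₁] [Group E₂] [Group E₃] [Finite E₁] [Finite E₂] [Finite E₃] (h₁ : Cfsg.IsExtraspecial 2 E₁) (h₂ : Cfsg.IsExtraspecial 2 E₂) (h₃ : Cfsg.IsExtraspecial 2 E₃) (h12 : Nat.card E₁ = Nat.card E₂) (h23 : Nat.card E₂ = Nat.card E₃) : Nonempty (E₁ ≃* E₂) ∨ Nonempty (E₂ ≃* E₃) ∨ Nonempty (E₁ ≃* E₃) := by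
  obtain ⟨z1, k1⟩ := exists_ES_top h₁
  obtain ⟨z2, k2⟩ := exists_ES_top h₂
  obtain ⟨z3, k3⟩ := exists_ES_top h₃
  obtain ⟨m, -, e1⟩ := k1.exists_width
  rw [card_top] at e1
  have e2 := h12.symm.trans e1
  have e3 := h23.symm.trans e2
  by_cases a : HasEA (⊤ : Subgroup E₁) (m + 1) ↔ HasEA (⊤ : Subgroup E₂) (m + 1)
  · exact Or.inl (k1.iso_top k2 e1 e2 a)
  by_cases b : HasEA (⊤ : Subgroup E₂) (m + 1) ↔ HasEA (⊤ : Subgroup E₃) (m + 1)
  · exact Or.inr (Or.inl (k2.iso_top k3 e2 e3 b))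
  exact Or.inr (Or.inr (k1.iso_top k3 e1 e3 (by tauto)))

end Cfsg.Agent.S0099
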