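import Cfsg.Statements.S0104
import Cfsg.Agent.H3.Transfer

set_option autoImplicit false
open Cfsg

namespace Cfsg.Agent.S0104

/-- A subgroup Z of a Sylow p-subgroup P that is normalized by N_G(P) is weakly closed in P exactly when it is normal in every Sylow p-subgroup containing it. -/
theorem result {G : Type*} [Group G] [Finite G] {p : ℕ} [Fact p.Prime] (P : Sylow p G) (Z : Subgroup G) (hZP : Z ≤ (P : Subgroup G)) (hZN : Subgroup.normalizer (P : Set G) ≤ Subgroup.normalizer (Z : Set G)) : Cfsg.IsWeaklyClosed Z P ↔ ∀ R : Sylow p G, Z ≤ (R : Subgroup G) → (R : Subgroup G) ≤ Subgroup.normalizer (Z : Set G) := by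
  constructor
  · intro h R hR
    exact H28.le_normalizer_of_cj_eq fun r hr =>
      H3.weaklyClosed_eq P h R.isPGroup' hR (H28.cj_le_of_mem hR hr)
  · intro h
    refine ⟨hZP, fun g hg => ?_⟩
    obtain ⟨c, hc, h1⟩ := H3.exists_mul_mem_normalizer P (g := g⁻¹) (h P hZP)
      (h (g⁻¹ • P) (H28.cj_le_iff.1 hg))
    refine H28.cj_eq_self ?_
    have := mul_mem (inv_mem (hZN h1)) hc
    simpa using this

end Cfsg.Agent.S0104
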