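import Cfsg.Statements.S0106
import Cfsg.Agent.H3.Focal
import Cfsg.Agent.H10.QD
import Cfsg.Agent.H24.BinTet

set_option autoImplicit false
open Cfsg

namespace Cfsg.Agent.S0106

open Subgroup H10 in
theorem aux {G : Type*} [Group G] [Finite G] {c g : G} (h4 : c ^ 4 = 1) (h2 : c ^ 2 ≠ 1) (ho : (orderOf g).Coprime 2)
    (h1 : c ^ 2 * g = g * c ^ 2) (h3 : c * g ^ 3 = g ^ 3 * c) (h5 : c * (g * c * g⁻¹) * (g * (g * c * g⁻¹) * g⁻¹) = 1) :
    ∃ (H K : Subgroup G) (hK : (K.subgroupOf H).Normal), Nonempty ((H ⧸ K.subgroupOf H) ≃* Matrix.SpecialLinearGroup (Fin 2) (ZMod 3)) := by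
  have hc : closure {c, g} ≤ centralizer {g ^ 3} := (closure_le _).2 (by
    rintro _ (rfl | rfl)
    · exact mem_centralizer_singleton_iff.2 h3
    · exact mem_centralizer_singleton_iff.2 (by group))
  have hn : ((zpowers (g ^ 3)).subgroupOf (closure {c, g})).Normal := ⟨fun n ⟨k, hk⟩ x => ⟨k, by
    have := (Commute.zpow_right (mem_centralizer_singleton_iff.1 (hc x.2)) k).eq
    simp only [coe_subtype, MulMemClass.coe_mul, InvMemClass.coe_inv] at hk ⊢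
    rw [← hk, this, mul_inv_cancel_right]⟩⟩
  refine ⟨_, _, hn, H24.equiv_SL23 (a := QuotientGroup.mk' _ ⟨c, subset_closure (by simp)⟩)
    (b := QuotientGroup.mk' _ ⟨g, subset_closure (by simp)⟩) ?_ (fun e => h2 ?_) ?_ ?_ ?_ ?_⟩
  · rw [← map_pow]; exact (QuotientGroup.eq_one_iff _).2 (show c ^ 4 ∈ zpowers (g ^ 3) from h4 ▸ one_mem _)
  · rw [← map_pow] at e
    have e' := (QuotientGroup.eq_one_iff _).1 e
    have e1 : orderOf (c ^ 2) ∣ orderOf g := (orderOf_dvd_of_mem_zpowers (show c ^ 2 ∈ zpowers (g ^ 3) from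
      e')).trans
      (orderOf_pow_dvd 3)
    exact orderOf_eq_one_iff.1 (Nat.eq_one_of_dvd_coprimes ho e1 (orderOf_dvd_of_pow_eq_one (by rwa [← pow_mul])))
  · rw [← map_pow, ← map_mul, ← map_mul]; exact congrArg _ (Subtype.ext h1)
  · rw [← map_pow]; exact (QuotientGroup.eq_one_iff _).2 (mem_zpowers (g ^ 3))
  · rw [← map_mul, ← map_pow]
    refine (QuotientGroup.eq_one_iff _).2 (show (c * g) ^ 3 ∈ zpowers (g ^ 3) from ?_)
    rw [show (c * g) ^ 3 = c * (g * c * g⁻¹) * (g * (g * c * g⁻¹) * g⁻¹) * g ^ 3 by simp [pow_succ, mul_assoc], h5, one_mul]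
    exact mem_zpowers _
  · rw [← Set.image_pair, ← MonoidHom.map_closure]
    refine Eq.trans ?_ (map_top_of_surjective _ (QuotientGroup.mk'_surjective _))
    rw [← closure_closure_coe_preimage (k := {c, g})]
    congr 2
    ext x
    simp [Subtype.ext_iff]

open Subgroup H10 in

/-- A finite group with generalized quaternion Sylow 2-subgroups either has a normal 2-complement or has a section isomorphic to SL(2,3). -/
theorem result {G : Type*} [Group G] [Finite G] (T : Sylow 2 G) (n : ℕ) (hn : 1 ≤ n) (hT : Nonempty ((T : Subgroup G) ≃* QuaternionGroup (2 ^ n))) : Cfsg.HasNormalPComplement 2 G ∨ ∃ (H K : Subgroup G) (hK : (K.subgroupOf H).Normal), Nonempty ((H ⧸ K.subgroupOf H) ≃* Matrix.SpecialLinearGroup (Fin 2) (ZMod 3)) := by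
  refine or_iff_not_imp_left.2 fun h => ?_
  obtain ⟨Q, h1, -, g, g1, g2, q, k, q1, q2, q3⟩ := H3.exists_of_not_hasNPC T h
  have ho : (orderOf g).Coprime 2 := q3 ▸ ((Nat.coprime_primes q1 Nat.prime_two).2 q2).pow_left k
  obtain ⟨x, m, m'⟩ := quaternion_mc hn hT.some
  rcases (odd_centralizes_of_le T.2 h1 m.mem m.idx.dvd g1 ho).resolve_left g2 with e | ⟨⟨e⟩⟩
  · obtain ⟨w, w1, w2, w3, -⟩ := m.kleinFour_eq e h1
    exact (m' w (h1 w1) w2 w3).elim
  have hn : ((Q ⊔ centralizer (Q : Set G)).subgroupOf (normalizer (Q : Set G))).Normal :=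
    (normal_subgroupOf_iff_le_normalizer (sup_le le_normalizer (centralizer_le_normalizer _))).2
      (H19.norms_sup le_rfl (H19.norm_le_norm_cent Q))
  have k1 : g ^ 6 ∈ Q ⊔ centralizer (Q : Set G) := by
    obtain ⟨r, e1⟩ := q8_relIndex_dvd e
    rw [e1, pow_mul]
    exact pow_mem (pow_index_mem ((Q ⊔ centralizer (Q : Set G)).subgroupOf (normalizer (Q : Set G))) ⟨g, g1⟩) r
  have k2 := q8_odd_mem_centralizer e k1 (ho.coprime_dvd_left (orderOf_pow_dvd 6))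
  have k3 : g ^ 3 ∈ centralizer (Q : Set G) := by
    obtain ⟨r, e1⟩ := exists_pow_eq_self_of_coprime (x := g ^ 3) (ho.coprime_dvd_left (orderOf_pow_dvd 3)).symm
    rw [← e1, ← pow_mul g]
    exact pow_mem k2 r
  obtain ⟨c, c1, c2⟩ := q8_exists e
  have mv : ∀ c ∈ Q, c ^ 2 ≠ 1 → g * c * g⁻¹ ∈ Q ∧ (g * c * g⁻¹) ^ 2 = c ^ 2 ∧ c * (g * c * g⁻¹) ≠ g * c * g⁻¹ * c :=
    fun c c1 c2 => by
      have d1 := H19.conj_mem_of_norm g1 c1
      obtain ⟨d2, d3⟩ := q8_of_notMem e c1 d1 c2 (q8_odd_moves e g1 ho g2 c1 c2)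
      refine ⟨d1, d2, fun e => c2 ?_⟩
      rw [← e, mul_inv_cancel_right] at d3
      rw [pow_two]; nth_rw 1 [d3]; exact inv_mul_cancel c
  obtain ⟨d1, d2, d3⟩ := mv c c1 c2
  obtain ⟨e1, e2, e3⟩ := mv _ d1 (d2 ▸ c2)
  obtain ⟨-, -, f3⟩ := mv _ e1 (e2 ▸ d2 ▸ c2)
  rw [show g * (g * (g * c * g⁻¹) * g⁻¹) * g⁻¹ = g ^ 3 * c * (g ^ 3)⁻¹ by simp [pow_succ, mul_assoc], ← k3 c c1,
    mul_inv_cancel_right] at f3
  have key : ∀ u v w : QuaternionGroup 2, u * v ≠ v * u → v * w ≠ w * v → w * u ≠ u * w →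
      u * v * w = 1 ∨ u⁻¹ * v⁻¹ * w⁻¹ = 1 := by decide
  have := key (e ⟨_, c1⟩) (e ⟨_, d1⟩) (e ⟨_, e1⟩)
  simp only [← map_inv, ← map_mul, ne_eq, MulEquiv.map_eq_one_iff, EmbeddingLike.apply_eq_iff_eq, Subtype.ext_iff] at this
  rw [conj_pow, mul_inv_eq_iff_eq_mul] at d2
  rcases this d3 e3 f3 with k | k
  · exact aux (q8_pow_four e c1) c2 ho d2.symm (k3 c c1) k
  · exact aux (c := c⁻¹) (by rw [inv_pow, q8_pow_four e c1, inv_one]) (by rwa [inv_pow, Ne, inv_eq_one]) ho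
      (by rw [inv_pow]; exact (Commute.inv_left d2.symm).eq) (k3 _ (inv_mem c1)) (by simpa [mul_assoc] using k)

end Cfsg.Agent.S0106
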