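import Cfsg.Statements.S0107
import Cfsg.Agent.H3.Util
import Cfsg.Agent.H4.Dihedral
import Cfsg.Agent.H10.Syl

set_option autoImplicit false
open Cfsg

namespace Cfsg.Agent.S0107

open Cfsg Subgroup H28 H3

/-- A finite group with no nontrivial 2-group quotient and dihedral Sylow 2-subgroups of order at least 8 has a single class of involutions. -/
theorem result {G : Type*} [Group G] [Finite G] (T : Sylow 2 G) (n : ℕ) (hn : 2 ≤ n) (hT : Nonempty ((T : Subgroup G) ≃* DihedralGroup (2 ^ n))) (hO : Cfsg.pResidual 2 G = ⊤) (x y : G) (hx : orderOf x = 2) (hy : orderOf y = 2) : ∃ g : G, g * x * g⁻¹ = y := by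
  obtain ⟨e⟩ := hT
  obtain ⟨a, b, ha, -, -, -, -⟩ := H4.exists_gens_of_dihedral e
  have hQ : (zpowers (a : G)).relIndex T = 2 := by
    have h1 := H4.card_mul_relIndex (zpowers_le.2 a.2)
    rw [Nat.card_zpowers, Subgroup.orderOf_coe, ha, Nat.card_congr e.toEquiv,
      DihedralGroup.nat_card, mul_comm 2] at h1
    exact Nat.eq_of_mul_eq_mul_left (by positivity) h1
  have hodd : Odd (T : Subgroup G).index :=
    Nat.coprime_two_right.1 (sylow_index_coprime T)
  have key : ∀ u : G, orderOf u = 2 → ∃ t : G, t⁻¹ * u * t ∈ zpowers (a : G) := by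
    intro u hu
    have hu2 : u ^ 2 = 1 := hu ▸ pow_orderOf_eq_one u
    by_contra hne
    push Not at hne
    obtain ⟨M, hMn, hM, -⟩ := thompson_transfer (H := (T : Subgroup G))
      hodd hQ hne
      (fun k t _ => by rw [pow_mul, hu2]; simp) ⟨1, by rw [pow_one, hu2]⟩
    have h2 : pResidual 2 G ≤ M := pResidual_le_of_index_dvd_pow (k := 1) (by rw [hM, pow_one])
    rw [hO, top_le_iff] at h2
    rw [h2, index_top] at hM
    omega
  obtain ⟨s, hs⟩ := key x hx
  obtain ⟨t, ht⟩ := key y hy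
  have := H10.invol_unique_of_isCyclic inferInstance hs ht (by rw [H10.orderOf_conj', hx])
    (by rw [H10.orderOf_conj', hy])
  refine ⟨t * s⁻¹, ?_⟩
  calc t * s⁻¹ * x * (t * s⁻¹)⁻¹ = t * (s⁻¹ * x * s) * t⁻¹ := by group
    _ = y := by rw [this]; group

end Cfsg.Agent.S0107
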