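import Cfsg.Statements.S0109
import Cfsg.Agent.H9.FF4
import Cfsg.Agent.H9.ZJCor

set_option autoImplicit false
open Cfsg

namespace Cfsg.Agent.S0109

/-- The Thompson factorization Theorem for solvable groups states that, with p odd (and abelian Sylow 2-subgroups when p = 3) and no nontrivial normal subgroup of order prime to p, every element of G is a product of an element normalizing J(P) and an element centralizing the elements of order dividing p in the centre of P. -/
theorem result {G : Type*} [Group G] [Finite G] {p : ℕ} [Fact p.Prime] (hp : p ≠ 2) (hs : Group.IsSolvable G) (h3 : p = 3 → ∀ T : Sylow 2 G, IsMulCommutative T) (hF : ∀ N : Subgroup G, N.Normal → Nat.Coprime (Nat.card N) p → N = ⊥) (P : Sylow p G) (g : G) : ∃ a ∈ Subgroup.normalizer (Cfsg.thompsonSubgroupOf p (P : Subgroup G) : Set G), ∃ c ∈ Subgroup.centralizer {x : G | x ∈ (P : Subgroup G) ∧ (∀ y ∈ (P : Subgroup G), x * y = y * x) ∧ x ^ p = 1}, g = a * c := by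
  have hO := H1.pPrimeCore_eq_bot_iff.2 hF
  have hsep : Cfsg.IsPSolvable p G := H1.isPSolvable_of_isSolvable hs
  have hc : H28.IsCharP p (⊤ : Subgroup G) :=
    H28.isCharP_top.2 (H1.centralizer_pCore_le_of_isPSolvable hsep hO)
  have h5 : 5 ≤ p ∨ ¬ H9.Involves (⊤ : Subgroup G) (Matrix.SpecialLinearGroup (Fin 2) (ZMod p)) := by
    by_cases h : p = 3
    · obtain ⟨T⟩ : Nonempty (Sylow 2 G) := inferInstance
      refine Or.inr (H9.not_involves_of_abSyl hp fun P hP => ?_)
      have := H9.abSyl_of_sylow T (h3 h T) (P.map (⊤ : Subgroup G).subtype) (hP.map _)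
      rw [H1.isMulCommutative_iff] at this ⊢
      exact fun a ha b hb => Subtype.ext (this _ ⟨a, ha, rfl⟩ _ ⟨b, hb, rfl⟩)
    · exact Or.inl ((Fact.out : p.Prime).five_le_of_ne_two_of_ne_three hp h)
  obtain ⟨c, hc', n, hn, e⟩ := H9.IsCharP.thompson_factorization hc
    (H1.isPSolvable_subgroup hsep ⊤) h5 (H28.isSylowIn_top P) (Subgroup.mem_top g⁻¹)
  refine ⟨n⁻¹, ?_, c⁻¹, inv_mem fun x hx => hc'.2 x ?_, by rw [← mul_inv_rev, ← e, inv_inv]⟩
  · rw [H9.thompsonSubgroupOf_eq]; exact inv_mem hn.2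
  · exact H28.mem_omegaOneCenter.2 ⟨hx.1, fun y hy => (hx.2.1 y hy).symm, hx.2.2⟩

end Cfsg.Agent.S0109
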