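import Cfsg.Statements.S0110
import Cfsg.Agent.H3.Util
import Cfsg.Agent.H4.BG4a

set_option autoImplicit false
open Cfsg

namespace Cfsg.Agent.S0110

open Cfsg Subgroup H28 H3

/-- In a p-group G, an extraspecial subgroup E with [G, E] ≤ Z(E) satisfies G = E C_G(E). -/
theorem result {G : Type*} [Group G] [Finite G] {p : ℕ} [Fact p.Prime] (hG : IsPGroup p G) (E : Subgroup G) (hE : Cfsg.IsExtraspecial p E) (h : ⁅(⊤ : Subgroup G), E⁆ ≤ E ⊓ Subgroup.centralizer (E : Set G)) : E ⊔ Subgroup.centralizer (E : Set G) = ⊤ := by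
  obtain ⟨⟨hp, hphi, -⟩, hZ⟩ := hE
  have hZ' : Nat.card (E ⊓ 𝐂 E : Subgroup G) = p := by
    rw [← map_subtype_center, card_map_subtype, hZ]
  have hn : (E ⊓ 𝐂 E : Subgroup G).Normal := by
    have : E.Normal := normal_iff_top_le.2 (le_normalizer_of_commutator_le (V := E)
      (by rw [comm_comm]; exact h.trans inf_le_left) le_rfl)
    infer_instance
  have := H4.sup_cent_of_commg_le (S := E) (R := ⊤) Fact.out le_top hZ'
    (fun x hx => by
      have := H4.pow_mem_map_frattini hp hx
      rwa [hphi, map_subtype_center] at this)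
    (by rw [centralizer_top]; exact H4.le_center_of_card_le_prime hG hZ'.le)
    (by rw [comm_comm]; exact h)
  rwa [top_inf_eq] at this

end Cfsg.Agent.S0110
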