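import Cfsg.Statements.S0114
import Cfsg.Agent.H10.Taussky
import Cfsg.Agent.H4.Dihedral

set_option autoImplicit false
open Cfsg

namespace Cfsg.Agent.S0114

/-- The central quotient of a 2-group of maximal class is dihedral. -/
theorem result {X : Type*} [Group X] [Finite X] (n : ℕ) (hn : 3 ≤ n) (hX : Nat.card X = 2 ^ n) (hc : Group.nilpotencyClass X = n - 1) : Nonempty (X ⧸ Subgroup.center X ≃* DihedralGroup (2 ^ (n - 2))) := by
  have h := (H10.index_commutator_of_maxClass hn hX hc).1
  have h8 : 4 < Nat.card X := by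
    rw [hX]; exact lt_of_lt_of_le (by norm_num) (Nat.pow_le_pow_right two_pos hn)
  obtain ⟨m, x, e, hm⟩ := H10.taussky_mc (IsPGroup.of_card hX) (by omega) h8
  have hmn : m + 1 = n := by
    have := hm.card
    rw [Subgroup.card_top, hX] at this
    exact (Nat.pow_right_injective le_rfl this).symm
  subst hmn
  obtain ⟨w, hw, hw'⟩ := hm.exists_out
  have hZ : ∀ s : X, s ∈ Subgroup.center X ↔ s = 1 ∨ s = H10.mcZ x m := by
    intro s
    rw [← hm.mem_center_iff (Subgroup.mem_top s), Subgroup.coe_top, Subgroup.centralizer_univ]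
  have hx : ∀ i : ℤ, x ^ i ∈ Subgroup.center X ↔ (2 : ℤ) ^ (m - 1) ∣ i := by
    intro i
    rw [← hm.comm_iff hw hw']
    constructor
    · intro h; exact Subgroup.mem_center_iff.1 h w
    · intro h
      rw [hm.comm_iff hw hw'] at h
      rw [hZ]; exact hm.zpow_of_dvd h
  have h2 := hm.two_le
  apply H4.nonempty_mulEquiv_dihedral (a := (x : X ⧸ Subgroup.center X)) (b := (w : X ⧸ Subgroup.center X))
  · rw [show m + 1 - 2 = m - 1 by omega]
    apply Nat.dvd_antisymm
    · rw [orderOf_dvd_iff_pow_eq_one, ← QuotientGroup.mk_pow, QuotientGroup.eq_one_iff, ← zpow_natCast, hx]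
      simp
    · have := pow_orderOf_eq_one (x : X ⧸ Subgroup.center X)
      rw [← QuotientGroup.mk_pow, QuotientGroup.eq_one_iff, ← zpow_natCast, hx] at this
      exact_mod_cast this
  · rw [← QuotientGroup.mk_pow, QuotientGroup.eq_one_iff, hZ]
    exact hm.sq_out hw hw'
  · rw [← QuotientGroup.mk_inv, ← QuotientGroup.mk_mul, ← QuotientGroup.mk_mul, ← QuotientGroup.mk_inv,
      eq_comm, QuotientGroup.eq, inv_inv, hm.conj w hw hw', ← zpow_one_add, hx]
    have := hm.dvd_e
    convert this using 1; ring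
  · rintro ⟨k, hk⟩
    simp only at hk
    rw [← QuotientGroup.mk_zpow, QuotientGroup.eq, hZ] at hk
    apply hw'
    have h1 : (x ^ k)⁻¹ * w ∈ Subgroup.zpowers x := by
      rcases hk with h | h <;> rw [h]
      · exact one_mem _
      · exact H10.MC.z_mem_zpowers
    simpa using mul_mem (Subgroup.zpow_mem _ (Subgroup.mem_zpowers x) k) h1
  · have := congrArg (Subgroup.map (QuotientGroup.mk' (Subgroup.center X))) (hm.eq_sup hw hw')
    rw [Subgroup.map_sup, MonoidHom.map_zpowers, MonoidHom.map_zpowers,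
      Subgroup.map_top_of_surjective _ (QuotientGroup.mk'_surjective _)] at this
    exact this

end Cfsg.Agent.S0114
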