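import Cfsg.Statements.S0115
import Cfsg.Agent.H10.Taussky
import Cfsg.Agent.H4.Klein

set_option autoImplicit false
open Cfsg

namespace Cfsg.Agent.S0115

/-- A 2-group of order 2^n, n ≥ 3, is of maximal class exactly when its commutator quotient is a Klein four-group. -/
theorem result {X : Type*} [Group X] [Finite X] (n : ℕ) (hn : 3 ≤ n) (hX : Nat.card X = 2 ^ n) : Group.nilpotencyClass X = n - 1 ↔ IsKleinFour (X ⧸ commutator X) := by
  have h8 : 4 < Nat.card X := by
    rw [hX]; exact lt_of_lt_of_le (by norm_num) (Nat.pow_le_pow_right two_pos hn)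
  constructor
  · intro hc
    obtain ⟨h1, h2⟩ := H10.index_commutator_of_maxClass hn hX hc
    exact ⟨h1, (not_isCyclic_iff_exponent_eq_prime Nat.prime_two h1).1 h2⟩
  · intro h
    have h4 : (commutator X).index = 4 := h.card_four
    obtain ⟨m, x, e, hm⟩ := H10.taussky_mc (IsPGroup.of_card hX) (by omega) h8
    obtain ⟨w, hw⟩ := hm.exists_card_centralizer
    exact H10.nilpotencyClass_of_centralizer (by omega) hX w (by omega)

end Cfsg.Agent.S0115
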