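import Cfsg.Statements.S0122
import Cfsg.Agent.H4.Alperin

set_option autoImplicit false
open Cfsg

namespace Cfsg.Agent.S0122

open Subgroup in
/-- a non-normal subgroup of a `p`-group and a different conjugate normalize each other -/
theorem exists_conj {G : Type*} [Group G] [Finite G] {p : ℕ} [Fact p.Prime] (hG : IsPGroup p G)
    {E : Subgroup G} (hE : ¬ E.Normal) : ∃ g : G, (∃ e ∈ E, g * e * g⁻¹ ∉ E) ∧
      (∀ e ∈ E, g * e * g⁻¹ ∈ normalizer (E : Set G)) ∧
      (∀ e ∈ E, g⁻¹ * e * g ∈ normalizer (E : Set G)) := by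
  haveI := hG.isNilpotent
  have h1 : normalizer (E : Set G) < ⊤ := lt_top_iff_ne_top.2 fun h => hE (normalizer_eq_top_iff.1 h)
  obtain ⟨g, hg, hg'⟩ := SetLike.exists_of_lt (Group.normalizerCondition_of_isNilpotent _ h1)
  refine ⟨g, ?_, fun e he => (mem_normalizer_iff.1 hg e).1 (le_normalizer he),
    fun e he => (mem_normalizer_iff''.1 hg e).1 (le_normalizer he)⟩
  by_contra h
  push Not at h
  exact hg' (mem_normalizer_fintype h)

/-- For odd p, a p-group containing an elementary abelian subgroup of order p^4 has a normal elementary abelian subgroup of order p^4. -/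
theorem result {G : Type*} [Group G] [Finite G] {p : ℕ} [Fact p.Prime] (hp : p ≠ 2) (hG : IsPGroup p G) (E : Subgroup G) (hE : Cfsg.IsElementaryAbelian p E) (hE4 : Nat.card E = p ^ 4) : ∃ A : Subgroup G, A.Normal ∧ Cfsg.IsElementaryAbelian p A ∧ Nat.card A = p ^ 4 := by
  open Subgroup in
  open scoped commutatorElement in
  have hp' : p.Prime := Fact.out
  have hp1 := hp'.one_lt
  by_contra hno
  push Not at hno
  obtain ⟨A0, hA0n, hA0, hA0c⟩ := H4.exists_normal_Ep3 hp hG hE
    (hE4 ▸ Nat.pow_lt_pow_right hp1 (by norm_num))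
  obtain ⟨A, hAn, hA, hA0A, hΩ⟩ := H4.exists_maximal_elementary hp hG hA0
  have hA3 : Nat.card A = p ^ 3 := by
    obtain ⟨k, hk⟩ := H4.exists_card_eq_pow hG A
    have h1 := card_le_of_le hA0A
    rw [hA0c, hk, Nat.pow_le_pow_iff_right hp1] at h1
    rcases h1.eq_or_lt with h1 | h1
    · rw [hk, h1]
    obtain ⟨K, h1, h2, h3⟩ := H4.exists_normal_card_pow hG (N := A) 4
      (hk ▸ Nat.pow_le_pow_right hp'.pos (by omega))
    exact absurd h3 (hno K h1 (H4.IsElementaryAbelian.mono hA h2))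
  obtain ⟨A2, hA2n, hA2A, hA2⟩ := H4.exists_normal_card_pow hG (N := A) 2
    (hA3 ▸ Nat.pow_le_pow_right hp'.pos (by omega))
  obtain ⟨A1, hA1n, hA1A, hA1⟩ := H4.exists_normal_card_pow hG (N := A2) 1
    (hA2 ▸ Nat.pow_le_pow_right hp'.pos (by omega))
  have hc2 := H4.commutator_le_of_card_mul hG hA2A (by rw [hA3, hA2, pow_succ])
  have hc1 := H4.commutator_le_of_card_mul hG hA1A (by rw [hA1, hA2, pow_succ])
  have hc2' : ∀ a ∈ A, ∀ g : G, ⁅g, a⁆ ∈ A2 := fun a ha g => by
    rw [← commutatorElement_inv]; exact inv_mem (hc2 (commutator_mem_commutator ha (mem_top g)))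
  have hc1' : ∀ a ∈ A2, ∀ g : G, ⁅g, a⁆ ∈ A1 := fun a ha g => by
    rw [← commutatorElement_inv]; exact inv_mem (hc1 (commutator_mem_commutator ha (mem_top g)))
  have hEc := H4.isMulCommutative_iff.1 hE.1
  have hAc := H4.isMulCommutative_iff.1 hA.1
  set B := E ⊓ A with hB
  have hEC : E ⊓ centralizer (A : Set G) ≤ B := fun x hx => ⟨hx.1, hΩ x hx.2 (hE.2 x hx.1)⟩
  -- step 1
  have hB2 : p ^ 2 ≤ Nat.card B := by
    obtain ⟨a, ha, ha2⟩ := H4.exists_mem_notMem_of_card (K := A2) (N := A)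
      (by rw [hA2, hA3]; exact Nat.pow_lt_pow_right hp1 (by norm_num))
    have hAa := H4.eq_sup_zpowers (p := p) hA2A (by rw [hA3, hA2, ← pow_succ]) ha ha2
    set E2 := E ⊓ centralizer (A2 : Set G)
    have h1 : E2 ⊓ centralizer ({a} : Set G) ≤ B := by
      refine le_trans ?_ hEC
      rw [hAa, H4.centralizer_sup_zpowers, inf_assoc]
    have h2 := H4.card_inf_mul_relIndex E2 (centralizer ({a} : Set G))
    have h3 := card_le_of_le h1
    by_cases h : E ≤ centralizer (A2 : Set G)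
    · have h4 := H4.relIndex_centralizer_le (D := E2) (a := a) (S := A2) fun d _ => hc2' a ha d
      have h5 : E2 = E := inf_eq_left.2 h
      have h6 := Nat.mul_le_mul h3 h4
      rw [h2, h5, hE4, SetLike.coe_sort_coe, hA2, show p ^ 4 = p ^ 2 * p ^ 2 by ring] at h6
      exact Nat.le_of_mul_le_mul_right h6 (pow_pos hp'.pos 2)
    · obtain ⟨f, hf, hfc⟩ := SetLike.not_le_iff_exists.1 h
      have h4 := H4.relIndex_centralizer_le (D := E2) (a := a)
        (S := (A2 ⊓ centralizer ({f} : Set G) : Subgroup G)) fun d hd => by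
          refine ⟨hc2' a ha d, mem_centralizer_singleton_iff.2 ?_⟩
          have e1 : f * d = d * f := hEc f hf d hd.1
          have e2 : ⁅f, a⁆ * d = d * ⁅f, a⁆ := hd.2 _ (hc2' a ha f)
          have e3 : ⁅f, a⁆ * ⁅d, a⁆ = ⁅d, a⁆ * ⁅f, a⁆ :=
            hAc _ (hA2A (hc2' a ha f)) _ (hA2A (hc2' a ha d))
          have e4 := commutatorElement_mul_left_eq_conj_mul f d a
          have e5 := commutatorElement_mul_left_eq_conj_mul d f a
          rw [← e1, e4, ← e2, mul_inv_cancel_right, e3, mul_left_inj] at e5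
          exact (mul_inv_eq_iff_eq_mul.1 e5).symm
      have h5 : A2 ⊓ centralizer ({f} : Set G) < A2 := lt_of_le_of_ne inf_le_left fun h =>
        hfc fun x hx => mem_centralizer_singleton_iff.1 (inf_eq_left.1 h hx)
      have h6 := H4.card_mul_le_of_lt hG h5
      rw [hA2, pow_two] at h6
      have h7 := h4.trans (Nat.le_of_mul_le_mul_right h6 hp'.pos)
      have h8 := (H4.card_le_card_inf_mul E (centralizer (A2 : Set G))).trans
        (Nat.mul_le_mul_left _ (H4.index_centralizer_le_prime hG A2 hA2.le))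
      have h9 := Nat.mul_le_mul_right p (Nat.mul_le_mul h3 h7)
      rw [h2] at h9
      have h10 := h8.trans h9
      rw [hE4, show p ^ 4 = p ^ 2 * p * p by ring] at h10
      exact Nat.le_of_mul_le_mul_right (Nat.le_of_mul_le_mul_right h10 hp'.pos) hp'.pos
  -- step 2
  have hBA : B < A := lt_of_le_of_ne inf_le_right fun h => by
    have h1 : A ≤ E := h ▸ inf_le_left
    have h2 : E ≤ A := fun x hx => hΩ x (fun a ha => hEc a (h1 ha) x hx) (hE.2 x hx)
    have := card_le_of_le h2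
    rw [hE4, hA3, Nat.pow_le_pow_iff_right hp1] at this
    omega
  have hBc : Nat.card B = p ^ 2 := le_antisymm (by
    have := H4.card_mul_le_of_lt hG hBA
    rw [hA3, pow_succ] at this
    exact Nat.le_of_mul_le_mul_right this hp'.pos) hB2
  have hcent : ∀ a ∈ A, a ∉ B → centralizer (A : Set G) =
      centralizer (B : Set G) ⊓ centralizer ({a} : Set G) := fun a ha haB => by
    rw [← H4.centralizer_sup_zpowers,
      ← H4.eq_sup_zpowers (p := p) hBA.le (by rw [hA3, hBc, ← pow_succ]) ha haB]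
  have hEB : E ≤ centralizer (B : Set G) := fun x hx b hb => hEc b hb.1 x hx
  have hT : ∀ a ∈ A, a ∉ B → Nat.card ((fun d : G => ⁅d, a⁆) '' (E : Set G)) = p ^ 2 := by
    intro a ha haB
    have h1 : E ⊓ centralizer ({a} : Set G) = B := by
      refine le_antisymm (le_trans ?_ hEC) (le_inf inf_le_left fun x hx =>
        mem_centralizer_singleton_iff.2 (hAc x hx.2 a ha))
      rw [hcent a ha haB]
      exact le_inf inf_le_left (inf_le_inf_right _ hEB)
    have h2 := H4.card_inf_mul_relIndex E (centralizer ({a} : Set G))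
    rw [h1, hBc, hE4, H4.relIndex_centralizer_eq, show p ^ 4 = p ^ 2 * p ^ 2 by ring] at h2
    exact Nat.eq_of_mul_eq_mul_left (pow_pos hp'.pos 2) h2
  -- step 3
  have hBA2 : A2 = B := by
    refine eq_of_le_of_card_ge ?_ (by rw [hBc, hA2])
    by_contra h
    obtain ⟨a, ha, haB⟩ := SetLike.not_le_iff_exists.1 h
    have h1 := H4.relIndex_centralizer_le (D := E) (a := a) (S := A1) fun d _ => hc1' a ha d
    rw [H4.relIndex_centralizer_eq, hT a (hA2A ha) haB, SetLike.coe_sort_coe, hA1,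
      Nat.pow_le_pow_iff_right hp1] at h1
    omega
  -- step 4
  obtain ⟨g, ⟨e0, he0, he0g⟩, hg1, hg2⟩ := exists_conj hG fun h => hno E h hE hE4
  obtain ⟨a, ha, haB⟩ := SetLike.exists_of_lt hBA
  have hTB : (fun d : G => ⁅d, a⁆) '' (E : Set G) = (A2 : Set G) := by
    apply Set.eq_of_subset_of_ncard_le
    · rintro _ ⟨d, -, rfl⟩; exact hc2' a ha d
    · rw [← Nat.card_coe_set_eq, ← Nat.card_coe_set_eq, hT a ha haB, SetLike.coe_sort_coe, hA2]
    · exact Set.toFinite _
  set F := E.map (MulAut.conj g).toMonoidHom with hF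
  have hFc : IsMulCommutative F := by haveI := hE.1; infer_instance
  have hFA : ∀ f ∈ F, ∃ e ∈ E, e⁻¹ * f ∈ A := by
    rintro _ ⟨e', he', rfl⟩
    change ∃ e ∈ E, e⁻¹ * (g * e' * g⁻¹) ∈ A
    set f := g * e' * g⁻¹ with hf
    obtain ⟨e, he, h1⟩ := hTB.ge (hc2' a ha f)
    refine ⟨e, he, hΩ _ ?_ ?_⟩
    · rw [hcent a ha haB]
      refine mem_inf.2 ⟨mul_mem (inv_mem (hEB he)) fun b hb => ?_,
        H4.commutator_eq_commutator_iff.1 h1⟩
      have := hEB he' _ (hBA2 ▸ hA2n.conj_mem' b (hBA2 ▸ hb) g)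
      calc b * f = g * (g⁻¹ * b * g * e') * g⁻¹ := by rw [hf]; group
        _ = f * b := by rw [this, hf]; group
    · have c1 : ⁅f, e⁻¹⁆ ∈ E := by
        rw [commutatorElement_def]
        exact mul_mem ((mem_normalizer_iff.1 (hg1 e' he') _).1 (inv_mem he)) (by simpa using he)
      have c2 : ⁅e', g⁻¹ * e⁻¹ * g⁆ ∈ E := by
        rw [← commutatorElement_inv, commutatorElement_def]
        exact inv_mem (mul_mem ((mem_normalizer_iff.1 (hg2 _ (inv_mem he)) _).1 he') (inv_mem he'))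
      have c3 : ⁅f, e⁻¹⁆ = g * ⁅e', g⁻¹ * e⁻¹ * g⁆ * g⁻¹ := by
        rw [hf, commutatorElement_def, commutatorElement_def]; group
      rw [H4.mul_pow_of_odd (hp'.odd_of_ne_two hp) (hEc _ (inv_mem he) _ c1) _ (hE.2 _ c1),
        hE.2 _ (inv_mem he), hf, conj_pow, hE.2 _ he']
      · simp
      · rw [c3, hf]
        have := hEc _ he' _ c2
        calc g * e' * g⁻¹ * (g * ⁅e', g⁻¹ * e⁻¹ * g⁆ * g⁻¹)
            = g * (e' * ⁅e', g⁻¹ * e⁻¹ * g⁆) * g⁻¹ := by group
          _ = _ := by rw [this]; group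
  have hf0 : g * e0 * g⁻¹ ∈ F := ⟨e0, he0, rfl⟩
  obtain ⟨e1, he1, h1⟩ := hFA _ hf0
  have h2 : e1⁻¹ * (g * e0 * g⁻¹) ∉ B := fun h => he0g ((mul_mem_cancel_left (inv_mem he1)).1 h.1)
  have h3 : F ⊓ E ≤ B := by
    intro x hx
    apply hEC
    rw [hcent _ h1 h2]
    refine ⟨hx.2, hEB hx.2, mem_centralizer_singleton_iff.2 ?_⟩
    rw [← mul_assoc, hEc x hx.2 _ (inv_mem he1), mul_assoc,
      H4.isMulCommutative_iff.1 hFc x hx.1 _ hf0, ← mul_assoc]
  have h4 : F ≤ E ⊔ A := fun f hf => by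
    obtain ⟨e, he, h⟩ := hFA f hf
    simpa using mul_mem (le_sup_left (b := A) he) (le_sup_right (a := E) h)
  have h5 : E.relIndex (E ⊔ A) = p := by
    have h6 := H4.card_sup_mul_card_inf E A
    rw [← H4.card_mul_relIndex (le_sup_left : E ≤ E ⊔ A), hBc, hA3, mul_assoc, pow_succ' p 2] at h6
    exact Nat.eq_of_mul_eq_mul_right (pow_pos hp'.pos 2) (Nat.eq_of_mul_eq_mul_left Nat.card_pos h6)
  have h6 : E.relIndex F ≤ p := h5 ▸ relIndex_le_of_le_right h4 (by omega)
  have h7 := Nat.mul_le_mul (card_le_of_le h3) h6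
  rw [H4.card_inf_mul_relIndex, hF, card_map_of_injective (MulAut.conj g).injective, hE4, hBc,
    ← pow_succ, Nat.pow_le_pow_iff_right hp1] at h7
  omega

end Cfsg.Agent.S0122
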