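import Cfsg.Statements.S0123
import Cfsg.Agent.H4.Regular

set_option autoImplicit false
open Cfsg

namespace Cfsg.Agent.S0123

/-- For a p-group of small class relative to p (class ≤ 2 with p odd, or class ≤ 3 with p > 3) whose derived subgroup is generated by elements of order dividing p, the p-th power map is multiplicative. -/
theorem result {R : Type*} [Group R] [Finite R] {p : ℕ} [Fact p.Prime] (hR : IsPGroup p R) (hcl : (p ≠ 2 ∧ ⁅commutator R, (⊤ : Subgroup R)⁆ = ⊥) ∨ (3 < p ∧ ⁅⁅commutator R, (⊤ : Subgroup R)⁆, (⊤ : Subgroup R)⁆ = ⊥)) (hder : commutator R ≤ Subgroup.closure {x : R | x ^ p = 1}) (x y : R) : (x * y) ^ p = x ^ p * y ^ p := by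
  have hp : p.Prime := Fact.out
  have h : H4.WReg p R := by
    rcases hcl with ⟨h1, h2⟩ | ⟨h1, h2⟩
    · exact H4.wReg_of_top_lcs (r := 2) (lt_of_le_of_ne hp.two_le (Ne.symm h1)) h2
    · exact H4.wReg_of_top_lcs h1 h2
  exact h.mul_pow_of_commutator hR (H4.pow_eq_one_of_mem_closure (fun x hx => hx)
    (fun x _ y _ hx hy => h.mul_pow_eq_one hR hx hy)
    (hder (Subgroup.commutator_mem_commutator (Subgroup.mem_top x) (Subgroup.mem_top y))))

end Cfsg.Agent.S0123
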