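import Cfsg.Statements.S0125
import Cfsg.Agent.H4.Centralizer

set_option autoImplicit false
open Cfsg

namespace Cfsg.Agent.S0125

/-- The centralizer of a self-centralizing normal subgroup A of a Sylow p-subgroup is the direct product of A with a normal p'-subgroup. -/
theorem result {G : Type*} [Group G] [Finite G] {p : ℕ} [Fact p.Prime] (R : Sylow p G) (A : Subgroup G) (hAR : A ≤ (R : Subgroup G)) (hAn : (R : Subgroup G) ≤ Subgroup.normalizer (A : Set G)) (hC : (R : Subgroup G) ⊓ Subgroup.centralizer (A : Set G) = A) : ∃ H : Subgroup G, H ≤ Subgroup.centralizer (A : Set G) ∧ Nat.Coprime (Nat.card H) p ∧ Subgroup.centralizer (A : Set G) ≤ Subgroup.normalizer (H : Set G) ∧ H ⊓ A = ⊥ ∧ H ⊔ A = Subgroup.centralizer (A : Set G) := by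
  have hp : p.Prime := Fact.out
  set C := Subgroup.centralizer (A : Set G) with hCdef
  have hAC : A ≤ C := hC ▸ inf_le_right
  have hCN : C ≤ Subgroup.normalizer (A : Set G) := Subgroup.centralizer_le_normalizer _
  have hAp : IsPGroup p A := R.isPGroup'.to_le hAR
  -- `A` is a Sylow subgroup of `C`
  have hidx : ¬ p ∣ (A.subgroupOf C).index := by
    set N := Subgroup.normalizer (A : Set G)
    haveI : (C.subgroupOf N).Normal := Subgroup.normal_subgroupOf_centralizer_normalizer _
    have h1 : ¬ p ∣ (R : Subgroup G).relIndex N := fun h =>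
      R.not_dvd_index (h.trans (Subgroup.relIndex_dvd_index_of_le hAn))
    intro h
    apply h1
    have h2 : (A.subgroupOf C).index = ((R : Subgroup G).subgroupOf N).relIndex (C.subgroupOf N) := by
      rw [Subgroup.relIndex_subgroupOf hCN, ← Subgroup.inf_relIndex_right, hC]; rfl
    rw [h2] at h
    have h3 := H4.card_sup_mul_card_inf ((R : Subgroup G).subgroupOf N) (C.subgroupOf N)
    have h4 := H4.card_mul_relIndex (inf_le_right :
      (R : Subgroup G).subgroupOf N ⊓ C.subgroupOf N ≤ C.subgroupOf N)
    have h5 := H4.card_mul_relIndex (le_sup_left :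
      (R : Subgroup G).subgroupOf N ≤ (R : Subgroup G).subgroupOf N ⊔ C.subgroupOf N)
    rw [Subgroup.inf_relIndex_right] at h4
    rw [← h4, ← h5, mul_assoc, mul_comm (Nat.card ↥((R : Subgroup G).subgroupOf N ⊓ C.subgroupOf N))]
      at h3
    have h6 := Nat.eq_of_mul_eq_mul_right Nat.card_pos (Nat.eq_of_mul_eq_mul_left Nat.card_pos h3)
    rw [← h6] at h
    exact h.trans (Subgroup.relIndex_dvd_index_of_le le_sup_left)
  let P : Sylow p C := IsPGroup.toSylow (hAp.comap_subtype (K := C)) hidx
  have hP : Subgroup.normalizer (P : Set C) ≤ Subgroup.centralizer (P : Set C) := by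
    intro x _ y hy
    exact Subtype.ext (x.2 y hy)
  have hcompl := MonoidHom.ker_transferSylow_isComplement' P hP
  set K := (MonoidHom.transferSylow P hP).ker
  refine ⟨K.map C.subtype, Subgroup.map_subtype_le _, ?_, ?_, ?_, ?_⟩
  · rw [Subgroup.card_subtype, Nat.coprime_comm, hp.coprime_iff_not_dvd]
    exact MonoidHom.not_dvd_card_ker_transferSylow P hP
  · have := Subgroup.le_normalizer_map (H := K) C.subtype
    rwa [Subgroup.normalizer_eq_top, ← MonoidHom.range_eq_map, Subgroup.range_subtype] at this
  · have := congrArg (Subgroup.map C.subtype) hcompl.disjoint.eq_bot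
    rwa [Subgroup.map_inf _ _ _ C.subtype_injective, Subgroup.map_bot,
      show (P : Subgroup C) = A.subgroupOf C from rfl, Subgroup.map_subgroupOf_eq_of_le hAC] at this
  · have := congrArg (Subgroup.map C.subtype) hcompl.sup_eq_top
    rwa [Subgroup.map_sup, ← MonoidHom.range_eq_map, Subgroup.range_subtype,
      show (P : Subgroup C) = A.subgroupOf C from rfl, Subgroup.map_subgroupOf_eq_of_le hAC] at this

end Cfsg.Agent.S0125
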