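import Cfsg.Statements.S0128
import Cfsg.Agent.H4.RankTwo

set_option autoImplicit false
open Cfsg

namespace Cfsg.Agent.S0128

/-- For p > 3, in a p-group of p-rank at most 2 the elements of order dividing p generate a subgroup of exponent dividing p. -/
theorem result {R : Type*} [Group R] [Finite R] {p : ℕ} [Fact p.Prime] (hp : 3 < p) (hR : IsPGroup p R) (hrk : ∀ E : Subgroup R, Cfsg.IsElementaryAbelian p E → Nat.card E ≤ p ^ 2) (g : R) (hg : g ∈ Subgroup.closure {x : R | x ^ p = 1}) : g ^ p = 1 := by
  exact H4.pow_eq_one_of_mem_closure (fun x hx => hx)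
    (fun x _ y _ hx hy => H4.mul_pow_eq_one_of_rank_two hp hR hrk hx hy) hg

end Cfsg.Agent.S0128
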