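import Cfsg.Statements.S0131
import Cfsg.Agent.H3.Focal

set_option autoImplicit false
open Cfsg

namespace Cfsg.Agent.S0131

/-- P/P' has a normal complement in G exactly when the focal subgroup G' ∩ P is as small as possible, namely P'. -/
theorem result {G : Type*} [Group G] [Finite G] {p : ℕ} [Fact p.Prime] (P : Sylow p G) : (∃ N : Subgroup G, N.Normal ∧ N ⊓ (P : Subgroup G) = ⁅(P : Subgroup G), (P : Subgroup G)⁆ ∧ N ⊔ (P : Subgroup G) = ⊤) ↔ commutator G ⊓ (P : Subgroup G) = ⁅(P : Subgroup G), (P : Subgroup G)⁆ := by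
  constructor
  · rintro ⟨N, hN, h1, h2⟩
    refine le_antisymm ?_ (le_inf (Subgroup.commutator_mono le_top le_top)
      (H28.commutator_le_of_le_normalizer Subgroup.le_normalizer))
    rw [← h1]
    refine inf_le_inf_right _ ?_
    rw [commutator_def, ← h2]
    have h3 : ⁅(P : Subgroup G), (P : Subgroup G)⁆ ≤ N := h1 ▸ inf_le_left
    refine H1.commutator_sup_le Subgroup.le_normalizer_of_normal Subgroup.le_normalizer_of_normal
      (Subgroup.commutator_le_left _ _) (H1.commutator_sup_le' Subgroup.le_normalizer_of_normal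
      Subgroup.le_normalizer_of_normal (Subgroup.commutator_le_right _ _) h3)
  · intro h
    refine ⟨_, inferInstance, ?_, H3.ker_transferFocal_sup (P.2.to_quotient _)
      (H3.sylow_index_coprime P)⟩
    rw [Subgroup.ker_transferFocal_inf_eq_focalSubgroup, ← h,
      Subgroup.commutator_inf_eq_focalSubgroup]

end Cfsg.Agent.S0131
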