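import Cfsg.Statements.S0132
import Cfsg.Agent.H3.Schmidt

set_option autoImplicit false
open Cfsg

namespace Cfsg.Agent.S0132

open Cfsg Subgroup H28 H3

/-- A minimal non-p-nilpotent finite group is a minimal non-nilpotent group with a normal Sylow p-subgroup. -/
theorem result {G : Type*} [Group G] [Finite G] {p : ℕ} [Fact p.Prime] (h1 : ¬ Cfsg.HasNormalPComplement p G) (h2 : ∀ H : Subgroup G, H ≠ ⊤ → Cfsg.HasNormalPComplement p H) : (∀ H : Subgroup G, H ≠ ⊤ → Group.IsNilpotent H) ∧ ¬ Group.IsNilpotent G ∧ ∀ P : Sylow p G, (P : Subgroup G).Normal := by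
  obtain ⟨T, hTn, hT, g, hgC, htop, q, k, hq, hqp, hk⟩ := exists_of_minimal_not_hasNPC h1 h2
  have hq' := Fact.mk hq
  have hcop : ∀ {r : ℕ}, r.Prime → r ≠ q → ∀ R : Subgroup G, IsPGroup r R → R ≤ T := by
    intro r hr hrq R hR x hx
    have h3 : pResidualOf q (zpowers g ⊔ T) ≤ T :=
      pResidualOf_sup_le (isPGroup_zpowers_of_orderOf hk) (by rw [normalizer_eq_top]; exact le_top)
    have := Fact.mk hr
    obtain ⟨j, hj⟩ := exists_orderOf_eq_pow hR hx
    exact h3 (mem_pResidualOf (htop ▸ mem_top x)
      (hj ▸ Nat.Coprime.pow_left _ ((Nat.coprime_primes hr hq).2 hrq)))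
  refine ⟨fun H hH => ?_, fun hn => h1 hasNPC_of_isNilpotent, fun P => ?_⟩
  · rw [H1.isNilpotent_iff_sylow_normal]
    intro r hr R
    have hR := isSylowIn_map_subtype R
    by_cases hrp : r = p
    · subst hrp
      have h4 := hcop hr.out hqp.symm _ hR.isPGroup
      have h5 : (R : Subgroup H) = T.subgroupOf H := by
        refine (R.is_maximal' (hT.comap_subtype) ?_).symm
        exact map_subtype_le_iff.1 h4
      rw [h5]; infer_instance
    by_cases hrq : r = q
    · subst hrq
      have h5 := hasNPC_iff_forall_mem.1 (h2 H hH)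
      have h6 : IsPGroup r (pResidual p H) := by
        refine isPGroup_of_forall_coprime fun x hx hc => ?_
        have h3 : pResidualOf r (zpowers g ⊔ T) ≤ T :=
          pResidualOf_sup_le (isPGroup_zpowers_of_orderOf hk)
            (by rw [normalizer_eq_top]; exact le_top)
        have h7 : (x : G) ∈ T := h3 (mem_pResidualOf (htop ▸ mem_top _) (by simpa using hc))
        exact Subtype.ext (H28.eq_one_of_coprime_of_mem hT (by simpa using h5 x hx) h7)
      have h7 : (R : Subgroup H) = pResidual p H := by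
        refine (R.is_maximal' h6 fun x hx => mem_pResidual ?_).symm
        obtain ⟨j, hj⟩ := exists_orderOf_eq_pow R.isPGroup' hx
        exact hj ▸ Nat.Coprime.pow_left _ ((Nat.coprime_primes hq Fact.out).2 hqp)
      rw [h7]; infer_instance
    · have h4 := hcop hr.out hrq _ hR.isPGroup
      have h5 : (R : Subgroup H) = ⊥ := by
        refine (eq_bot_iff_forall _).2 fun x hx => ?_
        obtain ⟨j, hj⟩ := exists_orderOf_eq_pow R.isPGroup' hx
        refine Subtype.ext (H28.eq_one_of_coprime_of_mem hT ?_ (h4 (mem_map_of_mem _ hx)))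
        rw [Subgroup.orderOf_coe, hj]
        exact Nat.Coprime.pow_left _ ((Nat.coprime_primes hr.out Fact.out).2 hrp)
      rw [h5]; infer_instance
  · have h5 : (P : Subgroup G) = T :=
      (P.is_maximal' hT (hcop Fact.out hqp.symm _ P.isPGroup')).symm
    rw [h5]; exact hTn

end Cfsg.Agent.S0132
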