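import Cfsg.Statements.S0155
import Cfsg.Agent.H5.Virtual
-- import your own Cfsg.Agent.* helpers here

set_option autoImplicit false
open Cfsg

namespace Cfsg.Agent.S0155
open H5


/-- The character of the left regular representation of a finite group takes the value |G| at the identity and 0 at every other element. -/
theorem result {G : Type*} [Group G] [Fintype G] [DecidableEq G] (g : G) : (Representation.leftRegular ℂ G).character g = if g = 1 then (Nat.card G : ℂ) else 0 := by
  rw [Representation.character, LinearMap.trace_eq_matrix_trace ℂ (MonoidAlgebra.basis G ℂ), Matrix.trace]
  split_ifs with h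
  · subst h; simp
  · refine Finset.sum_eq_zero fun x _ => ?_
    simp [LinearMap.toMatrix_apply, MonoidAlgebra.basis, h]

end Cfsg.Agent.S0155
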