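import Cfsg.Statements.S0162
import Cfsg.Agent.H5.Schur
-- import your own Cfsg.Agent.* helpers here

set_option autoImplicit false
open Cfsg

namespace Cfsg.Agent.S0162
open H5


/-- If a finite group has odd order, its order is congruent to its number of conjugacy classes modulo 16. -/
theorem result {G : Type*} [Group G] [Finite G] (hodd : Odd (Nat.card G)) : Nat.card G ≡ Nat.card (ConjClasses G) [MOD 16] := by
  classical
  choose d hd0 hdvd hd using fun χ : IrrCharacter G => χ.2.exists_apply_one_dvd
  have h1 : ∑ χ, d χ ^ 2 = Nat.card G := by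
    have := sum_irr_one_sq G
    simp only [hd] at this
    exact_mod_cast this
  let c : IrrCharacter G → IrrCharacter G := fun χ => ⟨_, χ.2.star⟩
  have hc : ∀ χ, d (c χ) = d χ := fun χ => by
    have h2 := hd (c χ)
    simp only [c, hd χ, map_natCast] at h2
    exact_mod_cast h2.symm
  have h2 : ∑ χ : IrrCharacter G, ((d χ : ZMod 16) ^ 2 - 1) = 0 := by
    refine Finset.sum_involution (fun χ _ => c χ) (fun χ _ => ?_) (fun χ _ hne he => hne ?_)
      (fun _ _ => Finset.mem_univ _) (fun χ _ => Subtype.ext (by simp [c]))
    · rw [hc]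
      obtain ⟨k, hk⟩ := Odd.of_dvd_nat hodd (hdvd χ)
      rw [hk]
      push_cast
      generalize (k : ZMod 16) = x
      revert x
      decide
    · by_cases h3 : (χ : G → ℂ) = fun _ => 1
      · have := hd χ
        rw [h3] at this
        have h4 : d χ = 1 := by exact_mod_cast (show (d χ : ℂ) = 1 from this.symm)
        simp [h4]
      · exact absurd (congrArg Subtype.val he) (χ.2.star_ne_of_odd hodd h3)
  rw [← ZMod.natCast_eq_natCast_iff, ← h1, ← card_irr, Nat.card_eq_fintype_card]
  rw [Finset.sum_sub_distrib, sub_eq_zero] at h2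
  push_cast
  rw [h2]
  simp

end Cfsg.Agent.S0162
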