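import Cfsg.Statements.S0166
import Cfsg.Agent.H6.FRep

set_option autoImplicit false
open Cfsg

namespace Cfsg.Agent.S0166
open H6 H5

/-- Brauer's splitting field Theorem: a complex representation of a finite group of exponent m is equivalent to a representation by matrices with entries in ℚ adjoined exp(2πi/m). -/
theorem result {G : Type*} [Group G] [Finite G] (n : ℕ) (ρ : Representation ℂ G (Fin n → ℂ)) : ∃ σ : Representation ℂ G (Fin n → ℂ), Nonempty (ρ.Equiv σ) ∧ ∀ g : G, ∀ i j : Fin n, LinearMap.toMatrix' (σ g) i j ∈ Algebra.adjoin ℚ ({Complex.exp (2 * Real.pi * Complex.I / (Monoid.exponent G : ℂ))} : Set ℂ) := by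
  classical
  have := Fintype.ofFinite G
  have hm : Monoid.exponent G ≠ 0 := Monoid.exponent_ne_zero_of_finite
  have hζ := Complex.isPrimitiveRoot_exp _ hm
  set ζ := Complex.exp (2 * Real.pi * Complex.I / (Monoid.exponent G : ℂ))
  have hi : IsIntegral ℚ ζ := (hζ.isIntegral (Nat.pos_of_ne_zero hm)).tower_top
  obtain ⟨m, Z, hZ⟩ := fchar_of_roots (F := IntermediateField.adjoin ℚ {ζ}) (fun z hz => by
    have : NeZero (Monoid.exponent G) := ⟨hm⟩
    obtain ⟨i, -, rfl⟩ := hζ.eq_pow_of_pow_eq_one hz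
    exact ⟨⟨_, pow_mem (IntermediateField.mem_adjoin_simple_self ℚ ζ) i⟩, rfl⟩)
    (isCharacter_character ρ)
  obtain rfl : m = n := by simpa using hZ 1
  refine ⟨mrep ((algebraMap _ ℂ).mapMatrix.toMonoidHom.comp Z),
    nonempty_equiv_of_char_eq _ _ (funext fun g => ?_), fun g i j => ?_⟩
  · rw [mrep_char, ← hZ]
    exact AddMonoidHom.map_trace (algebraMap (IntermediateField.adjoin ℚ {ζ}) ℂ) (Z g)
  · rw [← IntermediateField.adjoin_simple_toSubalgebra_of_isAlgebraic hi.isAlgebraic]
    change LinearMap.toMatrix' (Matrix.toLin' _) i j ∈ _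
    rw [LinearMap.toMatrix'_toLin']
    exact (Z g i j).2

end Cfsg.Agent.S0166
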