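import Cfsg.Statements.S0167
import Cfsg.Agent.H6.Degree

set_option autoImplicit false
open Cfsg

namespace Cfsg.Agent.S0167

/-- An element g of a finite group is a commutator if and only if the sum over the irreducible characters χ of χ g / χ 1 is nonzero. -/
theorem result {G : Type*} [Group G] [Finite G] (g : G) : (∃ a b : G, g = a * b * a⁻¹ * b⁻¹) ↔ ∑ᶠ χ : Cfsg.IrrCharacter G, (χ : G → ℂ) g / (χ : G → ℂ) 1 ≠ 0 := by
  have h := H6.card_commutator_eq g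
  rw [H5.finsum_irr, ← mul_ne_zero_iff_left (H5.card_ne_zero_complex G), ← h, Nat.cast_ne_zero,
    Nat.card_ne_zero]
  exact ⟨fun ⟨a, b, e⟩ => ⟨⟨⟨(a, b), e⟩⟩, inferInstance⟩, fun ⟨⟨⟨p, e⟩⟩, _⟩ => ⟨p.1, p.2, e⟩⟩

end Cfsg.Agent.S0167
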