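import Cfsg.Statements.S0172
import Cfsg.Agent.H6.GroupAux

set_option autoImplicit false
open Cfsg

namespace Cfsg.Agent.S0172

/-- Class number of a Frobenius group: if G = K H with K normal, K ⊓ H trivial and no non-identity element of H commuting with a non-identity element of K, then |H| * k(G) + 1 = |H| * k(H) + k(K), where k denotes the number of conjugacy classes. -/
theorem result {G : Type*} [Group G] [Finite G] (K H : Subgroup G) [K.Normal] (hKH : K ⊓ H = ⊥) (hKH' : K ⊔ H = ⊤) (hfpf : ∀ h ∈ H, h ≠ 1 → ∀ k ∈ K, h * k = k * h → k = 1) : Nat.card H * Nat.card (ConjClasses G) + 1 = Nat.card H * Nat.card (ConjClasses H) + Nat.card (ConjClasses K) := by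
  classical
  have := Fintype.ofFinite G
  set c : G → ℕ := fun g => Nat.card (Subgroup.centralizer ({g} : Set G)) with hc
  have hcompl : K.IsComplement' H :=
    Subgroup.isComplement'_of_disjoint_and_mul_eq_univ (disjoint_iff.mpr hKH) (by
      rw [← Subgroup.normal_mul, hKH']; rfl)
  have hcard : Nat.card K * Nat.card H = Nat.card G := hcompl.card_mul_card
  have hsum : ∑ g : G, c g = ∑ h : H, ∑ k : K, c (k * h) := by
    rw [Finset.sum_comm, ← Finset.sum_product']
    symm
    exact Fintype.sum_bijective (fun p : K × H => (p.1 : G) * p.2) hcompl _ _ (fun _ => rfl)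
  have h1 : ∀ h : H, h ≠ 1 → ∑ k : K, c (k * h) =
      Nat.card K * Nat.card (Subgroup.centralizer ({h} : Set H)) := by
    intro h hh
    have hh' : (h : G) ≠ 1 := fun e => hh (Subtype.ext e)
    have : ∀ k : K, c (k * h) = Nat.card (Subgroup.centralizer ({h} : Set H)) := by
      intro k
      obtain ⟨y, -, hy⟩ := H6.conj_of_fpf (hfpf h h.2 hh') k k.2
      simp only [hc]
      rw [hy, H6.card_centralizer_conj, H6.card_centralizer_eq_of_le]
      intro g hg
      obtain ⟨a, ha, b, hb, rfl⟩ := H6.exists_mul_of_sup_eq_top hKH' g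
      have hcomm : b * h * b⁻¹ * (h : G)⁻¹ = 1 := by
        rw [← Subgroup.mem_bot, ← hKH]
        refine ⟨?_, H.mul_mem (H.mul_mem (H.mul_mem hb h.2) (H.inv_mem hb)) (H.inv_mem h.2)⟩
        have e : b * h * b⁻¹ * (h : G)⁻¹ = a⁻¹ * (h * a * (h : G)⁻¹) := by
          calc b * h * b⁻¹ * (h : G)⁻¹ = a⁻¹ * (a * b * h) * b⁻¹ * (h : G)⁻¹ := by group
            _ = a⁻¹ * (h * (a * b)) * b⁻¹ * (h : G)⁻¹ := by rw [hg]
            _ = _ := by group
        rw [e]
        exact K.mul_mem (K.inv_mem ha) (‹K.Normal›.conj_mem a ha h)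
      have hbh : b * h = h * b := by
        calc b * h = (b * h * b⁻¹ * (h : G)⁻¹) * h * b := by group
          _ = _ := by rw [hcomm]; group
      have : a = 1 := hfpf h h.2 hh' a ha (by
        calc h * a = h * (a * b) * b⁻¹ := by group
          _ = a * (b * h) * b⁻¹ := by rw [← hg]; group
          _ = _ := by rw [hbh]; group)
      simpa [this] using hb
    simp [this]
  have h2 : ∑ k : K, c (k * (1 : H)) + Nat.card K =
      Nat.card (ConjClasses K) * Nat.card K + Nat.card G := by
    rw [← H6.sum_card_centralizer K, ← Finset.add_sum_erase _ _ (Finset.mem_univ (1 : K)),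
      ← Finset.add_sum_erase _ (fun g : K => Nat.card (Subgroup.centralizer ({g} : Set K)))
        (Finset.mem_univ (1 : K))]
    have e1 : c (((1 : K) : G) * ((1 : H) : G)) = Nat.card G := by
      simp only [hc, OneMemClass.coe_one, mul_one]; exact H6.card_centralizer_one G
    have e2 : Nat.card (Subgroup.centralizer ({(1 : K)} : Set K)) = Nat.card K :=
      H6.card_centralizer_one K
    have e3 : ∑ k ∈ Finset.univ.erase (1 : K), c (k * (1 : H)) =
        ∑ k ∈ Finset.univ.erase (1 : K), Nat.card (Subgroup.centralizer ({k} : Set K)) := by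
      refine Finset.sum_congr rfl fun k hk => ?_
      have hk1 : (k : G) ≠ 1 := fun e => (Finset.mem_erase.mp hk).1 (Subtype.ext e)
      simp only [hc, OneMemClass.coe_one, mul_one]
      exact H6.card_centralizer_eq_of_le k fun g hg => H6.mem_of_commute_fpf hKH' hfpf k.2 hk1 hg
    rw [e1, e2, e3]; ring
  have h3 := H6.sum_card_centralizer G
  have h4 := H6.sum_card_centralizer H
  rw [← Finset.add_sum_erase _ _ (Finset.mem_univ (1 : H))] at hsum h4
  have e2 : Nat.card (Subgroup.centralizer ({(1 : H)} : Set H)) = Nat.card H :=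
    H6.card_centralizer_one H
  rw [Finset.sum_congr rfl (fun h hh => h1 h (Finset.mem_erase.mp hh).1), ← Finset.mul_sum] at hsum
  rw [e2] at h4
  have hKpos : 0 < Nat.card K := Nat.card_pos
  apply Nat.eq_of_mul_eq_mul_left hKpos
  change ∑ g, c g = _ at h3
  rw [h3] at hsum
  rw [← hcard] at hsum h2
  set S := ∑ h ∈ Finset.univ.erase (1 : H), Nat.card (Subgroup.centralizer ({h} : Set H))
  nlinarith

end Cfsg.Agent.S0172
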