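import Cfsg.Statements.S0177
import Cfsg.Agent.H6.Degree
import Cfsg.Agent.H6.Brauer

set_option autoImplicit false
open Cfsg

namespace Cfsg.Agent.S0177

/-- The Artin induction Theorem: for a character χ of a finite group, |G| • χ is a ℤ-linear combination of functions induced from homomorphisms of cyclic subgroups into ℂˣ. -/
theorem result {G : Type*} [Group G] [Fintype G] (χ : G → ℂ) (hχ : Cfsg.IsCharacter G χ) : ∃ l : List ((A : Subgroup G) × ((A →* ℂˣ) × ℤ)), (∀ t ∈ l, IsCyclic t.1) ∧ (Nat.card G : ℂ) • χ = (l.map fun t => (t.2.2 : ℂ) • Cfsg.indFun t.1 (fun a => (t.2.1 a : ℂ))).sum := by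
  have h := H6.artin_induction (H6.char_gen hχ)
  obtain ⟨l, hl, e⟩ := H6.exists_list_of_mem_span (ι := (E : Subgroup G) × (E →* ℂˣ))
    (fun t => Cfsg.indFun t.1 (fun e => (t.2 e : ℂ))) (fun t => IsCyclic t.1)
    (f := (Nat.card G : ℂ) • χ) (by
      refine Submodule.span_mono ?_ h
      rintro _ ⟨E, lam, h1, rfl⟩
      exact ⟨⟨E, lam⟩, h1, rfl⟩)
  refine ⟨l.map fun t => ⟨t.1.1, t.1.2, t.2⟩, fun t ht => ?_, ?_⟩
  · obtain ⟨s, hs, rfl⟩ := List.mem_map.mp ht
    exact hl s hs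
  · rw [e, List.map_map]; rfl

end Cfsg.Agent.S0177
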