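import Cfsg.Statements.S0180
import Cfsg.Agent.H6.Degree

set_option autoImplicit false
open Cfsg

namespace Cfsg.Agent.S0180

/-- Every irreducible complex character of a finite group takes only rational values if and only if g is conjugate to g ^ m for every element g and every m coprime to the group order. -/
theorem result {G : Type*} [Group G] [Finite G] : (∀ χ : Cfsg.IrrCharacter G, ∀ g : G, ∃ q : ℚ, (χ : G → ℂ) g = (q : ℂ)) ↔ ∀ m : ℕ, m.Coprime (Nat.card G) → ∀ g : G, IsConj g (g ^ m) := by
  constructor
  · intro h m hm g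
    rw [H5.isConj_iff_forall_irr]
    intro χ
    exact (H5.Cfsg.IsGeneralizedCharacter.apply_pow_of_rat (H6.irr_gen χ.2) g
      (hm.coprime_dvd_right (orderOf_dvd_natCard g)) (h χ g)).symm
  · intro h χ g
    obtain ⟨n, hn⟩ := H5.exists_int_of_fixed
      (H5.Cfsg.IsCharacter.isIntegral_apply (H6.irr_char χ.2) g) fun σ => by
        obtain ⟨k, hk, e⟩ := H5.exists_pow_of_ringHom_char (G := G) σ.toRingHom
        exact (e _ (H6.irr_gen χ.2) g).trans (H6.cf_isConj (H6.irr_cf χ.2) (h k hk g)).symm
    exact ⟨n, by simp [hn]⟩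

end Cfsg.Agent.S0180
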