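import Cfsg.Statements.S0184
import Cfsg.Agent.H6.Degree
import Cfsg.Agent.H4.Basic

set_option autoImplicit false
open Cfsg

namespace Cfsg.Agent.S0184

/-- A finite p-group admits a faithful irreducible complex representation if and only if its centre is cyclic. -/
theorem result {G : Type*} [Group G] [Finite G] (p : ℕ) [Fact p.Prime] (hG : IsPGroup p G) : (∃ (n : ℕ) (ρ : Representation ℂ G (Fin n → ℂ)), ρ.IsIrreducible ∧ Function.Injective ρ) ↔ IsCyclic (Subgroup.center G) := by
  constructor
  · rintro ⟨n, ρ, hρ, hinj⟩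
    refine H6.isCyclic_of_le_charCenter (H6.isIrr_rep ρ)
      (H5.Cfsg.IsIrrCharacter.center_le_charCenter (H6.isIrr_rep ρ)) ?_
    rw [H5.charKer_character, (MonoidHom.ker_eq_bot_iff ρ).mpr hinj, inf_bot_eq]
  · intro hZ
    have := Fintype.ofFinite (Subgroup.center G)
    obtain ⟨f, hf⟩ := H6.exists_injective_hom (Subgroup.center G)
    obtain ⟨χ, hχ, h⟩ := H6.exists_irr_over_res _ (H5.isIrrCharacter_unitsHom f)
    obtain ⟨e, he, -, h2⟩ := H6.exists_res_eq_nat_smul hχ (H5.isIrrCharacter_unitsHom f)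
      (fun g => by
        ext z
        rw [H6.cj_apply]
        congr 3
        rw [Subgroup.mem_center_iff.mp z.2 g, mul_inv_cancel_right]) h
    have hn := H5.Cfsg.IsIrrCharacter.charKer_normal hχ
    have hk : H5.charKer χ = ⊥ := by
      by_contra hne
      obtain ⟨x, hx, hxZ, hxp⟩ := H4.exists_mem_center_orderOf_eq hG hne
      have h3 := congrFun h2 ⟨x, hxZ⟩
      have h4 := congrFun h2 1
      simp only [Pi.smul_apply, smul_eq_mul, OneMemClass.coe_one, map_one, Units.val_one] at h3 h4
      rw [H5.apply_eq_of_mem_charKer hx, h4, mul_right_inj' (by exact_mod_cast he.ne')] at h3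
      have h5 : (⟨x, hxZ⟩ : Subgroup.center G) = 1 := hf (by rw [map_one]; exact Units.ext h3.symm)
      have h6 : x = 1 := congrArg Subtype.val h5
      rw [h6, orderOf_one] at hxp
      exact (Fact.out : p.Prime).one_lt.ne hxp
    obtain ⟨n, ρ, hρ, rfl⟩ := hχ
    refine ⟨n, ρ, hρ, ?_⟩
    rwa [H5.charKer_character, MonoidHom.ker_eq_bot_iff] at hk

end Cfsg.Agent.S0184
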