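import Cfsg.Statements.S0186
import Cfsg.Agent.H6.Degree

set_option autoImplicit false
open Cfsg

namespace Cfsg.Agent.S0186

/-- Let G be a finite simple group of order n and p a prime dividing n. If G has more than n / p^2 conjugacy classes, then every Sylow p-subgroup of G is abelian. -/
theorem result {G : Type*} [Group G] [Finite G] [IsSimpleGroup G] (p : ℕ) [Fact p.Prime] (hp : p ∣ Nat.card G) (hmany : Nat.card G < p ^ 2 * Nat.card (ConjClasses G)) (P : Sylow p G) (a b : G) (ha : a ∈ P) (hb : b ∈ P) : a * b = b * a := by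
  classical
  have hpp : p.Prime := Fact.out
  by_cases h2 : p ^ 2 ∣ Nat.card G
  · have : ∃ χ : G → ℂ, Cfsg.IsIrrCharacter G χ ∧ χ ≠ (fun _ => 1) ∧ ∃ n : ℕ, χ 1 = n ∧ n < p := by
      by_contra! h
      choose d hd0 hd using fun χ : Cfsg.IrrCharacter G => H6.irr_apply_one χ.2
      have h1 := H5.sum_irr_one_sq G
      simp only [hd] at h1
      have h3 : ∑ χ, d χ ^ 2 = Nat.card G := by exact_mod_cast h1
      rw [← Finset.add_sum_erase _ _ (Finset.mem_univ (H5.irrOne G))] at h3
      have h4 : (Finset.univ.erase (H5.irrOne G)).card • p ^ 2 ≤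
          ∑ χ ∈ Finset.univ.erase (H5.irrOne G), d χ ^ 2 :=
        Finset.card_nsmul_le_sum _ _ _ fun χ hχ => Nat.pow_le_pow_left
          (h χ χ.2 (fun e => (Finset.mem_erase.mp hχ).1 (Subtype.ext e)) _ (hd χ)) 2
      have h5 := Finset.card_erase_add_one (Finset.mem_univ (H5.irrOne G))
      rw [Finset.card_univ, ← Nat.card_eq_fintype_card, H5.card_irr] at h5
      obtain ⟨k, hk⟩ := h2
      rw [← h5, hk] at hmany
      rw [hk] at h3
      have h6 := hd0 (H5.irrOne G)
      rw [smul_eq_mul, mul_comm] at h4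
      have h7 := Nat.lt_of_mul_lt_mul_left hmany
      have h8 : p ^ 2 * (Finset.univ.erase (H5.irrOne G)).card < p ^ 2 * k := by
        have := pow_pos h6 2
        omega
      have h9 := Nat.lt_of_mul_lt_mul_left h8
      omega
    obtain ⟨χ, hχ, h1, n, hn, hnp⟩ := this
    have hk := H5.Cfsg.IsIrrCharacter.charKer_eq_bot_of_simple hχ h1
    have h3 := H6.commutator_le_charKer_of_degree_lt (H6.char_res (H6.irr_char hχ) (P : Subgroup G))
      (n := n) hn fun q hq hqP => by
        obtain ⟨k, hk⟩ := P.isPGroup'.exists_card_eq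
        rw [hk] at hqP
        rwa [(Nat.prime_dvd_prime_iff_eq hq hpp).mp (hq.dvd_of_dvd_pow hqP)]
    have := H6.comm_of_commutator_le_bot (G := (P : Subgroup G)) (fun x hx => by
      have := H6.charKer_res_le (H6.irr_char hχ) _ x (h3 hx)
      rw [hk] at this
      exact Subtype.ext this) ⟨a, ha⟩ ⟨b, hb⟩
    exact congrArg Subtype.val this
  · obtain ⟨k, hk⟩ := P.isPGroup'.exists_card_eq
    have h1 : k ≤ 1 := by
      by_contra! h
      exact h2 ((pow_dvd_pow p h).trans (hk ▸ (P : Subgroup G).card_subgroup_dvd_card))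
    have : IsCyclic (P : Subgroup G) := isCyclic_of_card_dvd_prime (p := p) (by
      rw [hk]; interval_cases k <;> simp)
    exact congrArg Subtype.val (this.commGroup.mul_comm ⟨a, ha⟩ ⟨b, hb⟩)

end Cfsg.Agent.S0186
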