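import Cfsg.Statements.S0191
import Cfsg.Agent.H5.Integral
-- import your own Cfsg.Agent.* helpers here

set_option autoImplicit false
open Cfsg

namespace Cfsg.Agent.S0191
open H5


/-- An irreducible complex representation of a finite group of degree greater than 1 has a character that vanishes somewhere. -/
theorem result {G : Type*} [Group G] [Finite G] {V : Type*} [AddCommGroup V] [Module ℂ V] [FiniteDimensional ℂ V] (ρ : Representation ℂ G V) [ρ.IsIrreducible] (hdeg : 1 < Module.finrank ℂ V) : ∃ g : G, ρ.character g = 0 := by
  refine (isIrrCharacter_character ρ).exists_eq_zero ?_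
  rw [ρ.char_one]
  exact_mod_cast hdeg.ne'

end Cfsg.Agent.S0191
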