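import Cfsg.Statements.S0192
import Cfsg.Agent.H5.RepEquiv
-- import your own Cfsg.Agent.* helpers here

set_option autoImplicit false
open Cfsg

namespace Cfsg.Agent.S0192
open H5


/-- Brauer's generation criterion. Let G be a finite simple group, H₁ and H₂ subgroups, and χ a non-principal irreducible character. If the multiplicity of the principal character in χ restricted to H₁ ⊓ H₂ is less than the sum of the corresponding multiplicities for H₁ and H₂, then H₁ and H₂ do not generate G. -/
theorem result {G : Type*} [Group G] [Fintype G] [IsSimpleGroup G] (H₁ H₂ : Subgroup G) [Fintype H₁] [Fintype H₂] [Fintype ↥(H₁ ⊓ H₂)] (χ : G → ℂ) (hχ : Cfsg.IsIrrCharacter G χ) (hχ1 : χ ≠ fun _ => 1) (hlt : (Cfsg.classInner (fun x : ↥(H₁ ⊓ H₂) => χ x) (fun _ => 1)).re < (Cfsg.classInner (fun x : H₁ => χ x) (fun _ => 1)).re + (Cfsg.classInner (fun x : H₂ => χ x) (fun _ => 1)).re) : H₁ ⊔ H₂ ≠ ⊤ := by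
  intro htop
  haveI : Fintype (⊤ : Subgroup G) := Fintype.ofFinite _
  have h1 := hχ.isCharacter.fixed_add_le H₁ H₂ (H₁ ⊓ H₂) ⊤ inf_le_left inf_le_right htop.ge
  have h2 : classInner (fun x : (⊤ : Subgroup G) => χ x) (fun _ => 1) = 0 := by
    rw [← hχ.classInner_one hχ1]
    exact classInner_comp_equiv Subgroup.topEquiv χ (fun _ => 1)
  rw [h2] at h1
  simp only [Complex.zero_re, add_zero] at h1
  linarith

end Cfsg.Agent.S0192
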