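import Cfsg.Statements.S0194
import Cfsg.Agent.H6.BrauerPerm

set_option autoImplicit false
open scoped ComplexConjugate
open Cfsg

namespace Cfsg.Agent.S0194

/-- Let G have odd order, H be a normal subgroup and θ a non-principal irreducible character of H. Then the function induced from θ is orthogonal to its complex conjugate. -/
theorem result {G : Type*} [Group G] [Fintype G] (hodd : Odd (Nat.card G)) (H : Subgroup G) [H.Normal] (θ : H → ℂ) (hθ : Cfsg.IsIrrCharacter H θ) (hθ1 : θ ≠ fun _ => 1) : Cfsg.classInner (fun g => conj (Cfsg.indFun H θ g)) (Cfsg.indFun H θ) = 0 := by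
  by_contra hne
  have h1 : (fun g => conj (Cfsg.indFun H θ g)) = Cfsg.indFun H (star θ) := by
    rw [H6.indFun_star]; rfl
  rw [h1, H6.inner_eq_zero_comm] at hne
  obtain ⟨g, hg⟩ := H6.exists_cj_of_inner_indFun_ne_zero hθ (H6.irr_star hθ) hne
  have h2 : g ^ 2 ∈ H6.inertia θ := by
    rw [H6.mem_inertia, pow_two, H6.cj_mul, ← hg, H6.cj_star, ← hg, star_star]
  obtain ⟨k, hk⟩ := hodd
  have h3 : g = (g ^ 2) ^ (k + 1) := by
    rw [← pow_mul, show 2 * (k + 1) = Nat.card G + 1 by omega, pow_succ, pow_card_eq_one', one_mul]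
  have h4 : g ∈ H6.inertia θ := h3 ▸ Subgroup.pow_mem _ h2 _
  rw [H6.mem_inertia.mp h4] at hg
  exact hθ1 (H6.eq_one_of_star_eq_of_odd
    (Odd.of_dvd_nat ⟨k, hk⟩ H.card_subgroup_dvd_card) hθ hg)

end Cfsg.Agent.S0194
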