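import Cfsg.Statements.S0202
import Cfsg.Agent.H10.Four
import Cfsg.Agent.H10.Syl

set_option autoImplicit false
open Cfsg

namespace Cfsg.Agent.S0202

open H10 H28 Subgroup Cfsg

theorem key {G : Type*} [Group G] [Finite G] (P : Sylow 2 G) (hP : IsKleinFour (P : Subgroup G)) :
    (ncls G 2 = 1 ∧ ¬ HasNormalPComplement 2 G) ∨ (ncls G 2 = 3 ∧ HasNormalPComplement 2 G) := by
  obtain ⟨a, ha, b, hb, ha1, hb1, hab⟩ := kf_exists hP
  by_cases h : ∃ g ∈ 𝐍 (P : Subgroup G), g ∉ 𝐂 (P : Subgroup G) ∧ (orderOf g).Coprime 2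
  · obtain ⟨g, hg, hC, hc⟩ := h
    refine Or.inl ⟨ncls_one (kf_orderOf hP ha ha1) fun t ht => ?_, fun h => ?_⟩
    · obtain ⟨k, hk⟩ := exists_conj_mem_sylow_two P ht
      exact (kf_odd_isConj hP hg hc hC ha hk ha1
        (by simpa using ne_one_of_orderOf_two ht)).trans (isConj_conj k t).symm
    · exact hC (H3.mem_centralizer_of_hasNPC h P.isPGroup' hg hc)
  · push Not at h
    have hfus : ∀ x ∈ (P : Subgroup G), ∀ g : G, g * x * g⁻¹ ∈ (P : Subgroup G) →
        x = g * x * g⁻¹ := by
      intro x hx g hg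
      refine fusion_master P (fun x y => x = y) (fun _ _ _ => Eq.trans) ?_ ?_ hx hg
      · intro s hs x hx
        rw [kf_comm hP hs hx, mul_inv_cancel_right]
      · intro T hT hc _ g hg hco x hx
        have : T = P := le_antisymm hT fun y hy =>
          hc ⟨hy, centralizer_anti hT (kf_le_centralizer hP hy)⟩
        subst this
        have h1 : g ∈ 𝐂 (P : Subgroup G) := by
          by_contra h1; exact h g hg h1 hco
        rw [← mem_centralizer'.1 h1 x hx, mul_inv_cancel_right]
    have hnc : ∀ x ∈ (P : Subgroup G), ∀ y ∈ (P : Subgroup G), x ≠ y → ¬ IsConj x y := by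
      intro x hx y hy hxy hc
      obtain ⟨g, rfl⟩ := isConj_iff.1 hc
      exact hxy (hfus x hx g hy)
    have hab' := mul_mem ha hb
    refine Or.inr ⟨ncls_three (kf_orderOf hP ha ha1) (kf_orderOf hP hb hb1)
      (kf_orderOf hP hab' (kf_mul_ne_one hP hb hab)) (hnc _ ha _ hb hab)
      (hnc _ ha _ hab' (by simpa using hb1)) (hnc _ hb _ hab' (by simpa using ha1)) fun t ht => ?_,
      H3.hasNPC_of_control P fun x hx g hg => ⟨1, one_mem _, by simpa using hfus x hx g hg⟩⟩
    obtain ⟨k, hk⟩ := exists_conj_mem_sylow_two P ht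
    have hc := (isConj_conj k t).symm
    rcases (kf_mem_iff hP ha hb ha1 hb1 hab).1 hk with h | h | h | h
    · exact absurd (by simpa using h) (ne_one_of_orderOf_two ht)
    · exact Or.inl (h ▸ hc)
    · exact Or.inr (Or.inl (h ▸ hc))
    · exact Or.inr (Or.inr (h ▸ hc))

/-- If a Sylow 2-subgroup of a finite group is a Klein four-group, the group has one or three conjugacy classes of involutions. -/
theorem result {G : Type*} [Group G] [Finite G] (P : Sylow 2 G) (hP : IsKleinFour (P : Subgroup G)) : Nat.card {C : ConjClasses G // ∃ t : G, orderOf t = 2 ∧ ConjClasses.mk t = C} = 1 ∨ Nat.card {C : ConjClasses G // ∃ t : G, orderOf t = 2 ∧ ConjClasses.mk t = C} = 3 := by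
  rcases key P hP with h | h
  · exact Or.inl h.1
  · exact Or.inr h.1

end Cfsg.Agent.S0202
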