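import Cfsg.Statements.S0207
import Cfsg.Agent.H10.Dihedral

set_option autoImplicit false
open Cfsg

namespace Cfsg.Agent.S0207

/-- If x, y are distinct involutions, every element of the subgroup they generate that lies outside the cyclic subgroup generated by xy is an involution. -/
theorem result {G : Type*} [Group G] [Finite G] (x y : G) (hx : orderOf x = 2) (hy : orderOf y = 2) (hxy : x ≠ y) (d : G) (hd : d ∈ Subgroup.closure ({x, y} : Set G)) (hd' : d ∉ Subgroup.zpowers (x * y)) : orderOf d = 2 := by
  have hx2 := H10.mul_self_of_orderOf_two hx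
  have hy2 := H10.mul_self_of_orderOf_two hy
  obtain ⟨k, rfl | rfl⟩ := (H10.mem_closure_invols hx2 hy2).1 hd
  · exact absurd ⟨k, rfl⟩ hd'
  · refine H10.orderOf_two_of (H10.mul_zpow_mul_self hx2 (H10.inverts_left hx2 hy2) k) ?_
    intro h
    exact hd' (h ▸ Subgroup.one_mem _)

end Cfsg.Agent.S0207
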