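import Cfsg.Statements.S0210
import Cfsg.Agent.H10.Dihedral

set_option autoImplicit false
open Cfsg

namespace Cfsg.Agent.S0210

/-- If x, y are involutions whose product has even order, no element of the subgroup generated by x and y conjugates x to y. -/
theorem result {G : Type*} [Group G] [Finite G] (x y : G) (hx : orderOf x = 2) (hy : orderOf y = 2) (heven : Even (orderOf (x * y))) (d : G) (hd : d ∈ Subgroup.closure ({x, y} : Set G)) : d * x * d⁻¹ ≠ y := by
  have hx2 := H10.mul_self_of_orderOf_two hx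
  have hy2 := H10.mul_self_of_orderOf_two hy
  have hi := H10.inverts_left hx2 hy2
  have hy' : y = x * (x * y) ^ (1 : ℤ) := by rw [zpow_one, ← mul_assoc, hx2, one_mul]
  have key : ∀ k : ℤ, (x * y) ^ (2 * k) ≠ (x * y) ^ (1 : ℤ) := by
    intro k hk
    rw [zpow_eq_zpow_iff_modEq] at hk
    have h2 := hk.of_dvd (show (2 : ℤ) ∣ (orderOf (x * y) : ℤ) by exact_mod_cast heven.two_dvd)
    have h3 := Int.modEq_iff_dvd.1 h2
    omega
  intro h
  obtain ⟨k, rfl | rfl⟩ := (H10.mem_closure_invols hx2 hy2).1 hd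
  · rw [H10.zpow_conj_of_inverts hi] at h
    have h' := h.trans hy'
    rw [mul_right_inj] at h'
    exact key (-k) (by rw [← h']; congr 1; ring)
  · have h1 : x * (x * y) ^ k * x * (x * (x * y) ^ k)⁻¹
        = x * ((x * y) ^ k * x * ((x * y) ^ k)⁻¹) * x⁻¹ := by group
    rw [h1, H10.zpow_conj_of_inverts hi, mul_assoc x (x * _), mul_assoc x _ x⁻¹,
      ← mul_assoc x x, ← mul_assoc, mul_assoc x x, mul_assoc x, H10.conj_zpow_of_inverts hi] at h
    have h' := h.trans hy'
    rw [mul_right_inj] at h'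
    exact key k (by rw [← h']; congr 1; ring)

end Cfsg.Agent.S0210
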