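import Cfsg.Statements.S0211
import Cfsg.Agent.H10.Dihedral

set_option autoImplicit false
open Cfsg

namespace Cfsg.Agent.S0211

/-- Let x, y be involutions with xy of even order n and z = (xy)^(n/2). Then xz is conjugate to x by an element of the subgroup generated by x, y if and only if 4 divides n. -/
theorem result {G : Type*} [Group G] [Finite G] (x y : G) (hx : orderOf x = 2) (hy : orderOf y = 2) (heven : Even (orderOf (x * y))) : (∃ d ∈ Subgroup.closure ({x, y} : Set G), d * x * d⁻¹ = x * (x * y) ^ (orderOf (x * y) / 2)) ↔ 4 ∣ orderOf (x * y) := by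
  have hx2 := H10.mul_self_of_orderOf_two hx
  have hy2 := H10.mul_self_of_orderOf_two hy
  have hi := H10.inverts_left hx2 hy2
  obtain ⟨m, hm⟩ := heven
  have hm2 : orderOf (x * y) / 2 = m := by omega
  rw [hm2]
  have key : ∀ k : ℤ, (x * y) ^ (2 * k) = (x * y) ^ m → 4 ∣ orderOf (x * y) := by
    intro k hk
    rw [← zpow_natCast, zpow_eq_zpow_iff_modEq, hm] at hk
    have h2 := hk.of_dvd (show (2 : ℤ) ∣ ((m + m : ℕ) : ℤ) by push_cast; omega)
    have h3 := Int.modEq_iff_dvd.1 h2
    omega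
  constructor
  · rintro ⟨d, hd, h⟩
    obtain ⟨k, rfl | rfl⟩ := (H10.mem_closure_invols hx2 hy2).1 hd
    · rw [H10.zpow_conj_of_inverts hi, mul_right_inj] at h
      exact key (-k) (by rw [← h]; congr 1; ring)
    · have h1 : x * (x * y) ^ k * x * (x * (x * y) ^ k)⁻¹
          = x * (x * (x * y) ^ (-(2 * k)) * x⁻¹) := by
        rw [← H10.zpow_conj_of_inverts hi]; group
      rw [h1, H10.conj_zpow_of_inverts hi, mul_right_inj] at h
      exact key k (by rw [← h]; congr 1; ring)
  · rintro ⟨c, hc⟩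
    refine ⟨(x * y) ^ (-(c : ℤ)), (H10.mem_closure_invols hx2 hy2).2 ⟨_, Or.inl rfl⟩, ?_⟩
    rw [H10.zpow_conj_of_inverts hi, ← zpow_natCast]
    congr 2
    omega

end Cfsg.Agent.S0211
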