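import Cfsg.Statements.S0233
import Cfsg.Agent.H10.Count
import Mathlib.Tactic.Linarith

set_option autoImplicit false
open Cfsg

namespace Cfsg.Agent.S0233

/-- Let G be a finite group of even order with exactly n involutions whose centre has odd order, and put a = |G|/n. Then G has a proper subgroup H with |G : H| = 2 or |G : H| < a(a+1)/2; over ℕ the latter reads 2·|G:H|·n² < |G|·(|G| + n). -/
theorem result {G : Type*} [Group G] [Finite G] (heven : Even (Nat.card G)) (hZ : Odd (Nat.card (Subgroup.center G))) : ∃ H : Subgroup G, H ≠ ⊤ ∧ (H.index = 2 ∨ 2 * H.index * (Nat.card {t : G // orderOf t = 2}) ^ 2 < Nat.card G * (Nat.card G + Nat.card {t : G // orderOf t = 2})) := by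
  classical
  have := Fintype.ofFinite G
  obtain ⟨t0, ht0⟩ := H10.exists_invol_of_even heven
  have hnt : (⊥ : Subgroup G) ≠ ⊤ := by
    intro h
    have : t0 ∈ (⊥ : Subgroup G) := h ▸ Subgroup.mem_top _
    exact H10.ne_one_of_orderOf_two ht0 this
  obtain ⟨H, hH, hmin⟩ : ∃ H : Subgroup G, H ≠ ⊤ ∧ ∀ K : Subgroup G, K ≠ ⊤ → H.index ≤ K.index := by
    obtain ⟨H, hH, hmin⟩ := (measure (fun K : Subgroup G => K.index)).wf.has_min {K | K ≠ ⊤} ⟨⊥, hnt⟩
    exact ⟨H, hH, fun K hK => not_lt.1 (hmin K hK)⟩
  by_cases h2 : ∃ K : Subgroup G, K.index = 2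
  · obtain ⟨K, hK⟩ := h2
    exact ⟨K, by rintro rfl; simp at hK, Or.inl hK⟩
  refine ⟨H, hH, Or.inr ?_⟩
  set u := H.index with hu
  set g := Nat.card G with hg
  set n := Nat.card {t : G // orderOf t = 2} with hn
  have hgpos : 0 < g := Nat.card_pos
  -- bound for involutions
  have hinv : ∀ x : G, orderOf x = 2 → 2 * u * H10.pairCount x + 4 * u ≤ 2 * g := by
    intro x hx
    have h1 := H10.pairCount_add_two_le hx
    have h3 : Subgroup.centralizer ({x} : Set G) ≠ ⊤ := by
      intro h
      refine H10.odd_card_iff.1 hZ x (Subgroup.mem_center_iff.2 fun y => ?_) hx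
      exact H10.mem_centralizer_singleton.1 (h ▸ Subgroup.mem_top y)
    have h4 := hmin _ h3
    have h5 := (Subgroup.centralizer ({x} : Set G)).index_mul_card
    rw [← hg] at h5
    nlinarith
  have hoth : ∀ x : G, x * x ≠ 1 → 2 * u * H10.pairCount x ≤ g := by
    intro x hx
    by_cases hr : IsConj x x⁻¹
    · have h1 := H10.pairCount_le x
      obtain ⟨c, hc⟩ := isConj_iff.1 hr
      have hc' : c * x⁻¹ * c⁻¹ = x := by
        calc c * x⁻¹ * c⁻¹ = (c * x * c⁻¹)⁻¹ := by group
          _ = x := by rw [hc, inv_inv]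
      let E : Subgroup G :=
        { carrier := {y | y * x * y⁻¹ = x ∨ y * x * y⁻¹ = x⁻¹}
          one_mem' := Or.inl (by simp)
          mul_mem' := by
            intro a b ha hb
            have e1 : a * b * x * (a * b)⁻¹ = a * (b * x * b⁻¹) * a⁻¹ := by group
            have e2 : a * x⁻¹ * a⁻¹ = (a * x * a⁻¹)⁻¹ := by group
            simp only [Set.mem_ofPred_eq] at ha hb ⊢
            rw [e1]
            rcases hb with hb | hb <;> rw [hb]
            · exact ha
            · rw [e2]; rcases ha with ha | ha <;> rw [ha] <;> simp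
          inv_mem' := by
            intro a ha
            simp only [Set.mem_ofPred_eq] at ha ⊢
            rcases ha with ha | ha
            · left; nth_rewrite 1 [← ha]; group
            · right
              calc a⁻¹ * x * a⁻¹⁻¹ = (a⁻¹ * x⁻¹ * a)⁻¹ := by group
                _ = (a⁻¹ * (a * x * a⁻¹) * a)⁻¹ := by rw [ha]
                _ = x⁻¹ := by group }
      have hle : Subgroup.centralizer ({x} : Set G) ≤ E := fun y hy =>
        Or.inl (H10.mem_centralizer_singleton'.1 hy)
      have hne : x ≠ x⁻¹ := by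
        intro h; apply hx; nth_rewrite 1 [h]; simp
      have hrel : (Subgroup.centralizer ({x} : Set G)).relIndex E = 2 := by
        rw [Subgroup.relIndex, Subgroup.index_eq_two_iff']
        refine ⟨⟨c, Or.inr hc⟩, fun b => ?_⟩
        simp only [Subgroup.mem_subgroupOf, H10.mem_centralizer_singleton', Subgroup.coe_mul]
        have e1 : c * b.1 * x * (c * b.1)⁻¹ = c * (b.1 * x * b.1⁻¹) * c⁻¹ := by group
        rw [e1]
        rcases b.2 with hb | hb <;> rw [hb]
        · rw [hc]; exact Or.inr ⟨rfl, hne.symm⟩
        · rw [hc']; exact Or.inl ⟨rfl, hne.symm⟩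
      have hE : E ≠ ⊤ := by
        intro h
        rw [h, Subgroup.relIndex_top_right] at hrel
        exact h2 ⟨_, hrel⟩
      have h4 := hmin _ hE
      have h5 := (Subgroup.centralizer ({x} : Set G)).index_mul_card
      rw [← hg, ← Subgroup.relIndex_mul_index hle, hrel] at h5
      nlinarith
    · rw [H10.pairCount_eq_zero hr]; simp
  have hsum := H10.sum_pairCount (G := G)
  rw [← hn] at hsum
  have hI : (Finset.univ.filter fun x : G => orderOf x = 2).card = n := by
    rw [hn, Nat.card_eq_fintype_card, Fintype.card_subtype]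
  have hbound : ∀ x : G, 2 * u * H10.pairCount x + (if orderOf x = 2 then 4 * u else 0)
      + (if x = 1 then g else 0) ≤ g + (if orderOf x = 2 then g else 0)
        + (if x = 1 then 2 * u * n else 0) := by
    intro x
    by_cases h1 : x = 1
    · subst h1
      rw [H10.pairCount_one, ← hn]; simp; omega
    · by_cases h3 : orderOf x = 2
      · have := hinv x h3
        simp [h1, h3]; omega
      · have := hoth x (fun h => h3 (H10.orderOf_two_of h h1))
        simp [h1, h3]; omega
  have hs := Finset.sum_le_sum (s := Finset.univ) fun x _ => hbound x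
  simp only [Finset.sum_add_distrib, ← Finset.mul_sum, hsum, Finset.sum_ite_eq', Finset.mem_univ,
    if_true, ← Finset.sum_filter, Finset.sum_const, hI, smul_eq_mul, Finset.card_univ,
    ← Nat.card_eq_fintype_card, ← hg] at hs
  nlinarith

end Cfsg.Agent.S0233
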