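import Cfsg.Statements.S0212
import Cfsg.Agent.H10.Syl
import Cfsg.Agent.S0233

set_option autoImplicit false
open Cfsg

namespace Cfsg.Agent.S0212

/-- The Brauer–Fowler bound: if G is a finite simple group and t an involution of G whose centralizer has order n, then |G| ≤ (2n^2)!. -/
theorem result {G : Type*} [Group G] [Finite G] [IsSimpleGroup G] (t : G) (ht : orderOf t = 2) : Nat.card G ≤ Nat.factorial (2 * (Nat.card (Subgroup.centralizer ({t} : Set G))) ^ 2) := by
  have heven : Even (Nat.card G) := by
    rw [← Subgroup.card_top]; exact H10.even_card_of_mem ht (Subgroup.mem_top t)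
  set m := Nat.card (Subgroup.centralizer ({t} : Set G)) with hm
  have hm1 : 0 < m := Nat.card_pos
  have key : ∀ H : Subgroup G, H ≠ ⊤ → H.index ≤ 2 * m ^ 2 →
      Nat.card G ≤ Nat.factorial (2 * m ^ 2) := fun H hH h =>
    (Nat.le_of_dvd (Nat.factorial_pos _) (H10.card_dvd_factorial_index hH)).trans
      (Nat.factorial_le h)
  rcases IsSimpleGroup.eq_bot_or_eq_top_of_normal (Subgroup.center G) inferInstance with hZ | hZ
  · obtain ⟨H, hH, h | h⟩ := Cfsg.Agent.S0233.result heven (by rw [hZ]; simp)
    · exact key H hH (by rw [h]; nlinarith)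
    · have h4 := H10.card_isConj_mul_card_centralizer t
      have h5 : Nat.card {y : G // IsConj t y} ≤ Nat.card {t : G // orderOf t = 2} :=
        Nat.card_le_card_of_injective (fun y => ⟨y.1, (H10.orderOf_eq_of_isConj y.2).symm.trans ht⟩)
          (fun a b h => Subtype.ext (congrArg Subtype.val h :))
      have h6 : Nat.card {t : G // orderOf t = 2} ≤ Nat.card G :=
        Nat.card_le_card_of_injective _ Subtype.val_injective
      set n := Nat.card {t : G // orderOf t = 2}
      set g := Nat.card G
      have h8 : g ≤ n * m := h4 ▸ Nat.mul_le_mul_right _ h5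
      have h9 : H.index < m ^ 2 := by
        have : H.index * n ^ 2 < g * g := by nlinarith
        have h' : g * g ≤ (n * m) * (n * m) := Nat.mul_le_mul h8 h8
        by_contra hc
        have := Nat.mul_le_mul_right (n ^ 2) (not_lt.1 hc)
        nlinarith
      exact key H hH (by omega)
  · have h1 : Subgroup.centralizer ({t} : Set G) = ⊤ := by
      rw [eq_top_iff]
      intro g _
      have : t ∈ Subgroup.center G := hZ ▸ Subgroup.mem_top t
      exact H10.mem_centralizer_singleton.2 (Subgroup.mem_center_iff.1 this g)
    rw [h1, Subgroup.card_top] at hm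
    rw [← hm]
    exact (by nlinarith : m ≤ 2 * m ^ 2).trans (Nat.self_le_factorial _)

end Cfsg.Agent.S0212
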