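import Cfsg.Statements.S0218
import Cfsg.Agent.H4.TwoCyclic

set_option autoImplicit false
open Cfsg

namespace Cfsg.Agent.S0218

/-- The generalized quaternion group of order 2^(n+3) contains exactly one element of order 2. -/
theorem result (n : ℕ) : Nat.card {x : QuaternionGroup (2 ^ (n + 1)) // orderOf x = 2} = 1 := by
  obtain ⟨a, b, ha, hb, hab, hba, htop⟩ :=
    H4.exists_gens_of_quaternion (MulEquiv.refl (QuaternionGroup (2 ^ (n + 1))))
  rw [← pow_succ'] at ha
  have hz : orderOf (a ^ 2 ^ (n + 1)) = 2 := by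
    rw [H4.orderOf_pow_prime_pow ha (by omega)]; simp
  rw [Nat.card_eq_one_iff_exists]
  refine ⟨⟨_, hz⟩, ?_⟩
  rintro ⟨x, hx⟩
  apply Subtype.ext
  have hk := hab.trans (zpow_neg_one a).symm
  rcases H4.mem_sup_cases hk (hb ▸ Subgroup.npow_mem_zpowers a _) (htop ▸ Subgroup.mem_top x) with
    ⟨j, rfl⟩ | ⟨j, rfl⟩
  · have h1 := H4.mem_zpowers_of_pow_eq_one ha (Subgroup.zpow_mem_zpowers a j)
      (by have := pow_orderOf_eq_one (a ^ j); rwa [hx] at this)
    obtain ⟨k, hk⟩ := h1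
    simp only at hk ⊢
    rw [← hk] at hx ⊢
    have h2 : (a ^ 2 ^ (n + 1)) ^ 2 = 1 := by
      have := pow_orderOf_eq_one (a ^ 2 ^ (n + 1)); rwa [hz] at this
    rcases Int.even_or_odd k with ⟨t, rfl⟩ | ⟨t, rfl⟩
    · rw [← two_mul, zpow_mul, zpow_ofNat, h2, one_zpow, orderOf_one] at hx
      norm_num at hx
    · rw [zpow_add, zpow_mul, zpow_ofNat, h2, one_zpow, one_mul, zpow_one]
  · have h1 := pow_orderOf_eq_one (a ^ j * b)
    rw [hx, H4.zpow_mul_sq_of_conj hk, hb] at h1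
    simp only [add_neg_cancel, mul_zero, zpow_zero, one_mul] at h1
    rw [h1, orderOf_one] at hz
    norm_num at hz

end Cfsg.Agent.S0218
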