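import Cfsg.Statements.S0220
import Cfsg.Agent.H10.Syl

set_option autoImplicit false
open Cfsg

namespace Cfsg.Agent.S0220

/-- If x is an involution of a finite group G and a Sylow 2-subgroup of the centralizer of x is cyclic, then G has a subgroup of index 2; in particular G is not simple unless it has order 2. -/
theorem result {G : Type*} [Group G] [Finite G] (x : G) (hx : orderOf x = 2) (S : Sylow 2 ↥(Subgroup.centralizer ({x} : Set G))) (hS : IsCyclic (S : Subgroup ↥(Subgroup.centralizer ({x} : Set G)))) : ∃ H : Subgroup G, H.index = 2 := by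
  obtain ⟨T, hxT⟩ := H10.exists_sylow_mem_two hx
  have hS' := H10.isSylowIn_map_subtype S
  have hc : IsCyclic ((S : Subgroup ↥(Subgroup.centralizer ({x} : Set G))).map
      (Subgroup.centralizer ({x} : Set G)).subtype) :=
    (Subgroup.equivMapOfInjective _ _ (Subgroup.subtype_injective _)).isCyclic.1 hS
  have key : ∀ X : Subgroup G, IsPGroup 2 X → X ≤ Subgroup.centralizer ({x} : Set G) →
      IsCyclic X := by
    intro X hX hle
    obtain ⟨g, -, hg⟩ := hS'.exists_conj_le hX hle
    have h1 := Subgroup.isCyclic_of_le hg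
    exact (Subgroup.equivMapOfInjective X (MulAut.conj g).toMonoidHom
      (MulAut.conj g).injective).isCyclic.2 h1
  obtain ⟨z, hzT, hz, hzc⟩ := H10.exists_mem_center_of_ne_bot T.isPGroup' (by
    intro h
    have : x ∈ (⊥ : Subgroup G) := h ▸ hxT
    exact H10.ne_one_of_orderOf_two hx this)
  have h1 := key ((T : Subgroup G) ⊓ Subgroup.centralizer ({x} : Set G)) T.isPGroup'.to_inf_left
    inf_le_right
  have h2 : x = z := H10.invol_unique_of_isCyclic h1 ⟨hxT, H10.self_mem_centralizer x⟩
    ⟨hzT, H10.mem_centralizer_singleton.2 (hzc x hxT).symm⟩ hx hz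
  subst h2
  have h3 := key T T.isPGroup' fun s hs => H10.mem_centralizer_singleton.2 (hzc s hs)
  refine H10.exists_index_two_of_cyclic ?_ T h3
  rw [← Subgroup.card_top]
  exact H10.even_card_of_mem hx (Subgroup.mem_top x)

end Cfsg.Agent.S0220
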