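import Cfsg.Statements.S0230
import Cfsg.Agent.H10.Syl

set_option autoImplicit false
open Cfsg

namespace Cfsg.Agent.S0230

/-- Let G be a finite group with two non-conjugate involutions, and let t be an involution whose centralizer has maximal order among centralizers of involutions. Then |G| < |C_G(t)|^3. -/
theorem result {G : Type*} [Group G] [Finite G] (s t : G) (hs : orderOf s = 2) (ht : orderOf t = 2) (hnc : ¬ IsConj s t) (hmax : ∀ u : G, orderOf u = 2 → Nat.card (Subgroup.centralizer ({u} : Set G)) ≤ Nat.card (Subgroup.centralizer ({t} : Set G))) : Nat.card G < Nat.card (Subgroup.centralizer ({t} : Set G)) ^ 3 := by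
  classical
  have := Fintype.ofFinite G
  set m := Nat.card (Subgroup.centralizer ({t} : Set G)) with hm
  have hm1 : 0 < m := Nat.card_pos
  have key : ∀ u : G, orderOf u = 2 →
      (Finset.univ.filter fun z : G => orderOf z = 2 ∧ Commute z u).card + 1 ≤ m := by
    intro u hu
    have h1 := H10.pairCount_invol hu
    have h2 := H10.pairCount_add_two_le hu
    have h3 := hmax u hu
    rw [Nat.card_eq_fintype_card, Fintype.card_subtype] at h1
    omega
  have hsub : (Finset.univ.filter fun u : G => IsConj s u) ⊆
      (Finset.univ.filter fun z : G => orderOf z = 2 ∧ Commute z t).biUnion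
        fun z => Finset.univ.filter fun u : G => orderOf u = 2 ∧ Commute u z := by
    intro u hu
    simp only [Finset.mem_filter, Finset.mem_univ, true_and, Finset.mem_biUnion] at hu ⊢
    have hu2 : orderOf u = 2 := (H10.orderOf_eq_of_isConj hu).symm.trans hs
    have hev : Even (orderOf (u * t)) := by
      rw [← Nat.not_odd_iff_even]
      intro hodd
      exact hnc (hu.trans (H10.isConj_of_odd (H10.mul_self_of_orderOf_two hu2)
        (H10.mul_self_of_orderOf_two ht) hodd))
    obtain ⟨h1, h2, h3⟩ := H10.exists_central_invol_of_even (H10.mul_self_of_orderOf_two hu2)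
        (H10.mul_self_of_orderOf_two ht) (orderOf_pos _).ne' hev
    exact ⟨_, ⟨h1, h3⟩, hu2, h2.symm⟩
  have h1 := (Finset.card_le_card hsub).trans (Finset.card_biUnion_le_card_mul _ _ (m - 1)
    (fun z hz => by
      simp only [Finset.mem_filter, Finset.mem_univ, true_and] at hz
      have := key z hz.1
      omega))
  have h2 := key t ht
  have h3 := H10.card_isConj_mul_card_centralizer s
  rw [Nat.card_eq_fintype_card, Fintype.card_subtype] at h3
  have h4 := hmax s hs
  have h5 : (Finset.univ.filter fun u : G => IsConj s u).card < m ^ 2 := by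
    have h6 : (Finset.univ.filter fun z : G => orderOf z = 2 ∧ Commute z t).card ≤ m - 1 := by omega
    have h7 := h1.trans (Nat.mul_le_mul_right _ h6)
    obtain ⟨k, hk⟩ : ∃ k, m = k + 1 := ⟨m - 1, by omega⟩
    rw [hk] at h7 ⊢
    simp only [Nat.add_sub_cancel] at h7
    nlinarith
  rw [← h3, pow_succ _ 2]
  exact (Nat.mul_le_mul_left _ h4).trans_lt (Nat.mul_lt_mul_of_pos_right h5 hm1)

end Cfsg.Agent.S0230
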