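import Cfsg.Statements.S0232
import Cfsg.Agent.H10.Syl
import Cfsg.Agent.S0233

set_option autoImplicit false
open Cfsg

namespace Cfsg.Agent.S0232

/-- A finite group G of even order greater than 2 has a proper subgroup H with |G| < |H|^3. -/
theorem result {G : Type*} [Group G] [Finite G] (heven : Even (Nat.card G)) (hgt : 2 < Nat.card G) : ∃ H : Subgroup G, H ≠ ⊤ ∧ Nat.card G < (Nat.card H) ^ 3 := by
  induction' hn : Nat.card G using Nat.strong_induction_on with n ih generalizing G
  subst hn
  have idx2 : ∀ H : Subgroup G, H.index = 2 → H ≠ ⊤ ∧ Nat.card G < (Nat.card H) ^ 3 := by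
    intro H hH
    refine ⟨by rintro rfl; simp at hH, ?_⟩
    have := H.card_mul_index
    rw [hH] at this
    have h2 : 2 ≤ Nat.card H := by omega
    rw [← this]
    nlinarith [Nat.mul_le_mul h2 h2]
  by_cases hZ : Odd (Nat.card (Subgroup.center G))
  · obtain ⟨H, hH, h | h⟩ := Cfsg.Agent.S0233.result heven hZ
    · exact ⟨H, idx2 H h⟩
    · obtain ⟨t, ht⟩ := H10.exists_invol_of_even heven
      have h3 : Subgroup.centralizer ({t} : Set G) ≠ ⊤ := by
        intro h
        refine H10.odd_card_iff.1 hZ t (Subgroup.mem_center_iff.2 fun y => ?_) ht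
        exact H10.mem_centralizer_singleton.1 (h ▸ Subgroup.mem_top y)
      have h4 := H10.card_isConj_mul_card_centralizer t
      have h5 : Nat.card {y : G // IsConj t y} ≤ Nat.card {t : G // orderOf t = 2} :=
        Nat.card_le_card_of_injective (fun y => ⟨y.1, (H10.orderOf_eq_of_isConj y.2).symm.trans ht⟩)
          (fun a b h => Subtype.ext (congrArg Subtype.val h :))
      have h6 : Nat.card {t : G // orderOf t = 2} ≤ Nat.card G :=
        Nat.card_le_card_of_injective _ Subtype.val_injective
      have h7 := H.index_mul_card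
      set m := Nat.card (Subgroup.centralizer ({t} : Set G))
      set n := Nat.card {t : G // orderOf t = 2}
      set g := Nat.card G
      have h8 : g ≤ n * m := h4 ▸ Nat.mul_le_mul_right _ h5
      have h9 : H.index < m ^ 2 := by
        have : H.index * n ^ 2 < g * g := by nlinarith
        have h' : g * g ≤ (n * m) * (n * m) := Nat.mul_le_mul h8 h8
        by_contra hc
        have := Nat.mul_le_mul_right (n ^ 2) (not_lt.1 hc)
        nlinarith
      have hpos : 0 < Nat.card H := Nat.card_pos
      have h10 : g < m ^ 2 * Nat.card H := by rw [← h7]; exact Nat.mul_lt_mul_of_pos_right h9 hpos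
      rcases le_total m (Nat.card H) with h11 | h11
      · refine ⟨H, hH, h10.trans_le ?_⟩
        rw [pow_succ _ 2]
        exact Nat.mul_le_mul_right _ (Nat.pow_le_pow_left h11 2)
      · refine ⟨_, h3, h10.trans_le ?_⟩
        rw [pow_succ _ 2]
        exact Nat.mul_le_mul_left _ h11
  · rw [Nat.not_odd_iff_even] at hZ
    obtain ⟨z, hzc, hz⟩ := H10.exists_invol_mem_of_even hZ
    have : (Subgroup.zpowers z).Normal :=
      ⟨fun a ha g => by
        have : a ∈ Subgroup.center G := (Subgroup.zpowers_le.2 hzc) ha
        rw [Subgroup.mem_center_iff.1 this g]; simpa using ha⟩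
    have hc := Subgroup.card_eq_card_quotient_mul_card_subgroup (Subgroup.zpowers z)
    rw [Nat.card_zpowers, hz] at hc
    by_cases he : Even (Nat.card (G ⧸ Subgroup.zpowers z))
    · by_cases h2 : 2 < Nat.card (G ⧸ Subgroup.zpowers z)
      · obtain ⟨K, hK, hK'⟩ := ih _ (by omega) he h2 rfl
        refine ⟨K.comap (QuotientGroup.mk' _), ?_, ?_⟩
        · intro h
          apply hK
          rw [← Subgroup.map_comap_eq_self_of_surjective (QuotientGroup.mk'_surjective _) K, h]
          exact Subgroup.map_top_of_surjective _ (QuotientGroup.mk'_surjective _)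
        · rw [H1.card_comap_mk', Nat.card_zpowers, hz, hc, mul_pow]; omega
      · exact ⟨_, idx2 (Subgroup.zpowers z) (by rw [Subgroup.index_eq_card]; omega)⟩
    · obtain ⟨T, hT⟩ := H10.exists_sylow_mem_two hz
      have h1 : H10.IsSylowIn 2 (Subgroup.zpowers z) ⊤ :=
        H10.isSylowIn_of_not_dvd le_top (H10.isPGroup_two_zpowers hz) (by
          rw [Subgroup.relIndex_top_right, Subgroup.index_eq_card, ← even_iff_two_dvd]; exact he)
      obtain ⟨S, hS⟩ := h1.exists_sylow_top
      obtain ⟨H, hH⟩ := H10.exists_index_two_of_cyclic heven S (by rw [hS]; infer_instance)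
      exact ⟨H, idx2 H hH⟩

end Cfsg.Agent.S0232
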