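import Cfsg.Statements.S0234
import Cfsg.Agent.H10.Syl
import Cfsg.Agent.S0233

set_option autoImplicit false
open Cfsg

namespace Cfsg.Agent.S0234

theorem count : (Finset.univ.filter fun σ : Equiv.Perm (Fin 5) =>
    σ * σ = 1 ∧ σ ≠ 1 ∧ Equiv.Perm.sign σ = 1).card = 15 := by decide +kernel

/-- In a finite simple group G of even order greater than 2, the number n of involutions satisfies 3n < |G|. -/
theorem result {G : Type*} [Group G] [Finite G] [IsSimpleGroup G] (heven : Even (Nat.card G)) (hgt : 2 < Nat.card G) : 3 * Nat.card {t : G // orderOf t = 2} < Nat.card G := by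
  classical
  have no2 : ∀ H : Subgroup G, H.index ≠ 2 := by
    intro H hH
    have := H10.card_dvd_factorial_index (H := H) (by rintro rfl; simp at hH)
    rw [hH] at this
    exact absurd (Nat.le_of_dvd (by decide) this) (by simpa using hgt)
  have hZ : Subgroup.center G = ⊥ := by
    rcases IsSimpleGroup.eq_bot_or_eq_top_of_normal (Subgroup.center G) inferInstance with hZ | hZ
    · exact hZ
    · exfalso
      have hc : IsMulCommutative G := Subgroup.center_eq_top_iff.1 hZ
      let _ : CommGroup G := { (inferInstance : Group G) with mul_comm := hc.is_comm.comm }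
      have := IsSimpleGroup.prime_card (α := G)
      exact absurd (this.eq_two_or_odd'.resolve_left (by omega)) (Nat.not_odd_iff_even.2 heven)
  obtain ⟨H, hH, h | h⟩ := Cfsg.Agent.S0233.result heven (by rw [hZ]; simp)
  · exact absurd h (no2 H)
  by_contra hcon
  rw [not_lt] at hcon
  set n := Nat.card {t : G // orderOf t = 2} with hn
  have hu : H.index ≤ 5 := by
    by_contra hc
    have h6 : 6 ≤ H.index := by omega
    have := Nat.mul_le_mul_right (n ^ 2) h6
    nlinarith
  have h1 : H.normalCore = ⊥ := by
    rcases IsSimpleGroup.eq_bot_or_eq_top_of_normal H.normalCore inferInstance with h | h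
    · exact h
    · exact absurd (top_le_iff.1 (h ▸ H.normalCore_le)) hH
  rw [Subgroup.normalCore_eq_ker, MonoidHom.ker_eq_bot_iff] at h1
  have := Fintype.ofFinite (G ⧸ H)
  obtain ⟨e⟩ : Nonempty ((G ⧸ H) ↪ Fin 5) := by
    rw [Function.Embedding.nonempty_iff_card_le, ← Nat.card_eq_fintype_card, Fintype.card_fin]
    exact hu
  let φ : G →* Equiv.Perm (Fin 5) :=
    (Equiv.Perm.viaEmbeddingHom e).comp (MulAction.toPermHom G (G ⧸ H))
  have hφ : Function.Injective φ := (Equiv.Perm.viaEmbeddingHom_injective e).comp h1
  have hs : ∀ g, Equiv.Perm.sign (φ g) = 1 := by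
    rcases IsSimpleGroup.eq_bot_or_eq_top_of_normal (Equiv.Perm.sign.comp φ).ker inferInstance
      with h | h
    · rw [MonoidHom.ker_eq_bot_iff] at h
      have := Nat.card_le_card_of_injective _ h
      simp at this
      omega
    · intro g
      have : g ∈ (Equiv.Perm.sign.comp φ).ker := h ▸ Subgroup.mem_top g
      exact this
  have hn15 : n ≤ 15 := by
    rw [← count, ← Fintype.card_subtype, ← Nat.card_eq_fintype_card]
    refine Nat.card_le_card_of_injective (fun t => ⟨φ t.1, ?_, ?_, hs _⟩) ?_
    · rw [← map_mul, H10.mul_self_of_orderOf_two t.2, map_one]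
    · intro h; exact H10.ne_one_of_orderOf_two t.2 (hφ (by rw [h, map_one]))
    · intro a b h; exact Subtype.ext (hφ (congrArg Subtype.val h :))
  have h60 : Nat.card G ∣ 60 := by
    have := Subgroup.card_dvd_of_injective (φ.codRestrict (alternatingGroup (Fin 5))
      (fun g => Equiv.Perm.mem_alternatingGroup.2 (hs g)))
      (fun a b h => hφ (congrArg Subtype.val h :))
    rwa [nat_card_alternatingGroup, Nat.card_fin] at this
  have sub : ∀ p k : ℕ, p.Prime → p ^ k ∣ Nat.card G → p ^ k < Nat.card G →
      Nat.card G ∣ (Nat.card G / p ^ k).factorial := by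
    intro p k hp hd hlt
    have : Fact p.Prime := ⟨hp⟩
    obtain ⟨K, hK⟩ := Sylow.exists_subgroup_card_pow_prime p hd
    have h3 := H10.card_dvd_factorial_index (H := K) (by rintro rfl; simp at hK; omega)
    have h4 := K.card_mul_index
    rw [hK] at h4
    rwa [← h4, Nat.mul_div_cancel_left _ (pow_pos hp.pos _), h4]
  have h4 : 4 ∣ Nat.card G := by
    by_contra h4
    obtain ⟨T⟩ : Nonempty (Sylow 2 G) := inferInstance
    obtain ⟨k, hk⟩ := T.isPGroup'.exists_card_eq
    have hd := Subgroup.card_subgroup_dvd_card (T : Subgroup G)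
    have hk1 : k ≤ 1 := by
      by_contra hk2
      exact h4 ((pow_dvd_pow 2 (show 2 ≤ k by omega)).trans (hk ▸ hd))
    obtain ⟨K, hK⟩ := H10.exists_index_two_of_cyclic heven T
      (isCyclic_of_card_dvd_prime (p := 2) (by rw [hk]; interval_cases k <;> norm_num))
    exact no2 K hK
  have s1 := sub 2 1 (by norm_num)
  have s2 := sub 2 2 (by norm_num)
  have s3 := sub 5 1 (by norm_num)
  have h45 : Nat.card G ≤ 45 := by omega
  generalize Nat.card G = g at *
  interval_cases g <;> simp_all [Nat.factorial]

end Cfsg.Agent.S0234
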