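import Cfsg.Statements.S0239
import Mathlib

set_option autoImplicit false
open Cfsg

namespace Cfsg.Agent.S0239

/-- If some nontrivial element x of a finite group G is conjugate to x⁻¹, then |G| is even. -/
theorem result {G : Type*} [Group G] [Finite G] (x : G) (hx : x ≠ 1) (hreal : IsConj x x⁻¹) : Even (Nat.card G) := by
  by_contra hodd
  rw [Nat.not_even_iff_odd] at hodd
  obtain ⟨c, hc⟩ := isConj_iff.1 hreal
  have h2 : c ^ 2 * x * (c ^ 2)⁻¹ = x := by
    have : c * x⁻¹ * c⁻¹ = x := by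
      have h := congrArg (·⁻¹) hc
      simp only [mul_inv_rev, inv_inv] at h
      rw [← mul_assoc] at h; exact h
    calc c ^ 2 * x * (c ^ 2)⁻¹ = c * (c * x * c⁻¹) * c⁻¹ := by simp only [pow_two, mul_inv_rev, mul_assoc]
      _ = x := by rw [hc, this]
  have hc2 : Commute (c ^ 2) x := by
    rw [Commute, SemiconjBy]; exact mul_inv_eq_iff_eq_mul.1 h2
  have hoc : Odd (orderOf c) := Odd.of_dvd_nat hodd (orderOf_dvd_natCard c)
  obtain ⟨k, hk⟩ := hoc
  have hcc : c = (c ^ 2) ^ (k + 1) := by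
    rw [← pow_mul, show 2 * (k + 1) = orderOf c + 1 by omega, pow_succ, pow_orderOf_eq_one, one_mul]
  have hcx : Commute c x := by rw [hcc]; exact hc2.pow_left _
  have hx2 : x ^ 2 = 1 := by
    have : x = x⁻¹ := by rw [← hc, hcx.eq]; group
    rw [pow_two]; nth_rewrite 1 [this]; simp
  have ho : orderOf x = 2 := orderOf_eq_prime hx2 hx
  have := orderOf_dvd_natCard x
  rw [ho] at this
  exact (Nat.not_even_iff_odd.2 hodd) (even_iff_two_dvd.2 this)

end Cfsg.Agent.S0239
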