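import Cfsg.Statements.S0240
import Cfsg.Agent.H10.Count

set_option autoImplicit false
open Cfsg

namespace Cfsg.Agent.S0240

/-- Let G be a finite group with n involutions and H a subgroup with |H|·(n+1) > |G|. Then some nontrivial h ∈ H is strongly real in G: an involution t of G satisfies t h t⁻¹ = h⁻¹. -/
theorem result {G : Type*} [Group G] [Finite G] (H : Subgroup G) (hH : Nat.card G < Nat.card H * (Nat.card {t : G // orderOf t = 2} + 1)) : ∃ h : G, h ∈ H ∧ h ≠ 1 ∧ ∃ t : G, orderOf t = 2 ∧ t * h * t⁻¹ = h⁻¹ := by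
  have h1 := H10.card_invol_add_one (G := G) (fun _ => True) trivial
  simp only [and_true] at h1
  rw [h1, ← H.card_mul_index] at hH
  have h2 : H.index < Nat.card {t : G // t * t = 1} := lt_of_mul_lt_mul_left hH (Nat.zero_le _)
  have h3 : ¬ Function.Injective (fun t : {t : G // t * t = 1} => (QuotientGroup.mk t.1 : G ⧸ H)) :=
    fun h => absurd (Nat.card_le_card_of_injective _ h) (not_le.2 h2)
  simp only [Function.Injective, not_forall] at h3
  obtain ⟨⟨u, hu⟩, ⟨v, hv⟩, h4, h5⟩ := h3
  rw [QuotientGroup.eq, inv_eq_of_mul_eq_one_right hu] at h4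
  have h6 : u * v ≠ 1 := by
    intro h
    apply h5
    ext
    show u = v
    rw [← inv_eq_of_mul_eq_one_right h, inv_eq_of_mul_eq_one_right hu]
  refine ⟨u * v, h4, h6, ?_⟩
  by_cases hu1 : u = 1
  · refine ⟨v, H10.orderOf_two_of hv ?_, H10.inverts_right hu hv⟩
    rintro rfl
    exact h6 (by simp [hu1])
  · exact ⟨u, H10.orderOf_two_of hu hu1, H10.inverts_left hu hv⟩

end Cfsg.Agent.S0240
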