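import Cfsg.Statements.S0263
import Cfsg.Agent.H11.SL2

set_option autoImplicit false
open Cfsg

namespace Cfsg.Agent.S0263

/-- A Sylow p-subgroup of GL_n(q), p the characteristic, has order q^(n(n-1)/2). -/
theorem result {F : Type*} [Field F] [Fintype F] {q : ℕ} (hF : Fintype.card F = q) (p : ℕ) [Fact p.Prime] [CharP F p] (n : ℕ) (P : Sylow p (Matrix.GeneralLinearGroup (Fin n) F)) : Nat.card P = q ^ (n * (n - 1) / 2) := by
  subst hF
  obtain ⟨k, hk, h⟩ := H11.exists_card_eq_pow F p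
  have key : Nat.card (Matrix.GeneralLinearGroup (Fin n) F) = p ^ (k * (n * (n - 1) / 2)) *
      ∏ i : Fin n, (Fintype.card F ^ (n - i) - 1) := by
    rw [Matrix.card_GL_field, pow_mul, ← h, ← Finset.sum_range_id, Finset.sum_range (fun i => i),
      ← Finset.prod_pow_eq_pow_sum, ← Finset.prod_mul_distrib]
    refine Finset.prod_congr rfl fun i _ => ?_
    rw [Nat.mul_sub, mul_one, ← pow_add, Nat.add_sub_cancel' i.2.le]
  have hnd : ¬ p ∣ ∏ i : Fin n, (Fintype.card F ^ (n - i) - 1) := by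
    rw [(Nat.prime_iff.1 Fact.out).dvd_finset_prod_iff]
    rintro ⟨i, -, hi⟩
    exact H11.not_dvd_card_pow_sub_one F p (Nat.sub_pos_of_lt i.2) hi
  have := H11.card_sylow_eq_of_card P key hnd
  rw [this, h, pow_mul]

end Cfsg.Agent.S0263
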