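import Cfsg.Statements.S0267
import Cfsg.Agent.H11.PGL2

set_option autoImplicit false
open Cfsg

namespace Cfsg.Agent.S0267

/-- SL_2(q) is 3-transitive on the q+1 points of the projective line if and only if q is even. -/
theorem result {F : Type*} [Field F] [Fintype F] : MulAction.IsMultiplyPretransitive (Matrix.SpecialLinearGroup (Fin 2) F) (Projectivization F (Fin 2 → F)) 3 ↔ ringChar F = 2 := by
  rw [H17.mt_three_iff]
  constructor
  · intro h
    by_contra h2
    obtain ⟨c, hc⟩ := FiniteField.exists_nonsquare h2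
    have hc0 : c ≠ 0 := by rintro rfl; exact hc IsSquare.zero
    obtain ⟨g, h0, h1, h3⟩ := h (H11.pt0 F) (H11.pt1 F) (H11.ptA 1) (H11.pt0 F) (H11.pt1 F)
      (H11.ptA c) H11.pt0_ne_pt1 (H11.pt0_ne_ptA _) (H11.pt1_ne_ptA one_ne_zero)
      H11.pt0_ne_pt1 (H11.pt0_ne_ptA _) (H11.pt1_ne_ptA hc0)
    rw [← H11.toGL_smul_proj] at h0 h1 h3
    rw [H11.gl2_smul_pt0_iff] at h0
    rw [H11.gl2_smul_pt1_iff] at h1
    rw [H11.gl2_smul_ptA_iff, h0, h1] at h3
    have hd := H11.sl2_det g
    simp only [Matrix.SpecialLinearGroup.coe_GL_coe_matrix] at h0 h1 h3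
    refine hc ⟨g 0 0, ?_⟩
    rw [h0] at hd
    linear_combination (-g 0 0) * h3 - c * hd
  · intro h2 a b c a' b' c' h1 h2' h3 h4 h5 h6
    obtain ⟨g, hg⟩ := H17.mt_three_iff.1 (H11.gl2_three_trans (F := F)) a b c a' b' c'
      h1 h2' h3 h4 h5 h6
    obtain ⟨r, hr⟩ := FiniteField.isSquare_of_char_two h2 (g.det : F)
    have hr0 : r ≠ 0 := by
      rintro rfl
      exact g.det.ne_zero (by simpa using hr)
    have : g * (Matrix.GeneralLinearGroup.scalar (Fin 2) (Units.mk0 r hr0))⁻¹ ∈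
        (Matrix.SpecialLinearGroup.toGL : Matrix.SpecialLinearGroup (Fin 2) F →* _).range := by
      rw [H11.range_toGL, MonoidHom.mem_ker, map_mul, map_inv,
        Matrix.GeneralLinearGroup.det_scalar, Fintype.card_fin, mul_inv_eq_one]
      apply Units.ext
      rw [hr]; simp [sq]
    obtain ⟨s, hs⟩ := this
    refine ⟨s, ?_⟩
    simp only [← H11.toGL_smul_proj, hs, ← map_inv, mul_smul, H11.scalar_smul_proj]
    exact hg

end Cfsg.Agent.S0267
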