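import Cfsg.Statements.S0273
import Cfsg.Agent.H11.SL2

set_option autoImplicit false
open Cfsg

namespace Cfsg.Agent.S0273

open Matrix.SpecialLinearGroup in
theorem card_cent {F : Type*} [Field F] [Fintype F] (b : F) (hb : b ≠ 0) :
    Nat.card (Subgroup.centralizer ({toGL (transvection (zero_ne_one (α := Fin 2)) b)} :
      Set (Matrix.GeneralLinearGroup (Fin 2) F))) = Fintype.card F * (Fintype.card F - 1) := by
  classical
  rw [← Fintype.card_units, ← Fintype.card_prod, ← Nat.card_eq_fintype_card]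
  symm
  refine Nat.card_eq_of_bijective (fun x : F × Fˣ =>
    (⟨Matrix.GeneralLinearGroup.mkOfDetNeZero !![(x.2 : F), x.1; 0, x.2] (by simp), ?_⟩ :
      Subgroup.centralizer ({toGL (transvection (zero_ne_one (α := Fin 2)) b)} :
      Set (Matrix.GeneralLinearGroup (Fin 2) F)))) ⟨?_, ?_⟩
  · rw [Subgroup.mem_centralizer_singleton_iff]
    ext i j
    fin_cases i <;> fin_cases j <;> simp [transvection_coe, Matrix.mul_apply] <;> ring
  · rintro ⟨x, u⟩ ⟨y, v⟩ h
    have h1 := congrArg (fun g => ((Subtype.val g : Matrix.GeneralLinearGroup (Fin 2) F) : Matrix (Fin 2) (Fin 2) F) 0 0) h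
    have h2 := congrArg (fun g => ((Subtype.val g : Matrix.GeneralLinearGroup (Fin 2) F) : Matrix (Fin 2) (Fin 2) F) 0 1) h
    simp at h1 h2
    rw [Units.ext h1, h2]
  · rintro ⟨g, hg⟩
    have hg' := hg
    rw [Subgroup.mem_centralizer_singleton_iff] at hg'
    have h00 := congrArg (fun g : Matrix.GeneralLinearGroup (Fin 2) F => (g : Matrix (Fin 2) (Fin 2) F) 0 0) hg'
    have h01 := congrArg (fun g : Matrix.GeneralLinearGroup (Fin 2) F => (g : Matrix (Fin 2) (Fin 2) F) 0 1) hg'
    simp [transvection_coe, Matrix.mul_apply] at h00 h01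
    have h10 : g 1 0 = 0 := h00.resolve_left hb
    have h11 : g 1 1 = g 0 0 := by
      apply mul_left_cancel₀ hb
      linear_combination -h01
    have hd := g.det_ne_zero
    rw [Matrix.det_fin_two, h10, h11] at hd
    have h0 : g 0 0 ≠ 0 := by
      intro h; apply hd; rw [h]; ring
    refine ⟨(g 0 1, Units.mk0 _ h0), Subtype.ext ?_⟩
    ext i j
    fin_cases i <;> fin_cases j <;> simp [h10, h11]

/-- In GL_2(q) the centraliser of a non-trivial element of a Sylow p-subgroup (p the characteristic) has order q (q-1): the Sylow subgroup times the scalars. -/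
theorem result {F : Type*} [Field F] [Fintype F] {q : ℕ} (hF : Fintype.card F = q) (p : ℕ) [Fact p.Prime] [CharP F p] (P : Sylow p (Matrix.GeneralLinearGroup (Fin 2) F)) (a : Matrix.GeneralLinearGroup (Fin 2) F) (ha : a ∈ P) (ha1 : a ≠ 1) : Nat.card (Subgroup.centralizer ({a} : Set (Matrix.GeneralLinearGroup (Fin 2) F))) = q * (q - 1) := by
  subst hF
  obtain ⟨x, hx⟩ := H11.sylow_gl2_eq p P
  obtain ⟨g, rfl⟩ := H11.sl2_exists_smul_pt0 x
  have ha' : a ∈ (P : Subgroup (Matrix.GeneralLinearGroup (Fin 2) F)) := ha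
  rw [hx, H11.lineStab_smul_pt] at ha'
  obtain ⟨_, ⟨c, hc, rfl⟩, rfl⟩ := ha'
  obtain ⟨b, rfl⟩ := (H11.mem_lineStab_pt0_iff c).1 hc
  have hb : b ≠ 0 := by
    rintro rfl
    apply ha1
    simp
  rw [← card_cent b hb]
  have := Subgroup.nat_card_centralizer_nat_card_stabilizer
    (G := Matrix.GeneralLinearGroup (Fin 2) F)
  rw [this, this]
  symm
  refine Nat.card_congr (MulAction.stabilizerEquivStabilizer
    (g := ConjAct.toConjAct (Matrix.SpecialLinearGroup.toGL g)) ?_).toEquiv
  simp [ConjAct.smul_def]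

end Cfsg.Agent.S0273
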