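import Cfsg.Statements.S0275
import Cfsg.Agent.H27.SL2Sub
-- import your own Cfsg.Agent.* helpers here

set_option autoImplicit false
open Cfsg

namespace Cfsg.Agent.S0275


/-- If p is odd and H is a subgroup of SL_2(q), q a power of p, with more than one Sylow p-subgroup, then the Sylow 2-subgroups of H are generalised quaternion. -/
theorem result {F : Type*} [Field F] [Fintype F] (p : ℕ) [Fact p.Prime] [CharP F p] (hp : p ≠ 2) (H : Subgroup (Matrix.SpecialLinearGroup (Fin 2) F)) (hH : 1 < Nat.card (Sylow p H)) (S : Sylow 2 H) : ∃ k : ℕ, 1 ≤ k ∧ Nonempty ((S : Subgroup H) ≃* QuaternionGroup (2 ^ k)) := by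
  have h2 : ∀ (K : Type _) [Field K] [CharP K p], (2 : K) ≠ 0 := fun K _ _ h => hp
    ((Nat.prime_dvd_prime_iff_eq Fact.out Nat.prime_two).1
      ((CharP.cast_eq_zero_iff K p 2).1 (by simpa using h)))
  have h2' : (2 : ZMod p) ≠ 0 := fun h => hp
    ((Nat.prime_dvd_prime_iff_eq Fact.out Nat.prime_two).1
      ((CharP.cast_eq_zero_iff (ZMod p) p 2).1 (by simpa using h)))
  rcases H4.cyclic_or_quaternion S.2 (H4.isCyclic_of_unique S.2 fun x y hx hy => by
    have h1 := H27.sl2_eq_neg_one (h2 F) ((Subgroup.orderOf_coe _).trans ((Subgroup.orderOf_coe x).trans hx))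
    have h3 := H27.sl2_eq_neg_one (h2 F) ((Subgroup.orderOf_coe _).trans ((Subgroup.orderOf_coe y).trans hy))
    rw [show x = y from Subtype.ext (Subtype.ext (h1.trans h3.symm))]) with h | ⟨-, h⟩
  · exfalso
    obtain ⟨K, hK, ⟨e⟩⟩ := H27.exists_SL2_prime p hp H hH
    obtain ⟨Q, hQ, hc⟩ := H27.exists_noncyclic_two h2'
    let ψ := (Subgroup.inclusion hK).comp e.symm.toMonoidHom
    have hψ : Function.Injective ψ := (Subgroup.inclusion_injective hK).comp e.symm.injective
    obtain ⟨T, hT⟩ := (hQ.map ψ).exists_le_sylow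
    haveI : IsCyclic T := (Sylow.equiv S T).isCyclic.1 h
    haveI := Subgroup.isCyclic_of_le hT
    exact hc ((Q.equivMapOfInjective ψ hψ).isCyclic.2 this)
  · exact h

end Cfsg.Agent.S0275
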