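import Cfsg.Statements.S0306
import Cfsg.Agent.H11.Order3

set_option autoImplicit false
open Cfsg

namespace Cfsg.Agent.S0306

/-- GO^-_2(q) is dihedral of order 2(q+1). -/
theorem result {F : Type*} [Field F] [Fintype F] {q : ℕ} (hF : Fintype.card F = q) (a b : F) (hab : ∀ z₁ z₂ : F, z₁ ^ 2 + a * z₁ * z₂ + b * z₂ ^ 2 = 0 → z₁ = 0 ∧ z₂ = 0) : Nonempty (Cfsg.isometryGroup F (Cfsg.quadFormMinus 0 F a b) ≃* DihedralGroup (q + 1)) := by
  subst hF
  obtain ⟨φ⟩ := H11.aniso_plane_dihedral (H12.CForm.ofQuad (H11.qMinus 0 F a b)) (by simp) (by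
    intro v hv
    simp only [H12.CForm.ofQuad_N, H11.coe_qMinus, Cfsg.quadFormMinus, Finset.univ_eq_empty,
      Finset.sum_empty, zero_add] at hv
    obtain ⟨h0, h1⟩ := hab _ _ hv
    ext ((i | i) | i)
    · exact i.elim0
    · exact i.elim0
    · fin_cases i <;> simp [h0, h1])
  rw [← H11.coe_qMinus]
  exact ⟨(H11.isometryEquivIsom _).trans φ⟩

end Cfsg.Agent.S0306
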