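import Cfsg.Statements.S0307
import Cfsg.Agent.H11.SL

set_option autoImplicit false
open Cfsg

namespace Cfsg.Agent.S0307

/-- PSL_n(q) is normal in PGL_n(q) with cyclic quotient of order gcd(n, q-1): the image of the natural map PSL_n → PGL_n is the kernel of a surjective homomorphism onto the cyclic group of that order. -/
theorem result {F : Type*} [Field F] [Fintype F] {q : ℕ} (hF : Fintype.card F = q) (n : ℕ) (hn : 1 ≤ n) : ∃ g : Matrix.ProjGenLinGroup (Fin n) F →* Multiplicative (ZMod (Nat.gcd n (q - 1))), Function.Surjective g ∧ g.ker = (Matrix.ProjectiveSpecialLinearGroup.toPGL : Matrix.ProjectiveSpecialLinearGroup (Fin n) F →* Matrix.ProjGenLinGroup (Fin n) F).range := by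
  classical
  subst hF
  haveI : Nonempty (Fin n) := ⟨⟨0, hn⟩⟩
  set N : Subgroup Fˣ := (powMonoidHom n : Fˣ →* Fˣ).range with hN
  have hq : 0 < Fintype.card F - 1 := by have := Fintype.one_lt_card (α := F); omega
  haveI : NeZero (Nat.gcd n (Fintype.card F - 1)) := ⟨(Nat.gcd_pos_of_pos_right _ hq).ne'⟩
  have hc : Nat.card (Fˣ ⧸ N) = Nat.card (Multiplicative (ZMod (Nat.gcd n (Fintype.card F - 1)))) := by
    rw [← Subgroup.index_eq_card, hN, IsCyclic.index_powMonoidHom_range, Nat.card_eq_fintype_card,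
      Fintype.card_units, Nat.gcd_comm]
    simp
  haveI : IsCyclic (Fˣ ⧸ N) := isCyclic_of_surjective _ (QuotientGroup.mk'_surjective N)
  let e := mulEquivOfCyclicCardEq hc
  let f : Matrix.GeneralLinearGroup (Fin n) F →* Fˣ ⧸ N :=
    (QuotientGroup.mk' N).comp Matrix.GeneralLinearGroup.det
  have hf : f.comp (Matrix.GeneralLinearGroup.scalar (Fin n)) = 1 := by
    ext u
    simp only [f, MonoidHom.comp_apply, Matrix.GeneralLinearGroup.det_scalar, Fintype.card_fin,
      MonoidHom.one_apply, QuotientGroup.mk'_apply, QuotientGroup.eq_one_iff]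
    exact ⟨u, rfl⟩
  refine ⟨(e : Fˣ ⧸ N →* _).comp (Matrix.ProjGenLinGroup.lift f hf), ?_, ?_⟩
  · refine e.surjective.comp ?_
    intro y
    obtain ⟨u, rfl⟩ := QuotientGroup.mk_surjective y
    obtain ⟨g, rfl⟩ := Matrix.GeneralLinearGroup.det_surjective (n := Fin n) u
    exact ⟨Matrix.ProjGenLinGroup.mk g, rfl⟩
  · ext x
    obtain ⟨g, rfl⟩ := Matrix.ProjGenLinGroup.mk_surjective x
    simp only [MonoidHom.mem_ker, MonoidHom.comp_apply, Matrix.ProjGenLinGroup.lift_mk,
      MonoidHom.coe_coe, EmbeddingLike.map_eq_one_iff, f, QuotientGroup.mk'_apply,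
      QuotientGroup.eq_one_iff, MonoidHom.mem_range]
    constructor
    · rintro ⟨u, hu⟩
      have : g * (Matrix.GeneralLinearGroup.scalar (Fin n) u)⁻¹ ∈
          (Matrix.SpecialLinearGroup.toGL : Matrix.SpecialLinearGroup (Fin n) F →* _).range := by
        rw [H11.range_toGL, MonoidHom.mem_ker, map_mul, map_inv,
          Matrix.GeneralLinearGroup.det_scalar, Fintype.card_fin, ← hu]
        simp
      obtain ⟨s, hs⟩ := this
      refine ⟨QuotientGroup.mk s, ?_⟩
      rw [Matrix.ProjectiveSpecialLinearGroup.toPGL_mk, hs]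
      simp
    · rintro ⟨s, hs⟩
      obtain ⟨s, rfl⟩ := QuotientGroup.mk_surjective s
      rw [Matrix.ProjectiveSpecialLinearGroup.toPGL_mk, Matrix.ProjGenLinGroup.mk_eq_mk_iff] at hs
      obtain ⟨u, hu⟩ := hs
      refine ⟨u, ?_⟩
      rw [← hu]
      simp

end Cfsg.Agent.S0307
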