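import Cfsg.Statements.S0310
import Cfsg.Agent.H13.BN2

set_option autoImplicit false
open Cfsg

namespace Cfsg.Agent.S0310

/-- For a set `J` of distinguished generators, the subgroup generated by `B` and `J` is exactly the union of
the double cosets `B n B` with `n` in the subgroup generated by `J` (so `B W_J B` is a subgroup). -/
theorem result {G : Type*} [Group G] (P : Cfsg.BNPair G) {J : Set G}
    (hJ : J ⊆ P.S) (g : G) :
    g ∈ P.parabolic J ↔ ∃ n ∈ Subgroup.closure J, g ∈ DoubleCoset.doubleCoset n (P.B : Set G) P.B := by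
  constructor
  · intro hg
    obtain ⟨l, hl, e⟩ := (H13.BN.mem_parabolic_iff_cell hJ g).1 hg
    have : ∃ n : P.N, H13.BN.mk P n = (H13.BN.I P).wp l ∧ (n : G) ∈ Subgroup.closure J := by
      clear e
      induction l with
      | nil => exact ⟨1, rfl, one_mem _⟩
      | cons i l ih =>
        obtain ⟨n, h1, h2⟩ := ih fun j hj => hl j (List.mem_cons_of_mem _ hj)
        refine ⟨H13.BN.sN P i * n, by rw [H13.InvGen.wp_cons, ← h1]; rfl, ?_⟩
        exact mul_mem (Subgroup.subset_closure (hl i List.mem_cons_self)) h2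
    obtain ⟨n, h1, h2⟩ := this
    exact ⟨n, h2, (H13.BN.cell_mk_iff n).1 (h1 ▸ e)⟩
  · rintro ⟨n, hn, hg⟩
    obtain ⟨b, hb, b', hb', rfl⟩ := DoubleCoset.mem_doubleCoset.1 hg
    exact mul_mem (mul_mem (Subgroup.mem_sup_left hb) (Subgroup.mem_sup_right hn))
      (Subgroup.mem_sup_left hb')

end Cfsg.Agent.S0310
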