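import Cfsg.Statements.S0316
import Cfsg.Agent.H13.BN2

set_option autoImplicit false
open Cfsg

namespace Cfsg.Agent.S0316

/-- The map `J ↦ P_J` is a lattice isomorphism from the power set of the set of distinguished generators onto the
subgroups containing `B`. -/
theorem result {G : Type*} [Group G] (P : Cfsg.BNPair G) :
    ∃ e : Set P.S ≃o {M : Subgroup G // P.B ≤ M},
      ∀ J : Set P.S, ((e J : {M : Subgroup G // P.B ≤ M}) : Subgroup G) = P.parabolic (Subtype.val '' J) := by
  have hs : ∀ J : Set P.S, Subtype.val '' J ⊆ P.S := fun J => Subtype.coe_image_subset _ _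
  let e : Set P.S ≃ {M : Subgroup G // P.B ≤ M} :=
    { toFun := fun J => ⟨P.parabolic (Subtype.val '' J), H13.BN.B_le_parabolic _⟩
      invFun := fun M => {s | (s : G) ∈ M.1}
      left_inv := fun J => by
        ext s
        constructor
        · intro h
          simpa using H13.BN.mem_of_mem_parabolic (hs J) s.2 h
        · intro h
          exact H13.BN.subset_parabolic _ ⟨s, h, rfl⟩
      right_inv := fun M => by
        apply Subtype.ext
        conv_rhs => rw [H13.BN.eq_parabolic M.2]
        change P.parabolic _ = _
        congr 1
        ext x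
        simp [and_comm] }
  refine ⟨⟨e, fun {J K} => ?_⟩, fun J => rfl⟩
  change P.parabolic _ ≤ P.parabolic _ ↔ _
  rw [H13.BN.parabolic_le_parabolic_iff (hs J) (hs K), Set.image_subset_image_iff Subtype.val_injective]

end Cfsg.Agent.S0316
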