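import Cfsg.Statements.S0321
import Cfsg.Agent.H13.BN2

set_option autoImplicit false
open Cfsg

namespace Cfsg.Agent.S0321

/-- For `n ∈ N` not in `B`, the union `B ∪ B n B` is (the underlying set of) a subgroup exactly when `n` agrees
modulo `B ⊓ N` with one of the distinguished representatives; thus the distinguished involutions are
determined by `B` and `N`. -/
theorem result {G : Type*} [Group G] (P : Cfsg.BNPair G) {n : G}
    (hn : n ∈ P.N) (hnB : n ∉ P.B) :
    (∃ H : Subgroup G, (H : Set G) = (P.B : Set G) ∪ DoubleCoset.doubleCoset n (P.B : Set G) P.B) ↔ ∃ s ∈ P.S, s⁻¹ * n ∈ P.B := by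
  have hc : ∀ g, g ∈ (P.B : Set G) ∪ DoubleCoset.doubleCoset n (P.B : Set G) P.B ↔
      H13.BN.δ P g = 1 ∨ H13.BN.δ P g = H13.BN.mk P ⟨n, hn⟩ := fun g => by
    rw [H13.BN.δ_eq_one_iff, H13.BN.δ_eq_iff, H13.BN.cell_mk_iff]; rfl
  constructor
  · rintro ⟨H, hH⟩
    have hB : P.B ≤ H := fun b hb => by
      rw [← SetLike.mem_coe, hH]; exact Or.inl hb
    have hnH : n ∈ H := by
      rw [← SetLike.mem_coe, hH]; exact Or.inr (DoubleCoset.mem_doubleCoset_self _ _ _)
    obtain ⟨l, hl, e⟩ := (H13.BN.I P).exists_red (H13.BN.δ P n)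
    have h1 := H13.BN.letters_mem_of_mem hB hl e.symm hnH
    cases l with
    | nil => exact (hnB (H13.BN.δ_eq_one_iff.1 e.symm)).elim
    | cons s l =>
      have h2 := h1 s List.mem_cons_self
      rw [← SetLike.mem_coe, hH, hc, H13.BN.δ_s] at h2
      rcases h2 with h2 | h2
      · exact (H13.BN.σ_ne_one P s h2).elim
      · exact ⟨s, s.2, (H13.BN.mk_eq_iff P _ _).1 h2⟩
  · rintro ⟨s, hs, h⟩
    refine ⟨P.parabolic {s}, Set.ext fun g => ?_⟩
    rw [hc, SetLike.mem_coe, H13.BN.mem_parabolic_singleton ⟨s, hs⟩,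
      ← (H13.BN.mk_eq_iff P (H13.BN.sN P ⟨s, hs⟩) ⟨n, hn⟩).2 h]
    rfl

end Cfsg.Agent.S0321
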