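import Cfsg.Statements.S0323


set_option autoImplicit false
open scoped Pointwise
open Cfsg

namespace Cfsg.Agent.S0323

/-- A doubly transitive action on a set with at least three points yields a (B,N)-pair of rank one:
`B` is the stabiliser of a point `x`, `N` the setwise stabiliser of a pair `{x, y}`. -/
theorem result {G Ω : Type*} [Group G] [MulAction G Ω]
    (h2 : MulAction.IsMultiplyPretransitive G Ω 2) {x y z : Ω} (hxy : x ≠ y) (hyz : y ≠ z) (hxz : x ≠ z) :
    ∃ P : Cfsg.BNPair G, P.B = MulAction.stabilizer G x ∧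
      P.N = MulAction.stabilizer G ({x, y} : Set Ω) ∧ P.rank = 1 := by
  rw [MulAction.is_two_pretransitive_iff] at h2
  obtain ⟨s, hsx, hsy⟩ := h2 hxy hxy.symm
  have hN : ∀ g : G, g ∈ MulAction.stabilizer G ({x, y} : Set Ω) ↔
      (g • x = x ∧ g • y = y) ∨ (g • x = y ∧ g • y = x) := by
    intro g
    rw [MulAction.mem_stabilizer_iff, Set.smul_set_insert, Set.smul_set_singleton, Set.pair_eq_pair_iff]
  have hsN : s ∈ MulAction.stabilizer G ({x, y} : Set Ω) := (hN s).2 (Or.inr ⟨hsx, hsy⟩)
  have hdc : ∀ g n : G, n • x ≠ x → g • x ≠ x → g ∈ DoubleCoset.doubleCoset n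
      (MulAction.stabilizer G x : Set G) (MulAction.stabilizer G x) := by
    intro g n hn hg
    obtain ⟨b, hb1, hb2⟩ := h2 hn.symm hg.symm
    refine DoubleCoset.mem_doubleCoset.2 ⟨b, hb1, n⁻¹ * b⁻¹ * g, ?_, by group⟩
    change (n⁻¹ * b⁻¹ * g) • x = x
    rw [mul_smul, mul_smul, ← hb2, inv_smul_smul, inv_smul_smul]
  have hdc' : ∀ g n : G, n • x = x → g • x = x → g ∈ DoubleCoset.doubleCoset n
      (MulAction.stabilizer G x : Set G) (MulAction.stabilizer G x) := by
    intro g n hn hg
    exact DoubleCoset.mem_doubleCoset.2 ⟨g, hg, n⁻¹, inv_mem (show n ∈ MulAction.stabilizer G x from hn),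
      by group⟩
  refine ⟨⟨MulAction.stabilizer G x, MulAction.stabilizer G ({x, y} : Set Ω), {s}, ?_, ?_, ?_, ?_, ?_, ?_,
    ?_, ?_⟩, rfl, rfl, by simp [BNPair.rank]⟩
  · rw [eq_top_iff]
    intro g _
    by_cases hg : g • x = x
    · exact Subgroup.mem_sup_left hg
    · obtain ⟨b, hb, b', hb', rfl⟩ := DoubleCoset.mem_doubleCoset.1 (hdc g s (by rw [hsx]; exact hxy.symm) hg)
      exact mul_mem (mul_mem (Subgroup.mem_sup_left hb) (Subgroup.mem_sup_right hsN))
        (Subgroup.mem_sup_left hb')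
  · rintro n hn t ⟨ht1, ht2⟩
    change t • x = x at ht1
    have ht3 : t • y = y := by
      rcases (hN t).1 ht2 with h | h
      · exact h.2
      · exact (hxy (ht1.symm.trans h.1)).elim
    change (n * t * n⁻¹) • x = x
    rcases (hN _).1 (inv_mem hn) with h | h
    · rw [mul_smul, mul_smul, h.1, ht1, ← h.1, smul_inv_smul, h.1]
    · rw [mul_smul, mul_smul, h.1, ht3, ← h.1, smul_inv_smul]
  · simpa using hsN
  · rintro _ rfl
    change (_ * _) • x = x
    rw [mul_smul, hsx, hsy]
  · rintro _ rfl _ rfl _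
    rfl
  · refine le_antisymm (sup_le (by simpa using hsN) inf_le_right) fun n hn => ?_
    rcases (hN n).1 hn with h | h
    · exact Subgroup.mem_sup_right ⟨h.1, hn⟩
    · have : n = s * (s⁻¹ * n) := by group
      rw [this]
      refine mul_mem (Subgroup.mem_sup_left (Subgroup.subset_closure rfl))
        (Subgroup.mem_sup_right ⟨?_, Subgroup.mul_mem _ (inv_mem hsN) hn⟩)
      change (_ * _) • x = x
      rw [mul_smul, h.1, ← hsx, inv_smul_smul]
  · intro s' hs' n hn b hb
    obtain rfl : s = s' := hs'.symm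
    change b • x = x at hb
    rcases (hN n).1 hn with h | h
    · left
      apply hdc
      · rw [mul_smul, h.1, hsx]; exact hxy.symm
      · rw [mul_smul, mul_smul, h.1, hb, hsx]; exact hxy.symm
    · by_cases hg : (s * b * n) • x = x
      · left
        exact hdc' _ _ (by rw [mul_smul, h.1, hsy]) hg
      · right
        exact hdc _ _ (by rw [h.1]; exact hxy.symm) hg
  · intro s' hs' h
    obtain rfl : s = s' := hs'.symm
    obtain ⟨b, hb1, hb2⟩ := h2 hxy hxz
    have : s * b * s ∈ (MulAction.stabilizer G x : Set G) := h ▸ ⟨b, hb1, rfl⟩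
    change (_ * _ * _) • x = x at this
    rw [mul_smul, mul_smul, hsx, hb2, ← hsy, smul_left_cancel_iff] at this
    exact hyz this.symm

end Cfsg.Agent.S0323
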