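import Cfsg.Statements.S0326
import Mathlib

set_option autoImplicit false
open Cfsg

namespace Cfsg.Agent.S0326

/-- The Suzuki–Tits ovoid over a finite field with `q` elements has `q² + 1` points. -/
theorem result {F : Type*} [Field F] [Fintype F] (m : ℕ) :
    Nat.card (Cfsg.suzukiOvoid F m) = Fintype.card F ^ 2 + 1 := by
  classical
  let v : Option (F × F) → Fin 4 → F := fun p => match p with
    | none => ![1, 0, 0, 0]
    | some (x, y) => ![x * y + x ^ (2 ^ (m + 1) + 2) + y ^ (2 ^ (m + 1)), y, x, 1]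
  have hv : ∀ p, v p ≠ 0 := by rintro (_ | ⟨x, y⟩) <;> simp [v]
  have : Nat.card (Option (F × F)) = Fintype.card F ^ 2 + 1 := by simp [sq]
  rw [← this]
  symm
  refine Nat.card_congr (Equiv.ofBijective (fun p => ⟨Projectivization.mk F (v p) (hv p), v p, hv p, rfl, ?_⟩) ⟨?_, ?_⟩)
  · rcases p with _ | ⟨x, y⟩
    · exact Or.inl rfl
    · exact Or.inr ⟨x, y, rfl⟩
  · intro p r h
    obtain ⟨a, ha⟩ := (Projectivization.mk_eq_mk_iff F _ _ _ _).1 (congrArg Subtype.val h)
    have h1 := congrFun ha 1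
    have h2 := congrFun ha 2
    have h3 := congrFun ha 3
    rcases p with _ | ⟨x, y⟩ <;> rcases r with _ | ⟨x', y'⟩ <;> simp [v, Units.smul_def] at h1 h2 h3 ⊢
    simp [h3] at h1 h2
    exact ⟨h2.symm, h1.symm⟩
  · rintro ⟨_, w, hw, rfl, rfl | ⟨x, y, rfl⟩⟩
    · exact ⟨none, rfl⟩
    · exact ⟨some (x, y), rfl⟩

end Cfsg.Agent.S0326
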