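import Cfsg.Statements.S0327
import Cfsg.Agent.H23.SzFin

set_option autoImplicit false
open Cfsg

namespace Cfsg.Agent.S0327

/-- The Suzuki group (`m ≥ 1`) is a Zassenhaus group on the `q² + 1` points of the Suzuki–Tits ovoid. -/
theorem result {F : Type*} [Field F] [Fintype F] {m : ℕ} (hm : 1 ≤ m)
    (hF : Fintype.card F = 2 ^ (2 * m + 1)) :
    Cfsg.IsZassenhausGroup (Cfsg.Sz F m) (Cfsg.suzukiOvoid F m) := by
  letI := H23.Sz.titsOfCard hF
  haveI := H23.Sz.big_of_card_eq hm hF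
  letI := H23.Sz.ovoidModel hm hF
  have hq : Nat.card F = 2 ^ (2 * m + 1) := by rw [Nat.card_eq_fintype_card, hF]
  have he := H23.Sz.titsOfCard_θ hF
  have hs := H23.Sz.smul_ovEquiv he
  set φ := H23.Sz.ovEquiv he
  haveI := H23.Sz.isSimpleGroup F (Cfsg.Sz F m)
  refine ⟨⟨fun {g h} e => eq_of_smul_eq_smul (α := H23.Sz.Ov F) fun p => φ.injective ?_⟩, ?_, ?_, ?_, ?_⟩
  · rw [← hs, ← hs, e]
  · refine MulAction.is_two_pretransitive_iff.2 fun {a b c d} h1 h2 => ?_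
    obtain ⟨g, e1, e2⟩ := H23.Sz.two_trans (Cfsg.Sz F m) (φ.symm.injective.ne h1) (φ.symm.injective.ne h2)
    refine ⟨g, ?_, ?_⟩
    · rw [← φ.apply_symm_apply a, hs, e1, φ.apply_symm_apply]
    · rw [← φ.apply_symm_apply b, hs, e2, φ.apply_symm_apply]
  · intro g a b c h1 h2 h3 e1 e2 e3
    refine H23.Sz.eq_one_of_three (φ.symm.injective.ne h1) (φ.symm.injective.ne h2) (φ.symm.injective.ne h3)
      (φ.injective ?_) (φ.injective ?_) (φ.injective ?_) <;> rw [← hs, φ.apply_symm_apply] <;> assumption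
  · obtain ⟨k, hk⟩ := H23.Sz.exists_unit_ne_one (F := F)
    refine ⟨H23.Sz.M k, fun h => hk (H23.Sz.M_eq_one.1 h), φ .inf, φ (.pt 0 0), φ.injective.ne (by simp), ?_, ?_⟩ <;>
      simp [hs]
  · intro N hN htr
    rcases hN.eq_bot_or_eq_top with rfl | rfl
    · obtain ⟨⟨g, hg⟩, e⟩ := htr.exists_smul_eq (φ .inf) (φ (.pt 0 0))
      rw [Subgroup.mem_bot] at hg
      subst hg
      exact absurd (φ.injective ((one_smul _ _).symm.trans e)) (by simp)
    · refine ⟨φ .inf, fun h => ?_⟩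
      have : (⟨H23.Sz.T (0 : F) 1, trivial⟩ : (⊤ : Subgroup (Cfsg.Sz F m))) ∈
          MulAction.stabilizer (⊤ : Subgroup (Cfsg.Sz F m)) (φ .inf) := by
        show (H23.Sz.T (0 : F) 1 : Cfsg.Sz F m) • φ .inf = φ .inf
        simp [hs]
      rw [h, Subgroup.mem_bot] at this
      exact H23.Sz.T01_ne_one (congrArg Subtype.val this)

end Cfsg.Agent.S0327
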