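import Cfsg.Statements.S0328
import Cfsg.Agent.H23.SzFin

set_option autoImplicit false
open Cfsg

namespace Cfsg.Agent.S0328

/-- The stabiliser in the Suzuki group of the two ovoid points spanned by `(1,0,0,0)` and `(0,0,0,1)` is
isomorphic to the multiplicative group of the field (cyclic of order `q - 1`). -/
theorem result {F : Type*} [Field F] [Fintype F] {m : ℕ} (hm : 1 ≤ m)
    (hF : Fintype.card F = 2 ^ (2 * m + 1)) :
    Nonempty (↥(MulAction.stabilizer (Cfsg.Sz F m) (Cfsg.suzukiPointInfinity F) ⊓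
        MulAction.stabilizer (Cfsg.Sz F m) (Cfsg.suzukiPointZero F)) ≃* Fˣ) := by
  letI := H23.Sz.titsOfCard hF
  haveI := H23.Sz.big_of_card_eq hm hF
  letI := H23.Sz.ovoidModel hm hF
  have hq : Nat.card F = 2 ^ (2 * m + 1) := by rw [Nat.card_eq_fintype_card, hF]
  have he := H23.Sz.titsOfCard_θ hF
  have : MulAction.stabilizer (Cfsg.Sz F m) (Cfsg.suzukiPointInfinity F) ⊓
        MulAction.stabilizer (Cfsg.Sz F m) (Cfsg.suzukiPointZero F) = H23.Sz.H F (Cfsg.Sz F m) := by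
    have e1 : Cfsg.suzukiPointInfinity F = H23.Sz.toP .inf := rfl
    have e2 : Cfsg.suzukiPointZero F = H23.Sz.toP (.pt 0 0) := by
      simp [Cfsg.suzukiPointZero, H23.Sz.toP]
    ext g
    rw [Subgroup.mem_inf, MulAction.mem_stabilizer_iff, MulAction.mem_stabilizer_iff, e1, e2,
      H23.Sz.smul_toP he, H23.Sz.smul_toP he, H23.Sz.toP_inj.eq_iff, H23.Sz.toP_inj.eq_iff, H23.Sz.mem_H']
  rw [this]
  exact ⟨H23.Sz.Hequiv.symm⟩

end Cfsg.Agent.S0328
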