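import Cfsg.Statements.S0330
import Cfsg.Agent.H23.SzFin

set_option autoImplicit false
open Cfsg

namespace Cfsg.Agent.S0330

/-- A Sylow 2-subgroup `P` of the Suzuki group (field with `q = 2^(2m+1)` elements, `m ≥ 1`) has order `q²` and
exponent `4`; its centre coincides with its commutator subgroup and has order `q`. -/
theorem result {F : Type*} [Field F] [Fintype F] {m : ℕ} (hm : 1 ≤ m)
    (hF : Fintype.card F = 2 ^ (2 * m + 1)) (P : Sylow 2 (Cfsg.Sz F m)) :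
    Nat.card P = (2 ^ (2 * m + 1)) ^ 2 ∧ Monoid.exponent P = 4 ∧
      Subgroup.center P = commutator P ∧ Nat.card (Subgroup.center P) = 2 ^ (2 * m + 1) := by
  letI := H23.Sz.titsOfCard hF
  haveI := H23.Sz.big_of_card_eq hm hF
  have hq : Nat.card F = 2 ^ (2 * m + 1) := by rw [Nat.card_eq_fintype_card, hF]
  obtain ⟨h, hP⟩ := H23.Sz.exists_model_Q (H23.Sz.ovoidModel hm hF) P
  have hc := H23.Sz.center_Q (F := F) (G := Cfsg.Sz F m)
  have hd := H23.Sz.commutator_Q (F := F) (G := Cfsg.Sz F m)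
  have h1 := H23.Sz.card_Q (F := F) (G := Cfsg.Sz F m)
  have h2 : Monoid.exponent (H23.Sz.Q F (Cfsg.Sz F m)) = 4 := by
    have h3 : Monoid.exponent (H23.Sz.Q F (Cfsg.Sz F m)) ∣ 2 ^ 2 := Monoid.exponent_dvd_of_forall_pow_eq_one (by
      rintro ⟨_, a, b, rfl⟩; exact Subtype.ext (H23.Sz.T_pow_four a b))
    have h4 : ¬ Monoid.exponent (H23.Sz.Q F (Cfsg.Sz F m)) ∣ 2 ^ 1 := fun h => by
      have := Monoid.exponent_dvd_iff_forall_pow_eq_one.1 h ⟨_, H23.Sz.T_mem_Q 1 0⟩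
      have h5 : (H23.Sz.T (1 : F) 0 : Cfsg.Sz F m) ^ 2 ^ 1 = 1 := congrArg Subtype.val this
      rw [pow_one, sq, H23.Sz.T_sq, H23.Sz.T_eq_one] at h5
      simp at h5
    exact Nat.eq_prime_pow_of_dvd_least_prime_pow Nat.prime_two h4 h3
  have h3 := H23.Sz.card_Z (F := F) (G := Cfsg.Sz F m)
  rw [← hc, Subgroup.card_map_of_injective (Subgroup.subtype_injective _)] at h3
  rw [← hd, ← Subgroup.map_subtype_commutator] at hc
  have h4 := Subgroup.map_injective (Subgroup.subtype_injective _) hc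
  rw [hP] at h1 h2 h3 h4
  exact ⟨hq ▸ h1, h2, h4, hq ▸ h3⟩

end Cfsg.Agent.S0330
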