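import Cfsg.Statements.S0335
import Cfsg.Agent.H23.SzFin

set_option autoImplicit false
open Cfsg

namespace Cfsg.Agent.S0335

/-- The Suzuki–Tits point set is an ovoid: any three distinct points of it are projectively independent
(no line of projective 3-space meets it in more than two points). -/
theorem result {F : Type*} [Field F] [Fintype F] {m : ℕ} (hm : 1 ≤ m)
    (hF : Fintype.card F = 2 ^ (2 * m + 1)) (p : Fin 3 ↪ Cfsg.suzukiOvoid F m) :
    Projectivization.Independent (fun i => (p i : Projectivization F (Fin 4 → F))) := by
  letI := H23.Sz.titsOfCard hF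
  have he := H23.Sz.titsOfCard_θ hF
  choose r hr using fun i => (H23.Sz.mem_ovoid he).1 (p i).2
  have hne : ∀ i j, i ≠ j → r i ≠ r j := fun i j h e =>
    h (p.injective (Subtype.ext (by rw [hr, hr, e])))
  have h := H23.Sz.vec_indep (hne 0 1 (by decide)) (hne 1 2 (by decide)) (hne 0 2 (by decide))
  have := Projectivization.Independent.mk _ (fun i => h.ne_zero i) h
  convert this using 2 with i
  rw [hr]
  fin_cases i <;> rfl

end Cfsg.Agent.S0335
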