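import Cfsg.Statements.S0338
import Cfsg.Agent.H5.Zs2
-- import your own Cfsg.Agent.* helpers here

set_option autoImplicit false
open Cfsg

namespace Cfsg.Agent.S0338
open H5


/-- A Zassenhaus group of odd degree is a simple group. -/
theorem result {G Ω : Type*} [Group G] [MulAction G Ω] [Fintype Ω]
    (hZ : Cfsg.IsZassenhausGroup G Ω) (hodd : Odd (Fintype.card Ω)) : IsSimpleGroup G := by
  haveI := (zs_of hZ).finite
  obtain ⟨-, -, a, b, h, -⟩ := hZ.2.2.2.1
  rw [← Nat.card_eq_fintype_card, (zs_of hZ).card_F h] at hodd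
  exact zs_simple_of_even hZ h (Nat.not_odd_iff_even.1 (Nat.odd_add_one.1 hodd))

end Cfsg.Agent.S0338
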