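import Cfsg.Statements.S0340
import Cfsg.Agent.H5.Zs7
-- import your own Cfsg.Agent.* helpers here

set_option autoImplicit false
open Cfsg

namespace Cfsg.Agent.S0340
open H5


/-- Classification of Zassenhaus groups, simple case, order-level form: a finite simple Zassenhaus group is
isomorphic to `PSL₂(F)` for some finite field `F` or is simple of Suzuki order. -/
theorem result {G Ω : Type*} [Group G] [Finite G] [MulAction G Ω]
    [Finite Ω] (hZ : Cfsg.IsZassenhausGroup G Ω) [IsSimpleGroup G] :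
    (∃ (F : Type) (_ : Field F) (_ : Fintype F), Nonempty (G ≃* Matrix.ProjectiveSpecialLinearGroup (Fin 2) F)) ∨ Cfsg.IsSuzuki G := by
  obtain ⟨-, -, a, b, h, -⟩ := hZ.2.2.2.1
  rcases zs_psl_or hZ h with ⟨K, _, _, -, e⟩ | ⟨m, e, e'⟩
  exacts [.inl ⟨K, _, ‹_›, e⟩, .inr (zs_isSuzuki hZ h (.of_card e) e')]

end Cfsg.Agent.S0340
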