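import Cfsg.Statements.S0341
import Cfsg.Agent.H5.Zs9
-- import your own Cfsg.Agent.* helpers here

set_option autoImplicit false
open Cfsg

namespace Cfsg.Agent.S0341
open H5


/-- If a finite group acts faithfully and doubly transitively, no non-identity element fixes three points, some
non-identity element fixes two points, and some normal subgroup acts regularly, then the number of points
is `2^p` with `p` prime. -/
theorem result {G Ω : Type*} [Group G]
    [MulAction G Ω] [Fintype Ω] [FaithfulSMul G Ω] (h2 : MulAction.IsMultiplyPretransitive G Ω 2)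
    (h3 : ∀ g : G, ∀ a b c : Ω, a ≠ b → b ≠ c → a ≠ c → g • a = a → g • b = b → g • c = c → g = 1)
    (hfix : ∃ g : G, g ≠ 1 ∧ ∃ a b : Ω, a ≠ b ∧ g • a = a ∧ g • b = b)
    (N : Subgroup G) [N.Normal] (hNt : MulAction.IsPretransitive N Ω)
    (hNr : ∀ a : Ω, MulAction.stabilizer N a = ⊥) :
    ∃ p : ℕ, p.Prime ∧ Fintype.card Ω = 2 ^ p := by
  have hz : Zs G Ω := ⟨fun h h' => MulAction.is_two_pretransitive_iff.1 h2 h h',
    fun h1 h2 h4 => h3 _ _ _ _ h1 h2 h4, fun h => eq_of_smul_eq_smul (α := Ω) (by simpa using h)⟩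
  haveI := hz.finite
  obtain ⟨g, g1, a, b, h, ga, gb⟩ := hfix
  have hN : RegN Ω N := ⟨‹_›, fun a b => let ⟨n, h⟩ := hNt.1 a b; ⟨n, n.2, h⟩, fun n hn a h =>
    congrArg Subtype.val ((hNr a).le (show (⟨n, hn⟩ : N) ∈ MulAction.stabilizer N a from h))⟩
  obtain ⟨h4, h5⟩ := hz.card_of_regular hN h fun e => g1 (e.le (show g ∈ D2 G a b from ⟨ga, gb⟩))
  exact ⟨_, h4, Nat.card_eq_fintype_card.symm.trans h5⟩

end Cfsg.Agent.S0341
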