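import Cfsg.Statements.S0345
import Cfsg.Agent.H5.Zs4
-- import your own Cfsg.Agent.* helpers here

set_option autoImplicit false
open Cfsg

namespace Cfsg.Agent.S0345
open H5


/-- In a finite simple Zassenhaus group the stabiliser `H` of two points `a ≠ b` is cyclic, and some involution
interchanging `a` and `b` inverts every element of `H`. -/
theorem result {G Ω : Type*} [Group G] [Finite G] [MulAction G Ω] [Finite Ω]
    (hZ : Cfsg.IsZassenhausGroup G Ω) [IsSimpleGroup G]
    {a b : Ω} (hab : a ≠ b) :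
    IsCyclic ↥(MulAction.stabilizer G a ⊓ MulAction.stabilizer G b) ∧
      ∃ v : G, orderOf v = 2 ∧ v • a = b ∧ v • b = a ∧ ∀ h ∈ MulAction.stabilizer G a ⊓ MulAction.stabilizer G b, v * h * v⁻¹ = h⁻¹ := by
  have hz := zs_of hZ
  obtain ⟨s, hs, s1, s2⟩ := hz.exists_invol_swap hab
  have h : ∀ d ∈ D2 G a b, s * d * s⁻¹ = d⁻¹ := fun d hd => by
    rcases Nat.even_or_odd (Nat.card (D2 G a b)) with he | ho
    · have h1 := zs_card_of_even hZ hab he
      have h2 := hz.card_F hab
      exact hz.swap_inverts_of_sq s1 (fun g g1 g2 => hz.swap_sq_of_even hab he (by omega) g1 g2)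
        s2 hd
    · exact zs_inverts hZ hab ho s1 s2 hd
  exact ⟨hz.isCyclic_of_inverted hab h, s, orderOf_eq_two_iff'.2
    ⟨fun e => hab (by rw [← s1, e, one_smul]), hs⟩, s1, s2, h⟩

end Cfsg.Agent.S0345
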