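import Cfsg.Statements.S0346
import Cfsg.Agent.H5.Zs6
-- import your own Cfsg.Agent.* helpers here

set_option autoImplicit false
open Cfsg

namespace Cfsg.Agent.S0346
open H5


/-- The number of points of a finite simple Zassenhaus group is `p^k + 1` for some prime power `p^k` (the regular normal
subgroup of a point stabiliser is a `p`-group). -/
theorem result {G Ω : Type*} [Group G] [Finite G] [MulAction G Ω] [Fintype Ω]
    (hZ : Cfsg.IsZassenhausGroup G Ω) [IsSimpleGroup G] :
    IsPrimePow (Fintype.card Ω - 1) := by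
  obtain ⟨-, -, a, b, h, -⟩ := hZ.2.2.2.1
  have n1 := (Subgroup.one_lt_card_iff_ne_bot _).2 ((zs_of hZ).Fk_ne_bot h (zs_D_ne_bot hZ h))
  rw [← Nat.card_eq_fintype_card, (zs_of hZ).card_F h, Nat.add_sub_cancel]
  rcases zs_psl_or hZ h with ⟨K, _, _, e, -⟩ | ⟨m, e, -⟩
  · exact e ▸ FiniteField.isPrimePow_card K
  · rw [e] at n1 ⊢
    exact Nat.prime_two.isPrimePow.pow (by rintro rfl; simp at n1)

end Cfsg.Agent.S0346
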