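import Cfsg.Statements.S0349
import Cfsg.Agent.H3.ZE0
import Cfsg.Agent.H3.SzCor
import Cfsg.Agent.H13.BN

set_option autoImplicit false
open Cfsg

namespace Cfsg.Agent.S0349

open Subgroup H19 H18.Be H3.ZD in

/-- Let a finite simple group have a (B,N)-pair of rank one which is strongly split (`B = U (B ⊓ N)` with `U` nilpotent,
normal in `B` and meeting `N` trivially), with `[G : B]` and `|B ⊓ N|` odd. Then the group is isomorphic to `PSL₂(F)` with
`|F|` a power of `2`, or is simple of Suzuki order, or is isomorphic to `PSU₃` realised over a field with `q²` elements,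
`q = 2^n`, `n ≥ 2`. -/
theorem result {G : Type*} [Group G] [Finite G] [IsSimpleGroup G]
    (P : Cfsg.BNPair G) (hrank : P.rank = 1) (U : Subgroup G) (hUB : U ≤ P.B)
    (hUn : (U.subgroupOf P.B).Normal) (hUnil : Group.IsNilpotent U) (hsplit : U ⊔ (P.B ⊓ P.N) = P.B)
    (hdisj : U ⊓ P.N = ⊥) (hind : Odd P.B.index) (hH : Odd (Nat.card ↥(P.B ⊓ P.N))) :
    (∃ (F : Type) (_ : Field F) (_ : Fintype F), (∃ n : ℕ, Fintype.card F = 2 ^ n) ∧ Nonempty (G ≃* Matrix.ProjectiveSpecialLinearGroup (Fin 2) F)) ∨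
      Cfsg.IsSuzuki G ∨
      (∃ (F : Type) (_ : Field F) (_ : Fintype F) (n : ℕ), 2 ≤ n ∧ Fintype.card F = (2 ^ n) ^ 2 ∧
        Nonempty (G ≃* Cfsg.PSU 3 F (2 ^ n))) := by
  obtain ⟨hs, ⟨s⟩⟩ := Nat.card_eq_one_iff_unique.1 hrank
  have sB := H13.BN.notMem_B P s.2
  have hB : P.B ≠ ⊤ := fun e => sB (e.ge (mem_top _))
  have hn : P.B ≤ normalizer U := (normal_subgroupOf_iff_le_normalizer hUB).1 hUn
  have br : ∀ g ∉ P.B, ∃ u ∈ U, cj g P.B = cj (u * s) P.B := fun g hg => by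
    have : ∀ l, (H13.BN.I P).wp l = 1 ∨ (H13.BN.I P).wp l = (H13.BN.I P).σ s := fun l => by
      induction l with
      | nil => exact .inl rfl
      | cons i l ih =>
        rw [H13.InvGen.wp_cons, hs.elim i s]
        exact ih.symm.imp (fun e => by rw [e, (H13.BN.I P).sq]) fun e => by rw [e, mul_one]
    obtain ⟨l, e⟩ := (H13.BN.I P).exists_wp (H13.BN.δ P g)
    obtain ⟨b, b1, c, c1, rfl⟩ := H13.BN.δ_eq_δ_iff.1 ((e ▸ (this l).resolve_left
      fun e' => hg (H13.BN.δ_eq_one_iff.1 (e ▸ e'))).trans (H13.BN.δ_s s).symm)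
    obtain ⟨u, u1, h, h1, rfl⟩ := (mem_sup_of_norm (inf_le_left.trans hn)).1 (hsplit.ge b1)
    refine ⟨u, u1, ?_⟩
    rw [show u * h * s * c = u * s * ((s : G)⁻¹ * h * (s : G)⁻¹⁻¹ * c) by group, cj_mul,
      cj_of_mem (mul_mem (P.conj_mem _ (inv_mem (P.subset s.2)) h h1) c1)]
  have hT : Syl 2 (Oc {2} U) ⊤ := ((nil_Oc_hall hUnil {2}).of_idx hUB (by
    rw [← hsplit, relIndex_sup_of_norm (inf_le_left.trans hn)]; exact (odd_iff_pi.1 hH).relIndex _)).of_idx le_top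
    (by rw [relIndex_top_right]; exact .of_not_dvd hind.not_two_dvd_nat)
  have h0 : Oc {2} U ≠ ⊥ := hT.sne_bot Nat.prime_two (by
    by_contra e
    obtain ⟨n, e⟩ := H13.exists_pow_sq_eq_of_odd (odd_elt (X := ⊤) (Nat.odd_iff.2 (by omega)) (mem_top (s : G)))
    exact sB (e ▸ pow_mem (P.sq_mem _ s.2) n))
  have hc : U ≤ centralizer (Oc {2} U ⊓ centralizer (Oc {2} U) : Subgroup G) := by
    conv_lhs => rw [← (nil_dprod hUnil {2}).sd.sup]
    exact sup_le (cents_symm inf_le_right) (cents_mono (Oc_cents' (Oc_normal _ _) (Oc_pi _ _)) le_rfl inf_le_left)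
  have hN := norms_inf (norms_Oc {2} hn) (norms_cent (norms_Oc {2} hn))
  have h1 := hT.pi.center_ne_bot h0
  have hS : Oc {2} U ⊓ centralizer (Oc {2} U) ≤ P.B := inf_le_left.trans ((Oc_le _ _).trans hUB)
  have key : ∀ x ∈ Oc {2} U ⊓ centralizer (Oc {2} U), x ≠ 1 → ∀ g, g * x * g⁻¹ ∈ P.B → g ∈ P.B := fun x hx e g hg => by
    by_contra e1
    obtain ⟨u, u1, u2⟩ := br g⁻¹ (by simpa using e1)
    have e2 : x ∈ cj (s : G) P.B := by
      have := mem_cj.1 (cj_mul u s P.B ▸ u2 ▸ mem_cj_inv.2 hg)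
      rwa [mul_assoc, mem_cent.1 (hc u1) x hx, inv_mul_cancel_left] at this
    refine e (mem_bot.1 ((IsSimpleGroup.eq_bot_or_eq_top_of_normal P.B.normalCore inferInstance).resolve_right
      (fun e => hB (eq_top_iff.2 (e.ge.trans (normalCore_le _)))) ▸ fun k => ?_))
    by_cases e3 : k ∈ P.B
    · exact mul_mem (mul_mem e3 (hS hx)) (inv_mem e3)
    obtain ⟨v, v1, v2⟩ := br k⁻¹ (by simpa using e3)
    rw [← mem_cj_inv, v2, cj_mul, mem_cj, mul_assoc, mem_cent.1 (hc v1) x hx, inv_mul_cancel_left]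
    exact e2
  obtain ⟨z, z1, z2⟩ := ex_inv (hT.pi.infl _) h1
  have h : SC _ (Oc {2} U) P.B := ⟨hT, inf_le_left, fun x hx g e => by
    by_cases e1 : x = 1
    · simp [e1]
    · exact conj_mem_of_norm (hN (key x hx e1 g (hUB (Oc_le _ _ e)))) hx,
    fun g hg => key z z1 (of_ord2 z2).1 g (hS (conj_mem_of_norm hg z1)),
    fun x hx e g hg => key x hx (of_ord2 e).1 g (by rw [mem_cent1.1 hg, mul_inv_cancel_right]; exact hS hx)⟩
  rcases bender_simple (h.zs.se_simple hB (mem_Zs z1 z2)) (by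
    by_contra! e
    exact sB (h.ct z z1 z2 (mem_cent1.2 (e _ _)))) with ⟨F, _, _, ⟨n, -, h3⟩, e⟩ | e | e
  · exact .inl ⟨F, _, _, ⟨n, h3⟩, e⟩
  · exact .inr (.inl (H3.isSuzuki_of_iso e))
  · exact .inr (.inr e)

end Cfsg.Agent.S0349
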