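import Cfsg.Statements.S0351
import Cfsg.Agent.H15.Steiner

set_option autoImplicit false
open Cfsg

namespace Cfsg.Agent.S0351

/-- Derived design: removing a point p from the blocks through p of an S(t+1, k+1, v) yields an S(t, k, v-1) on the points other than p. -/
theorem result {α : Type*} [Fintype α] [DecidableEq α] {t k : ℕ} {B : Set (Finset α)} (hB : Cfsg.IsSteinerSystem (t + 1) (k + 1) B) (p : α) : Cfsg.IsSteinerSystem t k {b' : Finset {a : α // a ≠ p} | ∃ b ∈ B, p ∈ b ∧ b' = Finset.subtype (fun a => a ≠ p) b} := by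
  constructor
  · rintro b' ⟨b, hb, hp, rfl⟩
    have h := hB.1 b hb
    rw [Finset.card_subtype]
    have : b.filter (fun a => a ≠ p) = b.erase p := by ext x; simp [and_comm]
    rw [this, Finset.card_erase_of_mem hp, h]; rfl
  · intro s hs
    have hp : p ∉ s.map (Function.Embedding.subtype _) := by simp
    obtain ⟨b, ⟨hb, hsb⟩, hu⟩ := hB.2 (insert p (s.map (Function.Embedding.subtype _)))
      (by rw [Finset.card_insert_of_notMem hp, Finset.card_map, hs])
    rw [Finset.insert_subset_iff] at hsb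
    refine ⟨Finset.subtype (fun a => a ≠ p) b, ⟨⟨b, hb, hsb.1, rfl⟩, ?_⟩, ?_⟩
    · intro x hx
      rw [Finset.mem_subtype]
      exact hsb.2 (Finset.mem_map_of_mem _ hx)
    · rintro c' ⟨⟨c, hc, hpc, rfl⟩, hsc⟩
      rw [hu c ⟨hc, ?_⟩]
      rw [Finset.insert_subset_iff]
      refine ⟨hpc, ?_⟩
      intro x hx
      obtain ⟨y, hy, rfl⟩ := Finset.mem_map.1 hx
      exact Finset.mem_subtype.1 (hsc hy)

end Cfsg.Agent.S0351
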