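import Cfsg.Statements.S0353
import Cfsg.Agent.H15.Uniq3

set_option autoImplicit false
open Cfsg

namespace Cfsg.Agent.S0353

open H15 Finset
open scoped Pointwise

/-- In an S(5, 8, 24), the symmetric difference of two blocks meeting in four points is a block. -/
theorem result {α : Type*} [Fintype α] [DecidableEq α] (hα : Fintype.card α = 24) {B : Set (Finset α)} (hB : Cfsg.IsSteinerSystem 5 8 B) {b c : Finset α} (hb : b ∈ B) (hc : c ∈ B) (h4 : (b ∩ c).card = 4) : symmDiff b c ∈ B := by
  obtain ⟨f, h⟩ := canon24 hα hB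
  have l : ∀ b : Finset α, lift 0 f b = b.map f := fun b => by simp [lift, S_zero]
  rw [h.blk, l] at hb hc ⊢
  have e : (symmDiff b c).map f = symmDiff (b.map f) (c.map f) := by
    rw [map_eq_image, map_eq_image, map_eq_image, image_symmDiff _ _ f.injective]
  rw [e]
  refine ⟨cw_symmDiff hb.1 hc.1, ?_⟩
  have := card_symmDiff_add (b.map f) (c.map f)
  rw [hb.2, hc.2, ← map_inter, card_map, h4] at this
  omega

end Cfsg.Agent.S0353
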