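import Cfsg.Statements.S0362
import Cfsg.Agent.H15.Golay

set_option autoImplicit false
open Cfsg

namespace Cfsg.Agent.S0362

/-- The length-24 code is self-orthogonal: the dot product over ZMod 2 of any two of its words vanishes (with dimension 12 this makes it self-dual). -/
theorem result (v w : Cfsg.GolayPt → ZMod 2) (hv : v ∈ Cfsg.golayCode) (hw : w ∈ Cfsg.golayCode) : ∑ i, v i * w i = 0 := by
  have h := H15.cw_inter_even (H15.support_mem_cw.2 hv) (H15.support_mem_cw.2 hw)
  have h2 : ∑ i, v i * w i = ((Cfsg.support₂ v ∩ Cfsg.support₂ w).card : ZMod 2) := by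
    rw [Finset.card_eq_sum_ones, Nat.cast_sum, ← Finset.univ_inter (_ ∩ _), ← Finset.sum_ite_mem]
    refine Finset.sum_congr rfl fun i _ => ?_
    simp only [Cfsg.support₂, Finset.mem_inter, Finset.mem_filter, Finset.mem_univ, true_and]
    rcases H15.zmod2_cases (v i) with h1 | h1 <;> rcases H15.zmod2_cases (w i) with h2 | h2 <;>
      simp [h1, h2]
  rw [h2, ZMod.natCast_eq_zero_iff]
  omega

end Cfsg.Agent.S0362
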