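import Cfsg.Statements.S0371
import Cfsg.Agent.H15.PCode

set_option autoImplicit false
open Cfsg

namespace Cfsg.Agent.S0371


/-- Code of multiplication by `a`. -/
def mc (a : ℕ) : ℕ := H15.pack24 fun i => if i < 23 then a * i % 23 else 23

theorem aux : ∀ r : ZMod 23, r ≠ 0 → H15.presC (mc (r * r).val) = true ∧
    ∀ i < 24, H15.ap (mc (r * r).val) i < 24 ∧
      Option.map (fun x => r * r * x) (H15.pt i) = H15.pt (H15.ap (mc (r * r).val) i) := by
  decide +kernel

/-- Multiplication by a nonzero square residue modulo 23, fixing the extra point, lies in the group of the length-24 code. -/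
theorem result (u : (ZMod 23)ˣ) (hu : IsSquare u) : Equiv.optionCongr (Units.mulLeft u) ∈ Cfsg.M24 := by
  obtain ⟨v, rfl⟩ := hu
  obtain ⟨h1, h2⟩ := aux v (by
    have : Fact (Nat.Prime 23) := ⟨by norm_num⟩
    exact v.ne_zero)
  exact H15.Rep.mem_M24 (g := mc ((v : ZMod 23) * v).val) h2 h1

end Cfsg.Agent.S0371
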