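import Cfsg.Statements.S0384
import Cfsg.Agent.H15.Mathieu2

set_option autoImplicit false
open scoped Pointwise
open Cfsg

namespace Cfsg.Agent.S0384

/-- A dodecad stabiliser is sharply 5-transitive on the dodecad. -/
theorem result (d : Finset Cfsg.GolayPt) (hd : d ∈ Cfsg.dodecads) (x y : Fin 5 ↪ Cfsg.GolayPt) (hx : ∀ i, x i ∈ d) (hy : ∀ i, y i ∈ d) : ∃! g : MulAction.stabilizer Cfsg.M24 d, ∀ i, ((g : Cfsg.M24) : Equiv.Perm Cfsg.GolayPt) (x i) = y i := by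
  obtain ⟨σ, h1, rfl⟩ := H15.m24_trans_dodecads_std hd
  have hm : ∀ p, p ∈ σ • H15.S 340831 → σ⁻¹ p ∈ H15.S 340831 := fun p hp => by
    rwa [← H15.apply_mem_smul_iff σ, H15.app_inv]
  obtain ⟨τ, h2, h3⟩ := H15.m12_five (fun i => σ⁻¹ (x i)) (fun i => σ⁻¹ (y i))
    ((σ⁻¹).injective.comp x.injective) (fun i => hm _ (hx i))
    ((σ⁻¹).injective.comp y.injective) (fun i => hm _ (hy i))
  have h4 := H15.mem_M12.1 h2
  refine ⟨⟨⟨σ * τ * σ⁻¹, mul_mem (mul_mem h1 h4.1) (inv_mem h1)⟩, ?_⟩, fun i => ?_, ?_⟩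
  · show (σ * τ * σ⁻¹) • σ • H15.S 340831 = σ • H15.S 340831
    rw [mul_smul, inv_smul_smul, mul_smul, h4.2]
  · show σ (τ (σ⁻¹ (x i))) = y i
    rw [h3, H15.app_inv]
  · rintro ⟨⟨g, hg⟩, hg'⟩ h5
    have h6 : σ⁻¹ * g * σ ∈ Cfsg.Spor.M12 :=
      H15.mem_M12.2 ⟨mul_mem (mul_mem (inv_mem h1) hg) h1, (H15.conj_smul_eq_iff _ _ _).2 hg'⟩
    have h7 := H15.m12_fix_five (mul_mem (inv_mem h2) h6) (fun i => σ⁻¹ (x i))
      ((σ⁻¹).injective.comp x.injective) (fun i => hm _ (hx i)) (fun i => by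
        have := h5 i
        simp only at this
        simp only [Equiv.Perm.mul_apply, H15.app_inv, this, ← h3 i,
          H15.inv_app])
    rw [inv_mul_eq_one] at h7
    ext1; ext1
    simp [h7, mul_assoc]

end Cfsg.Agent.S0384
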