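import Cfsg.Statements.S0385
import Cfsg.Agent.H15.Octad

set_option autoImplicit false
open Cfsg

namespace Cfsg.Agent.S0385

open scoped Pointwise
open H15 Finset MulAction

/-- The 6-point intersections of octads with a fixed dodecad form a Steiner system S(5, 6, 12) on the dodecad. -/
theorem result (d : Finset Cfsg.GolayPt) (hd : d ∈ Cfsg.dodecads) : Cfsg.IsSteinerSystem 5 6 {h : Finset {p : Cfsg.GolayPt // p ∈ d} | ∃ o ∈ Cfsg.octads, (o ∩ d).card = 6 ∧ h = Finset.subtype (fun p => p ∈ d) o} := by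
  have hc : ∀ o : Finset GolayPt, (o.subtype (fun p => p ∈ d)).card = (o ∩ d).card := fun o => by
    rw [card_subtype, filter_mem_eq_inter]
  refine ⟨?_, fun s hs => ?_⟩
  · rintro _ ⟨o, -, h, rfl⟩
    rw [hc, h]
  · have h5 : (s.map (Function.Embedding.subtype _)).card = 5 := by rw [card_map, hs]
    have hsub : ∀ o : Finset GolayPt, s ⊆ o.subtype (fun p => p ∈ d) ↔
        s.map (Function.Embedding.subtype _) ⊆ o := fun o => by
      simp only [subset_iff, mem_subtype, mem_map, Function.Embedding.subtype_apply,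
        forall_exists_index, and_imp, forall_apply_eq_imp_iff₂]
    obtain ⟨o, ⟨ho, h1⟩, h2⟩ := octads_steiner.2 _ h5
    refine ⟨_, ⟨⟨o, ho, ?_, rfl⟩, (hsub o).2 h1⟩, ?_⟩
    · have h3 := octad_dodecad_inter ho hd
      have : 5 ≤ (o ∩ d).card := by
        rw [← h5]
        refine card_le_card (subset_inter h1 fun p hp => ?_)
        obtain ⟨q, -, rfl⟩ := mem_map.1 hp
        exact q.2
      omega
    · rintro _ ⟨⟨o', ho', -, rfl⟩, h3⟩
      rw [h2 o' ⟨ho', (hsub o').1 h3⟩]

end Cfsg.Agent.S0385
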