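import Cfsg.Statements.S0386
import Cfsg.Agent.H15.Mathieu2

set_option autoImplicit false
open Cfsg

namespace Cfsg.Agent.S0386

open scoped Pointwise in
open H15 in
theorem aux {σ : Equiv.Perm Cfsg.GolayPt} (h1 : σ ∈ Cfsg.M24) (k : ℕ) :
    {o : Finset Cfsg.GolayPt | o ∈ Cfsg.octads ∧ (o ∩ σ • S 340831).card = k}.ncard
      = cntTo2 (fun a => band (isO (enc a)) (Nat.beq (pc (Nat.land (enc a) 340831)) k)) 64 64 := by
  rw [ncard_eq_of_smul σ _ {o : Finset Cfsg.GolayPt | o ∈ Cfsg.octads ∧ (o ∩ S 340831).card = k}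
    (fun x => by simp only [Set.mem_setOf_eq, smul_mem_octads_iff h1, card_smul_inter])]
  exact ncard_cw (fun m => band (isO m) (Nat.beq (pc (Nat.land m 340831)) k)) (fun o ho => ho.1.1)
    (fun m hm => by
      simp only [Set.mem_setOf_eq, band_iff, Nat.beq_eq, Nat.land_eq, card_S_and (isC_lt hm),
        S_mem_octads_iff (isC_lt hm)])

/-- For a fixed dodecad, 132 octads meet it in 6 points, 132 in 2 points and 495 in 4 points. -/
theorem result (d : Finset Cfsg.GolayPt) (hd : d ∈ Cfsg.dodecads) : {o : Finset Cfsg.GolayPt | o ∈ Cfsg.octads ∧ (o ∩ d).card = 6}.ncard = 132 ∧ {o : Finset Cfsg.GolayPt | o ∈ Cfsg.octads ∧ (o ∩ d).card = 2}.ncard = 132 ∧ {o : Finset Cfsg.GolayPt | o ∈ Cfsg.octads ∧ (o ∩ d).card = 4}.ncard = 495 := by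
  obtain ⟨σ, h1, rfl⟩ := H15.m24_trans_dodecads_std hd
  rw [aux h1, aux h1, aux h1]
  decide +kernel

end Cfsg.Agent.S0386
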