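import Cfsg.Statements.S0389
import Cfsg.Agent.H15.Mathieu2

set_option autoImplicit false
open scoped Pointwise
open Cfsg

namespace Cfsg.Agent.S0389

/-- The stabiliser of a dodecad and a point on it is 3-transitive on the complementary dodecad. -/
theorem result (d : Finset Cfsg.GolayPt) (hd : d ∈ Cfsg.dodecads) (p : Cfsg.GolayPt) (hp : p ∈ d) (x y : Fin 3 ↪ Cfsg.GolayPt) (hx : ∀ i, x i ∉ d) (hy : ∀ i, y i ∉ d) : ∃ g ∈ MulAction.stabilizer Cfsg.M24 d ⊓ MulAction.stabilizer Cfsg.M24 p, ∀ i, (g : Equiv.Perm Cfsg.GolayPt) (x i) = y i := by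
  obtain ⟨σ, h1, rfl, rfl⟩ := H15.m24_trans_dodecad_point hd hp
  have hm : ∀ p, p ∉ σ • H15.S 340831 → σ⁻¹ p ∉ H15.S 340831 := fun p hp => by
    rwa [← H15.apply_mem_smul_iff σ, H15.app_inv]
  obtain ⟨τ, h2, h3⟩ := H15.m11c_three (fun i => σ⁻¹ (x i)) (fun i => σ⁻¹ (y i))
    ((σ⁻¹).injective.comp x.injective) (fun i => hm _ (hx i))
    ((σ⁻¹).injective.comp y.injective) (fun i => hm _ (hy i))
  have h4 := H15.mem_M11.1 h2
  refine ⟨⟨σ * τ * σ⁻¹, mul_mem (mul_mem h1 h4.1.1) (inv_mem h1)⟩, ⟨?_, ?_⟩, fun i => ?_⟩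
  · show (σ * τ * σ⁻¹) • σ • H15.S 340831 = σ • H15.S 340831
    rw [mul_smul, inv_smul_smul, mul_smul, h4.1.2]
  · show (σ * τ * σ⁻¹) (σ (H15.pt 0)) = σ (H15.pt 0)
    simp [h4.2]
  · show σ (τ (σ⁻¹ (x i))) = y i
    rw [h3, H15.app_inv]

end Cfsg.Agent.S0389
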