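import Cfsg.Statements.S0402
import Cfsg.Agent.H15.Conway

set_option autoImplicit false
open Cfsg

namespace Cfsg.Agent.S0402

/-- Stabiliser of a minimal vector is simple of order 42305421312000. -/
theorem result (v : Cfsg.leechLattice) (hv : Cfsg.sqNorm (v : Cfsg.GolayPt → ℤ) = 32) : Cfsg.IsCo2 (MulAction.stabilizer Cfsg.Co0 v) := by
  obtain ⟨g, rfl⟩ := H15.trans_min hv
  have e := H15.conjEq g H15.sCo2 _ fun a => H15.conj_stab g a H15.lU
  have := H15.simple_sCo2
  exact ⟨e.symm.isSimpleGroup, (Nat.card_congr e.toEquiv).symm.trans H15.card_sCo2⟩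

end Cfsg.Agent.S0402
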