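import Cfsg.Statements.S0404
import Cfsg.Agent.H15.Conway

set_option autoImplicit false
open Cfsg

namespace Cfsg.Agent.S0404

/-- Joint stabiliser of two minimal vectors with coordinate dot product −8 is simple of order 898128000. -/
theorem result (v w : Cfsg.leechLattice) (hv : Cfsg.sqNorm (v : Cfsg.GolayPt → ℤ) = 32) (hw : Cfsg.sqNorm (w : Cfsg.GolayPt → ℤ) = 32) (hvw : Cfsg.dotInt (v : Cfsg.GolayPt → ℤ) (w : Cfsg.GolayPt → ℤ) = -8) : Cfsg.IsMcL ↥(MulAction.stabilizer Cfsg.Co0 v ⊓ MulAction.stabilizer Cfsg.Co0 w) := by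
  obtain ⟨g, rfl, rfl⟩ := H15.pair_std H15.trans47104 (H15.trans_min hv) ⟨hw, hvw⟩
  have e := H15.conjEq g H15.sMcL (MulAction.stabilizer Cfsg.Co0 (g • H15.lU) ⊓
      MulAction.stabilizer Cfsg.Co0 (g • (-H15.lV - H15.lU))) fun a => by
    rw [← H15.stab_VU, Subgroup.mem_inf, Subgroup.mem_inf, H15.conj_stab, H15.conj_stab]
  have := H15.simple_sMcL
  exact ⟨e.symm.isSimpleGroup, (Nat.card_congr e.toEquiv).symm.trans H15.card_sMcL⟩

end Cfsg.Agent.S0404
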