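import Cfsg.Statements.S0405
import Cfsg.Agent.H15.Conway

set_option autoImplicit false
open Cfsg

namespace Cfsg.Agent.S0405

/-- Joint stabiliser of two vectors of sum of squares 48 with coordinate dot product −32 is simple of order 44352000. -/
theorem result (v w : Cfsg.leechLattice) (hv : Cfsg.sqNorm (v : Cfsg.GolayPt → ℤ) = 48) (hw : Cfsg.sqNorm (w : Cfsg.GolayPt → ℤ) = 48) (hvw : Cfsg.dotInt (v : Cfsg.GolayPt → ℤ) (w : Cfsg.GolayPt → ℤ) = -32) : Cfsg.IsHS ↥(MulAction.stabilizer Cfsg.Co0 v ⊓ MulAction.stabilizer Cfsg.Co0 w) := by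
  obtain ⟨g, rfl, h⟩ := H15.std_VU' (x := -v - w) hv ⟨by
    change Cfsg.sqNorm (-H15.cf v - H15.cf w) = 32
    rw [H15.sqNorm_sub, H15.sqNorm_neg, H15.dotInt_neg_left, hv, hw, hvw]; rfl, by
    change Cfsg.dotInt _ (-H15.cf v - H15.cf w) = -16
    rw [H15.dotInt_sub_right, H15.dotInt_neg_right, H15.dotInt_self, hv, hvw]; rfl⟩
  have e := H15.conjEq g H15.sHS (MulAction.stabilizer Cfsg.Co0 (g • H15.lV) ⊓
      MulAction.stabilizer Cfsg.Co0 w) fun a => by
    rw [Subgroup.mem_inf, Subgroup.mem_inf, ← H15.conj_stab g a, ← H15.conj_stab g a, h]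
    refine and_congr_right fun h1 => ?_
    rw [MulAction.mem_stabilizer_iff] at h1
    rw [MulAction.mem_stabilizer_iff, MulAction.mem_stabilizer_iff, H15.co_sub, H15.co_neg, h1,
      sub_right_inj]
  have := H15.simple_sHS
  exact ⟨e.symm.isSimpleGroup, (Nat.card_congr e.toEquiv).symm.trans H15.card_sHS⟩

end Cfsg.Agent.S0405
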