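import Cfsg.Statements.S0412
import Cfsg.Agent.H15.Uniq3

set_option autoImplicit false
open Cfsg

namespace Cfsg.Agent.S0412

open H15 Finset
open scoped Pointwise

/-- Aut of an S(5, 8, 24) is simple of order 244823040 and 5-transitive on points. -/
theorem result {α : Type*} [Fintype α] [DecidableEq α] (hα : Fintype.card α = 24) {B : Set (Finset α)} (hB : Cfsg.IsSteinerSystem 5 8 B) : Cfsg.IsM24 (Cfsg.setSystemAut B) ∧ MulAction.IsMultiplyPretransitive (Cfsg.setSystemAut B) α 5 := by
  obtain ⟨f, h⟩ := canon24 hα hB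
  obtain ⟨e, he⟩ := aut24 h
  have := simple_M24
  exact ⟨⟨e.symm.isSimpleGroup, (Nat.card_congr e.symm.toEquiv).trans card_M24⟩,
    multi_of_aut e he fun x y => m24_five _ _ (f.injective.comp x.injective)
      (f.injective.comp y.injective)⟩

end Cfsg.Agent.S0412
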