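import Cfsg.Statements.S0413
import Cfsg.Agent.H15.Uniq3

set_option autoImplicit false
open Cfsg

namespace Cfsg.Agent.S0413

open H15 Finset
open scoped Pointwise

/-- Aut of an S(4, 7, 23) is simple of order 10200960 and 4-transitive. -/
theorem result {α : Type*} [Fintype α] [DecidableEq α] (hα : Fintype.card α = 23) {B : Set (Finset α)} (hB : Cfsg.IsSteinerSystem 4 7 B) : Cfsg.IsM23 (Cfsg.setSystemAut B) ∧ MulAction.IsMultiplyPretransitive (Cfsg.setSystemAut B) α 4 := by
  obtain ⟨f, h⟩ := canon23 hα hB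
  obtain ⟨e, he⟩ := aut23 h
  have := simple_M23
  have a : ∀ a, f a ≠ pt 23 := fun a e => h.toEmb.nmem a (by rw [e]; decide +kernel)
  exact ⟨⟨e.symm.isSimpleGroup, (Nat.card_congr e.symm.toEquiv).trans card_M23⟩,
    multi_of_aut e he fun x y => m23_four _ _ (f.injective.comp x.injective) (fun _ => a _)
      (f.injective.comp y.injective) (fun _ => a _)⟩

end Cfsg.Agent.S0413
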