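import Cfsg.Statements.S0426
import Cfsg.Agent.H15.Uniq3

set_option autoImplicit false
open Cfsg

namespace Cfsg.Agent.S0426

open H15 Finset
open scoped Pointwise

/-- Aut of an S(4, 5, 11) is simple of order 7920 and sharply 4-transitive on points. -/
theorem result {α : Type*} [Fintype α] [DecidableEq α] (hα : Fintype.card α = 11) {B : Set (Finset α)} (hB : Cfsg.IsSteinerSystem 4 5 B) : Cfsg.IsM11 (Cfsg.setSystemAut B) ∧ MulAction.IsMultiplyPretransitive (Cfsg.setSystemAut B) α 4 ∧ ∀ x : Fin 4 ↪ α, MulAction.stabilizer (Cfsg.setSystemAut B) x = ⊥ := by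
  obtain ⟨f, h⟩ := canon11 hα hB
  obtain ⟨e, he⟩ := aut11 h
  have := simple_M11
  exact ⟨⟨e.symm.isSimpleGroup, (Nat.card_congr e.symm.toEquiv).trans card_M11⟩,
    multi_of_aut e he fun x y => m11_four _ _ (f.injective.comp x.injective)
      (fun _ => h.toEmb.mem _) (f.injective.comp y.injective) (fun _ => h.toEmb.mem _),
    fun x => sharp_of_aut e he x fun σ hσ => m11_fix_four hσ _ (f.injective.comp x.injective)
      (fun _ => h.toEmb.mem _)⟩

end Cfsg.Agent.S0426
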