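import Cfsg.Statements.S0427
import Cfsg.Agent.H15.HSGraph

set_option autoImplicit false
open Cfsg

namespace Cfsg.Agent.S0427

open H15 Finset
open scoped Pointwise

/-- The block graph (adjacent = disjoint) of an S(3, 6, 22) is strongly regular with parameters (77, 16, 0, 4). -/
theorem result {α : Type*} [Fintype α] (hα : Fintype.card α = 22) {B : Set (Finset α)} (hB : Cfsg.IsSteinerSystem 3 6 B) [Fintype B] [DecidableRel (Cfsg.blockGraph B).Adj] : (Cfsg.blockGraph B).IsSRGWith 77 16 0 4 := by
  classical
  have h := pb_srg hα hB
  have sp : ∀ (p : Option (α ⊕ B) → Prop) [DecidablePred p] (s : Finset α) (q : B → Prop)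
      [DecidablePred q], ¬ p none → (∀ a, p (some (.inl a)) ↔ a ∈ s) →
      (∀ b, p (some (.inr b)) ↔ q b) → (univ.filter p).card = s.card + (univ.filter q).card :=
    fun p _ s q _ h0 h1 h2 => by
      rw [card_filter, Fintype.sum_option, Fintype.sum_sum_type, if_neg h0, zero_add,
        ← card_filter, ← card_filter]
      congr 2
      · ext a; simp [h1]
      · ext a; simp [h2]
  refine srg_of ?_ (fun b => ?_) (fun b c e => ?_) fun b c e e' => ?_
  · have := h.card
    rw [Fintype.card_option, Fintype.card_sum, hα] at this
    omega
  · have := srg_deg h (some (.inr b))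
    rw [sp _ b.1 (fun x => (blockGraph B).Adj b x) (by simp) (by simp) (by simp), hB.1 _ b.2] at this
    omega
  · have := srg_adj h ((pb_bb b c).2 e)
    rw [sp _ (b.1 ∩ c.1) (fun x => (blockGraph B).Adj b x ∧ (blockGraph B).Adj c x) (by simp)
      (by simp) (by simp)] at this
    omega
  · have h1 := srg_nadj h (v := some (.inr b)) (w := some (.inr c)) (by simpa using e)
      (by simpa using e')
    have h2 := srg_three h (a := none) (c := some (.inr b)) (d := some (.inr c)) (by simp) (by simp)
      (by simp) (by simp) (by simpa using e) (by simpa using e')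
    rw [sp _ (b.1 ∩ c.1) (fun x => (blockGraph B).Adj b x ∧ (blockGraph B).Adj c x) (by simp)
      (by simp) (by simp)] at h1
    rw [sp _ (b.1 ∩ c.1) (fun _ => False) (by simp) (by simp) (by simp)] at h2
    simp only [filter_false, card_empty] at h2
    omega

end Cfsg.Agent.S0427
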