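import Cfsg.Statements.S0429
import Cfsg.Agent.H3.SG1
import Cfsg.Agent.S0410

set_option autoImplicit false
open Cfsg

namespace Cfsg.Agent.S0429

/-- Uniqueness of the strongly regular graph with parameters (77, 16, 0, 4). -/
theorem result {V W : Type*} [Fintype V] [Fintype W] {G : SimpleGraph V} {H : SimpleGraph W} [DecidableRel G.Adj] [DecidableRel H.Adj] (hG : G.IsSRGWith 77 16 0 4) (hH : H.IsSRGWith 77 16 0 4) : Nonempty (G ≃g H) := by
  classical
  obtain ⟨B, hB, ⟨f⟩⟩ := H3.SG.design hG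
  obtain ⟨B', hB', ⟨f'⟩⟩ := H3.SG.design hH
  obtain ⟨e, he⟩ := S0410.result ((Fintype.card_coe _).trans (H3.SG.card_pls hG))
    ((Fintype.card_coe _).trans (H3.SG.card_pls hH)) hB hB'
  subst he
  refine ⟨f.trans (RelIso.trans ⟨Equiv.Set.image _ B (Finset.image_injective e.injective), fun {b c} => ?_⟩ f'.symm)⟩
  rw [H15.bg_adj, H15.bg_adj, (Equiv.injective _).ne_iff]
  exact and_congr_right fun _ => Finset.disjoint_image e.injective

end Cfsg.Agent.S0429
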