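import Cfsg.Statements.S0430
import Cfsg.Agent.H15.SRG

set_option autoImplicit false
open Cfsg

namespace Cfsg.Agent.S0430

open H15 Finset
open scoped Pointwise

/-- Uniqueness of the strongly regular graph with parameters (100, 22, 0, 6). -/
theorem result {V W : Type*} [Fintype V] [Fintype W] {G : SimpleGraph V} {H : SimpleGraph W} [DecidableRel G.Adj] [DecidableRel H.Adj] (hG : G.IsSRGWith 100 22 0 6) (hH : H.IsSRGWith 100 22 0 6) : Nonempty (G ≃g H) := by
  exact srg100_unique hG hH

end Cfsg.Agent.S0430
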