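import Cfsg.Statements.S0442
import Cfsg.Agent.H9.TT1

set_option autoImplicit false
open Cfsg

namespace Cfsg.Agent.S0442

/-- A standard trick for producing elements of an involution centraliser: for an involution a and an element g, let b be the conjugate g⁻¹ * a * g. If a * b has odd order 2m + 1 then g * (a * b) ^ m commutes with a; if a * b has even order 2m then (a * b) ^ m and (a * (g * a * g⁻¹)) ^ m commute with a. -/
theorem result {G : Type*} [Group G] (a g : G) (ha : orderOf a = 2) : (∀ m : ℕ, orderOf (a * (g⁻¹ * a * g)) = 2 * m + 1 → Commute (g * (a * (g⁻¹ * a * g)) ^ m) a) ∧ (∀ m : ℕ, orderOf (a * (g⁻¹ * a * g)) = 2 * m → Commute ((a * (g⁻¹ * a * g)) ^ m) a ∧ Commute ((a * (g * a * g⁻¹)) ^ m) a) := by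
  have h2 : a * a = 1 := H9.sq_of_orderOf ha
  have hi : a⁻¹ = a := H9.inv_of_sq h2
  have key : ∀ b : G, b * b = 1 → ∀ m : ℕ, a * (a * b) ^ m * a = ((a * b) ^ m)⁻¹ := by
    intro b hb m
    have : a * (a * b) * a⁻¹ = (a * b)⁻¹ := by
      rw [mul_inv_rev, H9.inv_of_sq hb, hi, ← mul_assoc, h2, one_mul]
    rw [← inv_pow, ← this, conj_pow, hi]
  have hb : ∀ g : G, (g⁻¹ * a * g) * (g⁻¹ * a * g) = 1 := by
    intro g
    calc _ = g⁻¹ * (a * a) * g := by group
      _ = 1 := by rw [h2]; group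
  have ev : ∀ b : G, b * b = 1 → ∀ m : ℕ, (a * b) ^ (2 * m) = 1 → Commute ((a * b) ^ m) a := by
    intro b hb m hm
    have h1 := key b hb m
    have h3 : ((a * b) ^ m)⁻¹ = (a * b) ^ m := by
      rw [inv_eq_iff_mul_eq_one, ← pow_add, ← two_mul, hm]
    rw [h3] at h1
    calc (a * b) ^ m * a = (a * (a * b) ^ m * a) * a := by rw [h1]
      _ = a * (a * b) ^ m := by rw [mul_assoc, h2, mul_one]
  refine ⟨fun m hm => ?_, fun m hm => ⟨ev _ (hb g) m (by rw [← hm, pow_orderOf_eq_one]), ?_⟩⟩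
  · set b := g⁻¹ * a * g with hbdef
    have h1 := key b (hb g) m
    have h3 : (a * b) ^ (2 * m + 1) = 1 := by rw [← hm, pow_orderOf_eq_one]
    have h4 : a * g = g * b := by rw [hbdef]; group
    have h5 : b = a * (a * b) := by rw [← mul_assoc, h2, one_mul]
    show g * (a * b) ^ m * a = a * (g * (a * b) ^ m)
    clear_value b
    rw [← mul_assoc a g, h4, mul_assoc, mul_assoc]
    congr 1
    have h6 : (a * b) ^ m * a = a * ((a * b) ^ m)⁻¹ := by
      rw [← h1, ← mul_assoc, ← mul_assoc, h2, one_mul]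
    rw [h6]
    conv_rhs => rw [h5]
    rw [mul_assoc, ← h5]
    congr 1
    rw [inv_eq_iff_mul_eq_one, ← pow_succ', ← pow_add, ← h3]
    congr 1; omega
  · have := hb g⁻¹
    rw [inv_inv] at this
    refine ev _ this m ?_
    have e : a * (g * a * g⁻¹) = g * (a * (g⁻¹ * a * g))⁻¹ * g⁻¹ := by
      simp only [mul_inv_rev, hi, inv_inv]; group
    rw [e, conj_pow, inv_pow, ← hm, pow_orderOf_eq_one]; group

end Cfsg.Agent.S0442
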