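import Cfsg.Statements.S2572
import Cfsg.Agent.H22.UC

set_option autoImplicit false
open Cfsg

namespace Cfsg.Agent.S2572

theorem aux {F : Type*} [Field F] [Finite F] {n : ℕ} {t : Matrix (Fin n) (Fin n) F}
    (ht : Cfsg.IsTransvection t) : (Matrix.toLin' t - 1) ^ 2 = 0 ∧
      Module.finrank F (LinearMap.ker (Matrix.toLin' t - 1)) + 1 = n :=
  ⟨H22.pow_toLin_eq_zero.2 ((sq _).trans ht.2), by
    have := H22.rank_add_ker t
    rw [ht.1, Fintype.card_fin] at this; omega⟩

/-- Centraliser of a transvection in GL_n(q), n ≥ 2: if t − 1 has rank one and square zero, the centraliser of t in GL_n(q) has order q^(2n−3) (q − 1) |GL_(n−2)(q)| (a group of order q^(2n−3) extended by GL_1(q) × GL_(n−2)(q)). -/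
theorem result {F : Type*} [Field F] [Fintype F] {q n : ℕ} (hF : Fintype.card F = q) (hn : 2 ≤ n) (t : GL (Fin n) F) (ht : Cfsg.IsTransvection (t : Matrix (Fin n) (Fin n) F)) : Nat.card ↥(Subgroup.centralizer ({t} : Set (GL (Fin n) F))) = q ^ (2 * n - 3) * (q - 1) * ∏ i : Fin (n - 2), (q ^ (n - 2) - q ^ (i : ℕ)) := by
  subst hF
  obtain ⟨m, rfl⟩ := Nat.exists_eq_add_of_le' hn
  obtain ⟨h1, h2⟩ := aux ht
  let d : Fin (m + 1) → ℕ := Fin.cons 2 fun _ => 1
  let J0 := H22.stdJB F d
  have hd : ∀ k, 0 < d k ∧ d k < 3 := fun k => by cases k using Fin.cases <;> simp [d]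
  obtain ⟨e, he⟩ := H22.sim_of_nil (J0.pow_eq_zero (n := 2) fun k => by have := hd k; omega) h1 fun i hi => by
    rw [J0.finrank_ker]
    interval_cases i
    · rw [pow_zero, Module.End.one_eq_id, LinearMap.ker_id]; simp
    · rw [pow_one]; simp [d, Fin.sum_univ_succ]; omega
    · rw [h1, LinearMap.ker_zero]; simp [d, Fin.sum_univ_succ]; omega
  have h3 := (J0.map e he).card_units (fun k => (hd k).1) (fun k => (hd k).2) (γ := 2 * m + 1)
    (fun i => if i = 1 then m else if i = 2 then 1 else 0) (fun i => by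
      rw [Finset.card_filter, Fin.sum_univ_succ]
      simp only [d, Fin.cons_zero, Fin.cons_succ, Finset.sum_const, Finset.card_univ, Fintype.card_fin]
      rw [smul_eq_mul]
      split_ifs <;> omega) (by simp [d, Fin.sum_univ_succ]; ring)
  rw [← H22.card_gl_comm] at h3
  rw [Nat.card_congr (Equiv.subtypeEquivRight (q := fun g : GL _ F => g.1 * t.1 = t.1 * g.1) fun g => by
    rw [Subgroup.mem_centralizer_singleton_iff, Units.ext_iff]; rfl), h3]
  rw [Nat.add_sub_cancel, show 2 * (m + 2) - 3 = 2 * m + 1 by omega, ← H22.glOrd]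
  simp [Finset.prod_range_succ, show ∀ q, H22.glOrd q 1 = q - 1 by simp [H22.glOrd],
    show ∀ q, H22.glOrd q 0 = 1 by simp [H22.glOrd]]
  ring

end Cfsg.Agent.S2572
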