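import Cfsg.Statements.S0445
import Cfsg.Agent.S2572
import Cfsg.Agent.H11.SL

set_option autoImplicit false
open Cfsg

namespace Cfsg.Agent.S0445

/-- In the special linear group of dimension 5 over the field with two elements, the centraliser of a transvection has order 21504 = 2 ^ 7 · 168 (it is an extension of an extraspecial group of order 2 ^ 7 by the simple group of order 168). -/
theorem result (s : Matrix.SpecialLinearGroup (Fin 5) (ZMod 2)) (hs : (s : Matrix (Fin 5) (Fin 5) (ZMod 2)) = Matrix.transvection 0 1 1) : Nat.card (Subgroup.centralizer ({s} : Set (Matrix.SpecialLinearGroup (Fin 5) (ZMod 2)))) = 21504 := by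
  have h := S2572.result (F := ZMod 2) rfl (by norm_num : 2 ≤ 5) (Matrix.SpecialLinearGroup.toGL s) (by
    change Cfsg.IsTransvection (s : Matrix (Fin 5) (Fin 5) (ZMod 2))
    rw [hs]
    refine ⟨?_, by simp [Matrix.transvection]⟩
    rw [Matrix.transvection, add_sub_cancel_left, Matrix.single_eq_single_vecMulVec_single]
    exact le_antisymm (Matrix.rank_vecMulVec_le _ _) (Nat.pos_of_ne_zero fun h => by
      rw [Matrix.rank, Submodule.finrank_eq_zero, LinearMap.range_eq_bot,
        ← Matrix.toLin'_apply', map_eq_zero_iff _ Matrix.toLin'.injective] at h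
      simpa [Matrix.vecMulVec_apply] using congrFun (congrFun h 0) 1))
  let e := MulEquiv.ofBijective (Matrix.SpecialLinearGroup.toGL (n := Fin 5) (R := ZMod 2))
    ⟨Matrix.SpecialLinearGroup.toGL_injective, MonoidHom.range_eq_top.1 (by
      rw [H11.range_toGL, eq_top_iff]
      exact fun g _ => Subsingleton.elim _ _)⟩
  refine (Nat.card_congr (e.toEquiv.subtypeEquiv fun g => ?_)).trans (h.trans (by decide))
  rw [Subgroup.mem_centralizer_singleton_iff, Subgroup.mem_centralizer_singleton_iff,
    ← e.injective.eq_iff, map_mul, map_mul]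
  rfl

end Cfsg.Agent.S0445
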