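import Cfsg.Agent.H16.M.J3
import Cfsg.Agent.H16.Facts
import Cfsg.Statements.S0458
-- import your own Cfsg.Agent.* helpers here

set_option autoImplicit false
open Cfsg

namespace Cfsg.Agent.S0458

/-- Janko's third group exists as a transitive permutation group of degree 6156 with point stabiliser of order 8160: a simple group of order 50232960. -/
theorem result : ∃ H : Subgroup (Equiv.Perm (Fin 6156)), Cfsg.IsJ3 H ∧ MulAction.IsPretransitive H (Fin 6156) ∧ Nat.card (MulAction.stabilizer H (0 : Fin 6156)) = 8160 := by
  refine ⟨H16.gen H16.J3.g 4, ⟨H16.J3.simple, H16.J3.card⟩,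
    H16.J3.maxCert.pretransitive (H16.ptF_surj 6156), ?_⟩
  exact (H16.J3.chain.card_stabilizer (H16.ptF_inj 6156)).trans (by decide +kernel)

end Cfsg.Agent.S0458
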