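import Cfsg.Statements.S0459
import Cfsg.Agent.H15.TitsRu

set_option autoImplicit false
open Cfsg

namespace Cfsg.Agent.S0459

/-- The Rudvalis group exists as a transitive permutation group of degree 4060: simple of order 145926144000, with point stabiliser of order 35942400 containing a simple subgroup of order 17971200 (the order of the Tits group). -/
theorem result : ∃ H : Subgroup (Equiv.Perm (Fin 4060)), Cfsg.IsRu H ∧ MulAction.IsPretransitive H (Fin 4060) ∧ Nat.card (MulAction.stabilizer H (0 : Fin 4060)) = 35942400 ∧ ∃ T : Subgroup (MulAction.stabilizer H (0 : Fin 4060)), Cfsg.IsTits T := by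
  have h0 : MulAction.IsPretransitive (H16.gen H15.Ru.g 7) (Fin 4060) :=
    H16.MaxCert.pretransitive (K := 7) H15.Ru.maxCert (H16.ptF_surj 4060)
  refine ⟨H16.gen H15.Ru.g 7, ⟨H15.Ru.simple, H15.Ru.card⟩, h0, H15.TitsRu.card_stab, ?_⟩
  obtain ⟨e, -⟩ := H15.TitsRu.exists_equiv
  have h1 := H15.TitsRu.le.trans (H16.gen_mono H15.Ru.g (by decide : 6 ≤ 7))
  have h2 : (H16.gen H15.TitsRu.h 6).subgroupOf (H16.gen H15.Ru.g 7) ≤
      MulAction.stabilizer (H16.gen H15.Ru.g 7) (0 : Fin 4060) := by
    rw [H15.TitsRu.stab_eq]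
    exact Subgroup.subgroupOf_mono _ H15.TitsRu.le
  have e2 := (e.trans (Subgroup.subgroupOfEquivOfLe h1).symm).trans (Subgroup.subgroupOfEquivOfLe h2).symm
  haveI := H15.Tits.simple
  exact ⟨_, e2.symm.isSimpleGroup, (Nat.card_congr e2.toEquiv).symm.trans H15.Tits.card⟩

end Cfsg.Agent.S0459
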