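import Cfsg.Agent.H16.P.ONS
import Cfsg.Statements.S0460
-- import your own Cfsg.Agent.* helpers here

set_option autoImplicit false
open Cfsg

namespace Cfsg.Agent.S0460

/-- The O'Nan group exists as a transitive permutation group of degree 122760: simple of order 460815505920, point stabiliser of order 3753792, and containing simple subgroups of orders 175560 and 7920. -/
theorem result : ∃ H : Subgroup (Equiv.Perm (Fin 122760)), Cfsg.IsON H ∧ MulAction.IsPretransitive H (Fin 122760) ∧ Nat.card (MulAction.stabilizer H (0 : Fin 122760)) = 3753792 ∧ (∃ K : Subgroup H, Cfsg.IsJ1 K) ∧ (∃ K : Subgroup H, Cfsg.IsM11 K) := by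
  have := H16.PON.simple'
  have hS : ∀ w, w ∈ {w | w ∈ H16.PON.lI.map FreeGroup.of} ↔ w ∈ H16.PON.lI.map FreeGroup.of := fun _ => Iff.rfl
  obtain ⟨H, e, h1, h2⟩ := H16.exists_perm_rep _ (H16.PON.indexI hS).1 (by norm_num)
  refine ⟨H, ⟨e.symm.isSimpleGroup, (Nat.card_congr e.toEquiv).symm.trans H16.PON.card_eq⟩, h1, ?_,
    H16.PON.subJ e, H16.PON.subM e⟩
  rw [h2]
  exact (Nat.card_congr (e.subgroupMap _).toEquiv).symm.trans (H16.PON.indexI hS).2

end Cfsg.Agent.S0460
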