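import Cfsg.Agent.H16.D.HN
import Cfsg.Statements.S0463
-- import your own Cfsg.Agent.* helpers here

set_option autoImplicit false
open Cfsg

namespace Cfsg.Agent.S0463

/-- The Harada–Norton group exists as a transitive permutation group of degree 1140000: simple of order 273030912000000 with point stabiliser isomorphic to the alternating group of degree 12. -/
theorem result : ∃ H : Subgroup (Equiv.Perm (Fin 1140000)), Cfsg.IsHN H ∧ MulAction.IsPretransitive H (Fin 1140000) ∧ Nonempty (MulAction.stabilizer H (0 : Fin 1140000) ≃* alternatingGroup (Fin 12)) := by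
  obtain ⟨U, e⟩ := H16.DHN.subA
  obtain ⟨H, f, h1, h2⟩ := H16.DC.perm_of_sub (n := 1140000) H16.DHN.main.2.2 e H16.DHN.main.2.1
    (H16.A12.eq ▸ H16.A12.card) (by norm_num)
  have := H16.DHN.simple
  have f' := (H16.DHN.equiv.trans f).symm
  exact ⟨H, ⟨f'.isSimpleGroup, (Nat.card_congr f'.toEquiv).trans H16.DHN.card_eq⟩, h1, h2⟩

end Cfsg.Agent.S0463
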