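import Cfsg.Statements.S0465
import Cfsg.Agent.H14.Md2

set_option autoImplicit false
open Cfsg

namespace Cfsg.Agent.S0465

/-- The Baby Monster as matrices in characteristic 2: for some finite field F of characteristic 2, GL(4370, F) has a simple subgroup of order 4154781481226426191177580544000000. -/
theorem result : ∃ (F : Type) (_ : Field F) (_ : Fintype F), CharP F 2 ∧ ∃ H : Subgroup (GL (Fin 4370) F), Cfsg.IsB H := by
  obtain ⟨H, ⟨e⟩⟩ := H14.Mn.rep_B
  have := H14.Mn.simple_Bm
  have s : IsSimpleGroup H := MulEquiv.isSimpleGroup e.symm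
  have c := (Nat.card_congr e.symm.toEquiv).trans H14.Mn.card_Bm
  exact ⟨ZMod 2, inferInstance, inferInstance, inferInstance, H, s, c⟩

end Cfsg.Agent.S0465
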