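import Cfsg.Statements.S0467
import Cfsg.Agent.H14.Mn26

set_option autoImplicit false
open Cfsg

namespace Cfsg.Agent.S0467

/-- The Monster exists as a group of real 196883 × 196883 matrices: GL(196883, ℝ) has a simple subgroup of order 808017424794512875886459904961710757005754368000000000. -/
theorem result : ∃ H : Subgroup (GL (Fin 196883) ℝ), Cfsg.IsM H := by
  have : ∀ {A B : Type} [Group A] [Group B], Cfsg.IsM A → Nonempty (A ≃* B) → Cfsg.IsM B := fun h ⟨e⟩ =>
    ⟨have := h.1; e.symm.isSimpleGroup, (Nat.card_congr e.symm.toEquiv).trans h.2⟩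
  exact H14.Mn.rep_M.imp fun _ => this H14.Mn.isM

end Cfsg.Agent.S0467
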