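import Cfsg.Agent.H16.D.J4z
import Cfsg.Statements.S0476
-- import your own Cfsg.Agent.* helpers here

set_option autoImplicit false
open Cfsg

namespace Cfsg.Agent.S0476

/-- In some simple group of the order of Janko's fourth group there is an involution whose centraliser C has a normal extraspecial subgroup Q of order 2 ^ 13, a normal subgroup N of order 3 · 2 ^ 13 containing Q, and a subgroup M of index 2 containing N as a normal subgroup with M / N simple of order 443520. -/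
theorem result : ∃ (G : Type) (_ : Group G) (_ : Finite G), Cfsg.IsJ4 G ∧ ∃ z : G, orderOf z = 2 ∧ ∃ (Q N M : Subgroup (Subgroup.centralizer ({z} : Set G))), Q.Normal ∧ N.Normal ∧ Q ≤ N ∧ N ≤ M ∧ Nat.card Q = 2 ^ 13 ∧ Cfsg.IsExtraspecial 2 Q ∧ Nat.card N = 3 * 2 ^ 13 ∧ M.index = 2 ∧ ∃ (_ : (N.subgroupOf M).Normal), Cfsg.IsM22 (M ⧸ N.subgroupOf M) := by
  obtain ⟨a, -, Q, N, M, h1, h2, h3, h4, h5, h6, h7, h8, h9, ⟨e⟩⟩ := H16.J4z.main
  have : IsSimpleGroup (H16.gen H15.MM22.g 9) := H15.MM22.gen_eq ▸ H15.simple_M22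
  refine ⟨Spor.J4, _, inferInstance, ⟨H16.J4p.simple, H16.J4p.card_eq⟩, _, H16.J4z.ordz, ?_⟩
  rw [a]
  exact ⟨Q, N, M, h1, h2, h3, h4, h5, h6, h7, h8, h9, e.isSimpleGroup, (Nat.card_congr e.toEquiv).trans H15.MM22.card⟩

end Cfsg.Agent.S0476
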