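import Cfsg.Agent.H16.D.LM
import Cfsg.Statements.S0477
-- import your own Cfsg.Agent.* helpers here

set_option autoImplicit false
open Cfsg

namespace Cfsg.Agent.S0477

/-- In some simple group of the Lyons group's order there is an element of order 3 whose centraliser has centre of order 3 with quotient by the centre simple of order 898128000 (a triple cover of a group of McLaughlin's order). -/
theorem result : ∃ (G : Type) (_ : Group G) (_ : Finite G), Cfsg.IsLy G ∧ ∃ x : G, orderOf x = 3 ∧ Nat.card (Subgroup.center (Subgroup.centralizer ({x} : Set G))) = 3 ∧ Cfsg.IsMcL ((Subgroup.centralizer ({x} : Set G)) ⧸ Subgroup.center (Subgroup.centralizer ({x} : Set G))) := by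
  obtain ⟨σ, h1, h2, -⟩ := H16.DLM.stemγ
  have := H16.LMm.simpleM
  obtain ⟨h3, ⟨e⟩⟩ := H16.DC.cen_quot H16.DLM.cent h1 (by rw [H16.LMm.cardM]; norm_num)
  exact ⟨Cfsg.Spor.Ly, _, inferInstance, ⟨H16.DLY.simple, H16.DLY.card_eq⟩, H16.DLM.γ 5, H16.DLM.ordγ, h3.trans h2,
    e.isSimpleGroup, (Nat.card_congr e.toEquiv).trans H16.LMm.cardM⟩

end Cfsg.Agent.S0477
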