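import Cfsg.Agent.H16.Cv.ON
import Cfsg.Statements.S0479
-- import your own Cfsg.Agent.* helpers here

set_option autoImplicit false
open Cfsg

namespace Cfsg.Agent.S0479

/-- A triple cover of the O'Nan group as 45 × 45 matrices over the field with seven elements: SL(45, 7) has a subgroup whose centre has order 3 and whose quotient by its centre is simple of order 460815505920. -/
theorem result : ∃ H : Subgroup (Matrix.SpecialLinearGroup (Fin 45) (ZMod 7)), Nat.card (Subgroup.center H) = 3 ∧ Cfsg.IsON (H ⧸ Subgroup.center H) := by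
  have := H16.PON.simple
  obtain ⟨σ, h1, ⟨e⟩⟩ := H16.CvON.stem
  obtain ⟨H, h2, ⟨f⟩⟩ := H16.exists_SL h1 (by rw [H16.PON.card]; norm_num)
  exact ⟨H, h2.trans ((Nat.card_congr e.toEquiv).trans (by simp)), f.isSimpleGroup,
    (Nat.card_congr f.toEquiv).trans H16.PON.card⟩

end Cfsg.Agent.S0479
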