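import Cfsg.Statements.S0481
import Cfsg.Agent.H0.ES3

set_option autoImplicit false
open Cfsg

open Subgroup H19 H0
open scoped commutatorElement

namespace Cfsg.Agent.S0481

/-- Large extraspecial subgroups: let z be an involution of a finite group G whose centraliser C contains a normal 2-subgroup Q with centre of order 2 and all squares central, such that every element of G centralising Q lies in Q. Then C contains a Sylow 2-subgroup of G, and any involution of G whose centraliser contains a Sylow 2-subgroup of G is conjugate to z. -/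
theorem result {G : Type*} [Group G] [Finite G] (z : G) (hz : orderOf z = 2) (Q : Subgroup G) (hQC : Q ≤ Subgroup.centralizer ({z} : Set G)) (hQn : ∀ g ∈ Subgroup.centralizer ({z} : Set G), ∀ q ∈ Q, g * q * g⁻¹ ∈ Q) (hQ2 : IsPGroup 2 Q) (hZ : Nat.card (Subgroup.center Q) = 2) (hsq : ∀ x : Q, x ^ 2 ∈ Subgroup.center Q) (hlarge : Subgroup.centralizer (Q : Set G) ≤ Q) : (∃ P : Sylow 2 G, (P : Subgroup G) ≤ Subgroup.centralizer ({z} : Set G)) ∧ ∀ u : G, orderOf u = 2 → (∃ P : Sylow 2 G, (P : Subgroup G) ≤ Subgroup.centralizer ({u} : Set G)) → IsConj z u := by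
  have : Fact (Nat.Prime 2) := ⟨Nat.prime_two⟩
  have hp : PG 2 Q := PiN.of_isPGroup Nat.prime_two hQ2
  have hzQ : z ∈ Z(Q) := ⟨hlarge (le_cent1_iff.1 hQC), le_cent1_iff.1 hQC⟩
  have hc : #(Z(Q)) = 2 := by rw [← center_map_eq, card_map_of_injective Q.subtype_injective, hZ]
  have e := eq_zpowers_of_prime (hc ▸ Nat.prime_two) hzQ (ne_one_of_order hz)
  obtain ⟨T, hT, hle⟩ := hp.exists_syl le_top
  have key : ∀ x ∈ Z(T), x ≠ 1 → x = z := fun x hx h1 =>
    ((mem_zpowers_inv (mul_self_of_order hz)).1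
      (e ▸ ⟨hlarge (cent_mono hle hx.2), cent_mono hle hx.2⟩)).resolve_left h1
  obtain ⟨x, hx, h1⟩ := exists_ne_one (hT.pi.center_ne_bot
    (ne_bot_of_mem (hle hzQ.1) (ne_one_of_order hz)))
  obtain rfl := key x hx h1
  obtain ⟨S, rfl⟩ := hT.exists_sylow_top
  refine ⟨⟨S, le_cent1_iff.2 hx.2⟩, fun u hu ⟨P, hP⟩ => ?_⟩
  have huP : u ∈ (P : Subgroup G) := (syl_sylow_top P).mem_of_norm trivial
    (by rw [PiE, hu]; exact (piN_prime Nat.prime_two).2 rfl) (cent_le_norm _ (le_cent1_iff.1 hP))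
  obtain ⟨g, -, hg⟩ := hT.sconj (syl_sylow_top P)
  have : g⁻¹ * u * g ∈ Z((S : Subgroup G)) := by
    rw [← mem_cj, cj_inf, cj_cent, hg]; exact ⟨huP, le_cent1_iff.1 hP⟩
  rw [← key _ this (fun e => ne_one_of_order hu (by
    rw [show u = g * (g⁻¹ * u * g) * g⁻¹ by group, e]; simp))]
  exact isConj_iff.2 ⟨g, by group⟩

end Cfsg.Agent.S0481
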