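import Cfsg.Statements.S0504
import Cfsg.Agent.H1.SF12

set_option autoImplicit false
open Cfsg

namespace Cfsg.Agent.S0504

/-- Let G be a finite group containing an elementary abelian subgroup of order 8, with no nontrivial normal subgroup of
odd order, not of component type, and with a Sylow 2-subgroup whose commuting graph of Klein four-subgroups is
connected. Then every 2-local subgroup H of G satisfies C_H(O₂(H)) ≤ O₂(H). -/
theorem result {G : Type*} [Group G] [Finite G]
    (h3 : ¬ Cfsg.PRankLE 2 2 G) (hO : Cfsg.oddCore G = ⊥) (hc : ¬ Cfsg.IsComponentType G) (S : Sylow 2 G)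
    (hS : Cfsg.IsFourConnected (S : Subgroup G)) : Cfsg.IsCharacteristicTwoType G := by
    open H19 in
    have c := H1.cc_of_not_componentType hc
    obtain ⟨A, hA⟩ := H1.exists_el3 S h3
    exact c.char_two (even_iff_two_dvd.2 ((hA.dvd (n := 2)).trans (Subgroup.card_subgroup_dvd_card _)))
      fun t t2 t1 => c.cpp_eq_bot hO (fun t t2 _ => H1.exists_el3_of_conn S h3 hS t2) t2 t1

end Cfsg.Agent.S0504
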