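import Cfsg.Statements.S0505
import Cfsg.Agent.H28.CharP
import Cfsg.Agent.H1.CompAct

set_option autoImplicit false
open Cfsg

namespace Cfsg.Agent.S0505

open H28 Subgroup


/-- Let G be a finite group of even order in which the centralizer of every involution is solvable and has trivial
core (no nontrivial normal subgroup of odd order). Then G is of characteristic 2 type. -/
theorem result {G : Type*} [Group G] [Finite G]
    (h2 : Even (Nat.card G))
    (hs : ∀ t : G, orderOf t = 2 → Group.IsSolvable (Subgroup.centralizer ({t} : Set G)))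
    (hc : ∀ t : G, orderOf t = 2 → Cfsg.oddCore (Subgroup.centralizer ({t} : Set G)) = ⊥) :
    Cfsg.IsCharacteristicTwoType G := by
  refine ⟨h2, fun T hT hT1 => ?_⟩
  obtain ⟨z, hz, hz2⟩ := exists_orderOf_eq_of_isPGroup (hT.to_le (inf_le_left : T ⊓ 𝐂 T ≤ T)) (center_ne_bot hT hT1)
  have h1 : IsCharP 2 (centralizer {z}) := isCharP_iff.2 (H1.centralizer_pCore_le_of_isSolvable (hs z hz2) (hc z hz2))
  have hTz : T ≤ centralizer {z} := fun t ht => mem_centralizer_singleton_iff.2 (mem_centralizer'.1 hz.2 t ht)
  have h3 := h1.inf_normalizer hT hTz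
  have h4 : 𝐂 T ≤ centralizer {z} := by
    rw [← centralizer_zpowers]; exact centralizer_anti (zpowers_le.2 hz.1)
  have h5 : IsCharP 2 (𝐂 T) := h3.of_normal (le_inf h4 (centralizer_le_normalizer _))
    (inf_le_right.trans (normalizer_le_normalizer_centralizer T))
  exact H1.gf_eq_pCore_iff.1 ((H1.gf_normalizer_eq_pCore_iff hT).2 (H1.gf_eq_pCore_iff.2 (isCharP_iff.1 h5)))

end Cfsg.Agent.S0505
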