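import Cfsg.Statements.S0508
import Cfsg.Agent.H19.BSW6

set_option autoImplicit false
open Cfsg

namespace Cfsg.Agent.S0508

/-- Let G be a finite simple group with a dihedral Sylow 2-subgroup S (of order at least 4), t an involution in the
centre of S, C the centralizer of t and O the core of C (its largest normal subgroup of odd order). Suppose that: if O
is nontrivial then the centralizer of O in S is cyclic of index 2 in S; every element of S not centralizing O inverts
every element of O; and the normalizer of every nontrivial subgroup of O lies in C. Then G is isomorphic to a projective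
special linear group of dimension 2 over a field of odd order. -/
theorem result {G : Type*} [Group G] [Finite G] [IsSimpleGroup G] (S : Sylow 2 G) (n : ℕ)
    (hn : 2 ≤ n) (hS : Nonempty ((S : Subgroup G) ≃* DihedralGroup n)) (t : G) (ht : orderOf t = 2)
    (htS : t ∈ (S : Subgroup G))
    (htZ : ∀ s ∈ (S : Subgroup G), s * t = t * s) (O : Subgroup G)
    (hO : O = (Cfsg.oddCore (Subgroup.centralizer ({t} : Set G))).map (Subgroup.centralizer ({t} : Set G)).subtype)
    (ha : O ≠ ⊥ → IsCyclic ((S : Subgroup G) ⊓ Subgroup.centralizer (O : Set G) : Subgroup G) ∧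
      ((S : Subgroup G) ⊓ Subgroup.centralizer (O : Set G)).relIndex (S : Subgroup G) = 2)
    (hb : ∀ s ∈ (S : Subgroup G), s ∉ Subgroup.centralizer (O : Set G) → ∀ y ∈ O, s * y * s⁻¹ = y⁻¹)
    (hc : ∀ Y : Subgroup G, Y ≤ O → Y ≠ ⊥ → Subgroup.normalizer (Y : Set G) ≤ Subgroup.centralizer ({t} : Set G)) :
    ∃ (F : Type) (_ : Field F) (_ : Fintype F), Odd (Fintype.card F) ∧ Nonempty (G ≃* Matrix.ProjectiveSpecialLinearGroup (Fin 2) F) := by
  obtain ⟨e⟩ := hS
  obtain ⟨a, s, h⟩ := H19.exists_dh (H19.syl_sylow_top S) hn e ht htS htZ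
  rw [oddCore, H19.pPrimeCore_map_eq Nat.prime_two] at hO
  have k : O ≠ ⊥ → (S : Subgroup G) ⊓ Subgroup.centralizer (O : Set G) = Subgroup.zpowers a :=
    fun h1 => by
      have hle : (S : Subgroup G) ⊓ Subgroup.centralizer (O : Set G) ≤ Subgroup.zpowers a :=
        fun x hx => by_contra fun hn => hn (H10.invol_unique_of_isCyclic (ha h1).1 hx ⟨htS,
          H19.mem_cent.2 fun y hy => H19.mem_cent1.1 (H19.Oc_le _ _ (hO ▸ hy))⟩
          (h.out hx.1 hn).hs ht ▸ h.ta)
      have e1 := H19.card_mul_relIndex (inf_le_left (b := Subgroup.centralizer (O : Set G))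
        (a := (S : Subgroup G)))
      rw [(ha h1).2, h.card_S, ← Nat.card_zpowers] at e1
      exact H19.eq_of_le_of_card_eq hle (by omega)
  obtain ⟨F, _, _, -, h1, h2⟩ := h.psl (H10.no_index_two_of_simple fun hG => by
    have : IsCyclic G := @IsSimpleGroup.isCyclic G { mul_comm := hG.is_comm.comm } _
    exact h.sa (H10.invol_unique_of_isCyclic (H := ⊤) inferInstance trivial trivial h.hs ht ▸ h.ta))
    (by
      rw [← hO]
      by_cases h1 : O = ⊥
      · simp [h1]
      · exact ((k h1).ge (Subgroup.mem_zpowers a)).2)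
    (by
      rw [← hO]
      by_cases h1 : O = ⊥
      · simp [h1]
      · exact hb s h.sS fun e => h.sa ((k h1).le ⟨h.sS, e⟩)) (hO ▸ hc)
  exact ⟨F, inferInstance, inferInstance, h1, h2⟩

end Cfsg.Agent.S0508
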