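import Cfsg.Statements.S0514
import Cfsg.Agent.H10.DihFusion
import Cfsg.Agent.H3.Focal

set_option autoImplicit false
open Cfsg

namespace Cfsg.Agent.S0514

open H28 Subgroup


/-- In a finite group whose Sylow 2-subgroups are dihedral of order at least 4, the centralizer of any involution has a
normal subgroup of odd order whose index in the centralizer is a power of 2. -/
theorem result {X : Type*} [Group X] [Finite X]
    (S : Sylow 2 X) (n : ℕ) (hn : 2 ≤ n) (hS : Nonempty ((S : Subgroup X) ≃* DihedralGroup n)) (t : X)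
    (ht : orderOf t = 2) :
    ∃ N : Subgroup (Subgroup.centralizer ({t} : Set X)), N.Normal ∧ Odd (Nat.card N) ∧ ∃ k : ℕ, N.index = 2 ^ k := by
  haveI : Fact (Nat.Prime 2) := ⟨Nat.prime_two⟩
  obtain ⟨e⟩ := hS
  have h1 : HasNormalPComplement 2 (Subgroup.centralizer ({t} : Set X)) := by
    refine H3.frobenius_npc_subgroup fun T hT hT2 _ g hg hgn hc => ?_
    have htC : zpowers t ≤ 𝐂 T := zpowers_le.2 (mem_centralizer'.2 fun h hh => mem_centralizer_singleton_iff.1 (hT hh))
    have hU : IsPGroup 2 (zpowers t ⊔ T : Subgroup X) := isPGroup_sup_of_le_normalizer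
      (isPGroup_zpowers (k := 1) (by rw [← ht]; simp)) hT2 (le_normalizer_of_le_centralizer htC)
    have hgt : g ∈ 𝐂 (zpowers t) := by rwa [centralizer_zpowers]
    have hgU : g ∈ 𝐍 (zpowers t ⊔ T) := zpowers_le.1 (le_normalizer_sup
      (zpowers_le.2 (centralizer_le_normalizer _ hgt)) (zpowers_le.2 hgn))
    refine centralizer_anti (le_sup_right : T ≤ zpowers t ⊔ T) ?_
    have htU : t ∈ zpowers t ⊔ T := mem_sup_left (mem_zpowers t)
    generalize zpowers t ⊔ T = U at hU hgU htU
    have kf : IsKleinFour U → g ∈ 𝐂 U := fun h => H10.odd_centralizes_of_fix hU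
      (H10.kf_relIndex_zpowers h htU (H10.ne_one_of_orderOf_two ht)).dvd hgU hc
      fun a ha _ => H10.conj_eq_of_mem_centralizer hgt ha
    obtain ⟨a, -, ha⟩ := (isSylowIn_top S).exists_le_conj hU le_top
    rcases H10.dihedral_cases' (isPGroup_cj a S.isPGroup') hn ((cjEquiv a _).symm.trans e) with h | ⟨m, x, h⟩
    · obtain ⟨b, hb, hb1, -⟩ := H10.kf_exists_ne h 1
      rcases H10.odd_centralizes_of_le (isPGroup_cj a S.isPGroup') ha hb (H10.kf_relIndex_zpowers h hb hb1).dvd hgU hc
        with h2 | h2 | ⟨⟨h2⟩⟩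
      · exact h2
      · exact kf h2
      · exact (H10.kf_not_q8 h ha h2).elim
    · rcases H10.odd_centralizes_of_le (isPGroup_cj a S.isPGroup') ha h.mc.mem h.mc.idx.dvd hgU hc
        with h2 | h2 | ⟨⟨h2⟩⟩
      · exact h2
      · exact kf h2
      · exact (h.not_q8 ha h2).elim
  obtain ⟨P, N, hN, hc⟩ := h1
  obtain ⟨k, hk⟩ := IsPGroup.iff_card.1 P.isPGroup'
  refine ⟨N, hN, ?_, k, hc.symm.index_eq_card.trans hk⟩
  rw [← hc.index_eq_card]
  exact Nat.odd_iff.2 (Nat.two_dvd_ne_zero.1 P.not_dvd_index)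

end Cfsg.Agent.S0514
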