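import Cfsg.Statements.S0515
import Cfsg.Agent.H1.SF9

set_option autoImplicit false
open Cfsg

namespace Cfsg.Agent.S0515

/-- Inside a finite group, let A be an elementary abelian p-subgroup of order at least p^3 normalizing a subgroup K of
order prime to p. If the centralizer in K of every non-identity element of A is solvable, then K is solvable. -/
theorem result {X : Type*} [Group X] [Finite X]
    (p : ℕ) [Fact p.Prime] (A K : Subgroup X) (hA : IsMulCommutative A) (hAp : ∀ a ∈ A, a ^ p = 1)
    (hA3 : p ^ 3 ≤ Nat.card A) (hK : (Nat.card K).Coprime p) (hAK : A ≤ Subgroup.normalizer (K : Set X))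
    (hC : ∀ a ∈ A, a ≠ 1 → Group.IsSolvable ((K ⊓ Subgroup.centralizer ({a} : Set X) : Subgroup X))) :
    Group.IsSolvable K := by
  open H19 in
  have hp : p.Prime := Fact.out
  exact H1.sol_of_cent1 hp ⟨hA, hAp⟩ hA3 (PiN.of_not_dvd (hp.coprime_iff_not_dvd.1 hK.symm)) hAK hC

end Cfsg.Agent.S0515
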