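import Cfsg.Statements.S0519
import Cfsg.Agent.H4.TwoCyclic

set_option autoImplicit false
open Cfsg

namespace Cfsg.Agent.S0519

/-- Let P be a finite p-group in which every abelian normal subgroup is cyclic, but which has a non-cyclic abelian
subgroup. Then p = 2 and P is generalized quaternion, dihedral of order at least 16, or quasi-dihedral. -/
theorem result {P : Type*} [Group P] [Finite P] (p : ℕ) [Fact p.Prime]
    (hP : IsPGroup p P) (hn : ∀ A : Subgroup P, A.Normal → IsMulCommutative A → IsCyclic A)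
    (hm : ∃ B : Subgroup P, IsMulCommutative B ∧ ¬ IsCyclic B) :
    p = 2 ∧ ((∃ n : ℕ, Nonempty (P ≃* QuaternionGroup n)) ∨ (∃ n : ℕ, 8 ≤ n ∧ Nonempty (P ≃* DihedralGroup n)) ∨
      Cfsg.IsQuasiDihedral P) := by
  rcases H4.normal_rank_one hP hn with h | ⟨hp, m, a, b, hm, ha, hc, hb, htop, h⟩
  · obtain ⟨B, -, hB⟩ := hm
    exact absurd (Subgroup.isCyclic B) hB
  refine ⟨hp, ?_⟩
  rcases h with h | h | h
  · refine Or.inr (Or.inl ⟨2 ^ m, ?_, H4.nonempty_mulEquiv_dihedral ha h.2.1 h.2.2 hb htop⟩)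
    exact Nat.pow_le_pow_right (n := 2) (by norm_num) h.1
  · refine Or.inl ⟨2 ^ (m - 1), H4.nonempty_mulEquiv_quaternion ?_ h.1 h.2 hb htop⟩
    rw [ha, ← pow_succ']; congr 1; omega
  · refine Or.inr (Or.inr ⟨m, h.1, hc, a, b, ha, orderOf_eq_prime h.2.1 ?_, h.2.2⟩)
    rintro rfl; exact hb (Subgroup.one_mem _)

end Cfsg.Agent.S0519
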