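import Cfsg.Statements.S0520
import Cfsg.Agent.H10.Rank1

set_option autoImplicit false
open Cfsg

namespace Cfsg.Agent.S0520

open Subgroup H28 H10 H10.Rank1

/-- Let G be a finite group of 2-rank at least 2 and S a Sylow 2-subgroup whose commuting graph of Klein four-subgroups is
connected. Then the commuting graph of Klein four-subgroups of G is disconnected if and only if the 2-generated core — the
subgroup generated by the normalizers N_G(Q) of the subgroups Q of S that contain a Klein four-group — is a proper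
subgroup of G. -/
theorem result {G : Type*} [Group G] [Finite G] (h2 : ¬ Cfsg.PRankLE 2 1 G)
    (S : Sylow 2 G) (hS : Cfsg.IsFourConnected (S : Subgroup G)) :
    ¬ Cfsg.IsFourConnected G ↔
      (⨆ Q : {Q : Subgroup G // Q ≤ (S : Subgroup G) ∧ ¬ Cfsg.PRankLE 2 1 Q},
          Subgroup.normalizer ((Q : Subgroup G) : Set G)) ≠ ⊤ := by
  set Γ := (⨆ Q : {Q : Subgroup G // Q ≤ (S : Subgroup G) ∧ ¬ Cfsg.PRankLE 2 1 Q},
          Subgroup.normalizer ((Q : Subgroup G) : Set G)) with hΓ
  have hS' := isSylowIn_top S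
  let R := fun A B : Subgroup G => IsKleinFour A ∧ IsKleinFour B ∧ ∀ a ∈ A, ∀ b ∈ B, a * b = b * a
  have hRS : ∀ U V : Subgroup G, U ≤ S → V ≤ S → IsKleinFour U → IsKleinFour V →
      Relation.ReflTransGen R U V := by
    intro U V hU hV kU kV
    have aux : ∀ A B : Subgroup (S : Subgroup G), Relation.ReflTransGen
        (fun A B : Subgroup (S : Subgroup G) => IsKleinFour A ∧ IsKleinFour B ∧
          ∀ a ∈ A, ∀ b ∈ B, a * b = b * a) A B →
        Relation.ReflTransGen R (A.map (S : Subgroup G).subtype) (B.map (S : Subgroup G).subtype) := by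
      intro A B h
      induction h with
      | refl => exact .refl
      | tail _ h ih =>
        refine ih.tail ⟨kf_map h.1 (subtype_injective _), kf_map h.2.1 (subtype_injective _), ?_⟩
        rintro _ ⟨a, ha, rfl⟩ _ ⟨b, hb, rfl⟩
        rw [← map_mul, h.2.2 a ha b hb, map_mul]
    have := aux _ _ (hS _ _ (kf_subgroupOf kU hU) (kf_subgroupOf kV hV))
    simpa only [map_subgroupOf_eq_of_le hU, map_subgroupOf_eq_of_le hV] using this
  have hRc : ∀ (g : G) (U V : Subgroup G), Relation.ReflTransGen R U V →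
      Relation.ReflTransGen R (cj g U) (cj g V) := by
    intro g U V h
    induction h with
    | refl => exact .refl
    | tail _ h ih =>
      refine ih.tail ⟨kf_cj h.1 g, kf_cj h.2.1 g, ?_⟩
      rintro _ ⟨a, ha, rfl⟩ _ ⟨b, hb, rfl⟩
      rw [← map_mul, h.2.2 a ha b hb, map_mul]
  have hsym : ∀ U V : Subgroup G, Relation.ReflTransGen R U V → Relation.ReflTransGen R V U := by
    intro U V h
    induction h with
    | refl => exact .refl
    | tail _ h ih => exact .head ⟨h.2.1, h.1, fun a ha b hb => (h.2.2 b hb a ha).symm⟩ ih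
  obtain ⟨V0, hV0⟩ := not_prank_top_iff.1 h2
  obtain ⟨g0, -, hg0⟩ := hS'.exists_conj_le (kf_isPGroup hV0) le_top
  set U := cj g0 V0 with hU
  have kU : IsKleinFour U := kf_cj hV0 g0
  have hcore : ∀ V : Subgroup G, IsKleinFour V → V ≤ S → ∀ g, cj g V ≤ S → g ∈ Γ := by
    intro V kV hV g hg
    refine mem_core hS' (fun Q hQ h4 => ?_) kV hV (mem_top g) hg
    exact inf_le_right.trans (le_iSup (fun Q : {Q : Subgroup G // Q ≤ (S : Subgroup G) ∧
      ¬ Cfsg.PRankLE 2 1 Q} => Subgroup.normalizer ((Q : Subgroup G) : Set G))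
      ⟨Q, hQ, not_prank_iff.2 h4⟩)
  rw [not_iff_not]
  constructor
  · intro h
    have key : ∀ W, Relation.ReflTransGen R U W → ∃ γ ∈ Γ, cj γ W ≤ S := by
      intro W hW
      induction hW with
      | refl => exact ⟨1, Γ.one_mem, by rwa [cj_one]⟩
      | @tail A B _ hAB ih =>
        obtain ⟨γ, hγ, hA⟩ := ih
        have hp : IsPGroup 2 (A ⊔ B : Subgroup G) :=
          (kf_isPGroup hAB.1).to_sup_of_normal_right' (kf_isPGroup hAB.2.1)
            (le_normalizer_of_le_centralizer (fun a ha b hb => (hAB.2.2 a ha b hb).symm))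
        obtain ⟨g, -, hg⟩ := hS'.exists_conj_le hp le_top
        have : g * γ⁻¹ ∈ Γ := hcore _ (kf_cj hAB.1 γ) hA _ (by
          rw [cj_cj, inv_mul_cancel_right]; exact (cj_mono g le_sup_left).trans hg)
        exact ⟨g, by simpa using Γ.mul_mem this hγ, (cj_mono g le_sup_right).trans hg⟩
    rw [eq_top_iff]
    intro g _
    obtain ⟨γ, hγ, h1⟩ := key _ (h U (cj g U) kU (kf_cj kU g))
    rw [cj_cj] at h1
    simpa using Γ.mul_mem (Γ.inv_mem hγ) (hcore U kU hg0 _ h1)
  · intro h
    let H : Subgroup G :=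
      { carrier := {g | Relation.ReflTransGen R U (cj g U)}
        one_mem' := by change Relation.ReflTransGen R U (cj 1 U); rw [cj_one]
        mul_mem' := fun {a b} ha hb => by
          change Relation.ReflTransGen R U (cj (a * b) U)
          rw [← cj_cj]
          exact ha.trans (hRc a _ _ hb)
        inv_mem' := fun {a} ha => by
          change Relation.ReflTransGen R U (cj a⁻¹ U)
          have := hRc a⁻¹ _ _ ha
          rw [cj_inv_cj] at this
          exact hsym _ _ this }
    have hH : Γ ≤ H := by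
      refine iSup_le ?_
      rintro ⟨Q, hQ, h4⟩ g hg
      obtain ⟨V, hVQ, kV⟩ := not_prank_iff.1 h4
      exact (hRS U _ hg0 ((cj_le_of_mem_normalizer hVQ hg).trans hQ) kU (kf_cj kV g)).trans
        (hRc g _ _ (hRS V U (hVQ.trans hQ) hg0 kV kU))
    have key : ∀ W : Subgroup G, IsKleinFour W → Relation.ReflTransGen R U W := by
      intro W kW
      obtain ⟨g, -, hg⟩ := hS'.exists_conj_le (kf_isPGroup kW) le_top
      have h1 := hRc g⁻¹ _ _ (hRS U _ hg0 hg kU (kf_cj kW g))
      rw [cj_inv_cj] at h1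
      exact Relation.ReflTransGen.trans (hH (h ▸ mem_top g⁻¹)) h1
    intro A B kA kB
    exact (hsym _ _ (key A kA)).trans (key B kB)

end Cfsg.Agent.S0520
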