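import Cfsg.Statements.S0521
import Cfsg.Agent.H9.WS
import Cfsg.Agent.H9.Qd
import Cfsg.Agent.H4.Critical
import Cfsg.Agent.H1.Fitting

set_option autoImplicit false
open Cfsg

namespace Cfsg.Agent.S0521

open H28 Subgroup

theorem core {G : Type*} [Group G] [Finite G] {p : ℕ} [hp : Fact p.Prime] (h2 : p ≠ 2) (ho : Odd (Nat.card G))
    (hc : 𝐂 (pCore p G) ≤ pCore p G) {S : Subgroup G} (hS : IsPGroup p S) (h1 : pCore p G ≤ S)
    (hcy : IsCyclic (⁅S, S⁆ : Subgroup G)) : S ≤ pCore p G := by
  intro a ha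
  have hst := H9.isPStableOnSection_of_not_involves_qd h2 (H9.not_involves_qd_of_odd h2 (by rwa [card_top]))
    (pCore p G) ((frattini (pCore p G)).map (pCore p G).subtype) ((isPGroup_pCore p G).map _)
  have hq : ⁅⁅pCore p G, zpowers a⁆, zpowers a⁆ ≤ (frattini (pCore p G)).map (pCore p G).subtype := by
    have e1 : ⁅pCore p G, zpowers a⁆ ≤ pCore p G :=
      commutator_le_of_le_normalizer fun g _ => mem_normalizer_of_normal _ g
    have e2 : zpowers a ≤ 𝐍 ⁅pCore p G, zpowers a⁆ :=
      le_normalizer_commutator (fun g _ => mem_normalizer_of_normal _ g) le_normalizer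
    have e3 : IsCyclic (⁅pCore p G, zpowers a⁆ : Subgroup G) :=
      isCyclic_of_le (Subgroup.commutator_mono h1 (zpowers_le.2 ha))
    obtain ⟨d, hd⟩ := (Subgroup.isCyclic_iff_exists_zpowers_eq_top _).1 e3
    by_cases h0 : ⁅pCore p G, zpowers a⁆ = ⊥
    · rw [h0, Subgroup.commutator_bot_left]; exact bot_le
    have hlt := H1.commutator_lt_of_isPGroup (hS.to_le (zpowers_le.2 ha)) ((isPGroup_pCore p G).to_le e1) e2 h0
    intro x hx
    have hx' := hlt.le hx
    rw [← hd] at hx' e1
    obtain ⟨k, rfl⟩ := (mem_powers_iff_mem_zpowers.2 hx')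
    by_cases hk : p ∣ k
    · obtain ⟨m, rfl⟩ := hk
      change d ^ (p * m) ∈ _
      rw [mul_comm, pow_mul]
      exact H4.pow_mem_map_frattini (isPGroup_pCore p G) (e1 (npow_mem_zpowers d m))
    · refine absurd (hd.ge.trans (zpowers_le.2 ?_)) hlt.not_ge
      obtain ⟨n, hn⟩ := IsPGroup.iff_orderOf.1 (isPGroup_pCore p G) ⟨d, e1 (mem_zpowers d)⟩
      rw [Subgroup.orderOf_mk] at hn
      obtain ⟨m, hm⟩ := exists_pow_eq_self_of_coprime (x := d) (n := k)
        (hn ▸ ((Nat.Prime.coprime_iff_not_dvd hp.out).2 hk).symm.pow_right n)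
      rw [← hm]
      exact pow_mem hx m
  obtain ⟨D, hD, h1, ⟨k, hk⟩, ha⟩ := hst a hq
  set K := sectionKernel (pCore p G) ((frattini (pCore p G)).map (pCore p G).subtype) with hK
  have hKn : K.Normal := by rw [hK, sectionKernel]; infer_instance
  have hKp : IsPGroup p K := by
    refine isPGroup_of_forall_coprime fun x hx hcop => ?_
    refine eq_one_of_coprime_of_mem (isPGroup_pCore p G) hcop (hc ?_)
    refine H2.le_centralizer_of_frattini (A := zpowers x) ?_ ?_ (mem_zpowers x)
    · rw [Nat.card_zpowers]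
      exact H2.coprime_card_of_isPGroup ((isPGroup_pCore p G).to_subgroup _) hcop
    · rw [H1.commutator_le_iff_map_mk', commutator_eq_bot_iff', map_le_iff_le_comap]
      exact (zpowers_le).2 hx
  refine le_pCore (isPGroup_iff_mem.2 fun x hx => ?_) ha
  obtain ⟨m, hm⟩ := isPGroup_iff_mem.1 hKp _
    (H9.pow_mem_of_relIndex (fun g _ => mem_normalizer_of_normal K g) hk hx)
  exact ⟨k + m, by rw [pow_add, pow_mul, hm]⟩


/-- Let X be a finite solvable group of odd order, p a prime and S a Sylow p-subgroup of X whose commutator subgroup is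
cyclic. Then the product of the largest normal subgroup of X of order prime to p with S is a normal subgroup of X. -/
theorem result {X : Type*} [Group X] [Finite X] [Group.IsSolvable X]
    (hX : Odd (Nat.card X)) (p : ℕ) [Fact p.Prime] (S : Sylow p X) (hS : IsCyclic (commutator (S : Subgroup X))) :
    (Cfsg.pPrimeCore p X ⊔ (S : Subgroup X)).Normal := by
  by_cases h2 : p = 2
  · have : (S : Subgroup X) = ⊥ := eq_bot_of_isPGroup_of_not_dvd S.isPGroup' le_top
      (by rw [card_top, h2]; exact hX.not_two_dvd_nat)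
    rw [this, sup_bot_eq]
    infer_instance
  let f := QuotientGroup.mk' (pPrimeCore p X)
  have hT := (isSylowIn_top S).map f
  rw [Subgroup.map_top_of_surjective _ (QuotientGroup.mk'_surjective _)] at hT
  have h1 : pCore p _ ≤ (S : Subgroup X).map f :=
    hT.le_of_le_normalizer' (isPGroup_pCore p _) le_top fun g _ => mem_normalizer_of_normal _ g
  have h3 := core h2 (hX.of_dvd_nat (card_quotient_dvd_card _))
    (H1.centralizer_pCore_le_of_isSolvable inferInstance H1.pPrimeCore_quotient_pPrimeCore) hT.isPGroup h1 (by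
      rw [← map_commutator, ← Subgroup.map_subtype_commutator, Subgroup.map_map]
      exact isCyclic_of_surjective _ (MonoidHom.subgroupMap_surjective _ _))
  have h4 : pPrimeCore p X ⊔ S = (pCore p _).comap f := by
    rw [← le_antisymm h3 h1, comap_map_eq, QuotientGroup.ker_mk', sup_comm]
  rw [h4]
  infer_instance

end Cfsg.Agent.S0521
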