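import Cfsg.Statements.S0522
import Cfsg.Agent.H18.U7
import Cfsg.Agent.H18.Top
import Cfsg.Agent.S0205

set_option autoImplicit false
open Cfsg

namespace Cfsg.Agent.S0522

open H19 H18 Subgroup in

/-- Transitivity Theorem (odd-order setting). Let X be a finite group of odd order in which the normalizer of every
nontrivial p-subgroup is solvable, P a Sylow p-subgroup, and B an abelian subgroup of P, normalized by P, with
C_P(B) = B and containing an elementary abelian subgroup of order p^3. Then for every prime q ≠ p, any two q-subgroups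
that are maximal among the q-subgroups normalized by B are conjugate by an element of the centralizer of B. -/
theorem result {X : Type*} [Group X] [Finite X] (hX : Odd (Nat.card X)) (p : ℕ)
    [Fact p.Prime] (hloc : ∀ T : Subgroup X, IsPGroup p T → T ≠ ⊥ → Group.IsSolvable (Subgroup.normalizer (T : Set X)))
    (P : Sylow p X) (B : Subgroup X) (hBP : B ≤ (P : Subgroup X))
    (hBn : ∀ x ∈ (P : Subgroup X), ∀ b ∈ B, x * b * x⁻¹ ∈ B) (hBa : IsMulCommutative B)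
    (hBc : (P : Subgroup X) ⊓ Subgroup.centralizer (B : Set X) = B)
    (hB3 : ∃ E : Subgroup X, E ≤ B ∧ (∀ e ∈ E, e ^ p = 1) ∧ p ^ 3 ≤ Nat.card E)
    (q : ℕ) [Fact q.Prime] (hqp : q ≠ p) (Q₁ Q₂ : Subgroup X)
    (h₁ : IsPGroup q Q₁ ∧ B ≤ Subgroup.normalizer (Q₁ : Set X) ∧
      ∀ R : Subgroup X, IsPGroup q R → B ≤ Subgroup.normalizer (R : Set X) → Q₁ ≤ R → R = Q₁)
    (h₂ : IsPGroup q Q₂ ∧ B ≤ Subgroup.normalizer (Q₂ : Set X) ∧
      ∀ R : Subgroup X, IsPGroup q R → B ≤ Subgroup.normalizer (R : Set X) → Q₂ ≤ R → R = Q₂) :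
    ∃ c ∈ Subgroup.centralizer (B : Set X), Q₂ = Q₁.map (MulAut.conj c).toMonoidHom := by
  have hp : p.Prime := Fact.out
  have hq : q.Prime := Fact.out
  haveI := Cfsg.Agent.S0205.result hX
  have hP := syl_sylow_top P
  have hn : (P : Subgroup X) ≤ N(B) := fun x hx => mem_norm_of_cj_le fun y hy => by
    obtain ⟨b, hb, rfl⟩ := mem_cj'.1 hy
    exact hBn x hx b hb
  have hB := hP.pi.of_le hBP
  have d := H4.SCN_Sylow_cent_dprod hP ⟨hBP, hn, hBc⟩
  rw [top_inf_eq] at d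
  have hK := Oc_pi {p}ᶜ (⊤ : Subgroup X)
  have hBK : B ≤ N(Oc {p}ᶜ ⊤) := le_top.trans (Oc_norm _ _)
  have key : ∀ Q : Subgroup X, (IsPGroup q Q ∧ B ≤ N(Q) ∧ ∀ R : Subgroup X, IsPGroup q R →
      B ≤ N(R) → Q ≤ R → R = Q) → Syl q Q (Oc {p}ᶜ ⊤) := fun Q ⟨h1, h2, h3⟩ => by
    have h4 := pG_iff.2 h1
    obtain ⟨R, a1, a2, a3⟩ := inv_syl_ge hBK (hK.coprime' hB) (Or.inl hB.sol)
      (le_p'core_of_le_Opp hp sol_top hB (odd_p_abelian_constrained hp (odd_top hX) sol_top hP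
        ⟨hBP, hn⟩ hBa) le_top (h4.sing_ne hqp) h2 ((d.sd.hall_of_pi (Oc_pi _ _)
          hB.compl_compl).le_Oc inf_le_right ((h4.sing_ne hqp).infl _))) h2 h4
    exact h3 R a1.pi.isPGroup a2 a3 ▸ a1
  obtain ⟨c, hc, e⟩ := inv_syl_conj hBK (hK.coprime' hB) (Or.inl hB.sol) (key _ h₁) h₁.2.1
    (key _ h₂) h₂.2.1
  exact ⟨c, hc.2, e.symm⟩

end Cfsg.Agent.S0522
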