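import Cfsg.Statements.S0530
import Cfsg.Agent.H2.Super

set_option autoImplicit false
open Cfsg

namespace Cfsg.Agent.S0530

/-- A finite group whose order is twice a prime power is supersolvable. -/
theorem result {G : Type*} [Group G] [Finite G] (p n : ℕ) (hp : p.Prime) (hG : Nat.card G = 2 * p ^ n) : Cfsg.IsSupersolvable G := by
  have : Fact p.Prime := ⟨hp⟩
  obtain ⟨P, hP⟩ := Sylow.exists_subgroup_card_pow_prime (G := G) p (n := n)
    (hG ▸ Dvd.intro_left 2 rfl)
  refine H2.isSupersolvable_of_nilpotent_index_dvd_two P (IsPGroup.of_card hP).isNilpotent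
    (dvd_of_eq (Nat.eq_of_mul_eq_mul_right (Nat.card_pos (α := P)) ?_))
  rw [Subgroup.index_mul_card, hP, hG]

end Cfsg.Agent.S0530
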