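import Cfsg.Statements.S0534
import Cfsg.Agent.H6.Elem

set_option autoImplicit false
open Cfsg

namespace Cfsg.Agent.S0534
open H19 H18 H6.El Subgroup

theorem ab_clt {A : Type*} [CommGroup A] [Finite A] (e : ℕ) :
    e ∣ Nat.card A → ∃ B : Subgroup A, Nat.card B = e := by
  induction e using induction_on_primes with
  | zero => intro h; exact absurd (zero_dvd_iff.1 h) Nat.card_pos.ne'
  | one => exact fun _ => ⟨⊥, card_bot⟩
  | prime_mul p a hp ih =>
    intro h
    obtain ⟨B, hB⟩ := ih (Dvd.dvd.trans (Dvd.intro_left _ rfl) h)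
    have h1 : p ∣ Nat.card (A ⧸ B) := by
      rw [← B.card_mul_index, hB, mul_comm] at h
      exact Nat.dvd_of_mul_dvd_mul_left (hB ▸ Nat.card_pos) h
    obtain ⟨X, -, hX⟩ := exists_card_eq_prime (H := ⊤) hp (card_top (G := A ⧸ B) ▸ h1)
    refine ⟨X.comap (QuotientGroup.mk' B), ?_⟩
    have e1 := (X.comap (QuotientGroup.mk' B)).card_mul_index
    rw [index_comap_of_surjective _ (QuotientGroup.mk'_surjective B), ← B.card_mul_index,
      B.index_eq_card, ← X.card_mul_index, hX, hB, ← mul_assoc] at e1
    rw [Nat.eq_of_mul_eq_mul_right (Nat.pos_of_ne_zero index_ne_zero_of_finite) e1, mul_comm]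


/-- Let G be a finite solvable group and A a finite abelian group such that every prime dividing the order of A divides the order of G and, for each prime p dividing the order of G, the exponent of p in the order of A is one less than its exponent in the order of G. Then G × A has a subgroup of every order dividing its order. -/
theorem result {G A : Type*} [Group G] [CommGroup A] [Finite G] [Finite A] [Group.IsSolvable G] (hA : ∀ p : ℕ, p.Prime → p ∣ Nat.card A → p ∣ Nat.card G) (hexp : ∀ p : ℕ, p.Prime → p ∣ Nat.card G → (Nat.card A).factorization p + 1 = (Nat.card G).factorization p) : Cfsg.HasSubgroupOfEveryOrder (G × A) := by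
  intro d hd
  rw [Nat.card_prod] at hd
  have hG0 : Nat.card G ≠ 0 := Nat.card_pos.ne'
  have hA0 : Nat.card A ≠ 0 := Nat.card_pos.ne'
  have hd0 : d ≠ 0 := ne_zero_of_dvd_ne_zero (mul_ne_zero hG0 hA0) hd
  obtain ⟨H, hH⟩ := exists_hall {p | (Nat.card G).factorization p ≤ d.factorization p}
    (sol_top (G := G))
  have hH0 : #H ≠ 0 := card_ne_zero H
  have hle := (Nat.factorization_le_iff_dvd hd0 (mul_ne_zero hG0 hA0)).2 hd
  rw [Nat.factorization_mul hG0 hA0] at hle
  have hmul := congrArg Nat.factorization H.card_mul_index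
  rw [Nat.factorization_mul hH0 index_ne_zero_of_finite] at hmul
  have key : ∀ p, p.Prime → (#H).factorization p ≤ d.factorization p ∧
      d.factorization p ≤ (#H).factorization p + (Nat.card A).factorization p := by
    intro p hp
    have e1 := DFunLike.congr_fun hmul p
    have e2 := hle p
    simp only [Finsupp.add_apply] at e1 e2
    by_cases hm : (Nat.card G).factorization p ≤ d.factorization p
    · have := Nat.factorization_eq_zero_of_not_dvd (hH.idx.not_dvd hp hm)
      rw [relIndex_top_right] at this
      omega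
    · have h0 := Nat.factorization_eq_zero_of_not_dvd (hH.pi.not_dvd' hp hm)
      have := hexp p hp (Nat.dvd_of_factorization_pos (by omega))
      omega
  have h1 : #H ∣ d := (Nat.factorization_prime_le_iff_dvd hH0 hd0).1 fun p hp => (key p hp).1
  have h2 : d ∣ #H * Nat.card A := (Nat.factorization_prime_le_iff_dvd hd0
    (mul_ne_zero hH0 hA0)).1 fun p hp => by
      rw [Nat.factorization_mul hH0 hA0]; exact (key p hp).2
  obtain ⟨e, rfl⟩ := h1
  obtain ⟨B, hB⟩ := ab_clt e (Nat.dvd_of_mul_dvd_mul_left (card_pos H) h2)
  exact ⟨H.prod B, by rw [Nat.card_congr (H.prodEquiv B).toEquiv, Nat.card_prod, hB]⟩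

end Cfsg.Agent.S0534
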