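import Cfsg.Statements.S0535
import Cfsg.Agent.H2.Factor

set_option autoImplicit false
open Cfsg

namespace Cfsg.Agent.S0535

/-- Suppose that for every nontrivial subgroup H of a finite group and every prime p dividing the order of H there is a proper subgroup of H whose index in H is a power of p. Then the group is solvable. -/
theorem result {G : Type*} [Group G] [Finite G] (h : ∀ H : Subgroup G, H ≠ ⊥ → ∀ p : ℕ, p.Prime → p ∣ Nat.card H → ∃ K : Subgroup H, K ≠ ⊤ ∧ ∃ k : ℕ, K.index = p ^ k) : Group.IsSolvable G := by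
  refine H2.isSolvable_of_forall_exists_hall fun p hp => ?_
  obtain ⟨H, -, ⟨k, hk⟩, hmin⟩ := H1.exists_minimal_le
    (P := fun H : Subgroup G => ∃ k : ℕ, H.index = p ^ k) (H := ⊤) ⟨0, by simp⟩
  refine ⟨H, (H2.isPiHall_compl_singleton_iff hp).2
    ⟨((Nat.Prime.coprime_iff_not_dvd hp).2 fun hd => ?_).symm, k, hk⟩⟩
  obtain ⟨K, hK, j, hj⟩ := h H (fun e => hp.ne_one (by simpa [e] using hd)) p hp hd
  refine hK (H1.map_subtype_eq_self_iff.1 (hmin _ ⟨j + k, ?_⟩ (Subgroup.map_subtype_le K)))
  rw [Subgroup.index_map_subtype, hj, hk, pow_add]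

end Cfsg.Agent.S0535
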