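import Cfsg.Statements.S0537
import Cfsg.Agent.H6.Elem

set_option autoImplicit false
open Cfsg

namespace Cfsg.Agent.S0537
open H19 Subgroup

/-- A finite non-abelian group in which every proper subgroup is abelian is either of prime-power order, or is generated by a cyclic Sylow p-subgroup and a normal Sylow q-subgroup that is elementary abelian, for distinct primes p and q. -/
theorem result {G : Type*} [Group G] [Finite G] (hna : ¬ IsMulCommutative G) (h : ∀ H : Subgroup G, H ≠ ⊤ → IsMulCommutative H) : (∃ p : ℕ, p.Prime ∧ IsPGroup p G) ∨ ∃ p q : ℕ, p.Prime ∧ q.Prime ∧ p ≠ q ∧ ∃ (P : Sylow p G) (Q : Sylow q G), IsCyclic P ∧ (Q : Subgroup G).Normal ∧ Cfsg.IsElementaryAbelian q (Q : Subgroup G) ∧ (P : Subgroup G) ⊔ Q = ⊤ := by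
  have hna' : ¬ Ab (⊤ : Subgroup G) := fun h0 =>
    hna ⟨⟨fun a b => mul_comm_of_comm h0 (mem_top a) (mem_top b)⟩⟩
  by_cases hn : Group.IsNilpotent G
  · left
    by_contra hc
    push Not at hc
    apply hna'
    have hN : Nil (⊤ : Subgroup G) := inferInstance
    have key : ∀ p P, p.Prime → Syl p P (⊤ : Subgroup G) → P ≤ C((⊤ : Subgroup G)) := by
      intro p P hp hP
      have hPa : Ab P := h P fun e => hc p hp (by
        have := hP.pi.isPGroup
        rw [e] at this
        exact this.of_surjective (⊤ : Subgroup G).subtype fun x => ⟨⟨x, trivial⟩, rfl⟩)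
      refine cents_symm (le_of_syl fun q Q hq hQ => ?_)
      by_cases e : q = p
      · subst e
        rw [(hP.eq_of_normal (nil_hall_normal hN hP).norm hQ)]
        exact comm_iff_le_cent.1 hPa
      · exact nil_cents_pi hN le_top le_top hQ.pi (hP.pi.sing_ne (Ne.symm e))
    exact comm_iff_le_cent.2 (le_of_syl key)
  right
  obtain ⟨p, q, hp, hq, hpq, P, Q, hP, hQ, hs⟩ := H6.El.schmidt hn fun H hH => nil_of_ab (h H hH)
  refine ⟨p, q, hp, hq, hpq, P, Q, hP, hQ, ?_, hs⟩
  have hPp := PiN.of_isPGroup hp P.isPGroup'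
  have hQq := PiN.of_isPGroup hq Q.isPGroup'
  have hQt : (Q : Subgroup G) ≠ ⊤ := fun e => hn (by
    have := hQq.nil
    rw [e] at this
    exact Group.nilpotent_of_surjective (⊤ : Subgroup G).subtype fun x => ⟨⟨x, trivial⟩, rfl⟩)
  have hQa := h _ hQt
  have hn' : (P : Subgroup G) ≤ N((Q : Subgroup G)) := le_normalizer_of_normal
  have hc : (#(Q : Subgroup G)).Coprime #(P : Subgroup G) := hQq.coprime (hPp.sing_ne hpq)
  -- the elements of order dividing `q`
  let W : Subgroup G :=
    { carrier := {x | x ∈ (Q : Subgroup G) ∧ x ^ q = 1}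
      one_mem' := ⟨one_mem _, one_pow _⟩
      mul_mem' := fun {a b} ha hb => ⟨mul_mem ha.1 hb.1, by
        rw [Commute.mul_pow (mul_comm_of_comm hQa ha.1 hb.1), ha.2, hb.2, one_mul]⟩
      inv_mem' := fun {a} ha => ⟨inv_mem ha.1, by rw [inv_pow, ha.2, inv_one]⟩ }
  have hWQ : W ≤ Q := fun x hx => hx.1
  have hWn : (P : Subgroup G) ≤ N(W) := fun g _ => mem_norm_of_cj_le fun x hx => by
    obtain ⟨y, hy, rfl⟩ := mem_cj'.1 hx
    exact ⟨hQ.conj_mem y hy.1 g, by rw [conj_pow, hy.2]; group⟩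
  by_cases hW : W ⊔ P = ⊤
  · have := sup_inf_modl hWn hWQ
    rw [hW, top_inf_eq, (hPp.inf_eq_bot (hQq.sing_ne hpq.symm)), sup_bot_eq] at this
    refine ⟨hQa, fun x hx0 => ?_⟩
    have hx : x ∈ W := this ▸ hx0
    exact hx.2
  · exfalso
    have h1 : (P : Subgroup G) ≤ C((Q : Subgroup G)) :=
      H2.le_centralizer_of_prime_order hn' hc.symm fun v hv ho a ha => by
        have e : orderOf v = q := (hQq.elt hv).eq_of_dvd ho dvd_rfl
        exact mul_comm_of_comm (h _ hW) (mem_sup_right ha)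
          (mem_sup_left ⟨hv, by rw [← e]; exact pow_orderOf_eq_one v⟩)
    exact hna' (hs ▸ comm_sup (comm_of_cyclic hP) hQa h1)

end Cfsg.Agent.S0537
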