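import Cfsg.Statements.S0540
import Cfsg.Agent.H1.Wielandt

set_option autoImplicit false
open Pointwise
open Cfsg

namespace Cfsg.Agent.S0540

/-- A uniqueness lemma of zipper type. Let A be a subgroup of a finite group G and U a nonempty family of subgroups. For V in U write S(V) for the set of conjugates of A that lie in V and are subnormal in V. Assume: A belongs to S(V) for every V in U; a member of some S(W) that lies in V belongs to S(V); and for all V, W in U the normalizer of the join of S(V) ∩ S(W) lies in some member of U. Then U has a greatest element. -/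
theorem result {G : Type*} [Group G] [Finite G] (A : Subgroup G) (U : Set (Subgroup G)) (hU : U.Nonempty) (S : Subgroup G → Set (Subgroup G)) (hS : ∀ V B : Subgroup G, B ∈ S V ↔ (∃ g : G, B = MulAut.conj g • A) ∧ B ≤ V ∧ (B.subgroupOf V).IsSubnormal) (h1 : ∀ V ∈ U, A ∈ S V) (h2 : ∀ V ∈ U, ∀ W ∈ U, ∀ B ∈ S W, B ≤ V → B ∈ S V) (h3 : ∀ V ∈ U, ∀ W ∈ U, ∃ X ∈ U, Subgroup.normalizer ((sSup (S V ∩ S W) : Subgroup G) : Set G) ≤ X) : ∃ M ∈ U, ∀ V ∈ U, V ≤ M := by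
  have hmax : ∀ V ∈ U, ∃ M, V ≤ M ∧ M ∈ U ∧ ∀ K ∈ U, M ≤ K → K = M := fun V hV =>
    H1.exists_maximal_ge (P := fun X => X ∈ U) hV
  have hconj : ∀ V : Subgroup G, ∀ B ∈ S V, ∀ g ∈ V, MulAut.conj g • B ∈ S V := by
    intro V B hB g hg
    obtain ⟨⟨x, rfl⟩, h4⟩ := (hS V B).1 hB
    exact (hS V _).2 ⟨⟨g * x, H1.conj_smul_conj_smul _ _ _⟩,
      H1.SubnIn.conj_of_mem_normalizer h4 (Subgroup.le_normalizer hg)⟩
  have key : ∀ T : Set (Subgroup G), ∀ M₁ ∈ U, ∀ M₂ ∈ U, (∀ K ∈ U, M₁ ≤ K → K = M₁) →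
      (∀ K ∈ U, M₂ ≤ K → K = M₂) → S M₁ ∩ S M₂ = T → M₁ = M₂ := by
    intro T
    induction T using WellFoundedGT.induction with
    | _ T ih =>
    intro M₁ hM₁ M₂ hM₂ hm₁ hm₂ hT
    obtain ⟨X, hX, h4⟩ := h3 M₁ hM₁ M₂ hM₂
    obtain ⟨M₃, h5, hM₃, hm₃⟩ := hmax X hX
    rw [hT] at h4
    have h6 : ∀ M ∈ U, (∀ K ∈ U, M ≤ K → K = M) → T ⊆ S M → M = M₃ := by
      intro M hM hm hTM
      rcases hTM.eq_or_ssubset with h7 | h7
      · refine (hm M₃ hM₃ (le_trans ?_ (h4.trans h5))).symm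
        rw [h7]
        exact H1.le_normalizer_sSup_of_conj_mem fun g hg K hK => le_sSup (hconj M K hK g hg)
      · obtain ⟨B, h8, h9, h10⟩ := H1.exists_le_normalizer_sSup (V := M)
          (fun B hB => ((hS M B).1 hB).2) (hconj M) h7
        refine ih (S M ∩ S M₃) ⟨fun C hC => ⟨hTM hC, h2 M₃ hM₃ M hM C (hTM hC)
          ((le_sSup hC).trans (Subgroup.le_normalizer.trans (h4.trans h5)))⟩, fun h11 => h9 (h11
            ⟨h8, h2 M₃ hM₃ M hM B h8 (h10.trans (h4.trans h5))⟩)⟩ M hM M₃ hM₃ hm hm₃ rfl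
    rw [h6 M₁ hM₁ hm₁ (hT ▸ Set.inter_subset_left), h6 M₂ hM₂ hm₂ (hT ▸ Set.inter_subset_right)]
  obtain ⟨V₀, hV₀⟩ := hU
  obtain ⟨M, -, hM, hm⟩ := hmax V₀ hV₀
  refine ⟨M, hM, fun V hV => ?_⟩
  obtain ⟨M', h4, hM', hm'⟩ := hmax V hV
  rwa [key _ M hM M' hM' hm hm' rfl]

end Cfsg.Agent.S0540
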