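import Cfsg.Statements.S0541
import Cfsg.Agent.H1.Wielandt

set_option autoImplicit false
open Pointwise
open Cfsg

namespace Cfsg.Agent.S0541

/-- Let Z and Y be subgroups of a finite group G and p a prime. Suppose that for every g in G the subgroup generated by the conjugates of g Z g⁻¹ under Y is a p-group. Then there is a Sylow p-subgroup P of G such that Y normalizes the subgroup generated by all conjugates of Z contained in P. -/
theorem result {G : Type*} [Group G] [Finite G] (p : ℕ) [Fact p.Prime] (Z Y : Subgroup G) (h : ∀ g : G, IsPGroup p ↥(⨆ y ∈ Y, MulAut.conj (y * g) • Z)) : ∃ P : Sylow p G, Y ≤ Subgroup.normalizer ((⨆ g ∈ {g : G | MulAut.conj g • Z ≤ (P : Subgroup G)}, MulAut.conj g • Z : Subgroup G) : Set G) := by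
  obtain ⟨Q, -, ⟨hQ1, hQ2, hQ3⟩, hQ4⟩ := H1.exists_maximal_ge (P := fun Q : Subgroup G =>
    IsPGroup p Q ∧ Y ≤ Subgroup.normalizer (Q : Set G) ∧
      Q ≤ sSup {X | (∃ g : G, X = MulAut.conj g • Z) ∧ X ≤ Q}) (H := ⊥)
    ⟨IsPGroup.of_bot, Subgroup.le_normalizer_of_normal, bot_le⟩
  obtain ⟨P, hP⟩ := hQ1.exists_le_sylow
  have hQ5 : sSup {X | (∃ g : G, X = MulAut.conj g • Z) ∧ X ≤ Q} = Q :=
    le_antisymm (sSup_le fun X hX => hX.2) hQ3
  refine ⟨P, ?_⟩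
  suffices key : ∀ g : G, MulAut.conj g • Z ≤ (P : Subgroup G) → MulAut.conj g • Z ≤ Q by
    convert hQ2
    refine le_antisymm (iSup₂_le key) (hQ3.trans (sSup_le ?_))
    rintro _ ⟨⟨g, rfl⟩, hg⟩
    exact le_iSup₂_of_le g (hg.trans hP) le_rfl
  by_contra hcon
  push Not at hcon
  obtain ⟨_, ⟨⟨g, rfl⟩, h1⟩, h2, h3⟩ := H1.exists_le_normalizer_sSup (V := P)
    (S := {X | (∃ g : G, X = MulAut.conj g • Z) ∧ X ≤ P})
    (S₀ := {X | (∃ g : G, X = MulAut.conj g • Z) ∧ X ≤ Q})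
    (fun U hU => H1.SubnIn.of_isPGroup hU.2 P.isPGroup')
    (by
      rintro _ ⟨⟨x, rfl⟩, hx⟩ g hg
      exact ⟨⟨g * x, H1.conj_smul_conj_smul _ _ _⟩,
        H1.conj_smul_le_of_le_of_mem hx (Subgroup.le_normalizer hg)⟩)
    ⟨fun X hX => ⟨hX.1, hX.2.trans hP⟩, fun h1 => by
      obtain ⟨g, h2, h3⟩ := hcon
      exact h3 (h1 ⟨⟨g, rfl⟩, h2⟩).2⟩
  rw [hQ5] at h3
  set W := ⨆ y ∈ Y, MulAut.conj (y * g) • Z
  have h4 : W ≤ Subgroup.normalizer (Q : Set G) := iSup₂_le fun y hy => by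
    have := H1.conj_smul_le_normalizer (g := y) h3
    rwa [H1.conj_smul_eq_of_mem_normalizer (hQ2 hy), H1.conj_smul_conj_smul] at this
  have h5 : Y ≤ Subgroup.normalizer (W : Set G) := fun y hy => by
    refine H1.mem_normalizer_of_conj_smul_le ?_
    rw [H1.conj_smul_le_iff]
    refine iSup₂_le fun x hx => ?_
    rw [← H1.conj_smul_le_iff, H1.conj_smul_conj_smul, ← mul_assoc]
    exact le_iSup₂_of_le (y * x) (Y.mul_mem hy hx) le_rfl
  have h6 := hQ4 (W ⊔ Q) ⟨IsPGroup.to_sup_of_normal_right' (h g) hQ1 h4,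
    H1.le_normalizer_sup h5 hQ2, sup_le (iSup₂_le fun y hy => le_sSup ⟨⟨_, rfl⟩,
      le_sup_of_le_left (le_iSup₂_of_le y hy le_rfl)⟩) (hQ3.trans (sSup_le_sSup fun X hX =>
        ⟨hX.1, hX.2.trans le_sup_right⟩))⟩ le_sup_right
  refine h2 ⟨⟨g, rfl⟩, le_trans ?_ (le_sup_left.trans h6.le)⟩
  exact le_iSup₂_of_le 1 Y.one_mem (by rw [one_mul])

end Cfsg.Agent.S0541
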