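import Cfsg.Statements.S0547
import Cfsg.Agent.H6.Elem

set_option autoImplicit false
open Cfsg

namespace Cfsg.Agent.S0547
open H19 H6.El Subgroup

/-- Let a finite solvable group G act faithfully and primitively on a set, and let M be a minimal normal subgroup of G. Then M is transitive with trivial point stabilizers, and the number of points equals the order of M, which is a prime power p ^ d with d ≥ 1. -/
theorem result {G : Type*} [Group G] [Finite G] [Group.IsSolvable G] {Ω : Type*} [Nonempty Ω] [MulAction G Ω] [FaithfulSMul G Ω] (hprim : MulAction.IsPreprimitive G Ω) (M : Subgroup G) [M.Normal] (hM : M ≠ ⊥) (hmin : ∀ K : Subgroup G, K.Normal → K ≤ M → K = ⊥ ∨ K = M) : MulAction.IsPretransitive M Ω ∧ (∀ ω : Ω, MulAction.stabilizer M ω = ⊥) ∧ ∃ p d : ℕ, p.Prime ∧ 0 < d ∧ Nat.card Ω = p ^ d ∧ Nat.card M = p ^ d := by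
  have ht := H17.normal_trans (α := Ω) M hM
  obtain ⟨p, hp, hab, he⟩ := min_abelem hM hmin
  have hs : ∀ ω : Ω, MulAction.stabilizer M ω = ⊥ := fun ω => eq_bot_iff.2 fun m hm =>
    Subtype.ext (stab_bot_of_ab (M := M) (comm_iff_le_cent.1 hab m.2) (ω := ω) hm)
  refine ⟨ht, hs, ?_⟩
  have hpg : PG p M := PiN.of_elt fun x hx =>
    ((piN_prime (π := {p}) hp).2 rfl).dvd (orderOf_dvd_of_pow_eq_one (he x hx))
  obtain ⟨d, hd⟩ := hpg.exists_card
  obtain ⟨ω⟩ := ‹Nonempty Ω›
  refine ⟨p, d, hp, Nat.pos_of_ne_zero fun e => hM (card_eq_one.1 (by rw [hd, e, pow_zero])), ?_, hd⟩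
  rw [← hd, ← MulAction.index_stabilizer_of_transitive M ω, hs, index_bot]

end Cfsg.Agent.S0547
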