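import Cfsg.Statements.S0550
import Cfsg.Agent.H6.Elem

set_option autoImplicit false
open Cfsg

namespace Cfsg.Agent.S0550
open H19 H6.El Subgroup

/-- Let U be a maximal subgroup with trivial normal core in a finite group G, and A ≠ B two minimal normal subgroups. Then A is the centralizer of B and B that of A, U complements each of them, A and B are non-abelian, and A, B and (A ⊔ B) ∩ U are pairwise isomorphic. -/
theorem result {G : Type*} [Group G] [Finite G] (U : Subgroup G) (hU : IsCoatom U) (hcore : U.normalCore = ⊥) (A B : Subgroup G) [A.Normal] [B.Normal] (hA : A ≠ ⊥) (hB : B ≠ ⊥) (hAmin : ∀ K : Subgroup G, K.Normal → K ≤ A → K = ⊥ ∨ K = A) (hBmin : ∀ K : Subgroup G, K.Normal → K ≤ B → K = ⊥ ∨ K = B) (hAB : A ≠ B) : Subgroup.centralizer (B : Set G) = A ∧ Subgroup.centralizer (A : Set G) = B ∧ Subgroup.IsComplement' A U ∧ Subgroup.IsComplement' B U ∧ ¬ IsMulCommutative A ∧ Nonempty (A ≃* B) ∧ Nonempty (A ≃* ↥((A ⊔ B) ⊓ U)) := by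
  have hd : A ⊓ B = ⊥ := by
    rcases hAmin (A ⊓ B) inferInstance inf_le_left with h | h
    · exact h
    · rcases hBmin A inferInstance (h ▸ inf_le_right) with h' | h'
      · exact absurd h' hA
      · exact absurd h' hAB
  have hc : A ≤ C(B) := cents_of_norms_disjoint le_normalizer_of_normal le_normalizer_of_normal hd
  have e1 : C(B) = A := ((cf_cent_min hU hcore hB A hc).resolve_left hA).symm
  have e2 : C(A) = B := ((cf_cent_min hU hcore hA B (cents_symm hc)).resolve_left hB).symm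
  have d1 : A ⊓ U = ⊥ := by rw [← e1]; exact cf_cent_inf hU hcore hB
  have d2 : B ⊓ U = ⊥ := by rw [← e2]; exact cf_cent_inf hU hcore hA
  have s1 := cf_sup hU hcore A hA
  have s2 := cf_sup hU hcore B hB
  have m1 : (A ⊔ B) ⊓ U ⊔ A = A ⊔ B := by
    have := sup_inf_modl (A := A) (B := U) (H := A ⊔ B) le_normalizer_of_normal le_sup_left
    rw [s1, top_inf_eq] at this
    rw [sup_comm, inf_comm]; exact this.symm
  have m2 : (A ⊔ B) ⊓ U ⊔ B = A ⊔ B := by
    have := sup_inf_modl (A := B) (B := U) (H := A ⊔ B) le_normalizer_of_normal le_sup_right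
    rw [s2, top_inf_eq] at this
    rw [sup_comm, inf_comm]; exact this.symm
  have i1 : Nonempty (A ≃* ↥((A ⊔ B) ⊓ U)) := equiv_of_compl (B := B) hd
    (H19.eq_bot_mono (le_inf inf_le_right (inf_le_left.trans inf_le_right)) d2) m2.symm
  have i2 : Nonempty (B ≃* ↥((A ⊔ B) ⊓ U)) := equiv_of_compl (B := A) (inf_comm A B ▸ hd)
    (H19.eq_bot_mono (le_inf inf_le_right (inf_le_left.trans inf_le_right)) d1)
    (by rw [m1, sup_comm])
  refine ⟨e1, e2, isComplement'_of_disjoint_and_mul_eq_univ (disjoint_iff.2 d1) ?_,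
    isComplement'_of_disjoint_and_mul_eq_univ (disjoint_iff.2 d2) ?_, fun h => hA ?_,
    ⟨i1.some.trans i2.some.symm⟩, i1⟩
  · rw [← normal_mul, s1, coe_top]
  · rw [← normal_mul, s2, coe_top]
  · exact H19.eq_bot_mono (le_inf le_rfl (e2 ▸ comm_iff_le_cent.1 h)) hd

end Cfsg.Agent.S0550
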