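import Cfsg.Statements.S0551
import Cfsg.Agent.H6.Elem

set_option autoImplicit false
open Pointwise
open Cfsg

namespace Cfsg.Agent.S0551
open H19 H18 H6.El Subgroup
open scoped commutatorElement

/-- In a finite solvable group all core-free maximal subgroups are conjugate. -/
theorem result {G : Type*} [Group G] [Finite G] [Group.IsSolvable G] (U V : Subgroup G) (hU : IsCoatom U) (hV : IsCoatom V) (hUc : U.normalCore = ⊥) (hVc : V.normalCore = ⊥) : ∃ g : G, MulAut.conj g • U = V := by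
  have hbt : (⊥ : Subgroup G) < ⊤ := lt_of_le_of_lt bot_le hU.lt_top
  obtain ⟨M, -, hM⟩ := chief_exists_above (M := ⊤) normalIn_top normalIn_top hbt
  obtain ⟨p, hp, hMM, -, hMp⟩ := chief_abelem hM sol_top
  have hMn := hM.normU.normal
  have hM0 : M ≠ ⊥ := hM.lt.ne'
  have hMa : Ab M := comm_iff_der.2 (le_bot_iff.1 hMM)
  rw [relIndex_bot_left] at hMp
  have hC : C(M) = M :=
    ((cf_cent_min hU hUc hM0 M (comm_iff_le_cent.1 hMa)).resolve_left hM0).symm
  have hd : ∀ W : Subgroup G, IsCoatom W → W.normalCore = ⊥ → M ⊓ W = ⊥ := fun W h1 h2 =>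
    hC ▸ cf_cent_inf h1 h2 hM0
  by_cases hMt : M = ⊤
  · have e1 := hd U hU hUc
    have e2 := hd V hV hVc
    rw [hMt, top_inf_eq] at e1 e2
    exact ⟨1, by rw [e1, e2]; simp⟩
  obtain ⟨K, -, hK⟩ := chief_exists_above (M := ⊤) normalIn_top normalIn_top (lt_top_iff_ne_top.2 hMt)
  obtain ⟨q, hq, -, -, hKq⟩ := chief_abelem hK sol_top
  have hKn := hK.normU.normal
  have hqp : p ≠ q := by
    rintro rfl
    have hKp : PG p K := PiN.of_relIndex' hK.lt.le hMp hKq
    have h1 := nil_meet_center hKp.nil (hM.normU.of_le hK.lt.le le_top) hM0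
    rcases hM.min (M ⊓ C(K)) bot_le inf_le_left
      (norms_inf hM.normU.norm (norms_cent hK.normU.norm)) with h | h
    · exact h1 h
    · exact hK.lt.not_ge (hC ▸ cents_symm (h ▸ inf_le_right))
  have key : ∀ W : Subgroup G, IsCoatom W → W.normalCore = ⊥ →
      Syl q (W ⊓ K) K ∧ N(W ⊓ K) = W := by
    intro W h1 h2
    have e := sup_inf_modl (A := M) (B := W) le_normalizer_of_normal hK.lt.le
    rw [cf_sup h1 h2 M hM0, top_inf_eq] at e
    have hn : W ⊓ K ≤ N(M) := le_normalizer_of_normal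
    have hd' : M ⊓ (W ⊓ K) = ⊥ := H19.eq_bot_mono (inf_le_inf_left _ inf_le_left) (hd W h1 h2)
    refine ⟨⟨inf_le_right, ?_, ?_⟩, ?_⟩
    · rw [e, relIndex_sup_of_norm hn, ← inf_relIndex_right, hd', relIndex_bot_left] at hKq
      exact hKq
    · have := relIndex_sup_right_of_norm hn
      rw [← e] at this
      rw [this]
      exact (PiN.relIndex hMp _).sing_ne hqp
    · by_contra hne
      have h3 : W ≤ N(W ⊓ K) := norms_inf le_normalizer le_normalizer_of_normal
      have h4 := h1.2 _ (lt_of_le_of_ne h3 (Ne.symm hne))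
      have h5 : (W ⊓ K).Normal := normalizer_eq_top_iff.1 h4
      rw [cf_bot h2 (W ⊓ K) inf_le_left, sup_bot_eq] at e
      exact hK.lt.ne' e
  obtain ⟨g, -, hg⟩ := (key U hU hUc).1.sconj (key V hV hVc).1
  refine ⟨g, ?_⟩
  rw [← cj_eq_smul, ← (key U hU hUc).2, cj_norm, hg, (key V hV hVc).2]

end Cfsg.Agent.S0551
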