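import Cfsg.Statements.S0553
import Cfsg.Agent.H6.Elem

set_option autoImplicit false
open Cfsg

namespace Cfsg.Agent.S0553
open H19 H18 H6.El Subgroup
open scoped commutatorElement

theorem aux {G : Type*} [Group G] [Finite G] [Group.IsSolvable G]
    (h : ∀ M : Subgroup G, IsCoatom M → (Nat.card M).Coprime M.index) (n : ℕ) :
    ∀ V : Subgroup G, V.Normal → V ≠ ⊤ → V.index = n →
      ∃ p P, p.Prime ∧ p ∣ V.index ∧ Syl p P ⊤ ∧ (V ⊔ P).Normal := by
  induction n using Nat.strong_induction_on with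
  | _ n ih =>
  intro V hV hVt hn
  obtain ⟨U, -, hU⟩ := chief_exists_above (M := ⊤) normalIn_top normalIn_top (lt_top_iff_ne_top.2 hVt)
  obtain ⟨p, hp, -, -, hUp⟩ := chief_abelem hU sol_top
  have hUn := hU.normU.normal
  have hpd : p ∣ V.relIndex U :=
    (hUp.dvd_of_ne_one fun e => hU.lt.not_ge (relIndex_eq_one.1 e)).2
  have hpV : p ∣ V.index := hpd.trans (relIndex_dvd_index_of_le hU.lt.le)
  obtain ⟨P, hP⟩ := exists_syl p (⊤ : Subgroup G)
  have hUP : U ≤ V ⊔ P := ((hP.inf_normal hU.normU).sup_eq hU.lt.le hUp).ge.trans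
    (sup_le_sup_left inf_le_left _)
  by_cases hsyl : ¬ p ∣ U.index
  · refine ⟨p, P, hp, hpV, hP, ?_⟩
    have : P ≤ U := le_of_pi_of_relIndex le_normalizer_of_normal le_top le_top hP.pi
      (by rw [relIndex_top_right]; exact PiN.of_not_dvd hsyl)
    rw [le_antisymm (sup_le hU.lt.le this) hUP]; exact hUn
  push Not at hsyl
  have hUt : U ≠ ⊤ := fun e => hp.not_dvd_one (by rwa [e, index_top] at hsyl)
  obtain ⟨q, Q, hq, hqd, hQ, hQn⟩ := ih U.index (hn ▸ index_strictAnti hU.lt) U hUn hUt rfl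
  by_cases e : q = p
  · subst e
    obtain ⟨g, -, hg⟩ := hP.sconj hQ
    refine ⟨q, Q, hq, hpV, hQ, ?_⟩
    have h1 : U ≤ V ⊔ Q := ((hQ.inf_normal hU.normU).sup_eq hU.lt.le hUp).ge.trans
      (sup_le_sup_left inf_le_left _)
    rw [le_antisymm (sup_le_sup_right hU.lt.le Q) (sup_le h1 le_sup_right)]; exact hQn
  by_cases hVQ : (V ⊔ Q).Normal
  · exact ⟨q, Q, hq, hqd.trans (index_dvd_of_le hU.lt.le), hQ, hVQ⟩
  exfalso
  have hfr := (hQ.of_le le_sup_right (le_top (a := U ⊔ Q))).frattini (M := ⊤) normalIn_top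
  have hN : N(V ⊔ Q) ≠ ⊤ := fun e => hVQ (normalizer_eq_top_iff.1 e)
  obtain ⟨M, hM, hle⟩ := (eq_top_or_exists_le_coatom _).resolve_left hN
  have hNQ : N(Q) ≤ M := (norms_sup le_normalizer_of_normal le_rfl).trans hle
  have hVM : V ≤ M := (le_sup_left.trans le_normalizer).trans hle
  have hUM : U ⊔ M = ⊤ := top_le_iff.1 (hfr.ge.trans (sup_le (sup_le le_sup_left
    ((le_normalizer.trans hNQ).trans le_sup_right)) ((inf_le_right.trans hNQ).trans le_sup_right)))
  have hi : M.index = M.relIndex U := by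
    rw [← relIndex_sup_right_of_norm (A := U) le_normalizer_of_normal, hUM, relIndex_top_right]
  have hMp : PiN {p} M.index := hi ▸ hUp.dvd (relIndex_dvd_left hVM U)
  have h1 : p ∣ M.index := (hMp.dvd_of_ne_one fun e => hM.1 (index_eq_one.1 e)).2
  have h2 : p ∣ #M := by
    have := relIndex_sup_of_norm (A := U) (B := M) le_normalizer_of_normal
    rw [hUM, relIndex_top_right] at this
    exact (this ▸ hsyl).trans (relIndex_dvd_card U M)
  exact hp.ne_one (Nat.eq_one_of_dvd_coprimes (h M hM) h2 h1)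


/-- Let G be a nontrivial finite solvable group in which every maximal subgroup has order coprime to its index. Then for some prime p dividing the order of G the Sylow p-subgroups of G are normal. -/
theorem result {G : Type*} [Group G] [Finite G] [Group.IsSolvable G] [Nontrivial G] (h : ∀ M : Subgroup G, IsCoatom M → (Nat.card M).Coprime M.index) : ∃ p : ℕ, p.Prime ∧ p ∣ Nat.card G ∧ ∀ P : Sylow p G, (P : Subgroup G).Normal := by
  obtain ⟨p, P, hp, hd, hP, hn⟩ := aux h _ ⊥ inferInstance bot_ne_top rfl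
  rw [bot_sup_eq] at hn
  have := Fact.mk hp
  refine ⟨p, hp, index_bot (G := G) ▸ hd, fun Q => ?_⟩
  rw [hP.eq_of_normal le_normalizer_of_normal (syl_sylow_top Q)]; exact hn

end Cfsg.Agent.S0553
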