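import Cfsg.Statements.S0554
import Cfsg.Agent.H6.Elem

set_option autoImplicit false
open Cfsg

namespace Cfsg.Agent.S0554
open H19 H18 H6.El Subgroup
open scoped commutatorElement

theorem move {G : Type*} [Group G] {V U : Subgroup G} [V.Normal] [hU : U.Normal] :
    ∀ (t : ℕ) (H : Fin t → Subgroup G) (j : Fin t), U ≤ H j ⊔ V → ∀ s : Fin t → G,
      (∀ i, s i ∈ H i) → ∀ n ∈ U, ∃ s' : Fin t → G, (∀ i, s' i ∈ H i) ∧
        ((List.ofFn s').prod)⁻¹ * ((List.ofFn s).prod * n) ∈ V := by
  intro t
  induction t with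
  | zero => intro H j; exact j.elim0
  | succ t ih =>
    intro H j hj s hs n hn
    induction j using Fin.cases with
    | zero =>
      set r := (List.ofFn fun i : Fin t => s i.succ).prod
      obtain ⟨a, ha, v, hv, e⟩ := (mem_sup_of_norm' le_normalizer_of_normal).1
        (hj (hU.conj_mem n hn r))
      refine ⟨Fin.cons (s 0 * a) fun i => s i.succ, fun i => ?_, ?_⟩
      · induction i using Fin.cases with
        | zero => exact mul_mem (hs 0) ha
        | succ i => exact hs _
      · rw [List.ofFn_succ, List.ofFn_succ, List.prod_cons, List.prod_cons]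
        simp only [Fin.cons_zero, Fin.cons_succ]
        have : (s 0 * a * r)⁻¹ * (s 0 * r * n) = r⁻¹ * v * r⁻¹⁻¹ := by
          calc _ = r⁻¹ * a⁻¹ * (r * n * r⁻¹) * r := by group
            _ = _ := by rw [e]; group
        exact this ▸ Normal.conj_mem ‹_› v hv _
    | succ j =>
      obtain ⟨s', h1, h2⟩ := ih (fun i => H i.succ) j hj (fun i => s i.succ) (fun i => hs _) n hn
      refine ⟨Fin.cons (s 0) s', fun i => ?_, ?_⟩
      · induction i using Fin.cases with
        | zero => exact hs 0
        | succ i => exact h1 _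
      · rw [List.ofFn_succ, List.ofFn_succ, List.prod_cons, List.prod_cons]
        simp only [Fin.cons_zero, Fin.cons_succ]
        convert h2 using 1
        group

theorem aux {G : Type*} [Group G] [Finite G] [Group.IsSolvable G] {t : ℕ}
    (H : Fin t → Subgroup G) (hH : ∀ q : ℕ, q.Prime → q ∣ Nat.card G → ∃ i, Syl q (H i) ⊤) (n : ℕ) :
    ∀ V : Subgroup G, V.Normal → V.index = n → ∀ g : G, ∃ s : Fin t → G, (∀ i, s i ∈ H i) ∧
      ((List.ofFn s).prod)⁻¹ * g ∈ V := by
  induction n using Nat.strong_induction_on with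
  | _ n ih =>
  intro V hV hn g
  by_cases hVt : V = ⊤
  · exact ⟨1, fun i => one_mem _, hVt ▸ mem_top _⟩
  obtain ⟨U, -, hU⟩ := chief_exists_above (M := ⊤) normalIn_top normalIn_top (lt_top_iff_ne_top.2 hVt)
  obtain ⟨p, hp, -, -, hUp⟩ := chief_abelem hU sol_top
  have hUn := hU.normU.normal
  have hpd : p ∣ V.relIndex U :=
    (hUp.dvd_of_ne_one fun e => hU.lt.not_ge (relIndex_eq_one.1 e)).2
  obtain ⟨j, hj⟩ := hH p hp (hpd.trans ((relIndex_dvd_index_of_le hU.lt.le).trans V.index_dvd_card))
  have hUP : U ≤ H j ⊔ V := ((hj.inf_normal hU.normU).sup_eq hU.lt.le hUp).ge.trans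
    (sup_le le_sup_right (inf_le_left.trans le_sup_left))
  obtain ⟨s, h1, h2⟩ := ih U.index (hn ▸ index_strictAnti hU.lt) U hUn rfl g
  obtain ⟨s', h3, h4⟩ := move t H j hUP s h1 _ h2
  exact ⟨s', h3, by simpa using h4⟩


/-- Let G be a finite solvable group and let S assign to each of t distinct primes, including every prime divisor of the order of G, a Sylow subgroup of G. Then every element of G is a product s_0 s_1 ⋯ s_(t-1) with s_i in S i, the factors taken in the given order. -/
theorem result {G : Type*} [Group G] [Finite G] [Group.IsSolvable G] (t : ℕ) (p : Fin t → ℕ) (hp : ∀ i, (p i).Prime) (hinj : Function.Injective p) (hall : ∀ q : ℕ, q.Prime → q ∣ Nat.card G → ∃ i, p i = q) (S : (i : Fin t) → Sylow (p i) G) : ∀ g : G, ∃ s : (i : Fin t) → G, (∀ i, s i ∈ (S i : Subgroup G)) ∧ g = (List.ofFn s).prod := by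
  intro g
  obtain ⟨s, h1, h2⟩ := aux (fun i => (S i : Subgroup G)) (fun q hq hd => by
    obtain ⟨i, rfl⟩ := hall q hq hd
    have := Fact.mk hq
    exact ⟨i, syl_sylow_top (S i)⟩) _ ⊥ inferInstance rfl g
  exact ⟨s, h1, (inv_mul_eq_one.1 (mem_bot.1 h2)).symm⟩

end Cfsg.Agent.S0554
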