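import Cfsg.Statements.S0555
import Cfsg.Agent.H6.Elem

set_option autoImplicit false
open Cfsg

namespace Cfsg.Agent.S0555
open Subgroup
open scoped commutatorElement

theorem gen_of_cyc {G : Type*} [Group G] {A B : Subgroup G} [(B.subgroupOf A).Normal]
    (h : IsCyclic (A ⧸ B.subgroupOf A)) : ∃ a ∈ A, ∀ x ∈ A, ∃ k : ℤ, (a ^ k)⁻¹ * x ∈ B := by
  obtain ⟨a, ha⟩ := h.exists_generator
  obtain ⟨a, rfl⟩ := QuotientGroup.mk_surjective a
  refine ⟨a, a.2, fun x hx => ?_⟩
  obtain ⟨k, hk⟩ := mem_zpowers_iff.1 (ha (QuotientGroup.mk ⟨x, hx⟩))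
  rw [← QuotientGroup.mk_zpow, QuotientGroup.eq] at hk
  exact ⟨k, hk⟩


/-- Let i ≥ 1. If in the derived series of a group the quotient of the i-th term by the (i+1)-st and the quotient of the (i+1)-st by the (i+2)-nd are both cyclic, then the (i+1)-st and (i+2)-nd terms coincide. -/
theorem result {G : Type*} [Group G] (i : ℕ) (hi : 1 ≤ i) (h₁ : IsCyclic (↥(derivedSeries G i) ⧸ (derivedSeries G (i + 1)).subgroupOf (derivedSeries G i))) (h₂ : IsCyclic (↥(derivedSeries G (i + 1)) ⧸ (derivedSeries G (i + 2)).subgroupOf (derivedSeries G (i + 1)))) : derivedSeries G (i + 1) = derivedSeries G (i + 2) := by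
  obtain ⟨a, ha, h1⟩ := gen_of_cyc h₁
  obtain ⟨b, hb, h2⟩ := gen_of_cyc h₂
  refine le_antisymm ?_ (derivedSeries_antitone G (Nat.le_succ _))
  set D := derivedSeries G (i + 2)
  let f := QuotientGroup.mk' D
  have hgen : ∀ x ∈ derivedSeries G (i + 1), ∃ k : ℤ, f x = f b ^ k := fun x hx => by
    obtain ⟨k, hk⟩ := h2 x hx
    refine ⟨k, ?_⟩
    rw [← map_zpow]
    exact (QuotientGroup.eq.2 hk).symm
  have hconj : ∀ g : G, ∃ k : ℤ, f g * f b * (f g)⁻¹ = f b ^ k := fun g => by
    obtain ⟨k, hk⟩ := hgen _ ((derivedSeries_normal G (i + 1)).conj_mem b hb g)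
    exact ⟨k, by rw [← hk, map_mul, map_mul, map_inv]⟩
  have hc : derivedSeries G 1 ≤ (centralizer {f b}).comap f := by
    refine commutator_le.2 fun g _ h _ => ?_
    suffices H : ∀ g h : G, (f h * f g)⁻¹ * (f g * f h) ∈ centralizer {f b} by
      have := H g⁻¹ h⁻¹
      rw [mem_comap, map_commutatorElement, commutatorElement_def]
      convert this using 1
      rw [map_inv, map_inv]; group
    intro g h
    obtain ⟨m, hm⟩ := hconj g
    obtain ⟨n, hn⟩ := hconj h
    have e1 : f g * f h * f b * (f g * f h)⁻¹ = f b ^ (m * n) := by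
      calc _ = f g * (f h * f b * (f h)⁻¹) * (f g)⁻¹ := by group
        _ = _ := by rw [hn, ← conj_zpow, hm, zpow_mul]
    have e2 : f h * f g * f b * (f h * f g)⁻¹ = f b ^ (m * n) := by
      calc _ = f h * (f g * f b * (f g)⁻¹) * (f h)⁻¹ := by group
        _ = _ := by rw [hm, ← conj_zpow, hn, mul_comm m n, zpow_mul]
    have e3 : ∀ x y : G ⧸ D, x * f b * x⁻¹ = y * f b * y⁻¹ → y⁻¹ * x ∈ centralizer {f b} :=
      fun x y h => mem_centralizer_singleton_iff.2 (by
        calc y⁻¹ * x * f b = y⁻¹ * (x * f b * x⁻¹) * x := by group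
          _ = _ := by rw [h]; group)
    exact e3 _ _ (e1.trans e2.symm)
  have hab : Commute (f a) (f b) :=
    mem_centralizer_singleton_iff.1 (hc (derivedSeries_antitone G hi ha))
  have hx : ∀ x ∈ derivedSeries G i, ∃ k m : ℤ, f x = f a ^ k * f b ^ m := fun x hx => by
    obtain ⟨k, hk⟩ := h1 x hx
    obtain ⟨m, hm⟩ := hgen _ hk
    exact ⟨k, m, by rw [← hm, map_mul, map_inv, map_zpow, mul_inv_cancel_left]⟩
  refine commutator_le.2 fun x hx' y hy' => ?_
  obtain ⟨k, m, e1⟩ := hx x hx'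
  obtain ⟨l, n, e2⟩ := hx y hy'
  rw [← QuotientGroup.eq_one_iff]
  change f _ = 1
  rw [map_commutatorElement, commutatorElement_eq_one_iff_commute, e1, e2]
  exact (((Commute.refl _).zpow_zpow k l).mul_right (hab.zpow_zpow k n)).mul_left
    ((hab.symm.zpow_zpow m l).mul_right ((Commute.refl _).zpow_zpow m n))

end Cfsg.Agent.S0555
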