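import Cfsg.Statements.S0556
import Cfsg.Agent.H6.Elem
import Cfsg.Agent.H24.NilpMax

set_option autoImplicit false
open Cfsg

namespace Cfsg.Agent.S0556
open H19 H18 H6.El Subgroup
open scoped commutatorElement

/-- If a finite group has a maximal subgroup that is abelian, then the third term of its derived series is trivial (so the group is solvable of derived length at most three). -/
theorem result {G : Type*} [Group G] [Finite G] (A : Subgroup G) (hA : IsCoatom A) [IsMulCommutative A] : derivedSeries G 3 = ⊥ := by
  have hAb : Ab A := ‹_›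
  have hs : Group.IsSolvable G := H24.isSolvable_of_nilpotent_coatom G A hA (nil_of_ab hAb)
    ⟨A, le_rfl, by rw [relIndex_self]; decide, by rw [comm_iff_der.1 hAb, commutator_bot_left]⟩
  have hC : A.normalCore < ⊤ := lt_of_le_of_lt (normalCore_le A) hA.lt_top
  obtain ⟨K, -, hK⟩ := chief_exists_above (M := ⊤) normalIn_top normalIn_top hC
  obtain ⟨p, -, hKK, -⟩ := chief_abelem hK sol_top
  have hKn := hK.normU.normal
  have hKA : K ⊔ A = ⊤ := hA.2 _ (lt_of_le_of_ne le_sup_right fun e =>
    hK.lt.not_ge (normal_le_normalCore.2 (e ▸ le_sup_left)))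
  have h1 : derivedSeries G 1 ≤ K := by
    have := der_sup_le (A := K) (B := A) le_normalizer_of_normal
    rw [hKA, comm_iff_der.1 hAb, sup_bot_eq] at this
    exact this
  have h2 : derivedSeries G 2 ≤ A := ((der_mono h1).trans hKK).trans (normalCore_le A)
  exact H19.eq_bot_mono (der_mono h2) (comm_iff_der.1 hAb)

end Cfsg.Agent.S0556
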