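import Cfsg.Statements.S0557
import Cfsg.Agent.H3.Focal

set_option autoImplicit false
open Cfsg

namespace Cfsg.Agent.S0557

/-- Let H be a subgroup of a finite group G with order coprime to its index. If iterating the focal-subgroup construction starting from H reaches the trivial subgroup after finitely many steps, then H has a normal complement in G. -/
theorem result {G : Type*} [Group G] [Finite G] (H : Subgroup G) (hHall : (Nat.card H).Coprime H.index) (n : ℕ) (hfoc : (fun K : Subgroup G => Subgroup.focalSubgroup K)^[n] H = ⊥) : ∃ N : Subgroup G, N.Normal ∧ Subgroup.IsComplement' N H := by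
  refine ⟨_, inferInstance, H3.isComplement'_pResidual Nat.card_pos.ne' hHall.symm ?_⟩
  rw [inf_comm, eq_bot_iff, ← hfoc]
  have h1 : H ⊓ pResidual (Nat.card H) G ≤ Subgroup.focalSubgroup (H ⊓ pResidual (Nat.card H) G) :=
    H3.inf_pResidual_le IsPGroup.card hHall.symm fun x hx g hg h =>
      H3.mem_focalSubgroup hx ⟨h, Subgroup.Normal.conj_mem inferInstance _ hx.2 g⟩
  clear hfoc
  induction n with
  | zero => exact inf_le_left
  | succ k ih =>
    rw [Function.iterate_succ_apply']
    exact h1.trans (H3.focalSubgroup_mono ih)

end Cfsg.Agent.S0557
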