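import Cfsg.Statements.S0558
import Cfsg.Agent.H3.Util

set_option autoImplicit false
open Cfsg

namespace Cfsg.Agent.S0558

open Cfsg Subgroup H28 H3

/-- Let H be a subgroup of a finite group G that is not a Sylow subgroup of G for any prime, and suppose that for every prime p dividing the order of H and every Sylow p-subgroup P of H the normalizer of P in G is exactly H. Then some normal subgroup of G is a complement to H. -/
theorem result {G : Type*} [Group G] [Finite G] (H : Subgroup G) (hnot : ∀ p : ℕ, p.Prime → ∀ P : Sylow p G, (P : Subgroup G) ≠ H) (hnorm : ∀ p : ℕ, p.Prime → p ∣ Nat.card H → ∀ P : Sylow p H, Subgroup.normalizer (((P : Subgroup H).map H.subtype : Subgroup G) : Set G) = H) : ∃ N : Subgroup G, N.Normal ∧ Subgroup.IsComplement' N H := by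
  have key : ∀ p : ℕ, p.Prime → p ∣ Nat.card H → ∀ S, IsSylowIn p S H →
      𝐍 S = H ∧ IsSylowIn p S ⊤ := by
    intro p hp hd S hS
    have := Fact.mk hp
    obtain ⟨P, rfl⟩ := hS.exists_sylow
    refine ⟨hnorm p hp hd P, IsSylowIn.of_inf_normalizer ?_⟩
    rwa [top_inf_eq, hnorm p hp hd P]
  have hnil : Group.IsNilpotent H := by
    rw [H1.isNilpotent_iff_sylow_normal]
    intro p hp P
    by_cases hd : p ∣ Nat.card H
    · have h1 := (key p hp.out hd _ (isSylowIn_map_subtype P)).1
      have := (normal_subgroupOf_iff_le_normalizer (map_subtype_le (P : Subgroup H))).2 h1.ge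
      rwa [subgroupOf_map_subtype'] at this
    · have h1 := eq_bot_of_isPGroup_of_not_dvd (H := ⊤) P.2 le_top (by rwa [card_top])
      rw [h1]; infer_instance
  have hHall : (Nat.card H).Coprime H.index := by
    refine Nat.Coprime.symm (Nat.coprime_of_dvd fun p hp h1 hd => ?_)
    have := Fact.mk hp
    obtain ⟨S, hS⟩ := exists_isSylowIn p H
    have h2 := (key p hp hd S hS).2.not_dvd_relIndex_of_le hS.le
    rw [relIndex_top_right] at h2
    exact h2 h1
  refine ⟨_, inferInstance, isComplement'_of_forall_hasNPC hHall fun p hp hd => ?_⟩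
  have := Fact.mk hp
  obtain ⟨S, hS⟩ := exists_isSylowIn p H
  obtain ⟨P, rfl⟩ := (key p hp hd S hS).2.exists_sylow_top
  obtain ⟨q, hq, hqd⟩ := Nat.exists_prime_and_dvd (n := (P : Subgroup G).relIndex H) fun h =>
    hnot p hp P (le_antisymm hS.le (relIndex_eq_one.1 h))
  have hqp : p ≠ q := by rintro rfl; exact hS.not_dvd_relIndex hqd
  have hqH : q ∣ Nat.card H := hqd.trans (relIndex_dvd_card _ _)
  have := Fact.mk hq
  obtain ⟨Q, hQ⟩ := exists_isSylowIn q H
  obtain ⟨hQ1, hQ2⟩ := key q hq hqH Q hQ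
  have hc : ∀ D : Subgroup G, D ≤ H → (Nat.card D).Coprime p → D ≤ 𝐂 (P : Subgroup G) :=
    fun D h1 h2 => H28.commutator_eq_bot_iff.1 (H1.commutator_eq_bot_of_isNilpotent_of_coprime hnil h1
      hS.le (H2.coprime_card_of_isPGroup P.2 h2))
  have hQP : Q ≤ 𝐂 (P : Subgroup G) := hc Q hQ.le
    (H2.coprime_card_of_isPGroup hQ.isPGroup ((Nat.coprime_primes hp hq).2 hqp)).symm
  refine hasNPC_of_control P fun x hx g hg => control_elt_of_local P (fun T hT _ y hy => ?_) hx hg
  obtain ⟨n, hn, c, hc', rfl⟩ := (hQ2.mono (hQP.trans (centralizer_anti hT)) le_top).frattini'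
    (normalizer_le_normalizer_centralizer T hy)
  obtain ⟨a, ha, b, hb, ⟨k, hk⟩, hbc, rfl⟩ := exists_pPart_mul (p := p) (isOfFinOrder_of_finite n)
  rw [hQ1] at hn
  have ha' : a ∈ (P : Subgroup G) := hS.le_of_le_normalizer (isPGroup_zpowers hk)
    (zpowers_le.2 (zpowers_le.2 hn ha))
    ((zpowers_le.2 (zpowers_le.2 hn ha)).trans (key p hp hd _ hS).1.ge) (mem_zpowers a)
  have hb' : b ∈ 𝐂 T := centralizer_anti hT (hc (zpowers b) (zpowers_le.2 (zpowers_le.2 hn hb))
    (by rwa [Nat.card_zpowers]) (mem_zpowers b))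
  refine ⟨a, ha', fun t ht => ?_⟩
  rw [mul_assoc a b c]
  exact conj_mul_of_mem_centralizer (mul_mem hb' hc') ht

end Cfsg.Agent.S0558
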