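import Cfsg.Statements.S0560
import Cfsg.Agent.H2.Factor

set_option autoImplicit false
open Pointwise
open Cfsg

namespace Cfsg.Agent.S0560

/-- Let the finite group G be the product HK of two subgroups and p a prime. Then there are Sylow p-subgroups P of H and Q of K and a Sylow p-subgroup R of G whose underlying set is the product set of P and Q. -/
theorem result {G : Type*} [Group G] [Finite G] (H K : Subgroup G) (hHK : ∀ g : G, ∃ h ∈ H, ∃ k ∈ K, g = h * k) (p : ℕ) [Fact p.Prime] : ∃ (P : Sylow p H) (Q : Sylow p K) (R : Sylow p G), ((R : Subgroup G) : Set G) = (((P : Subgroup H).map H.subtype : Subgroup G) : Set G) * (((Q : Subgroup K).map K.subtype : Subgroup G) : Set G) := by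
  obtain ⟨P, hP⟩ := H2.exists_ambient_sylow p H
  obtain ⟨Q, hQ⟩ := H2.exists_ambient_sylow p K
  have hP' := H2.isPiHallOf_singleton_iff.2 hP
  have hQ' := H2.isPiHallOf_singleton_iff.2 hQ
  obtain ⟨x, hx, y, hy, R, hR, h1, h2, h3⟩ := (H2.facIn_top.2 hHK).exists_hall_facIn
    (H2.dPi_singleton p G) hP' hQ'
  obtain ⟨a1, a2, a3⟩ := H2.isPiHallOf_singleton_iff.1
    (H2.isPiHallOf_conj_smul hP' (Subgroup.le_normalizer hx))
  obtain ⟨b1, b2, b3⟩ := H2.isPiHallOf_singleton_iff.1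
    (H2.isPiHallOf_conj_smul hQ' (Subgroup.le_normalizer hy))
  obtain ⟨P', hP'⟩ := H2.exists_sylow_map_eq a1 a2 a3
  obtain ⟨Q', hQ'⟩ := H2.exists_sylow_map_eq b1 b2 b3
  obtain ⟨R', hR'⟩ := H2.exists_sylow_eq_of_isPiHall hR
  exact ⟨P', Q', R', by rw [hP', hQ', hR']; exact h3.coe_eq h1 h2⟩

end Cfsg.Agent.S0560
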