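import Cfsg.Statements.S0563
import Cfsg.Agent.H2.KegelWielandt

set_option autoImplicit false
open Pointwise
open Cfsg

namespace Cfsg.Agent.S0563

/-- If a finite group G is the product AB of two nilpotent subgroups of coprime orders, then G is solvable, and for every Sylow p-subgroup P of A and Sylow q-subgroup Q of B the product set PQ is a subgroup. -/
theorem result {G : Type*} [Group G] [Finite G] (A B : Subgroup G) (hA : Group.IsNilpotent A) (hB : Group.IsNilpotent B) (hcop : (Nat.card A).Coprime (Nat.card B)) (hAB : ∀ g : G, ∃ a ∈ A, ∃ b ∈ B, g = a * b) : Group.IsSolvable G ∧ ∀ (p q : ℕ) [Fact p.Prime] [Fact q.Prime] (P : Sylow p A) (Q : Sylow q B), ∃ S : Subgroup G, (S : Set G) = (((P : Subgroup A).map A.subtype : Subgroup G) : Set G) * (((Q : Subgroup B).map B.subtype : Subgroup G) : Set G) := by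
  have h := H2.facIn_top.2 hAB
  have hs := H2.isSolvable_of_coprime_nilpotent G A B hA hB hcop h
  refine ⟨hs, fun p q _ _ P Q => H2.permutes_iff_exists.1 ?_⟩
  rw [H2.sylow_map_eq_sy hA, H2.sylow_map_eq_sy hB]
  have key : ∀ (r : ℕ) [Fact r.Prime] (X Y : Subgroup G), Group.IsNilpotent X →
      (Nat.card X).Coprime (Nat.card Y) → X.index = Nat.card Y →
      (Nat.card (H2.sy r X)).Coprime (H2.sy r X).index := by
    intro r _ X Y hX hc hi
    rw [← Subgroup.relIndex_mul_index (H2.sy_le r X), hi]
    exact Nat.Coprime.mul_right (H1.coprime_card_of_isPGroup (H1.pCoreOf_isPGroup X)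
      (H1.coprime_iff_not_dvd.2 (H2.not_dvd_relIndex_sy hX)))
      (hc.coprime_dvd_left (Subgroup.card_dvd_of_le (H2.sy_le r X)))
  exact h.permutes_of_hall (H1.le_normalizer_pCoreOf A) (H1.le_normalizer_pCoreOf B)
    (key p A B hA hcop (h.symm.index_eq_card hcop.symm))
    (key q B A hB hcop.symm (h.index_eq_card hcop))

end Cfsg.Agent.S0563
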