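import Cfsg.Statements.S0567
import Cfsg.Agent.H19.Amb2

set_option autoImplicit false
open Cfsg

namespace Cfsg.Agent.S0567

open H19 Subgroup in
theorem aux1 {G : Type*} [Group G] (H K : Subgroup G) (hK : K.IsSubnormal) :
    H ≤ K → ∃ m : ℕ, (fun K : Subgroup G => ⁅K, H⁆)^[m] ⊤ ≤ K := by
  induction hK with
  | top => exact fun _ => ⟨0, le_rfl⟩
  | step K L h _ hn ih =>
    intro hle
    obtain ⟨m, hm⟩ := ih (hle.trans h)
    refine ⟨m + 1, ?_⟩
    rw [Function.iterate_succ_apply']
    exact (commutator_mono hm hle).trans (commg_le_right ((normal_subgroupOf_iff_le_normalizer h).1 hn))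

open H19 Subgroup in
theorem aux2 {G : Type*} [Group G] (H : Subgroup G) (m : ℕ) :
    ((fun K : Subgroup G => ⁅K, H⁆)^[m] ⊤ ⊔ H).IsSubnormal := by
  induction m with
  | zero => simp
  | succ m ih =>
    rw [Function.iterate_succ_apply']
    set X := (fun K : Subgroup G => ⁅K, H⁆)^[m] ⊤
    have h1 : ⁅X, H⁆ ⊔ H ≤ X ⊔ H := sup_le (commg_le_of_le le_sup_left le_sup_right) le_sup_right
    refine IsSubnormal.step _ _ h1 ih ((normal_subgroupOf_iff_le_normalizer h1).2 (sup_le ?_
      (norms_of_le le_sup_right)))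
    refine norms_of_commg_le (commg_sup_left_le ((commg_le_left (commg_norml X H)).trans le_sup_left)
      ?_ (norms_of_le le_sup_left) (norms_of_le le_sup_right))
    rw [Subgroup.commutator_comm]; exact le_sup_left

/-- A subgroup H of a group G is subnormal exactly when, for some m, the subgroup obtained from G by taking the commutator with H m times in succession is contained in H. -/
theorem result {G : Type*} [Group G] (H : Subgroup G) : H.IsSubnormal ↔ ∃ m : ℕ, (fun K : Subgroup G => ⁅K, H⁆)^[m] ⊤ ≤ H := by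
  refine ⟨fun h => aux1 H H h le_rfl, fun ⟨m, hm⟩ => ?_⟩
  have := aux2 H m
  rwa [sup_eq_right.2 hm] at this

end Cfsg.Agent.S0567
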