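import Cfsg.Statements.S0576
import Cfsg.Agent.H1.Frattini

set_option autoImplicit false
open Cfsg

namespace Cfsg.Agent.S0576

/-- Let H be a normal subgroup of a finite group G with H contained in the Frattini subgroup of G. Then the group of inner automorphisms of H is contained in the Frattini subgroup of the automorphism group of H. -/
theorem result {G : Type*} [Group G] [Finite G] (H : Subgroup G) [H.Normal] (hH : H ≤ frattini G) : (MulAut.conj : ↥H →* MulAut ↥H).range ≤ frattini (MulAut ↥H) := by
  let φ : G →* MulAut H := MulAut.conjNormal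
  have hn : (MulAut.conj : H →* MulAut H).range.Normal := ⟨by
    rintro _ ⟨x, rfl⟩ g
    exact ⟨g x, by ext y; simp⟩⟩
  refine H1.le_frattini_of_le_frattiniOf (U := φ.range) ?_
  rintro _ ⟨x, rfl⟩
  refine ⟨φ.rangeRestrict x, H1.map_frattini_le φ.rangeRestrict_surjective ⟨x, hH x.2, rfl⟩, ?_⟩
  ext y
  simp [φ]

end Cfsg.Agent.S0576
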