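import Cfsg.Statements.S0577
import Cfsg.Agent.H1.SF10
import Cfsg.Agent.H3.Schmidt

set_option autoImplicit false
open Cfsg

namespace Cfsg.Agent.S0577

/-- Let G be a finite minimal non-nilpotent group and Q a normal Sylow q-subgroup of G, and let D be the commutator subgroup of Q regarded in G (a normal subgroup). Then G modulo D is non-abelian and all its proper subgroups are abelian. -/
theorem result {G : Type*} [Group G] [Finite G] (hG : Cfsg.IsMinimalNonNilpotent G) (q : ℕ) [Fact q.Prime] (hq : q ∣ Nat.card G) (Q : Sylow q G) (hQ : (Q : Subgroup G).Normal) (D : Subgroup G) [D.Normal] (hD : D = (commutator ↥(Q : Subgroup G)).map (Q : Subgroup G).subtype) : ¬ IsMulCommutative (G ⧸ D) ∧ ∀ K : Subgroup (G ⧸ D), K ≠ ⊤ → IsMulCommutative K := by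
  open H19 in
  have hp : q.Prime := Fact.out
  have hS := syl_sylow_top Q
  have eD : D = ⁅(Q : Subgroup G), (Q : Subgroup G)⁆ := by
    rw [hD, commutator_def, Subgroup.map_commutator, ← MonoidHom.range_eq_map, Subgroup.range_subtype]
  let f := QuotientGroup.mk' D
  have hf := QuotientGroup.mk'_surjective D
  refine ⟨fun h => hG.1 ?_, fun K hK => ?_⟩
  · have := H1.isNilpotent_of_map_of_ker_le_frattini hf (by
      rw [QuotientGroup.ker_mk', eD]
      exact (H1.commutator_le_frattiniOf_of_isNilpotent Q.isPGroup'.isNilpotent).trans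
        (H1.frattiniOf_le_frattini _)) ⊤ (nil_of_ab (H4.isMulCommutative_iff'.2 fun a b =>
          Subtype.ext (H4.isMulCommutative_iff'.1 h _ _)))
    exact Group.nilpotent_of_mulEquiv Subgroup.topEquiv
  obtain ⟨p, pp, hn⟩ : ∃ p, ∃ _ : Fact p.Prime, ¬ Cfsg.HasNormalPComplement p G := by
    by_contra! h
    have : Nil (⊤ : Subgroup G) := nil_of_p'core_hall fun p hp _ => by
      obtain ⟨P, N, hN, hc⟩ := h p ⟨hp⟩
      have := Fact.mk hp
      have sd : Sdprod N P ⊤ := ⟨Subgroup.le_normalizer_of_normal, hc.sup_eq_top, hc.disjoint.eq_bot⟩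
      exact (sd.hall_left (by rw [compl_compl]; exact syl_sylow_top P)).Oc_hall
        Subgroup.le_normalizer_of_normal
    exact hG.1 (Group.nilpotent_of_mulEquiv Subgroup.topEquiv)
  obtain ⟨T, t1, t2, g, g1, g2, r, k, r1, r2, r3⟩ := H3.exists_of_minimal_not_hasNPC hn
    fun H hH => H3.hasNPC_of_isNilpotent (hG := hG.2 H hH)
  have pT := PiN.of_isPGroup pp.out t2
  have pg : PG r (Subgroup.zpowers g) := by
    show PiN _ _; rw [Nat.card_zpowers, r3]; exact PiN.prime_pow r1 k
  have nQ : ∀ X : Subgroup G, X ≤ N((Q : Subgroup G)) := fun _ => Subgroup.le_normalizer_of_normal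
  have nT : ∀ X : Subgroup G, X ≤ N(T) := fun _ => Subgroup.le_normalizer_of_normal
  obtain rfl : p = q := by
    by_contra e
    by_cases e' : r = q
    · subst e'
      exact g1 (hS.pi.cents_of_norms (pT.sing_ne e) (nQ _) (nT _)
        (hS.le_of_normal (nQ _) le_top pg (Subgroup.mem_zpowers g)))
    · have := (pg.sing_ne e').sup' (pT.sing_ne e) (nT _)
      rw [g2] at this
      exact this.not_dvd hp rfl (by rwa [Subgroup.card_top])
  have TQ := hS.le_of_normal (nQ _) le_top pT
  set L := K.comap f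
  have hL : Nil L := hG.2 L fun e => hK (by rw [← Subgroup.map_comap_eq_self_of_surjective hf K]; exact (congrArg _ e).trans (Subgroup.map_top_of_surjective _ hf))
  have d := nil_dprod hL {p}
  have a1 := hS.le_of_normal (nQ _) le_top (Oc_pi {p} L)
  have a2 : Ab (Oc {p}ᶜ L) := ab_of_quo_disjoint (nQ _) (hS.pi.inf_eq_bot (Oc_pi _ _))
    (comm_mono (ab_quo (comm_zpowers g) _) (by
      rw [← quo_sup_left (H := Subgroup.zpowers g) (nQ _)]
      exact quo_mono _ (le_top.trans (g2.ge.trans (sup_le le_sup_right (TQ.trans le_sup_left))))))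
  have nD : ∀ X : Subgroup G, X ≤ N(D) := fun _ => Subgroup.le_normalizer_of_normal
  have : ⁅L, L⁆ ≤ D := by
    rw [← d.sup]
    exact commg_sup_left_le (commg_sup_right_le (eD ▸ Subgroup.commutator_mono a1 a1)
      ((commg_eq_bot.2 d.cent).le.trans bot_le) (nD _) (nD _))
      (commg_sup_right_le ((commg_eq_bot.2 (cents_symm d.cent)).le.trans bot_le)
      ((comm_iff_der.1 a2).le.trans bot_le) (nD _) (nD _)) (nD _) (nD _)
  rw [comm_iff_der, ← Subgroup.map_comap_eq_self_of_surjective hf K, ← Subgroup.map_commutator,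
    Subgroup.map_eq_bot_iff, QuotientGroup.ker_mk']
  exact this

end Cfsg.Agent.S0577
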