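import Cfsg.Statements.S0578
import Cfsg.Agent.H1.SF0
import Cfsg.Agent.H3.NPC

set_option autoImplicit false
open Cfsg

namespace Cfsg.Agent.S0578

/-- If in a finite group the normalizer of each abelian subgroup coincides with its centralizer, then the group is abelian. -/
theorem result {G : Type*} [Group G] [Finite G] (h : ∀ A : Subgroup G, IsMulCommutative A → Subgroup.normalizer (A : Set G) = Subgroup.centralizer (A : Set G)) : IsMulCommutative G := by
  open H19 in
  have k : ∀ K : Subgroup G, Nil K → Ab K := fun K hK => by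
    obtain ⟨A, -, ⟨h1, h2⟩, h3⟩ := H1.exists_maximal_ge (P := fun A : Subgroup G => A ≤ K ∧ Ab A)
      ⟨bot_le, comm_bot⟩
    refine nil_eq_of_norm_le hK h1 (fun x hx => ?_) ▸ h2
    rw [h A h2] at hx
    rw [← h3 (A ⊔ Subgroup.zpowers x) ⟨sup_le h1 (Subgroup.zpowers_le.2 hx.1), comm_sup h2 (comm_zpowers x)
      (cents_symm (Subgroup.zpowers_le.2 hx.2))⟩ le_sup_left]
    exact Subgroup.mem_sup_right (Subgroup.mem_zpowers x)
  have hn : Nil (⊤ : Subgroup G) := nil_of_p'core_hall fun p hp _ => by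
    haveI := Fact.mk hp
    obtain ⟨P⟩ : Nonempty (Sylow p G) := inferInstance
    obtain ⟨Q, N, hN, hc⟩ := H3.hasNPC_of_normalizer_le_centralizer P
      (h _ (k _ P.isPGroup'.isNilpotent)).le
    have sd : Sdprod N Q ⊤ := ⟨Subgroup.le_normalizer_of_normal, hc.sup_eq_top, hc.disjoint.eq_bot⟩
    have h1 : Hall {p}ᶜ N ⊤ := sd.hall_left (by rw [compl_compl]; exact syl_sylow_top Q)
    exact h1.Oc_hall Subgroup.le_normalizer_of_normal
  exact H4.isMulCommutative_iff'.2 fun a b => mul_comm_of_comm (k _ hn) trivial trivial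

end Cfsg.Agent.S0578
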