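import Cfsg.Statements.S0586
import Cfsg.Agent.H1.Frattini

set_option autoImplicit false
open Cfsg

namespace Cfsg.Agent.S0586

/-- If the Frattini subgroup of a finite group G is trivial, then the Fitting subgroup of G equals the join of all abelian minimal normal subgroups of G. -/
theorem result {G : Type*} [Group G] [Finite G] (hΦ : frattini G = ⊥) : Cfsg.fittingSubgroup G = sSup {N : Subgroup G | N.Normal ∧ N ≠ ⊥ ∧ IsMulCommutative N ∧ ∀ K : Subgroup G, K.Normal → K ≤ N → K = ⊥ ∨ K = N} := by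
  set S := sSup {N : Subgroup G | N.Normal ∧ N ≠ ⊥ ∧ IsMulCommutative N ∧
    ∀ K : Subgroup G, K.Normal → K ≤ N → K = ⊥ ∨ K = N} with hS
  have hF := H1.isMulCommutative_fitting_of_frattini_eq_bot hΦ
  have h1 : S ≤ Cfsg.fittingSubgroup G :=
    sSup_le fun N hN => H1.le_fitting hN.1 (H1.isNilpotent_of_isMulCommutative hN.2.2.1)
  have : S.Normal := Subgroup.sSup_normal _ fun _ h => h.1
  obtain ⟨H, hH⟩ := H1.exists_isComplement'_of_inf_frattini S (H1.isMulCommutative_of_le h1 hF)
    (by rw [hΦ, inf_bot_eq])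
  have h2 : H ⊔ Cfsg.fittingSubgroup G = ⊤ :=
    top_le_iff.1 (hH.sup_eq_top ▸ sup_le (h1.trans le_sup_right) le_sup_left)
  have := H1.inf_normal_of_sup_eq_top hF h2
  have h3 : Cfsg.fittingSubgroup G ⊓ H = ⊥ := by
    by_contra hne
    obtain ⟨M, h4, h5, h6, h7⟩ := H1.exists_minimal_normal_le _ hne
    have : M ≤ S := le_sSup ⟨h5, h6, H1.isMulCommutative_of_le (h4.trans inf_le_left) hF, h7⟩
    exact h6 (le_bot_iff.1 (hH.disjoint.le_bot.trans' (le_inf this (h4.trans inf_le_right))))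
  have h4 := H1.sup_inf_assoc_of_le_normalizer' (A := S) (B := H) Subgroup.le_normalizer_of_normal h1
  rw [hH.sup_eq_top, top_inf_eq, inf_comm, h3, sup_bot_eq] at h4
  exact h4

end Cfsg.Agent.S0586
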