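import Cfsg.Statements.S0587
import Cfsg.Agent.H1.Frattini

set_option autoImplicit false
open Cfsg

namespace Cfsg.Agent.S0587

/-- Let G be a finite group whose largest normal p-subgroup L is nontrivial, and M a maximal subgroup of G with trivial normal core. Then L is elementary abelian, M is a complement to L, L is a minimal normal subgroup of G, the centralizer of L is L, and for every prime q such that the largest normal q-subgroup of M is nontrivial, the order of L is congruent to 1 modulo q and q ≠ p. -/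
theorem result {G : Type*} [Group G] [Finite G] (p : ℕ) [Fact p.Prime] (hL : Cfsg.pCore p G ≠ ⊥) (M : Subgroup G) (hM : IsCoatom M) (hcore : M.normalCore = ⊥) : Cfsg.IsElementaryAbelian p (Cfsg.pCore p G) ∧ Subgroup.IsComplement' (Cfsg.pCore p G) M ∧ (∀ K : Subgroup G, K.Normal → K ≤ Cfsg.pCore p G → K = ⊥ ∨ K = Cfsg.pCore p G) ∧ Subgroup.centralizer ((Cfsg.pCore p G : Subgroup G) : Set G) = Cfsg.pCore p G ∧ ∀ (q : ℕ) [Fact q.Prime], Cfsg.pCore q ↥M ≠ ⊥ → Nat.card (Cfsg.pCore p G) % q = 1 % q ∧ q ≠ p := by
  obtain ⟨Z, hZL, hZn, hZ1, hZmin⟩ := H1.exists_minimal_normal_le _ hL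
  have hcore' : ∀ N : Subgroup G, N.Normal → N ≤ M → N = ⊥ := fun N hN h =>
    le_bot_iff.1 (hcore ▸ Subgroup.normal_le_normalCore.2 h)
  have hZM : M ⊔ Z = ⊤ := H1.sup_eq_top_of_coatom hM fun h => hZ1 (hcore' Z hZn h)
  have hLC : pCore p G ≤ Subgroup.centralizer (Z : Set G) :=
    H1.pCore_le_fitting.trans (H1.fitting_le_centralizer_of_minimal_normal Z hZmin)
  have hC : Subgroup.centralizer (Z : Set G) = Z := by
    have h1 : (M ⊓ Subgroup.centralizer (Z : Set G)).Normal := by
      apply H1.normal_of_top_le_normalizer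
      rw [← hZM]
      exact sup_le (H1.le_normalizer_inf Subgroup.le_normalizer Subgroup.le_normalizer_of_normal)
        ((Subgroup.le_centralizer_iff.1 inf_le_right).trans (Subgroup.centralizer_le_normalizer _))
    have h2 := H1.sup_inf_assoc_of_le_normalizer' (A := Z) (B := M) Subgroup.le_normalizer_of_normal
      (hZL.trans hLC)
    rwa [sup_comm, hZM, top_inf_eq, hcore' _ h1 inf_le_left, sup_bot_eq] at h2
  have hZ : Z = pCore p G := le_antisymm hZL (hC ▸ hLC)
  subst hZ
  have hs : Group.IsSolvable (pCore p G) := by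
    have := (H1.pCore_isPGroup (p := p) (G := G)).isNilpotent
    infer_instance
  obtain ⟨hab, r, hr, hexp⟩ := H1.elementary_of_minimal_normal _ hL hs hZmin
  have hrp : r = p := by
    have : Fact r.Prime := ⟨hr⟩
    by_contra hne
    exact hL (H1.eq_bot_of_isPGroup_of_coprime H1.pCore_isPGroup
      (H1.coprime_card_of_isPGroup_of_ne (H1.isPGroup_of_pow_eq_one hexp) hne))
  subst hrp
  have hcomp := H1.isComplement'_of_minimal_normal_of_coatom hab hZmin hM
    fun h => hL (hcore' _ hZn h)
  refine ⟨⟨hab, hexp⟩, hcomp, hZmin, hC, fun q _ hq => ?_⟩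
  set Q := (pCore q M).map M.subtype with hQ
  have hQ1 : ¬ Q ≤ pCore r G := fun h => hq (H1.map_subtype_eq_bot_iff.1
    (le_bot_iff.1 (hcomp.disjoint.le_bot.trans' (le_inf h (Subgroup.map_subtype_le _)))))
  have hMQ : M ≤ Subgroup.normalizer (Q : Set G) := H1.le_normalizer_pCoreOf M
  constructor
  · have h1 := H1.card_modEq_card_inf_centralizer (H1.pCoreOf_isPGroup (p := q) M)
      (L := pCore r G) Subgroup.le_normalizer_of_normal
    have h2 : (pCore r G ⊓ Subgroup.centralizer (Q : Set G)).Normal :=  by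
      apply H1.normal_of_top_le_normalizer
      rw [← hZM]
      exact sup_le (H1.le_normalizer_inf Subgroup.le_normalizer_of_normal
        (H1.le_normalizer_centralizer hMQ)) (((pCore r G).le_centralizer.trans
          (H1.centralizer_anti inf_le_left)).trans (Subgroup.centralizer_le_normalizer _))
    rcases hZmin _ h2 inf_le_left with h3 | h3
    · rw [h3, Subgroup.card_bot] at h1
      exact h1
    · exact absurd (hC ▸ Subgroup.le_centralizer_iff.1 (h3 ▸ inf_le_right)) hQ1
  · rintro rfl
    refine hQ1 (le_sup_left.trans (H1.le_pCore (N := Q ⊔ pCore q G) ?_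
      ((H1.pCoreOf_isPGroup M).to_sup_of_normal_right H1.pCore_isPGroup)))
    apply H1.normal_of_top_le_normalizer
    rw [← hZM]
    exact sup_le (H1.le_normalizer_sup hMQ Subgroup.le_normalizer_of_normal)
      (le_sup_right.trans Subgroup.le_normalizer)

end Cfsg.Agent.S0587
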