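import Cfsg.Statements.S0589
import Cfsg.Agent.H3.Frobenius
import Cfsg.Agent.H2.SZ

set_option autoImplicit false
open Pointwise
open Cfsg

namespace Cfsg.Agent.S0589

/-- Let H be a Frobenius complement in a finite group G and L a subgroup of G whose order divides the order of H. Then L is contained in some conjugate of H. -/
theorem result {G : Type*} [Group G] [Finite G] (H : Subgroup G) (hH : Cfsg.IsFrobeniusComplement H) (L : Subgroup G) (hL : Nat.card L ∣ Nat.card H) : ∃ x : G, L ≤ MulAut.conj x • H := by
  obtain ⟨K, -, hn, hc, -, hf, hnil⟩ := H3.exists_frobeniusKernel hH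
  obtain ⟨n, -, h⟩ := H2.exists_conj_mem_of_le_sup (A := H) (K := K) (B := L)
    Subgroup.le_normalizer_of_normal (hc.sup_eq_top ▸ le_top)
    ((H3.coprime_card_of_fpf Subgroup.le_normalizer_of_normal hf).coprime_dvd_left hL)
    (Or.inr inferInstance)
  exact ⟨n, fun k hk => H2.mem_conj_smul.mpr (h k hk)⟩

end Cfsg.Agent.S0589
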