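import Cfsg.Statements.S0592
import Cfsg.Agent.H9.QuadPair
import Cfsg.Agent.H9.EAMod

set_option autoImplicit false
open Cfsg

namespace Cfsg.Agent.S0592

/-- Two quadratically acting generators of a linear group that is not a p-group, with the p'-part of the order of their product dividing q - 1, give a homomorphism onto a subgroup of SL(2, q) that is not a p-group. -/
theorem result {K : Type*} [Field K] [Fintype K] {p : ℕ} [Fact p.Prime] [CharP K p] {W : Type*} [AddCommGroup W] [Module K W] [FiniteDimensional K W] [Finite W] [Nontrivial W] (H : Subgroup (W ≃ₗ[K] W)) (a b : W ≃ₗ[K] W) (hH : H = Subgroup.closure {a, b}) (ha : ∀ w : W, a (a w - w) = a w - w) (hb : ∀ w : W, b (b w - w) = b w - w) (hnp : ¬ IsPGroup p H) (hk : ∃ e k : ℕ, orderOf (a * b) = p ^ e * k ∧ k ∣ Fintype.card K - 1) : ∃ φ : H →* Matrix.SpecialLinearGroup (Fin 2) K, ¬ IsPGroup p φ.range := by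
  classical
  have haH : a ∈ H := hH ▸ Subgroup.subset_closure (by simp)
  have hbH : b ∈ H := hH ▸ Subgroup.subset_closure (by simp)
  let ρ : H →* Module.End K W := (LinearEquiv.automorphismGroup.toLinearMapMonoidHom).comp H.subtype
  have hρ : ∀ (h : H) w, ρ h w = (h : W ≃ₗ[K] W) w := fun _ _ => rfl
  obtain ⟨μ, φ, f, hμ, fa, fb, -, -⟩ := H9.quad_pair ρ (H9.closure_pair_eq_top hH haH hbH)
    (by ext w; simp [hρ, ← map_sub, ha]) (by ext w; simp [hρ, ← map_sub, hb]) (by
      obtain ⟨e, k, h1, m, h2⟩ := hk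
      have h3 : (Polynomial.X ^ Fintype.card K - Polynomial.X : Polynomial K).Splits := by
        rw [Polynomial.splits_iff_card_roots, FiniteField.roots_X_pow_card_sub_X,
          FiniteField.X_pow_card_sub_X_natDegree_eq K Fintype.one_lt_card]
        rfl
      have h4 : (Polynomial.X ^ Fintype.card K - Polynomial.X : Polynomial K) ≠ 0 :=
        FiniteField.X_pow_card_sub_X_ne_zero K Fintype.one_lt_card
      refine (h3.pow (p ^ e)).of_dvd (pow_ne_zero _ h4) (minpoly.dvd K _ ?_)
      haveI : CharP (Module.End K W) p := charP_of_injective_algebraMap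
        (FaithfulSMul.algebraMap_injective K (Module.End K W)) p
      simp only [map_pow, map_sub, Polynomial.aeval_X]
      rw [sub_pow_char_pow_of_commute p e ((Commute.refl _).pow_left _), ← pow_mul,
        sub_eq_zero, ← map_pow, ← map_pow]
      congr 1
      apply Subtype.ext
      have h5 : Fintype.card K = k * m + 1 := by
        have := Fintype.card_pos (α := K)
        omega
      simp only [SubgroupClass.coe_pow, Subgroup.coe_mul]
      rw [h5, add_mul, one_mul, pow_add, show k * m * p ^ e = p ^ e * k * m by ring, pow_mul, ← h1,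
        pow_orderOf_eq_one, one_pow, one_mul]) (by
      by_contra hcon
      push Not at hcon
      apply hnp
      intro g
      obtain ⟨k, hk⟩ := H9.pow_eq_one_of_isNilpotent (p := p) (hcon g)
      refine ⟨k, ?_⟩
      rw [← map_pow] at hk
      ext w
      exact congrArg (fun f : Module.End K W => f w) hk)
  refine ⟨φ, fun h => hμ ?_⟩
  obtain ⟨k, hk⟩ := h ⟨φ (⟨a, haH⟩ * ⟨b, hbH⟩), _, rfl⟩
  have h1 : ((φ ⟨a, haH⟩ : Matrix (Fin 2) (Fin 2) K) * (φ ⟨b, hbH⟩ : Matrix (Fin 2) (Fin 2) K)) ^ p ^ k
      = 1 := by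
    have : φ (⟨a, haH⟩ * ⟨b, hbH⟩) ^ p ^ k = 1 := congrArg Subtype.val hk
    rw [map_mul] at this
    exact congrArg Subtype.val this
  rw [fa, fb] at h1
  have h2 : IsNilpotent ((!![1, μ; 0, 1] : Matrix (Fin 2) (Fin 2) K) * !![1, 0; 1, 1] - 1) :=
    ⟨p ^ k, by rw [sub_pow_char_pow_of_commute p k (Commute.one_right _), h1, one_pow, sub_self]⟩
  have h3 := (Matrix.isNilpotent_trace_of_isNilpotent h2).eq_zero
  simp [Matrix.trace_fin_two] at h3
  linear_combination h3

end Cfsg.Agent.S0592
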