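import Cfsg.Statements.S0594
import Cfsg.Agent.H9.PStable

set_option autoImplicit false
open Cfsg

namespace Cfsg.Agent.S0594

/-- For odd p, two quadratic generators of a faithful group that is not a p-group, one of which acts nontrivially on a normal subgroup of order prime to p, force p = 3 and a section isomorphic to SL(2,3). -/
theorem result {G : Type*} [Group G] [Finite G] {p : ℕ} [Fact p.Prime] (hp : p ≠ 2) (V H : Subgroup G) (hV : Cfsg.IsElementaryAbelian p V) (hHV : H ≤ Subgroup.normalizer (V : Set G)) (hf : H ⊓ Subgroup.centralizer (V : Set G) = ⊥) (a b : G) (hab : H = Subgroup.closure {a, b}) (ha : ⁅⁅V, Subgroup.zpowers a⁆, Subgroup.zpowers a⁆ = ⊥) (hb : ⁅⁅V, Subgroup.zpowers b⁆, Subgroup.zpowers b⁆ = ⊥) (hnp : ¬ IsPGroup p H) (Q : Subgroup G) (hQH : Q ≤ H) (hQn : H ≤ Subgroup.normalizer (Q : Set G)) (hQ : (Nat.card Q).Coprime p) (hQa : ⁅Q, Subgroup.zpowers a⁆ ≠ ⊥) : p = 3 ∧ ∃ (K L : Subgroup G) (hL : (L.subgroupOf K).Normal), K ≤ H ∧ Nonempty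 ((K ⧸ L.subgroupOf K) ≃* Matrix.SpecialLinearGroup (Fin 2) (ZMod 3)) := by
  have haH : a ∈ H := hab ▸ Subgroup.subset_closure (by simp)
  obtain ⟨x, hxQ, hx⟩ : ∃ x ∈ Q, x * a ≠ a * x := by
    by_contra hcon
    push Not at hcon
    apply hQa
    rw [Subgroup.commutator_eq_bot_iff_le_centralizer, H1.centralizer_zpowers]
    intro x hx
    exact Subgroup.mem_centralizer_singleton_iff.2 (hcon x hx)
  have ha' : x * a * x⁻¹ ∈ H := mul_mem (mul_mem (hQH hxQ) haH) (inv_mem (hQH hxQ))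
  have hle : Subgroup.closure {a, x * a * x⁻¹} ≤ H := by
    rw [Subgroup.closure_le]; rintro y (rfl | rfl) <;> assumption
  have hle2 : Subgroup.closure {a, x * a * x⁻¹} ≤ Subgroup.zpowers a ⊔ Q := by
    rw [Subgroup.closure_le]
    rintro y (rfl | rfl)
    · exact Subgroup.mem_sup_left (Subgroup.mem_zpowers _)
    · exact mul_mem (mul_mem (Subgroup.mem_sup_right hxQ)
        (Subgroup.mem_sup_left (Subgroup.mem_zpowers _))) (inv_mem (Subgroup.mem_sup_right hxQ))
  have h := H9.involves_of_faithful_pair hp hV (hHV haH) (hHV ha')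
    (eq_bot_iff.2 (hf ▸ inf_le_inf_right _ hle)) ha (H9.quad_conj (hHV (hQH hxQ)) ha) (by
      intro hP
      have h1 := H1.inf_eq_bot_of_isPGroup_of_coprime hP hQ
      have h2 : x * a * x⁻¹ * a⁻¹ ∈ Subgroup.closure {a, x * a * x⁻¹} ⊓ Q := by
        refine Subgroup.mem_inf.2 ⟨Subgroup.mul_mem _ (Subgroup.subset_closure (by simp))
          (Subgroup.inv_mem _ (Subgroup.subset_closure (by simp))), ?_⟩
        have := mul_mem hxQ (H1.conj_mem_of_mem_normalizer (hQn haH) (inv_mem hxQ))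
        simpa [mul_assoc] using this
      rw [h1, Subgroup.mem_bot, mul_inv_eq_one, mul_inv_eq_iff_eq_mul] at h2
      exact hx h2)
  have haQ : Subgroup.zpowers a ≤ Subgroup.normalizer (Q : Set G) :=
    (Subgroup.zpowers_le.2 haH).trans hQn
  have hs : Cfsg.IsPSolvable p ↥(Subgroup.zpowers a ⊔ Q) := by
    haveI := Subgroup.normal_subgroupOf_sup_of_le_normalizer haQ
    refine H2.isPSolvable_iff_nSeries.2 (H9.nSeries_two (Q.subgroupOf _) (Or.inr ?_) ?_)
    · rwa [H1.card_subgroupOf_of_le le_sup_right]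
    · have h1 : a ^ p = 1 := by
        rw [← Subgroup.mem_bot, ← hf]
        exact ⟨pow_mem haH p, H9.quad_pow_mem_centralizer hV (hHV haH) ha⟩
      refine H2.pSolv_dvd Fact.out _ p ?_ (Or.inl ⟨1, (pow_one p).symm⟩)
      change Q.relIndex _ ∣ p
      rw [H1.relIndex_sup_of_le_normalizer haQ]
      refine (Subgroup.relIndex_dvd_card _ _).trans ?_
      rw [Nat.card_zpowers]
      exact orderOf_dvd_of_pow_eq_one h1
  obtain rfl := H9.eq_three_of_isPSolvable_SL2 hp ((h.mono hle2).isPSolvable hs)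
  exact ⟨rfl, (h.mono hle).section'⟩

end Cfsg.Agent.S0594
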