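import Cfsg.Statements.S0601
import Cfsg.Agent.H9.PQuot

set_option autoImplicit false
open Cfsg

namespace Cfsg.Agent.S0601

/-- When O_p(G) contains its centralizer, the normal closure of Ω₁(Z(S)) is elementary abelian and G has no nontrivial normal p-subgroup modulo its centralizer. -/
theorem result {G : Type*} [Group G] [Finite G] {p : ℕ} [Fact p.Prime] (hc : Subgroup.centralizer (Cfsg.pCore p G : Set G) ≤ Cfsg.pCore p G) : (⨆ S : Sylow p G, Cfsg.omegaOne p (((S : Subgroup G)) ⊓ Subgroup.centralizer ((S : Subgroup G) : Set G))).Normal ∧ Cfsg.IsElementaryAbelian p (⨆ S : Sylow p G, Cfsg.omegaOne p (((S : Subgroup G)) ⊓ Subgroup.centralizer ((S : Subgroup G) : Set G))) ∧ ∀ D : Subgroup G, D.Normal → Subgroup.centralizer ((⨆ S : Sylow p G, Cfsg.omegaOne p (((S : Subgroup G)) ⊓ Subgroup.centralizer ((S : Subgroup G) : Set G)) : Subgroup G) : Set G) ≤ D → (∃ k : ℕ, (Subgroup.centralizer ((⨆ S : Sylow p G, Cfsg.omegaOne p (((S : Subgroup G)) ⊓ Subgroup.centralizer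 ((S : Subgroup G) : Set G)) : Subgroup G) : Set G)).relIndex D = p ^ k) → D = Subgroup.centralizer ((⨆ S : Sylow p G, Cfsg.omegaOne p (((S : Subgroup G)) ⊓ Subgroup.centralizer ((S : Subgroup G) : Set G)) : Subgroup G) : Set G) := by
  obtain ⟨S⟩ := (inferInstance : Nonempty (Sylow p G))
  rw [H9.iSup_omegaOneCenter_eq S]
  refine ⟨inferInstance, H9.IsCharP.ea_nclIn (H28.isCharP_top.2 hc) (H28.isSylowIn_top S), ?_⟩
  rintro D hD h1 ⟨k, hk⟩
  refine le_antisymm (H9.pReduced_nclIn (H28.isSylowIn_top S) (H28.omegaOneCenter_le_centralizer p _)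
    D le_top (H28.normal_iff_top_le.1 hD) fun x hx => ⟨k, ?_⟩) h1
  exact H9.pow_mem_of_relIndex (fun g _ => H28.mem_normalizer_of_normal _ g) hk hx

end Cfsg.Agent.S0601
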