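import Cfsg.Statements.S0604
import Cfsg.Agent.H9.Thompson

set_option autoImplicit false
open Cfsg

namespace Cfsg.Agent.S0604

/-- The Thompson subgroup of G is the join of the Thompson subgroups of its Sylow p-subgroups. -/
theorem result {G : Type*} [Group G] [Finite G] {p : ℕ} [Fact p.Prime] : Cfsg.thompsonSubgroup p G = ⨆ S : Sylow p G, Cfsg.thompsonSubgroupOf p (S : Subgroup G) := by
  rw [H9.thompsonSubgroup_eq]
  apply le_antisymm
  · rw [H9.JJ_le_iff_sylow]
    intro T hT
    obtain ⟨S, rfl⟩ := hT.exists_sylow_top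
    rw [← H9.thompsonSubgroupOf_eq]
    exact le_iSup (fun S : Sylow p G => Cfsg.thompsonSubgroupOf p (S : Subgroup G)) S
  · refine iSup_le fun S => ?_
    rw [H9.thompsonSubgroupOf_eq]
    exact H9.JJ_sylow_le (H28.isSylowIn_top S)

end Cfsg.Agent.S0604
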