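import Cfsg.Statements.S0607
import Cfsg.Agent.H9.Replace

set_option autoImplicit false
open Cfsg

namespace Cfsg.Agent.S0607

/-- The replacement Theorem for the Thompson subgroup: from A of maximal order among elementary abelian p-subgroups one obtains A₀ = [V, A] C_A([V, A]) of the same kind, quadratic on V and nontrivial on V when A is. -/
theorem result {G : Type*} [Group G] [Finite G] {p : ℕ} [Fact p.Prime] (V : Subgroup G) [V.Normal] (hV : Cfsg.IsElementaryAbelian p V) (A : Subgroup G) (hA : A ∈ Cfsg.maxElementaryAbelianSubgroups p G) : (⁅V, A⁆ ⊔ (A ⊓ Subgroup.centralizer ((⁅V, A⁆ : Subgroup G) : Set G))) ∈ Cfsg.maxElementaryAbelianSubgroups p G ∧ ⁅⁅V, ⁅V, A⁆ ⊔ (A ⊓ Subgroup.centralizer ((⁅V, A⁆ : Subgroup G) : Set G))⁆, ⁅V, A⁆ ⊔ (A ⊓ Subgroup.centralizer ((⁅V, A⁆ : Subgroup G) : Set G))⁆ = ⊥ ∧ (⁅V, A⁆ ≠ ⊥ → ⁅V, ⁅V, A⁆ ⊔ (A ⊓ Subgroup.centralizer ((⁅V, A⁆ : Subgroup G) : Set G))⁆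 ≠ ⊥) := by
  rw [H9.mem_maxEA_iff] at hA ⊢
  have hAV : A ≤ Subgroup.normalizer (V : Set G) := fun g _ => H28.mem_normalizer_of_normal V g
  refine ⟨hA.replace le_top (H9.abE_iff_ea.2 hV) hAV le_rfl,
    H9.replace_quadratic (H28.ea_le_centralizer hV) hAV, fun h h1 => ?_⟩
  refine (H9.timmesfeld hV hAV (hA.isBestOffenderOn le_top hV) le_rfl).2.2.1 h ?_
  exact eq_bot_iff.2 (h1 ▸ Subgroup.commutator_mono le_rfl le_sup_right)

end Cfsg.Agent.S0607
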