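import Cfsg.Statements.S0627
import Cfsg.Agent.H9.ZJCor

set_option autoImplicit false
open Cfsg

namespace Cfsg.Agent.S0627

/-- In a p-separable group with p at least 5, the normalizer of W(S) supplements the largest normal subgroup of order prime to p. -/
theorem result {G : Type*} [Group G] [Finite G] {p : ℕ} [Fact p.Prime] (hp : 5 ≤ p) (hsep : Cfsg.IsPSolvable p G) (S : Sylow p G) : Cfsg.pPrimeCore p G ⊔ Subgroup.normalizer (((Cfsg.stableNormalClosure p ↥(S : Subgroup G)).map (S : Subgroup G).subtype) : Set G) = ⊤ := by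
  have hk : (Nat.card (QuotientGroup.mk' (Cfsg.pPrimeCore p G)).ker).Coprime p :=
    H1.coprime_card_ker_mk' H1.pPrimeCore_coprime
  obtain ⟨T, hT⟩ := H9.exists_sylow_map_eq (QuotientGroup.mk'_surjective (Cfsg.pPrimeCore p G)) S
  have h1 := H1.isPSolvable_quotient hsep (Cfsg.pPrimeCore p G)
  have h2 := H9.WS_normal (H9.isActionPStable_of_not_involves_qd (by omega)
    (H9.not_involves_qd_of_isPSolvable hp (H1.isPSolvable_subgroup h1 ⊤)))
    (H1.centralizer_pCore_le_of_isPSolvable h1 H1.pPrimeCore_quotient_pPrimeCore) T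
  rw [hT, ← H9.map_WS (H9.inf_ker_eq_bot hk S.isPGroup')] at h2
  rw [eq_top_iff]
  intro g _
  obtain ⟨k, hk1, n, hn, rfl⟩ := H9.exists_ker_mul_normalizer hk
    (S.isPGroup'.to_le (H9.WS_le_self _))
    (H28.normal_iff_top_le.1 h2 (Subgroup.mem_top (QuotientGroup.mk' _ g)))
  rw [QuotientGroup.ker_mk'] at hk1
  exact Subgroup.mul_mem_sup hk1 hn

end Cfsg.Agent.S0627
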