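import Cfsg.Statements.S0629
import Cfsg.Agent.H1.PSolv

set_option autoImplicit false
open Cfsg

namespace Cfsg.Agent.S0629

/-- A group in which the centralizer of a Sylow p-subgroup of O_{p',p}(G) is p-solvable is p-constrained. -/
theorem result {G : Type*} [Group G] [Finite G] {p : ℕ} [Fact p.Prime] (P : Sylow p ↥(Cfsg.pPrimePCore p G)) (hsol : Cfsg.IsPSolvable p ↥(Subgroup.centralizer (((P : Subgroup ↥(Cfsg.pPrimePCore p G)).map (Cfsg.pPrimePCore p G).subtype : Subgroup G) : Set G))) : Cfsg.IsPConstrained p G := by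
  rw [H1.isPConstrained_iff_layer, H1.layer_eq_bot_iff]
  intro K hK
  have h1 : K ≤ Subgroup.centralizer (Cfsg.pCore p (G ⧸ Cfsg.pPrimeCore p G) : Set _) :=
    (H1.le_layer hK).trans H1.layer_le_centralizer_pCore
  rw [← H1.map_sylow_pPrimePCore P, ← H1.map_centralizer_of_coprime (QuotientGroup.mk'_surjective _)
    (H1.isPGroup_sylow_map P) (H1.coprime_card_ker_mk' H1.pPrimeCore_coprime)] at h1
  exact H1.not_dvd_card_of_isQuasisimple_of_isPSolvable hK.2
    (H1.isPSolvable_of_le h1 (H1.isPSolvable_map hsol _))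
    (H1.dvd_card_component H1.pPrimeCore_quotient_pPrimeCore hK)

end Cfsg.Agent.S0629
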