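import Cfsg.Statements.S0632
import Cfsg.Agent.H9.ZJ
import Cfsg.Agent.H1.SF10

set_option autoImplicit false
open Cfsg

namespace Cfsg.Agent.S0632

/-- For a group with a nontrivial normal p-subgroup, p-stability passes to and from the quotient by the largest normal subgroup of order prime to p. -/
theorem result {G : Type*} [Group G] [Finite G] {p : ℕ} [Fact p.Prime] (hO : Cfsg.pCore p G ≠ ⊥) : Cfsg.IsPStable p G ↔ Cfsg.IsPStable p (G ⧸ Cfsg.pPrimeCore p G) := by
  open H19 in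
  let f := QuotientGroup.mk' (Cfsg.pPrimeCore p G)
  have hf : Function.Surjective f := QuotientGroup.mk'_surjective _
  have hk : f.ker = Cfsg.pPrimeCore p G := QuotientGroup.ker_mk' _
  have hk' : (Nat.card f.ker).Coprime p := by rw [hk]; exact H1.pPrimeCore_coprime
  have h0 : Cfsg.pPrimeCore p (G ⧸ Cfsg.pPrimeCore p G) = ⊥ := H1.pPrimeCore_quotient_pPrimeCore
  refine ⟨fun h => ⟨h.1, fun e => hO ?_, fun A P hA hP hn h1 h2 h3 => ?_⟩,
    fun h => ⟨h.1, hO, fun A P hA hP hn h1 h2 h3 => ?_⟩⟩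
  · have := H1.map_pCore_le (p := p) hf
    rw [e, le_bot_iff, Subgroup.map_eq_bot_iff, hk] at this
    exact (inf_eq_left.2 this).symm.trans H1.pCore_inf_pPrimeCore
  · rw [h0, bot_sup_eq] at h2
    have := H9.pStab_of_isPStable h hf hk P A le_top Subgroup.le_normalizer_of_normal hP le_top hA h3
    rintro _ ⟨a, ha, rfl⟩
    exact (this.mono Subgroup.le_normalizer_of_normal le_top).mem_pCore a ha
  have nP : A ≤ N(P) := fun a ha => mem_norm_of_cj_le fun y hy => by
    obtain ⟨x, hx, rfl⟩ := mem_cj'.1 hy; exact hn a ha x hx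
  have e : (P.map f).Normal := by
    have := h2.map f hf
    rwa [Subgroup.map_sup, (Subgroup.map_eq_bot_iff _).2 hk.ge, bot_sup_eq] at this
  obtain ⟨L, l1, -, l3, l4⟩ := H9.stabAt_of_isPStable h (hA.map f) (hP.map f)
    Subgroup.le_normalizer_of_normal (A := A.map f) (B := P.map f)
    ((H1.le_pCore e (hP.map f)).trans H1.pCore_le_pPrimePCore) (by rwa [h0, bot_sup_eq])
    (by rw [← Subgroup.map_commutator, ← Subgroup.map_commutator, h3, Subgroup.map_bot])
  rw [Subgroup.normalizer_eq_top] at l3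
  have := H28.normal_iff_top_le.2 l3
  have s : H9.StabAt p N(P) P A := ⟨N(P) ⊓ L.comap f, le_inf nP (Subgroup.map_le_iff_le_comap.1 l1),
    inf_le_left, norms_inf Subgroup.le_normalizer Subgroup.le_normalizer_of_normal, fun x hx => by
      obtain ⟨k, hk2⟩ := l4 (f x) hx.2
      refine ⟨k, mem_cent.2 fun y hy => ?_⟩
      have h4 := mem_cent.1 hk2 (f y) ⟨y, hy, rfl⟩
      have h5 : y⁻¹ * (x ^ p ^ k * y * (x ^ p ^ k)⁻¹) ∈ P ⊓ f.ker :=
        ⟨P.mul_mem (P.inv_mem hy) (conj_mem_of_norm (Subgroup.pow_mem _ hx.1 _) hy), by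
          refine MonoidHom.mem_ker.2 ?_; simp only [map_mul, map_inv, map_pow]; rw [← h4]; group⟩
      rw [H9.inf_ker_eq_bot hk' hP, Subgroup.mem_bot, inv_mul_eq_one, eq_mul_inv_iff_mul_eq] at h5
      exact h5⟩
  rintro _ ⟨a, ha, rfl⟩
  exact s.mem_pCore a ha

end Cfsg.Agent.S0632
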