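import Cfsg.Statements.S0633
import Cfsg.Agent.H10.HH4

set_option autoImplicit false
open Cfsg

namespace Cfsg.Agent.S0633

open H19 H10.HH Polynomial in

/-- Theorem B of Hall and Higman on the minimal polynomial of a p-element of order p^n in a p-solvable linear group on a nonzero vector space in characteristic p with no nontrivial normal p-subgroup: its degree is p^n, except when some p^n₀ - 1 (n₀ ≤ n) is a power of a prime q for which the Sylow q-subgroups are non-abelian, in which case the degree is at least p^(n-n₀)(p^n₀ - 1). -/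
theorem result {F : Type*} [Field F] {p : ℕ} [Fact p.Prime] [CharP F p] {V : Type*} [AddCommGroup V] [Module F V] [FiniteDimensional F V] [Nontrivial V] (H : Subgroup (V ≃ₗ[F] V)) [Finite H] (hsol : Cfsg.IsPSolvable p H) (hOp : Cfsg.pCore p H = ⊥) (x : V ≃ₗ[F] V) (hx : x ∈ H) (n : ℕ) (hn : orderOf x = p ^ n) (r : ℕ) (hr : minpoly F (x : Module.End F V) = (Polynomial.X - 1) ^ r) : r = p ^ n ∨ ∃ n₀ q m : ℕ, 1 ≤ n₀ ∧ n₀ ≤ n ∧ q.Prime ∧ 1 ≤ m ∧ p ^ n₀ - 1 = q ^ m ∧ (∀ Q : Sylow q H, ¬ IsMulCommutative Q) ∧ p ^ (n - n₀) * (p ^ n₀ - 1) ≤ r := by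
  have hp : p.Prime := Fact.out
  let ρ : H →* Module.End F V := (LinearEquiv.automorphismGroup.toLinearMapMonoidHom).comp H.subtype
  have hρ : ρ.ker = ⊥ := (MonoidHom.ker_eq_bot_iff _).2 fun a b e =>
    Subtype.ext (LinearEquiv.toLinearMap_injective e)
  have ho : orderOf (⟨x, hx⟩ : H) = p ^ n := by rw [← hn, Subgroup.orderOf_mk]
  have hd : (minpoly F (x : Module.End F V)).natDegree = r := by
    rw [hr, ← C_1, natDegree_pow, natDegree_X_sub_C, mul_one]
  have hi : IsIntegral F (x : Module.End F V) := Algebra.IsIntegral.isIntegral _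
  have h1 : r ≤ p ^ n := by
    rw [← hd, ← natDegree_X_pow_sub_C (R := F) (n := p ^ n) (r := 1)]
    refine natDegree_le_natDegree (minpoly.min F _ (monic_X_pow_sub_C 1 (pow_pos hp.pos n).ne') ?_)
    rw [map_sub, map_pow, aeval_X, aeval_C, map_one, sub_eq_zero]
    exact (map_pow ρ ⟨x, hx⟩ (p ^ n)).symm.trans (by rw [← ho, pow_orderOf_eq_one, map_one])
  refine h1.eq_or_lt.imp_right fun h2 => ?_
  rcases n with _ | n
  · have := minpoly.natDegree_pos hi
    rw [pow_zero] at h2
    omega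
  obtain ⟨q, d, a, k, Q, rfl, hq, h3, h4, -, h5, h6, h7⟩ := (hallHigman (t := ⟨x, hx⟩) hsol hOp hρ
    (ho ▸ pow_orderOf_eq_one _) (minpoly.ne_zero hi) (minpoly.aeval F _) (hd ▸ h2)).resolve_left
      fun e => by
        have := Nat.le_of_dvd (pow_pos hp.pos _) (ho ▸ orderOf_dvd_of_pow_eq_one e)
        exact absurd this (not_le.2 (Nat.pow_lt_pow_right hp.one_lt n.lt_succ_self))
  refine ⟨k + 1, q, d, by omega, by omega, hq, h3, by omega, fun S hS => ?_, ?_⟩
  · haveI := Fact.mk hq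
    obtain ⟨g, -, e⟩ := (syl_sylow_top S).sle_cj le_top h5
    exact h6 (comm_mono (comm_cj.2 hS) e)
  · rw [show a + k + 1 - (k + 1) = a by omega, Nat.mul_sub, ← pow_add, mul_one, ← add_assoc]
    omega

end Cfsg.Agent.S0633
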