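import Cfsg.Statements.S0635
import Cfsg.Agent.H1.PSolv
import Cfsg.Agent.H9.PQuot

set_option autoImplicit false
open Cfsg

namespace Cfsg.Agent.S0635

universe u

theorem aux {p : ℕ} [Fact p.Prime] (k : ℕ) : ∀ (G : Type u) [Group G] [Finite G],
    Cfsg.IsPSolvable p G → ∀ S : Sylow p G, Group.nilpotencyClass ↥(S : Subgroup G) ≤ k →
    Cfsg.PLengthLE p k G := by
  induction k with
  | zero =>
    intro G _ _ _ S h
    haveI := S.isPGroup'.isNilpotent
    rw [Nat.le_zero, nilpotencyClass_zero_iff_subsingleton] at h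
    rw [H1.pLengthLE_zero_iff, H1.coprime_iff_not_dvd, ← Subgroup.card_top]
    refine H28.IsSylowIn.not_dvd_card_of_eq_bot ?_
    rw [← Subgroup.eq_bot_of_subsingleton (S : Subgroup G)]
    exact H28.isSylowIn_top S
  | succ k ih =>
    intro G _ _ hG S h
    haveI := S.isPGroup'.isNilpotent
    rw [H1.pLengthLE_succ_iff]
    obtain ⟨T, hT⟩ := H9.exists_sylow_map_eq
      (QuotientGroup.mk'_surjective (Cfsg.pPrimePCore p G)) S
    refine ih _ (H1.isPSolvable_quotient hG _) T ?_
    rw [hT]
    have h1 : Subgroup.center (S : Subgroup G) ≤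
        ((QuotientGroup.mk' (Cfsg.pPrimePCore p G)).subgroupMap S).ker := by
      intro z hz
      refine Subtype.ext ((QuotientGroup.eq_one_iff _).2 ?_)
      refine H1.centralizer_sylow_inf_le (H1.isPConstrained_of_isPSolvable hG) S fun x hx => ?_
      exact congrArg Subtype.val (Subgroup.mem_center_iff.1 hz ⟨x, hx.1⟩)
    have h2 := nilpotencyClass_le_of_surjective (QuotientGroup.lift _ _ h1)
      (QuotientGroup.lift_surjective_of_surjective _ _ (MonoidHom.subgroupMap_surjective _ _) h1)
    rw [nilpotencyClass_quotient_center] at h2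
    omega

/-- The p-length of a p-soluble group is at most the nilpotency class of its Sylow p-subgroups. -/
theorem result {G : Type*} [Group G] [Finite G] {p : ℕ} [Fact p.Prime] (hsol : Cfsg.IsPSolvable p G) (S : Sylow p G) : Cfsg.PLengthLE p (Group.nilpotencyClass ↥(S : Subgroup G)) G := by
  exact aux _ G hsol S le_rfl

end Cfsg.Agent.S0635
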