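import Cfsg.Statements.S0642
import Cfsg.Agent.H4.Regular

set_option autoImplicit false
open Cfsg

namespace Cfsg.Agent.S0642

/-- Among finite 2-groups the regular ones are exactly the abelian ones. -/
theorem result {G : Type*} [Group G] [Finite G] (hG : IsPGroup 2 G) : Cfsg.IsRegularPGroup 2 G ↔ ∀ a b : G, a * b = b * a := by
  constructor
  · intro h a b
    have h' := H4.wReg_of_isRegularPGroup h
    haveI := H4.powerClosure_normal (p := 2) 1 (commutator G)
    set N := Cfsg.powerClosure 2 1 (commutator G)
    have h1 : commutator G ≤ N := by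
      rw [← Subgroup.Normal.quotient_commutative_iff_commutator_le]
      refine ⟨⟨fun x y => ?_⟩⟩
      obtain ⟨x, rfl⟩ := QuotientGroup.mk_surjective x
      obtain ⟨y, rfl⟩ := QuotientGroup.mk_surjective y
      obtain ⟨d, hd, e⟩ := h'.exists_mul_pow_pow hG x y 1
      have hd' : ((d ^ 2 ^ 1 : G) : G ⧸ N) = 1 :=
        (QuotientGroup.eq_one_iff _).2 (Subgroup.subset_closure ⟨d, hd, rfl⟩)
      have := congrArg (QuotientGroup.mk : G → G ⧸ N) e
      rw [QuotientGroup.mk_mul _ (_ * _), hd', mul_one] at this
      simp only [pow_one, pow_two, QuotientGroup.mk_mul, mul_assoc, mul_right_inj] at this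
      rw [← mul_assoc, ← mul_assoc, mul_left_inj] at this
      exact this.symm
    have h2 : commutator G = ⊥ := by
      by_contra hne
      obtain ⟨K, hK, -, hle, hc⟩ := H4.exists_normal_index_prime hG (bot_lt_iff_ne_bot.2 hne)
      have h3 : N ≤ K := by
        refine (Subgroup.closure_le _).2 ?_
        rintro _ ⟨x, hx, rfl⟩
        have hi : (K.subgroupOf (commutator G)).index = 2 := by
          have := H4.card_mul_relIndex hle
          rw [← hc] at this
          exact Nat.eq_of_mul_eq_mul_left Nat.card_pos this
        have := (K.subgroupOf (commutator G)).pow_index_mem ⟨x, hx⟩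
        rw [hi] at this
        exact this
      have := Subgroup.card_le_of_le (h1.trans h3)
      have h0 : 0 < Nat.card K := Nat.card_pos
      omega
    exact ((commutator_eq_bot_iff G).1 h2).is_comm.comm a b
  · intro h
    exact ⟨hG, fun a b n => ⟨1, Subgroup.one_mem _, by rw [Commute.mul_pow (h a b), mul_one]⟩⟩

end Cfsg.Agent.S0642
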