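import Cfsg.Statements.S0645
import Cfsg.Agent.H4.Cyclic

set_option autoImplicit false
open Cfsg

namespace Cfsg.Agent.S0645

/-- Classification of p-groups with a cyclic maximal subgroup, odd p: a non-abelian one of order p^n has generators a of order p^(n-1) and b of order p, b outside the cyclic subgroup generated by a, with b a b⁻¹ = a^(1 + p^(n-2)). -/
theorem result {G : Type*} [Group G] [Finite G] {p : ℕ} [Fact p.Prime] (hp : p ≠ 2) (n : ℕ) (hn : 3 ≤ n) (hG : Nat.card G = p ^ n) (C : Subgroup G) (hC : IsCyclic C) (hCi : C.index = p) (hna : ∃ x y : G, x * y ≠ y * x) : ∃ a b : G, orderOf a = p ^ (n - 1) ∧ orderOf b = p ∧ b ∉ Subgroup.zpowers a ∧ b * a * b⁻¹ = a ^ (1 + p ^ (n - 2)) := by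
  have hp' : p.Prime := Fact.out
  have hP : IsPGroup p G := IsPGroup.of_card hG
  obtain ⟨x, y, hxy⟩ := hna
  have hnc : ¬ IsCyclic G := fun h => hxy (mul_comm' x y)
  obtain ⟨E, hE1, hE2, hE3⟩ := H4.omega_of_cyclic_index hp hP hnc hC hCi
  have hEC : ¬ E ≤ C := fun h => H4.not_isCyclic_of_card hp'.pos (fun x hx => (hE1 x).1 hx)
    (by rw [hE3]; nlinarith [hp'.one_lt]) (Subgroup.isCyclic_of_le h)
  obtain ⟨b, hbE, hbC⟩ := SetLike.not_le_iff_exists.1 hEC
  obtain ⟨a, rfl⟩ := (C.isCyclic_iff_exists_zpowers_eq_top).1 hC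
  have ha : orderOf a = p ^ (n - 2 + 1) := by
    have := (Subgroup.zpowers a).card_mul_index
    rw [hCi, hG, Nat.card_zpowers, show n = n - 2 + 1 + 1 by omega, pow_succ] at this
    exact Nat.eq_of_mul_eq_mul_right hp'.pos this
  have htop : Subgroup.zpowers a ⊔ Subgroup.zpowers b = ⊤ :=
    (H4.eq_sup_zpowers (p := p) le_top (by rw [← hCi, Subgroup.card_mul_index, Subgroup.card_top])
      (Subgroup.mem_top b) hbC).symm
  obtain ⟨h1, h2, h3⟩ := H4.commutator_of_cyclic_index hp hP hCi b a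
  have hne : b * a * b⁻¹ * a⁻¹ ≠ 1 := fun h => by
    have := H4.commutator_le_of_pair (N := ⊥) htop (by
      rw [← commutatorElement_inv]; exact Subgroup.inv_mem _ h)
    have h4 := this (Subgroup.commutator_mem_commutator (Subgroup.mem_top x) (Subgroup.mem_top y))
    exact hxy (commutatorElement_eq_one_iff_mul_comm.1 h4)
  have hz : orderOf (a ^ p ^ (n - 2)) = p ^ 1 := by
    rw [H4.orderOf_pow_prime_pow ha (by omega)]; congr 1; omega
  have h5 := H4.zpowers_eq_of_notMem hz (H4.mem_zpowers_of_pow_eq_one ha h2 h3) (by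
    rw [show (a ^ p ^ (n - 2)) ^ p = 1 by rw [← pow_mul, ← pow_succ, ← ha, pow_orderOf_eq_one],
      Subgroup.zpowers_one_eq_bot, Subgroup.mem_bot]
    exact hne)
  obtain ⟨s, hs⟩ := h5.ge (Subgroup.mem_zpowers _)
  simp only at hs
  rw [← H4.commutator_zpow_left (H4.commute_of_mem_center h1 b)] at hs
  have hbs : b ^ s ∉ Subgroup.zpowers a := fun h => by
    rw [commutatorElement_eq_one_iff_mul_comm.2 (setLike_mul_comm h (Subgroup.mem_zpowers a))] at hs
    rw [← hs, orderOf_one, pow_one] at hz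
    exact hp'.one_lt.ne hz
  refine ⟨a, b ^ s, by rw [ha]; congr 1; omega, ?_, hbs, ?_⟩
  · apply orderOf_eq_prime ((hE1 _).1 (zpow_mem hbE s))
    rintro h; exact hbs (h ▸ Subgroup.one_mem _)
  · rw [add_comm, pow_succ, ← hs, commutatorElement_def]; group

end Cfsg.Agent.S0645
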