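import Cfsg.Statements.S0657
import Cfsg.Agent.H9.ZJCor

set_option autoImplicit false
open Cfsg

namespace Cfsg.Agent.S0657

/-- For odd p, a group that fails to be p-stable modulo its largest normal subgroup of order prime to p, and whose upper p-series does not stop there, has a section isomorphic to SL(2, p). -/
theorem result {G : Type*} [Group G] [Finite G] {p : ℕ} [Fact p.Prime] (hp : p ≠ 2) (hO : Cfsg.pPrimeCore p G < Cfsg.pPrimePCore p G) (hns : ¬ Cfsg.IsPStable p (G ⧸ Cfsg.pPrimeCore p G)) : ∃ (K L : Subgroup G) (hL : (L.subgroupOf K).Normal), K ≤ ⊤ ∧ Nonempty ((K ⧸ L.subgroupOf K) ≃* Matrix.SpecialLinearGroup (Fin 2) (ZMod p)) := by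
  by_contra h
  refine hns (H9.isPStable_of_not_involves_qd hp (fun h1 => h (H9.involves_SL2_of_qd
    (h1.of_surjective (QuotientGroup.mk'_surjective _))).section') fun h2 => hO.ne' ?_)
  rw [← H1.map_pPrimePCore_mk', H1.map_mk'_eq_bot_iff] at h2
  exact le_antisymm h2 hO.le

end Cfsg.Agent.S0657
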