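import Cfsg.Statements.S0658
import Cfsg.Agent.H9.ZJ

set_option autoImplicit false
open Cfsg

namespace Cfsg.Agent.S0658

/-- In a group of characteristic p type all of whose p-locals are p-stable (p odd), the normalizer of Z(J(P)) contains the normalizer of every nontrivial subgroup of the Sylow p-subgroup P. -/
theorem result {G : Type*} [Group G] [Finite G] {p : ℕ} [Fact p.Prime] (hp : p ≠ 2) (hloc : ∀ Q : Subgroup G, IsPGroup p Q → Q ≠ ⊥ → Cfsg.pPrimeCore p ↥(Subgroup.normalizer (Q : Set G)) = ⊥ ∧ Cfsg.IsPConstrained p ↥(Subgroup.normalizer (Q : Set G)) ∧ Cfsg.IsPStable p ↥(Subgroup.normalizer (Q : Set G))) (P : Sylow p G) (Q : Subgroup G) (hQP : Q ≤ (P : Subgroup G)) (hQ1 : Q ≠ ⊥) : Subgroup.normalizer (Q : Set G) ≤ Subgroup.normalizer (Cfsg.centerThompsonAOf ((P : Subgroup G)) : Set G) := by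
  rw [H9.centerThompsonAOf_eq_ZJ]
  set M := Subgroup.normalizer (H9.ZJ 0 (P : Subgroup G) : Set G) with hM
  have hPM : (P : Subgroup G) ≤ M :=
    Subgroup.le_normalizer.trans (H9.normalizer_le_normalizer_ZJ 0 _)
  have hP := H28.isSylowIn_of_sylow_le P hPM
  have hZ : ∀ Q R : Subgroup G, IsPGroup p Q → Q ≠ ⊥ →
      H28.IsSylowIn p R (Subgroup.normalizer (Q : Set G)) →
      Subgroup.normalizer (Q : Set G) ≤ Subgroup.normalizer (H9.ZJ 0 R : Set G) := by
    intro Q R h1 h2 hR
    obtain ⟨h3, h4, h5⟩ := hloc Q h1 h2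
    refine H9.zj_ZJ hp (Or.inr rfl) hR (H9.strCl_self _ _) (H9.pStab_of_top
      (H9.pStab_of_isPStable h5 (f := MonoidHom.id _) Function.surjective_id
        (by rw [h3, MonoidHom.ker_id]))) (H28.isCharP_iff.2 ?_)
    exact H1.gf_eq_pCore_iff.1 ((H1.isPConstrained_iff_of_pPrimeCore_eq_bot h3).1 h4)
  -- downward induction on the order of a Sylow subgroup of `N(Q) ∩ M`
  have key : ∀ n : ℕ, ∀ Q R : Subgroup G, Q ≤ R → Q ≠ ⊥ →
      H28.IsSylowIn p R (Subgroup.normalizer (Q : Set G) ⊓ M) →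
      Nat.card P - Nat.card R = n → Subgroup.normalizer (Q : Set G) ≤ M := by
    intro n
    induction n using Nat.strong_induction_on with
    | _ n ih =>
    intro Q R hQR hQ hR hn
    obtain ⟨m, hm, hle⟩ := hP.exists_conj_le hR.isPGroup (hR.le.trans inf_le_right)
    have hR' := hR.conj m
    rw [H28.cj_inf, H28.cj_normalizer, H28.cj_eq_self_of_mem hm] at hR'
    rw [← H28.cj_le_cj (g := m), H28.cj_normalizer, H28.cj_eq_self_of_mem hm]
    rw [← H28.card_cj m R] at hn
    have hQ' : Q.map (MulAut.conj m).toMonoidHom ≠ ⊥ := fun h => hQ (H28.cj_eq_bot.1 h)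
    have hQR' := H28.cj_mono m hQR
    generalize Q.map (MulAut.conj m).toMonoidHom = Q' at *
    generalize R.map (MulAut.conj m).toMonoidHom = R' at *
    have hR0 : R' ≠ ⊥ := fun h => hQ' (eq_bot_iff.2 (h ▸ hQR'))
    have step : R' ≠ P → ∀ X : Subgroup G, X ≠ ⊥ → X ≤ R' →
        Subgroup.normalizer (R' : Set G) ≤ Subgroup.normalizer (X : Set G) →
        Subgroup.normalizer (X : Set G) ≤ M := by
      intro hne X hX1 hXR hN
      have h1 := H28.lt_inf_normalizer P.isPGroup' (lt_of_le_of_ne hle hne)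
      obtain ⟨T, hT, hT1⟩ := H28.exists_isSylowIn_ge (P.isPGroup'.to_le inf_le_left)
        (le_inf (inf_le_right.trans hN) (inf_le_left.trans hPM))
      have h2 := H28.card_lt_of_lt (h1.trans_le hT1)
      have h3 := hP.card_le hT.isPGroup (hT.le.trans inf_le_right)
      exact ih _ (by omega) X T (hXR.trans (h1.le.trans hT1)) hX1 hT rfl
    have hQp : IsPGroup p Q' := hR'.isPGroup.to_le hQR'
    by_cases hne : R' = P
    · subst hne
      exact hZ Q' _ hQp hQ' (H28.isSylowIn_of_sylow_le P (hR'.le.trans inf_le_left))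
    · have h1 : H28.IsSylowIn p R' (Subgroup.normalizer (Q' : Set G)) := by
        refine H28.IsSylowIn.of_inf_normalizer (hR'.mono (le_inf (hR'.le.trans inf_le_left)
          Subgroup.le_normalizer) (inf_le_inf_left _ (step hne R' hR0 le_rfl le_rfl)))
      exact (hZ Q' R' hQp hQ' h1).trans (step hne _ (H9.ZJ_ne_bot (Or.inr rfl) hR'.isPGroup hR0)
        (H9.ZJ_le 0 R') (H9.normalizer_le_normalizer_ZJ 0 R'))
  obtain ⟨R, hR, hQR⟩ := H28.exists_isSylowIn_ge (P.isPGroup'.to_le hQP)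
    (le_inf Subgroup.le_normalizer (hQP.trans hPM))
  exact key _ Q R hQR hQ1 hR rfl

end Cfsg.Agent.S0658
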