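import Cfsg.Statements.S0666
import Cfsg.Agent.H3.Frobenius
import Cfsg.Agent.H19.Amb3

set_option autoImplicit false
open Cfsg

namespace Cfsg.Agent.S0666

open H19 Subgroup in

/-- A Frobenius group acting on a nontrivial abelian group of order prime to that of its kernel, with the kernel acting without nontrivial fixed points, has a complement with a nontrivial fixed point. -/
theorem result {G : Type*} [Group G] [Finite G] (V F : Subgroup G) (hVab : IsMulCommutative V) (hV1 : V ≠ ⊥) (hFV : F ≤ Subgroup.normalizer (V : Set G)) (H : Subgroup ↥F) (hH : Cfsg.IsFrobeniusComplement H) (hcop : (Nat.card V).Coprime (Nat.card (Cfsg.frobeniusKernel H))) (hCK : V ⊓ Subgroup.centralizer (Subtype.val '' Cfsg.frobeniusKernel H : Set G) = ⊥) : V ⊓ Subgroup.centralizer ((H.map F.subtype : Subgroup G) : Set G) ≠ ⊥ := by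
  obtain ⟨K, h1, h2, h3, h4, h5, -⟩ := H3.exists_frobeniusKernel hH
  rw [← h1] at hcop hCK
  intro e
  have h6 := H3.le_centralizer_of_frobenius (A := H.map F.subtype) (K := K.map F.subtype) (W := V)
    ((map_subtype_le H).trans (normalIn_map_subtype K).norm) ((map_subtype_le H).trans hFV)
    ((map_subtype_le K).trans hFV) (by rw [card_map_of_injective F.subtype_injective]; exact hcop.symm)
    (by
      rintro _ ⟨a, ha, rfl⟩ h0
      refine H3.fpf_iff.2 ?_
      rintro _ ⟨k, hk, rfl⟩ e
      exact congrArg Subtype.val (H3.fpf_iff.1 (h5 a ha fun e => h0 (congrArg Subtype.val e)) k hk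
        (Subtype.ext e))) e
  exact hV1 (le_bot_iff.1 (hCK ▸ le_inf le_rfl (cents_symm h6)))

end Cfsg.Agent.S0666
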