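import Cfsg.Statements.S0668
import Mathlib
import Cfsg.Agent.H17.PermMod

set_option autoImplicit false
open Cfsg

namespace Cfsg.Agent.S0668

open MulAction

/-- The equivariant linear maps between the permutation modules of two finite `G`-sets form a space whose dimension is the number of `G`-orbits on the product of the two sets. -/
theorem result {G : Type*} [Group G] {K : Type*} [Field K] {Ω₁ Ω₂ : Type*} [Fintype Ω₁] [Fintype Ω₂] [MulAction G Ω₁] [MulAction G Ω₂] : Module.finrank K ((Cfsg.permRep K G Ω₁).linHom (Cfsg.permRep K G Ω₂)).invariants = Nat.card (MulAction.orbitRel.Quotient G (Ω₁ × Ω₂)) := by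
  classical
  let L : (orbitRel.Quotient G (Ω₁ × Ω₂) → K) →ₗ[K]
      ((Cfsg.permRep K G Ω₁).linHom (Cfsg.permRep K G Ω₂)).invariants :=
    { toFun := fun c => ⟨H17.kerOp fun x y => c (Quotient.mk'' (x, y)), by
        rw [H17.mem_linHom_inv_iff]
        apply H17.kerOp_smul
        intro g x y
        congr 1
        exact Quotient.sound' ⟨g, rfl⟩⟩
      map_add' := fun c d => by
        ext1; ext1 f; ext y
        simp [H17.kerOp_apply, add_mul, Finset.sum_add_distrib]
      map_smul' := fun a c => by
        ext1; ext1 f; ext y
        simp [H17.kerOp_apply, Finset.mul_sum, mul_assoc] }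
  have hbij : Function.Bijective L := by
    constructor
    · intro c d h
      ext q
      induction q using Quotient.inductionOn' with
      | h q =>
      have := congrFun (LinearMap.congr_fun (congrArg Subtype.val h) (Pi.single q.1 1)) q.2
      simpa [L, H17.kerOp_single] using this
    · rintro ⟨T, hT⟩
      have hT' := (H17.mem_linHom_inv_iff T).mp hT
      refine ⟨Quotient.lift (fun q => T (Pi.single q.1 1) q.2) ?_, ?_⟩
      · rintro _ ⟨x, y⟩ ⟨g, rfl⟩
        have := congrFun (hT' g (Pi.single (g • x) 1)) y
        rw [H17.single_smul, inv_smul_smul] at this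
        exact this.symm
      · apply Subtype.ext
        exact (H17.eq_kerOp T).symm
  have : Fintype (orbitRel.Quotient G (Ω₁ × Ω₂)) := Fintype.ofFinite _
  rw [← (LinearEquiv.ofBijective L hbij).finrank_eq, Module.finrank_fintype_fun_eq_card,
    Nat.card_eq_fintype_card]

end Cfsg.Agent.S0668
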