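import Cfsg.Statements.S0669
import Mathlib

set_option autoImplicit false
open Cfsg

namespace Cfsg.Agent.S0669

/-- The rank of a transitive action: orbits on ordered pairs correspond to orbits of a point stabiliser. -/
theorem result {G : Type*} [Group G] {Ω : Type*} [Finite Ω] [MulAction G Ω] [MulAction.IsPretransitive G Ω] (a : Ω) : Nat.card (MulAction.orbitRel.Quotient G (Ω × Ω)) = Nat.card (MulAction.orbitRel.Quotient (MulAction.stabilizer G a) Ω) := by
  symm
  refine Nat.card_congr (Equiv.ofBijective (Quotient.map' (fun b => (a, b)) ?_) ⟨?_, ?_⟩)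
  · rintro b c ⟨g, hg⟩
    refine ⟨(g : G), ?_⟩
    simp only [Prod.smul_mk, Prod.mk.injEq]
    exact ⟨g.2, hg⟩
  · intro x y
    induction x using Quotient.inductionOn'
    induction y using Quotient.inductionOn'
    intro h
    obtain ⟨g, hg⟩ := Quotient.exact' h
    simp only [Prod.smul_mk, Prod.mk.injEq] at hg
    exact Quotient.sound' ⟨⟨g, hg.1⟩, hg.2⟩
  · intro x
    induction x using Quotient.inductionOn' with
    | h x =>
    obtain ⟨g, hg⟩ := MulAction.exists_smul_eq G x.1 a
    refine ⟨Quotient.mk'' (g • x.2), Quotient.sound' ⟨g, ?_⟩⟩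
    simp only [← hg]
    rfl

end Cfsg.Agent.S0669
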