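import Cfsg.Statements.S0677
import Mathlib
import Cfsg.Agent.H17.PrimeDeg2
import Cfsg.Agent.S0675

set_option autoImplicit false
open Cfsg

namespace Cfsg.Agent.S0677

open MulAction
open scoped Pointwise

theorem aux {G : Type*} [Group G] [Finite G] {α : Type*} [MulAction G α] [FaithfulSMul G α]
    [IsPretransitive G α] {p : ℕ} [Fact p.Prime] (hα : Nat.card α = p) (hp2 : p ≠ 2)
    (h2 : IsMultiplyPretransitive G α 2) (P : Sylow p G)
    (heven : Even (Nat.card (Subgroup.normalizer ((P : Subgroup G) : Set G))))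
    (Δ : Set α) (hΔ : (stabilizer G Δ).index = p) : ∃ a : α, Δ ⊆ {a} ∨ {a}ᶜ ⊆ Δ := by
  have hp : p.Prime := Fact.out
  have := H17.finite_of_card_prime hα
  obtain ⟨c, t, hcP, e, hc, ht⟩ := H17.pd_exists_inv_coord hα hp2 P heven
  have h2ne : (2 : ZMod p) ≠ 0 := by
    intro h
    have h7 : ((2 : ℕ) : ZMod p) = 0 := by exact_mod_cast h
    rw [ZMod.natCast_eq_zero_iff, Nat.prime_dvd_prime_iff_eq hp Nat.prime_two] at h7
    exact hp2 h7
  have ext : ∀ g h : G, (∀ j, g • e j = h • e j) → g = h := fun g h H =>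
    FaithfulSMul.eq_of_smul_eq_smul (α := α) fun x => by
      obtain ⟨j, rfl⟩ := e.surjective x
      exact H j
  have hB : Nat.card (orbit G Δ) = p := by rw [Nat.card_coe_set_eq, ← index_stabilizer, hΔ]
  have ht2 : t ^ 2 = 1 := ext _ _ fun j => by rw [pow_two, mul_smul, ht, ht]; simp
  obtain ⟨⟨D, hDB⟩, hD⟩ := H17.exists_fixed_of_prime_order (α := orbit G Δ) Nat.prime_two ht2 (by
    rw [hB, Nat.prime_dvd_prime_iff_eq Nat.prime_two hp]; exact hp2.symm)
  have hD' : t • D = D := congrArg Subtype.val hD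
  have hPt := H17.sylow_trans (Ω := orbit G Δ) (f := 1) (by simpa using hB) P
  have huniq : ∀ β ∈ orbit G Δ, t • β = β → β = D := by
    intro β hβ htβ
    obtain ⟨u, hu, huD⟩ := (H17.trans_sub_iff _).mp hPt ⟨D, hDB⟩ ⟨β, hβ⟩
    have huD' : u • D = β := congrArg Subtype.val huD
    have h1 := H17.card_mul_stabilizer (G := (P : Subgroup G)) (⟨D, hDB⟩ : orbit G Δ)
    rw [hB, H17.pd_sylow_card hα, Nat.mul_eq_left hp.ne_zero, Subgroup.card_eq_one,
      H17.stabilizer_sub_eq_bot_iff] at h1
    obtain ⟨k, rfl⟩ : u ∈ Subgroup.zpowers c := hcP ▸ hu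
    simp only at huD' hu
    have h3 : c ^ k * t * c ^ k = t := ext _ _ fun j => by
      simp only [mul_smul, H17.coord_zpow hc, ht]; congr 1; ring
    have h4 := h1 (c ^ k * c ^ k) (mul_mem hu hu) (Subtype.ext (by
      change (c ^ k * c ^ k) • D = D
      rw [mul_smul, huD', ← htβ, ← huD', ← mul_smul, ← mul_smul, h3, hD']))
    have h5 : (c ^ k * c ^ k) • e 0 = e 0 := by rw [h4, one_smul]
    rw [mul_smul, H17.coord_zpow hc, H17.coord_zpow hc, e.apply_eq_iff_eq] at h5
    have h6 : (k : ZMod p) = 0 := by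
      apply mul_left_cancel₀ h2ne
      linear_combination h5
    have h7 : c ^ k = 1 := ext _ _ fun j => by rw [H17.coord_zpow hc, h6]; simp
    rw [← huD', h7, one_smul]
  let s : ZMod p → Set (Set α) := fun x => {β | β ∈ orbit G Δ ∧ e x ∈ β ∧ e (-x) ∈ β}
  have hDneg : ∀ x, e x ∈ D → e (-x) ∈ D := fun x hx => by
    rw [← ht, ← hD']; exact Set.smul_mem_smul_set hx
  have hmod : ∀ x, (s x).ncard ≡ (s x ∩ fixedBy (Set α) t).ncard [MOD 2] := by
    intro x
    apply H17.ncard_modEq_fixedBy (k := 1) Nat.prime_two (by simpa using ht2) _ (Set.toFinite _)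
    rintro β ⟨h1, h3, h4⟩
    refine ⟨mem_orbit_of_mem_orbit t h1, ?_, ?_⟩
    · have := Set.smul_mem_smul_set (a := t) h4
      rwa [ht, neg_neg] at this
    · have := Set.smul_mem_smul_set (a := t) h3
      rwa [ht] at this
  have hle : ∀ x y, x ≠ 0 → y ≠ 0 → (s x).ncard ≤ (s y).ncard := by
    intro x y hx hy
    have hne : ∀ z : ZMod p, z ≠ 0 → e z ≠ e (-z) := fun z hz h => hz (by
      apply mul_left_cancel₀ h2ne
      linear_combination e.injective h)
    obtain ⟨g, h1, h3⟩ := is_two_pretransitive_iff.mp h2 (hne x hx) (hne y hy)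
    refine Set.ncard_le_ncard_of_injOn (fun β => g • β) ?_ (MulAction.injective g).injOn
    rintro β ⟨h4, h5, h6⟩
    exact ⟨mem_orbit_of_mem_orbit g h4, h1 ▸ Set.smul_mem_smul_set h5, h3 ▸ Set.smul_mem_smul_set h6⟩
  have key : ∀ x y, x ≠ 0 → y ≠ 0 → e x ∈ D → e y ∈ D := by
    intro x y hx hy hxD
    by_contra hyD
    have h1 := hmod x
    have h3 := hmod y
    have h4 : s x ∩ fixedBy (Set α) t = {D} := by
      ext β
      constructor
      · rintro ⟨h5, h6⟩
        exact huniq β h5.1 h6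
      · rintro rfl
        exact ⟨⟨hDB, hxD, hDneg x hxD⟩, hD'⟩
    have h5 : s y ∩ fixedBy (Set α) t = ∅ := by
      rw [Set.eq_empty_iff_forall_notMem]
      rintro β ⟨h5, h6⟩
      exact hyD (huniq β h5.1 h6 ▸ h5.2.1)
    rw [h4, Set.ncard_singleton, le_antisymm (hle x y hx hy) (hle y x hy hx)] at h1
    rw [h5, Set.ncard_empty] at h3
    exact absurd (h1.symm.trans h3) (by decide)
  obtain ⟨g, rfl⟩ := hDB
  refine ⟨g⁻¹ • e 0, ?_⟩
  by_cases h1 : e 1 ∈ g • Δ
  · right
    intro z hz
    obtain ⟨j, hj⟩ := e.surjective (g • z)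
    rw [← Set.smul_mem_smul_set_iff (a := g), ← hj]
    refine key 1 j one_ne_zero ?_ h1
    rintro rfl
    exact hz (by rw [hj]; simp)
  · left
    intro z hz
    obtain ⟨j, hj⟩ := e.surjective (g • z)
    by_contra hne
    refine h1 (key j 1 ?_ one_ne_zero (hj ▸ Set.smul_mem_smul_set hz))
    rintro rfl
    exact hne (by rw [hj]; simp)

/-- In a transitive permutation group of prime degree `p` whose Sylow `p`-normaliser has even order, the point stabilisers are the only subgroups of index `p`. -/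
theorem result {α : Type*} [Fintype α] [DecidableEq α] {p : ℕ} [Fact p.Prime] (hα : Fintype.card α = p) (G : Subgroup (Equiv.Perm α)) [MulAction.IsPretransitive G α] (P : Sylow p G) (heven : Even (Nat.card (Subgroup.normalizer ((P : Subgroup G) : Set G)))) (H : Subgroup G) (hH : H.index = p) : ∃ a : α, H = MulAction.stabilizer G a := by
  classical
  have hp : p.Prime := Fact.out
  have hα' : Nat.card α = p := by simpa using hα
  obtain ⟨a₀⟩ : Nonempty α := Fintype.card_pos_iff.mp (hα ▸ hp.pos)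
  have hHp : ¬ p ∣ Nat.card H := by
    intro h
    have h1 : p ^ 2 ∣ Nat.card G := by
      rw [← H.card_mul_index, hH, pow_two]; exact Nat.mul_dvd_mul_right h _
    rw [hp.pow_dvd_iff_le_factorization Nat.card_pos.ne', H17.pd_factorization hα'] at h1
    omega
  suffices h : ∃ a : α, ∀ g ∈ H, g • a = a by
    obtain ⟨a, ha⟩ := h
    refine ⟨a, Subgroup.eq_of_le_of_card_ge ha ?_⟩
    have e1 := H.card_mul_index
    have e2 := (stabilizer G a).card_mul_index
    rw [index_stabilizer_of_transitive, hα', ← e1, hH] at e2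
    exact (Nat.eq_of_mul_eq_mul_right hp.pos e2).le
  by_cases hG : Group.IsSolvable G
  · have hPn := H17.pd_normal_of_solvable hα' P hG
    obtain ⟨c, hcP, e, -, hc⟩ := H17.pd_exists_coord hα' P a₀
    have haff : ∀ g : G, ∃ a b : ZMod p, ∀ j, g • e j = e (a * j + b) := fun g =>
      H17.affine_of_normalizer hc (by rw [hcP, Subgroup.normalizer_eq_top_iff.mpr hPn]; trivial)
    have := Fintype.ofFinite H
    have hH0 : (Nat.card H : ZMod p) ≠ 0 := by rwa [Ne, ZMod.natCast_eq_zero_iff]
    refine ⟨e ((Nat.card H : ZMod p)⁻¹ * ∑ h : H, e.symm ((h : G) • e 0)), fun g hg => ?_⟩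
    obtain ⟨a, b, hab⟩ := haff g
    rw [hab]
    congr 1
    have h1 : ∑ h : H, e.symm ((h : G) • e 0) = ∑ h : H, (a * e.symm ((h : G) • e 0) + b) := by
      rw [← Fintype.sum_equiv (Equiv.mulLeft (⟨g, hg⟩ : H)) _ _ (fun _ => rfl)]
      refine Finset.sum_congr rfl fun h _ => ?_
      rw [Equiv.symm_apply_eq, ← hab]
      simp [mul_smul]
    rw [Finset.sum_add_distrib, ← Finset.mul_sum, Finset.sum_const, Finset.card_univ,
      ← Nat.card_eq_fintype_card, nsmul_eq_mul] at h1
    field_simp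
    linear_combination -h1
  · have h5 := Cfsg.Agent.S0675.five_le hα G hG
    have h2 := (Cfsg.Agent.S0675.result (hα ▸ hp) G).resolve_left hG
    have hle : H ≤ stabilizer G (orbit H a₀) := fun g hg => smul_orbit (⟨g, hg⟩ : H) a₀
    have hne : orbit H a₀ ≠ Set.univ := by
      intro h
      apply hHp
      rw [← H17.card_orbit_mul (G := H) a₀, h, Nat.card_univ, hα']
      exact dvd_mul_right _ _
    have hidx : (stabilizer G (orbit H a₀)).index = p := by
      rcases (Nat.dvd_prime hp).mp (hH ▸ Subgroup.index_dvd_of_le hle) with h | h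
      · exfalso
        rw [Subgroup.index_eq_one] at h
        apply hne
        rw [Set.eq_univ_iff_forall]
        intro x
        obtain ⟨g, rfl⟩ := exists_smul_eq G a₀ x
        have : g ∈ stabilizer G (orbit H a₀) := h ▸ trivial
        rw [← mem_stabilizer_iff.mp this]
        exact Set.smul_mem_smul_set (mem_orbit_self _)
      · exact h
    obtain ⟨a, h | h⟩ := aux hα' (by omega) h2 P heven _ hidx
    · refine ⟨a₀, fun g hg => ?_⟩
      exact (h (mem_orbit a₀ (⟨g, hg⟩ : H))).trans (h (mem_orbit_self a₀)).symm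
    · refine ⟨a, fun g hg => ?_⟩
      have ha : a ∉ orbit H a₀ := by
        intro ha
        apply hne
        rw [Set.eq_univ_iff_forall]
        intro x
        by_cases hx : x = a
        · exact hx ▸ ha
        · exact h hx
      by_contra hga
      apply ha
      have := mem_orbit_of_mem_orbit (⟨g, hg⟩ : H)⁻¹ (h hga)
      change g⁻¹ • g • a ∈ _ at this
      rwa [inv_smul_smul] at this

end Cfsg.Agent.S0677
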