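import Cfsg.Statements.S0680
import Mathlib
import Cfsg.Agent.H17.Prim

set_option autoImplicit false
open Cfsg

namespace Cfsg.Agent.S0680

open MulAction

/-- A finite sharply doubly transitive permutation group has degree a prime power `p ^ j`; a Sylow `p`-subgroup is normal, elementary abelian and regular, and consists of the identity together with the elements without fixed points. (Frobenius' Theorem is not needed.) -/
theorem result {α : Type*} [Fintype α] [DecidableEq α] (G : Subgroup (Equiv.Perm α)) [MulAction.IsMultiplyPretransitive G α 2] (hsharp : ∀ x : Fin 2 ↪ α, MulAction.stabilizer G x = ⊥) (h2 : 2 ≤ Fintype.card α) : ∃ p j : ℕ, p.Prime ∧ 1 ≤ j ∧ Fintype.card α = p ^ j ∧ ∀ (hp : Fact p.Prime) (P : Sylow p G), (P : Subgroup G).Normal ∧ IsMulCommutative (P : Subgroup G) ∧ (∀ x ∈ (P : Subgroup G), x ^ p = 1) ∧ MulAction.IsPretransitive (P : Subgroup G) α ∧ (∀ a : α, MulAction.stabilizer (P : Subgroup G) a = ⊥) ∧ ∀ g : G, g ∈ (P : Subgroup G) ↔ g = 1 ∨ ∀ a : α, g • a ≠ a := by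
  have : Nontrivial α := Fintype.one_lt_card_iff_nontrivial.mp h2
  obtain ⟨K, hKn, hKt, hKr, hK⟩ := H17.sharp_two_kernel (G := G) (α := α) inferInstance (H17.sharp_two_iff.mp hsharp)
  obtain ⟨p, j, hp, hj, hc, hcomm, hpow⟩ := H17.regular_normal_elem_ab (G := G) (α := α) inferInstance K hKt hKr
  refine ⟨p, j, hp, hj, by simpa using hc, fun hp' P => ?_⟩
  have hKP : IsPGroup p K := fun y => ⟨1, Subtype.ext (by simpa using hpow y y.2)⟩
  have hPK : (P : Subgroup G) = K := by
    apply le_antisymm _ (hKP.le_sylow_of_normal P)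
    intro g hg
    rw [hK]
    by_contra hcon
    push Not at hcon
    obtain ⟨h1, a, ha⟩ := hcon
    have hG := H17.card_of_sharp (G := G) (α := α) (k := 2) inferInstance hsharp (by simpa using h2)
    simp only [Nat.descFactorial_succ, Nat.descFactorial_zero, Nat.sub_zero, mul_one] at hG
    have : IsPretransitive G α := isPretransitive_of_is_two_pretransitive
    have h3 := H17.card_mul_stabilizer (G := G) a
    rw [hG, mul_comm] at h3
    have h4 : Nat.card (stabilizer G a) = Nat.card α - 1 := Nat.eq_of_mul_eq_mul_right Nat.card_pos h3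
    have h5 : orderOf g ∣ Nat.card α - 1 := by
      rw [← h4]
      exact Subgroup.orderOf_dvd_natCard _ ha
    obtain ⟨k, hk⟩ := IsPGroup.iff_orderOf.mp P.isPGroup' ⟨g, hg⟩
    rw [Subgroup.orderOf_mk] at hk
    rcases k with _ | k
    · exact h1 (by simpa using hk)
    · have h6 : p ∣ Nat.card α - 1 := (hk ▸ dvd_pow_self p (Nat.succ_ne_zero k)).trans h5
      have h7 : p ∣ Nat.card α := hc ▸ dvd_pow_self p (by omega)
      have := (Nat.dvd_sub_iff_right (Nat.card_pos) h7).mp h6
      exact hp.one_lt.ne' (Nat.dvd_one.mp this)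
  rw [hPK]
  exact ⟨hKn, ⟨⟨fun x y => Subtype.ext (hcomm x x.2 y y.2)⟩⟩, hpow, hKt, hKr, hK⟩

end Cfsg.Agent.S0680
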