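import Cfsg.Statements.S0681
import Mathlib
import Cfsg.Agent.H17.Basic

set_option autoImplicit false
open Cfsg

namespace Cfsg.Agent.S0681

open MulAction

variable {F : Type*} [Cfsg.NearField F]

theorem zmul (a : F) : 0 * a = 0 := by
  have := NearField.right_distrib (0 : F) 0 a
  rw [add_zero] at this
  exact left_eq_add.mp this

theorem negmul (a b : F) : (-a) * b = -(a * b) := by
  apply eq_neg_of_add_eq_zero_left
  rw [← NearField.right_distrib, neg_add_cancel, zmul]

theorem mul_ne {a b : F} (ha : a ≠ 0) (hb : b ≠ 0) : a * b ≠ 0 := by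
  intro h
  obtain ⟨c, hc, -⟩ := NearField.exists_inv b hb
  apply ha
  rw [← mul_one a, ← hc, ← mul_assoc, h, zmul]

theorem exists_perm {a : F} (ha : a ≠ 0) (b : F) : ∃ σ : Equiv.Perm F, ∀ x, σ x = x * a + b := by
  obtain ⟨c, hc, hc'⟩ := NearField.exists_inv a ha
  exact ⟨⟨fun x => x * a + b, fun y => (y + -b) * c,
    fun x => by simp [mul_assoc, hc], fun y => by simp [mul_assoc, hc']⟩, fun _ => rfl⟩

def H : Subgroup (Equiv.Perm F) where
  carrier := {σ | ∃ a b : F, a ≠ 0 ∧ ∀ x : F, σ x = x * a + b}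
  one_mem' := ⟨1, 0, NearField.zero_ne_one.symm, fun x => by simp⟩
  mul_mem' := by
    rintro σ τ ⟨a, b, ha, hσ⟩ ⟨c, d, hc, hτ⟩
    refine ⟨c * a, d * a + b, mul_ne hc ha, fun x => ?_⟩
    rw [Equiv.Perm.mul_apply, hτ, hσ, NearField.right_distrib, mul_assoc, add_assoc]
  inv_mem' := by
    rintro σ ⟨a, b, ha, hσ⟩
    obtain ⟨c, hc, hc'⟩ := NearField.exists_inv a ha
    refine ⟨c, (-b) * c, ?_, fun x => ?_⟩
    · rintro rfl
      rw [NearField.mul_zero] at hc
      exact NearField.zero_ne_one hc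
    · rw [Equiv.Perm.inv_eq_iff_eq, hσ, ← NearField.right_distrib, mul_assoc, hc', mul_one,
        neg_add_cancel_right]

/-- The affine maps `x ↦ x * a + b`, `a ≠ 0`, of a near-field form a sharply doubly transitive permutation group. -/
theorem result {F : Type*} [Cfsg.NearField F] : ∃ H : Subgroup (Equiv.Perm F), (∀ σ : Equiv.Perm F, σ ∈ H ↔ ∃ a b : F, a ≠ 0 ∧ ∀ x : F, σ x = x * a + b) ∧ MulAction.IsMultiplyPretransitive H F 2 ∧ ∀ x : Fin 2 ↪ F, MulAction.stabilizer H x = ⊥ := by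
  refine ⟨H, fun σ => Iff.rfl, ?_, ?_⟩
  · rw [is_two_pretransitive_iff]
    intro x y c d hxy hcd
    have h1 : y + -x ≠ 0 := fun h => hxy (add_neg_eq_zero.mp h).symm
    have h2 : d + -c ≠ 0 := fun h => hcd (add_neg_eq_zero.mp h).symm
    obtain ⟨u, hu, hu'⟩ := NearField.exists_inv _ h1
    have hu0 : u ≠ 0 := by
      rintro rfl
      rw [NearField.mul_zero] at hu
      exact NearField.zero_ne_one hu
    obtain ⟨σ, hσ⟩ := exists_perm (mul_ne hu0 h2) (-(x * (u * (d + -c))) + c)
    refine ⟨⟨σ, _, _, mul_ne hu0 h2, hσ⟩, ?_, ?_⟩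
    · change σ x = c
      rw [hσ]; simp
    · change σ y = d
      rw [hσ, ← add_assoc, ← negmul, ← NearField.right_distrib, ← mul_assoc, hu]
      simp
  · refine (H17.sharp_two_iff (G := H) (α := F)).mpr ?_
    rintro ⟨σ, a, b, ha, hσ⟩ x y hxy hx hy
    change σ x = x at hx
    change σ y = y at hy
    rw [hσ] at hx hy
    have h1 : y + -x ≠ 0 := fun h => hxy (add_neg_eq_zero.mp h).symm
    obtain ⟨u, hu, hu'⟩ := NearField.exists_inv _ h1
    have h2 : (y + -x) * a = y + -x := by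
      rw [NearField.right_distrib, negmul]
      conv_rhs => rw [← hx, ← hy]
      simp [add_assoc]
    have ha1 : a = 1 := by
      rw [← one_mul a, ← hu', mul_assoc, h2]
    subst ha1
    rw [mul_one, add_eq_left] at hx
    ext z
    change σ z = z
    rw [hσ, hx]; simp

end Cfsg.Agent.S0681
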