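import Cfsg.Statements.S0682
import Mathlib
import Cfsg.Agent.H17.Prim

set_option autoImplicit false
open Cfsg

namespace Cfsg.Agent.S0682

/-- A finite near-field has prime-power order; its additive group is commutative of prime exponent. -/
theorem result {F : Type*} [Cfsg.NearField F] [Finite F] : ∃ p j : ℕ, p.Prime ∧ 1 ≤ j ∧ Nat.card F = p ^ j ∧ (∀ x y : F, x + y = y + x) ∧ ∀ x : F, p • x = 0 := by
  have : Nontrivial F := ⟨0, 1, NearField.zero_ne_one⟩
  have zmul : ∀ a : F, 0 * a = 0 := fun a => by
    have := NearField.right_distrib (0 : F) 0 a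
    rw [add_zero] at this
    exact left_eq_add.mp this
  obtain ⟨p, j, hp, hj, hc, h1, h2⟩ := H17.elem_ab_of_aut_trans (N := Multiplicative F) (by
    intro x y hx hy
    have hx' : x.toAdd ≠ 0 := hx
    have hy' : y.toAdd ≠ 0 := hy
    obtain ⟨u, hu, hu'⟩ := NearField.exists_inv _ hx'
    obtain ⟨v, hv, hv'⟩ := NearField.exists_inv _ hy'
    let φ : F ≃+ F :=
      { toFun := fun z => z * (u * y.toAdd)
        invFun := fun z => z * (v * x.toAdd)
        left_inv := fun z => by
          simp only [mul_assoc]
          rw [← mul_assoc y.toAdd, hv, one_mul, hu', mul_one]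
        right_inv := fun z => by
          simp only [mul_assoc]
          rw [← mul_assoc x.toAdd, hu, one_mul, hv', mul_one]
        map_add' := fun a b => NearField.right_distrib a b _ }
    refine ⟨AddEquiv.toMultiplicative φ, ?_⟩
    change Multiplicative.ofAdd (x.toAdd * (u * y.toAdd)) = y
    rw [← mul_assoc, hu, one_mul]
    rfl)
  exact ⟨p, j, hp, hj, hc, fun x y => h1 (Multiplicative.ofAdd x) (Multiplicative.ofAdd y),
    fun x => h2 (Multiplicative.ofAdd x)⟩

end Cfsg.Agent.S0682
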