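import Cfsg.Statements.S0683
import Mathlib
import Cfsg.Agent.H17.Prim

set_option autoImplicit false
open Cfsg

namespace Cfsg.Agent.S0683

open MulAction

/-- A finite sharply doubly transitive permutation group is the affine group of a near-field: the permuted set carries a near-field structure for which the group consists exactly of the maps `x ↦ x * a + b` with `a ≠ 0`. -/
theorem result {α : Type*} [Fintype α] [DecidableEq α] (H : Subgroup (Equiv.Perm α)) [MulAction.IsMultiplyPretransitive H α 2] (hsharp : ∀ x : Fin 2 ↪ α, MulAction.stabilizer H x = ⊥) (h2 : 2 ≤ Fintype.card α) : ∃ _ : Cfsg.NearField α, ∀ σ : Equiv.Perm α, σ ∈ H ↔ ∃ a b : α, a ≠ 0 ∧ ∀ x : α, σ x = x * a + b := by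
  have : Nontrivial α := Fintype.one_lt_card_iff_nontrivial.mp h2
  have hs := (H17.sharp_two_iff (G := H) (α := α)).mp hsharp
  obtain ⟨K, hKn, hKt, hKr, hK⟩ := H17.sharp_two_kernel (G := H) (α := α) inferInstance hs
  have hr := fun x => (H17.stabilizer_sub_eq_bot_iff K x).mp (hKr x)
  obtain ⟨z, o, hzo⟩ := exists_pair_ne α
  have h2t : ∀ {a b c d : α} (_ : a ≠ b) (_ : c ≠ d), ∃ g : H, g • a = c ∧ g • b = d :=
    (is_two_pretransitive_iff (G := H) (α := α)).mp inferInstance
  choose k hkK hk using fun y => (H17.trans_sub_iff K).mp hKt z y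
  have kext : ∀ g ∈ K, ∀ y, g • z = y → g = k y := by
    intro g hg y hy
    have := hr z ((k y)⁻¹ * g) (mul_mem (inv_mem (hkK y)) hg) (by rw [mul_smul, hy, inv_smul_eq_iff, hk])
    exact (inv_mul_eq_one.mp this).symm
  have hex : ∀ a : α, ∃ g : H, g • z = z ∧ (a ≠ z → g • o = a) := by
    intro a
    by_cases ha : a = z
    · exact ⟨1, one_smul _ _, fun h => absurd ha h⟩
    · obtain ⟨g, h1, h3⟩ := h2t hzo (Ne.symm ha)
      exact ⟨g, h1, fun _ => h3⟩
  choose m hmz hmo using hex
  have mext : ∀ g : H, ∀ a, g • z = z → g • o = a → g = m a := by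
    intro g a h1 h3
    have ha : a ≠ z := by
      rintro rfl
      exact hzo (smul_left_cancel g (h1.trans h3.symm))
    have := hs ((m a)⁻¹ * g) z o hzo (by rw [mul_smul, h1, inv_smul_eq_iff, hmz])
      (by rw [mul_smul, h3, inv_smul_eq_iff, hmo a ha])
    exact (inv_mul_eq_one.mp this).symm
  have mne : ∀ a x, x ≠ z → m a • x ≠ z := fun a x hx h =>
    hx (smul_left_cancel (m a) (h.trans (hmz a).symm))
  let iAdd : Add α := ⟨fun x y => k y • x⟩
  let iZero : Zero α := ⟨z⟩
  let iNeg : Neg α := ⟨fun x => (k x)⁻¹ • z⟩
  have kz : k z = 1 := (kext 1 (one_mem _) z (one_smul _ _)).symm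
  let iAG : AddGroup α := AddGroup.ofLeftAxioms (by
      intro a b c
      change k c • k b • a = k (k c • b) • a
      rw [← kext (k c * k b) (mul_mem (hkK _) (hkK _)) (k c • b) (by rw [mul_smul, hk]), mul_smul])
    (fun a => hk a) (fun a => smul_inv_smul _ _)
  let iM : Monoid α :=
    { mul := fun x a => if a = z then z else m a • x
      one := o
      mul_assoc := by
        intro a b c
        change (if c = z then z else m c • (if b = z then z else m b • a)) =
          if (if c = z then z else m c • b) = z then z else m (if c = z then z else m c • b) • a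
        by_cases hc : c = z
        · simp [hc]
        by_cases hb : b = z
        · simp [hc, hb, hmz]
        simp only [hc, hb, if_false, mne c b hb]
        rw [← mext (m c * m b) (m c • b) (by rw [mul_smul, hmz, hmz]) (by rw [mul_smul, hmo b hb]), mul_smul]
      one_mul := by
        intro a
        change (if a = z then z else m a • o) = a
        split_ifs with h
        · exact h.symm
        · exact hmo a h
      mul_one := by
        intro a
        change (if o = z then z else m o • a) = a
        rw [if_neg hzo.symm, ← mext 1 o (one_smul _ _) (one_smul _ _), one_smul] }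
  let iN : NearField α :=
    { iAG, iM with
      right_distrib := by
        intro a b c
        change (if c = z then z else m c • k b • a) =
          k (if c = z then z else m c • b) • (if c = z then z else m c • a)
        by_cases hc : c = z
        · simp [hc, kz]
        simp only [hc, if_false]
        rw [← kext (m c * k b * (m c)⁻¹) (hKn.conj_mem _ (hkK b) _) (m c • b) (by
          rw [mul_smul, mul_smul, inv_smul_eq_iff.mpr (hmz c).symm, hk])]
        simp [mul_smul]
      mul_zero := fun a => if_pos rfl
      zero_ne_one := hzo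
      exists_inv := by
        intro a ha
        have ha' : a ≠ z := ha
        have hb : (m a)⁻¹ • o ≠ z := by
          rw [Ne, inv_smul_eq_iff, hmz]; exact hzo.symm
        refine ⟨(m a)⁻¹ • o, ?_, ?_⟩
        · change (if (m a)⁻¹ • o = z then z else m ((m a)⁻¹ • o) • a) = o
          rw [if_neg hb, ← mext (m a)⁻¹ _ (by rw [inv_smul_eq_iff, hmz]) rfl, inv_smul_eq_iff, hmo a ha']
        · change (if a = z then z else m a • (m a)⁻¹ • o) = o
          rw [if_neg ha', smul_inv_smul] }
  refine ⟨iN, fun σ => ⟨fun hσ => ?_, ?_⟩⟩
  · set g : H := ⟨σ, hσ⟩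
    have h1 : ((k (g • z))⁻¹ * g) • z = z := by rw [mul_smul, inv_smul_eq_iff, hk]
    have h3 : ((k (g • z))⁻¹ * g) • o ≠ z := fun h => hzo (smul_left_cancel _ (h1.trans h.symm))
    refine ⟨((k (g • z))⁻¹ * g) • o, g • z, h3, fun x => ?_⟩
    change g • x = k (g • z) • (if _ = z then z else m _ • x)
    rw [if_neg h3, ← mext _ _ h1 rfl, mul_smul, smul_inv_smul]
  · rintro ⟨a, b, ha, hσ⟩
    have : σ = (k b * m a : H) := by
      ext x
      rw [hσ]
      change k b • (if a = z then z else m a • x) = (k b * m a) • x
      rw [if_neg (show a ≠ z from ha), mul_smul]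
    rw [this]
    exact Subtype.prop _

end Cfsg.Agent.S0683
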