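import Cfsg.Statements.S0691
import Cfsg.Agent.H24.RegGL2

set_option autoImplicit false
open Cfsg

namespace Cfsg.Agent.S0691


/-- An exceptional sharply doubly transitive group of degree 5^2: the listed matrices generate a subgroup of GL(2,5) of order 24 acting regularly on the non-zero vectors. -/
theorem result (A : Matrix.GeneralLinearGroup (Fin 2) (ZMod 5)) (B : Matrix.GeneralLinearGroup (Fin 2) (ZMod 5)) (C : Matrix.GeneralLinearGroup (Fin 2) (ZMod 5)) (hA : (A : Matrix (Fin 2) (Fin 2) (ZMod 5)) = !![2, 0; 0, -2]) (hB : (B : Matrix (Fin 2) (Fin 2) (ZMod 5)) = !![0, -1; 1, 0]) (hC : (C : Matrix (Fin 2) (Fin 2) (ZMod 5)) = !![1, 2; 1, -2]) : Nat.card (Subgroup.closure ({A, B, C} : Set (Matrix.GeneralLinearGroup (Fin 2) (ZMod 5)))) = 24 ∧ ∀ v w : Fin 2 → ZMod 5, v ≠ 0 → w ≠ 0 → ∃! h : Subgroup.closure ({A, B, C} : Set (Matrix.GeneralLinearGroup (Fin 2) (ZMod 5))), Matrix.mulVec ((h : Matrix.GeneralLinearGroup (Fin 2) (ZMod 5)) : Matrix (Fin 2) (Fin 2) (ZMod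 5)) v = w := by
  have h1 : B = C ^ 2 * (A ^ 3) ^ 3 * C := Units.ext (by simp only [Units.val_mul, Units.val_pow_eq_pow_val, hA, hB, hC]; decide)
  have h2 : A = (A ^ 3) ^ 3 := Units.ext (by simp only [Units.val_pow_eq_pow_val, hA]; decide)
  have hc : Nat.card (Subgroup.closure {A, B, C}) = 24 := by
    rw [← H24.card_tet (a := A ^ 3) (b := C)]
    · congr 2
      have a : A ^ 3 ∈ Subgroup.closure {A ^ 3, C} := Subgroup.subset_closure (by simp)
      have c : C ∈ Subgroup.closure {A ^ 3, C} := Subgroup.subset_closure (by simp)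
      refine le_antisymm ((Subgroup.closure_le _).2 ?_) ((Subgroup.closure_le _).2 ?_)
      · rintro g (h | h | h)
        exacts [(h.trans h2).symm ▸ pow_mem a 3,
          (h.trans h1).symm ▸ mul_mem (mul_mem (pow_mem c 2) (pow_mem a 3)) c, h.symm ▸ c]
      · rintro _ (rfl | rfl)
        exacts [pow_mem (Subgroup.subset_closure (by simp)) 3, Subgroup.subset_closure (by simp)]
    all_goals simp only [Ne, Units.ext_iff, Units.val_mul, Units.val_pow_eq_pow_val, hA, hC]; decide
  refine ⟨hc, @H24.reg_of_det _ ⟨by norm_num⟩ _ hc ?_⟩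
  rintro _ (rfl | rfl | rfl) <;> simp only [hA, hB, hC, Matrix.det_fin_two_of] <;> decide

end Cfsg.Agent.S0691
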