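import Cfsg.Statements.S0692
import Cfsg.Agent.H24.RegGL2

set_option autoImplicit false
open Cfsg

namespace Cfsg.Agent.S0692


/-- An exceptional sharply doubly transitive group of degree 11^2: the listed matrices generate a subgroup of GL(2,11) of order 120 acting regularly on the non-zero vectors. -/
theorem result (A : Matrix.GeneralLinearGroup (Fin 2) (ZMod 11)) (B : Matrix.GeneralLinearGroup (Fin 2) (ZMod 11)) (hA : (A : Matrix (Fin 2) (Fin 2) (ZMod 11)) = !![0, -1; 1, 0]) (hB : (B : Matrix (Fin 2) (Fin 2) (ZMod 11)) = !![2, 4; 1, -3]) : Nat.card (Subgroup.closure ({A, B} : Set (Matrix.GeneralLinearGroup (Fin 2) (ZMod 11)))) = 120 ∧ ∀ v w : Fin 2 → ZMod 11, v ≠ 0 → w ≠ 0 → ∃! h : Subgroup.closure ({A, B} : Set (Matrix.GeneralLinearGroup (Fin 2) (ZMod 11))), Matrix.mulVec ((h : Matrix.GeneralLinearGroup (Fin 2) (ZMod 11)) : Matrix (Fin 2) (Fin 2) (ZMod 11)) v = w := by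
  have hc : Nat.card (Subgroup.closure {A, B}) = 120 := by
    refine H24.card_bin ?_ ?_ ?_ ?_ ?_ <;>
      simp only [Ne, Units.ext_iff, Units.val_mul, Units.val_pow_eq_pow_val, hA, hB] <;> decide
  refine ⟨hc, @H24.reg_of_det _ ⟨by norm_num⟩ _ hc ?_⟩
  rintro _ (rfl | rfl) <;> simp only [hA, hB, Matrix.det_fin_two_of] <;> decide

end Cfsg.Agent.S0692
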