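import Cfsg.Statements.S0693
import Cfsg.Agent.H24.RegGL2

set_option autoImplicit false
open Cfsg

namespace Cfsg.Agent.S0693


/-- An exceptional sharply doubly transitive group of degree 59^2: the listed matrices generate a subgroup of GL(2,59) of order 3480 acting regularly on the non-zero vectors. -/
theorem result (A : Matrix.GeneralLinearGroup (Fin 2) (ZMod 59)) (B : Matrix.GeneralLinearGroup (Fin 2) (ZMod 59)) (C : Matrix.GeneralLinearGroup (Fin 2) (ZMod 59)) (hA : (A : Matrix (Fin 2) (Fin 2) (ZMod 59)) = !![0, -1; 1, 0]) (hB : (B : Matrix (Fin 2) (Fin 2) (ZMod 59)) = !![9, 15; -10, -10]) (hC : (C : Matrix (Fin 2) (Fin 2) (ZMod 59)) = !![4, 0; 0, 4]) : Nat.card (Subgroup.closure ({A, B, C} : Set (Matrix.GeneralLinearGroup (Fin 2) (ZMod 59)))) = 3480 ∧ ∀ v w : Fin 2 → ZMod 59, v ≠ 0 → w ≠ 0 → ∃! h : Subgroup.closure ({A, B, C} : Set (Matrix.GeneralLinearGroup (Fin 2) (ZMod 59))), Matrix.mulVec ((h : Matrix.GeneralLinearGroup (Fin 2) (ZMod 59)) : Matrix (Fin 2) (Fin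 2) (ZMod 59)) v = w := by
  have hS : Nat.card (Subgroup.closure {A, B}) = 120 := by
    refine H24.card_bin ?_ ?_ ?_ ?_ ?_ <;>
      simp only [Ne, Units.ext_iff, Units.val_mul, Units.val_pow_eq_pow_val, hA, hB] <;> decide +kernel
  have hC' : C.1 = Matrix.scalar (Fin 2) 4 := by rw [hC]; decide
  have hz : C ∈ Subgroup.center _ := Subgroup.mem_center_iff.2 fun g => Units.ext (by
    rw [Units.val_mul, Units.val_mul, hC']
    exact (Matrix.scalar_commute _ (fun _ => Commute.all _ _) _).eq.symm)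
  haveI : Fact (Nat.Prime 29) := ⟨by norm_num⟩
  have ho : orderOf C = 29 := orderOf_eq_prime (Units.ext (by
    rw [Units.val_pow_eq_pow_val, hC', ← map_pow]; decide +kernel)) fun h => by
      rw [h] at hC; revert hC; decide
  haveI : (Subgroup.zpowers C).Normal := ⟨fun n hn g => by
    rwa [Subgroup.mem_center_iff.1 (Subgroup.zpowers_le.2 hz hn) g, mul_inv_cancel_right]⟩
  have he : Subgroup.closure {A, B, C} = Subgroup.closure {A, B} ⊔ Subgroup.zpowers C := by
    rw [Subgroup.zpowers_eq_closure, ← Subgroup.closure_union]; congr 1; ext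
    simp only [Set.mem_insert_iff, Set.mem_union, or_assoc, Set.mem_singleton_iff]
  have hc : Nat.card (Subgroup.closure {A, B, C}) = 3480 := by
    have := H4.card_sup_mul_card_inf (Subgroup.closure {A, B}) (Subgroup.zpowers C)
    rwa [Subgroup.inf_eq_bot_of_coprime (by rw [hS, Nat.card_zpowers, ho]; norm_num), hS,
      Nat.card_zpowers, ho, Subgroup.card_bot, mul_one, ← he] at this
  refine ⟨hc, @H24.reg_of _ ⟨by norm_num⟩ _ hc fun g hg v hv h => ?_⟩
  have fix : ∀ n, (g ^ n).1.mulVec v = v := fun n => by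
    induction n with
    | zero => simp
    | succ n ih => rw [pow_succ, Units.val_mul, ← Matrix.mulVec_mulVec, h, ih]
  have h1 : g ^ 29 = 1 := @H24.eq_one_of_det _ ⟨by norm_num⟩ _ hc _ (pow_mem hg 29) (by
    refine (Subgroup.closure_le ((powMonoidHom 29).comp Matrix.GeneralLinearGroup.det).ker).2 ?_ hg
      |> fun h => by simpa using h
    rintro _ (rfl | rfl | rfl) <;> refine Units.ext ?_ <;>
      simp only [MonoidHom.comp_apply, powMonoidHom_apply, Units.val_pow_eq_pow_val,
        Matrix.GeneralLinearGroup.val_det_apply, hA, hB, hC, Matrix.det_fin_two_of] <;>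
      decide +kernel) _ hv (fix 29)
  have h2 : g ^ 120 = 1 := by
    rw [he, ← SetLike.mem_coe, Subgroup.mul_normal] at hg
    obtain ⟨s, hs, _, ⟨k, rfl⟩, rfl⟩ := hg
    have h2 := fix 120
    rw [Commute.mul_pow (Subgroup.mem_center_iff.1 (zpow_mem hz k) s),
      orderOf_dvd_iff_pow_eq_one.1 (hS ▸ Subgroup.orderOf_dvd_natCard _ hs), one_mul] at h2 ⊢
    obtain ⟨n, hn⟩ := (mem_powers_iff_mem_zpowers.2 (pow_mem (Subgroup.zpow_mem_zpowers C k) 120))
    simp only at hn
    rw [← hn] at h2 ⊢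
    rw [Units.val_pow_eq_pow_val, hC', ← map_pow, Matrix.scalar_apply, ← Matrix.smul_one_eq_diagonal,
      Matrix.smul_mulVec, Matrix.one_mulVec] at h2
    have h3 : (4 : ZMod 59) ^ n = 1 :=
      haveI : Fact (Nat.Prime 59) := ⟨by norm_num⟩
      smul_left_injective _ hv (h2.trans (one_smul _ v).symm)
    refine Units.ext ?_
    rw [Units.val_pow_eq_pow_val, hC', ← map_pow,
      h3, map_one, Units.val_one]
  exact orderOf_eq_one_iff.1 (Nat.eq_one_of_dvd_coprimes (by norm_num : Nat.Coprime 29 120)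
    (orderOf_dvd_of_pow_eq_one h1) (orderOf_dvd_of_pow_eq_one h2))

end Cfsg.Agent.S0693
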