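import Cfsg.Statements.S0694
import Cfsg.Agent.H24.Zsig

set_option autoImplicit false
open Cfsg

namespace Cfsg.Agent.S0694

theorem modEq_iff {q n i : ℕ} (hq : 2 ≤ q) :
    q ^ i ≡ 1 [MOD n * (q - 1)] ↔ n ∣ ∑ k ∈ Finset.range i, q ^ k := by
  have h : q ^ i - 1 = (∑ k ∈ Finset.range i, q ^ k) * (q - 1) := by
    rw [Nat.geomSum_eq hq, Nat.div_mul_cancel (by simpa using Nat.sub_dvd_pow_sub_pow q 1 i)]
  rw [Nat.ModEq.comm, Nat.modEq_iff_dvd' (Nat.one_le_pow _ _ (by omega)), h,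
    Nat.mul_dvd_mul_iff_right (by omega)]

theorem pow_dvd_iff {q r i k : ℕ} (hq : 2 ≤ q) (hr : r.Prime) (h : r ∣ q - 1)
    (h2 : r = 2 → 4 ∣ q - 1 ∨ k ≤ 1) : r ^ k ∣ ∑ k ∈ Finset.range i, q ^ k ↔ r ^ k ∣ i := by
  have h1 : ¬ r ∣ q := fun h1 => hr.one_lt.ne' (Nat.dvd_one.1 (by
    simpa [Nat.sub_sub_self (show 1 ≤ q by omega)] using Nat.dvd_sub h1 h))
  have e : q ^ i - 1 ^ i = (q - 1) * (∑ k ∈ Finset.range i, q ^ k) := by
    rw [one_pow, Nat.geomSum_eq hq, Nat.mul_div_cancel' (by simpa using Nat.sub_dvd_pow_sub_pow q 1 i)]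
  have key : emultiplicity r (q ^ i - 1 ^ i) = emultiplicity r (q - 1) + emultiplicity r i →
      (r ^ k ∣ ∑ k ∈ Finset.range i, q ^ k ↔ r ^ k ∣ i) := fun h3 => by
    rw [e, emultiplicity_mul hr.prime] at h3
    replace h3 := WithTop.add_left_cancel (finiteMultiplicity_iff_emultiplicity_ne_top.1
      (Nat.finiteMultiplicity_iff.2 ⟨hr.ne_one, by omega⟩)) h3
    rw [pow_dvd_iff_le_emultiplicity, pow_dvd_iff_le_emultiplicity, h3]
  rcases hr.eq_two_or_odd' with rfl | h3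
  · rcases h2 rfl with h3 | h3
    · refine key ?_
      have := Int.two_pow_sub_pow' (x := q) (y := 1) i
        (by omega)
        (by exact_mod_cast h1)
      rw [← Int.natCast_emultiplicity, ← Int.natCast_emultiplicity, ← Int.natCast_emultiplicity 2 i,
        Nat.cast_sub (Nat.pow_le_pow_left (by omega) i), Nat.cast_sub (by omega)]
      exact_mod_cast this
    · obtain rfl | rfl : k = 0 ∨ k = 1 := by omega
      · simp
      rw [pow_one, ← ZMod.natCast_eq_zero_iff, ← ZMod.natCast_eq_zero_iff, Nat.cast_sum]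
      simp [(ZMod.natCast_eq_one_iff_odd).2 (Nat.odd_iff.2 (by omega : q % 2 = 1))]
  · exact key (Nat.emultiplicity_pow_sub_pow hr h3 h h1 i)

/-- The Dickson pair condition: for a prime power `q` and `n > 1`, (every prime factor of `n` divides `q - 1`, and `4 ∣ n → 4 ∣ q - 1`) holds exactly when `q ^ n ≡ 1` modulo `n * (q - 1)` but `q ^ i` is not, for `0 < i < n`. -/
theorem result (q n : ℕ) (hq : IsPrimePow q) (hn : 1 < n) : ((∀ r : ℕ, r.Prime → r ∣ n → r ∣ q - 1) ∧ (4 ∣ n → 4 ∣ q - 1)) ↔ (q ^ n ≡ 1 [MOD n * (q - 1)] ∧ ∀ i : ℕ, 0 < i → i < n → ¬ q ^ i ≡ 1 [MOD n * (q - 1)]) := by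
  have hq2 := hq.two_le
  simp only [modEq_iff hq2]
  constructor
  · rintro ⟨h1, h2⟩
    have key : ∀ i, n ∣ ∑ k ∈ Finset.range i, q ^ k ↔ n ∣ i := fun i => by
      simp only [Nat.dvd_iff_prime_pow_dvd_dvd _ n]
      refine forall₃_congr fun r k hr => forall_congr' fun h => ?_
      rcases k with _ | k
      · simp
      refine pow_dvd_iff hq2 hr (h1 r hr ((dvd_pow_self r k.succ_ne_zero).trans h)) ?_
      rintro rfl
      exact or_iff_not_imp_right.2 fun h3 => h2 ((pow_dvd_pow 2 (show 2 ≤ _ by omega)).trans h)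
    exact ⟨(key n).2 dvd_rfl, fun i h3 h4 h5 => (Nat.le_of_dvd h3 ((key i).1 h5)).not_gt h4⟩
  rintro ⟨h1, h2⟩
  haveI : NeZero n := ⟨by omega⟩
  let f : ℕ → ZMod n := fun i => ∑ k ∈ Finset.range i, (q : ZMod n) ^ k
  have f0 : ∀ i, f i = 0 ↔ n ∣ ∑ k ∈ Finset.range i, q ^ k := fun i => by
    simp [f, ← ZMod.natCast_eq_zero_iff]
  have f1 : ∀ i, f i * (q - 1) = q ^ i - 1 := fun i => geom_sum_mul _ i
  have hu : (q : ZMod n) ^ n = 1 := by rw [← sub_eq_zero, ← f1, (f0 n).2 h1, zero_mul]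
  have f2 : ∀ i j, i < j → j < n → f i ≠ f j := fun i j h3 h4 h5 => by
    obtain ⟨j, rfl⟩ := Nat.exists_eq_add_of_le h3.le
    refine h2 j (by omega) (by omega) ((f0 j).1 ?_)
    simp only [f, Finset.sum_range_add, left_eq_add, pow_add, ← Finset.mul_sum] at h5
    exact ((IsUnit.of_pow_eq_one hu (by omega)).pow i).mul_right_eq_zero.1 h5
  have hs : ∀ x, ∃ i, f i = x := fun x => by
    obtain ⟨i, hi⟩ := ((Fintype.bijective_iff_injective_and_card fun i : Fin n => f i).2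
      ⟨fun i j e => le_antisymm (not_lt.1 fun h => f2 _ _ h i.2 e.symm)
        (not_lt.1 fun h => f2 _ _ h j.2 e), by simp⟩).2 x
    exact ⟨i, hi⟩
  have h3 : ∀ r : ℕ, r.Prime → r ∣ n → r ∣ q - 1 := fun r hr h => by
    haveI := Fact.mk hr
    by_contra h3
    rw [← ZMod.natCast_eq_zero_iff, Nat.cast_pred (by omega)] at h3
    obtain ⟨x, hx⟩ := ZMod.castHom_surjective h (-((q : ZMod r) - 1)⁻¹)
    obtain ⟨i, rfl⟩ := hs x
    have h4 := congrArg (ZMod.castHom h (ZMod r)) (f1 i)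
    have h5 := congrArg (ZMod.castHom h (ZMod r)) hu
    simp only [map_mul, map_sub, map_pow, map_natCast, map_one, hx, neg_mul,
      inv_mul_cancel₀ h3] at h4 h5
    rw [eq_zero_of_pow_eq_zero (by linear_combination -h4 : (q : ZMod r) ^ i = 0),
      zero_pow (by omega)] at h5
    exact zero_ne_one h5
  refine ⟨h3, fun h => by_contra fun h4 => ?_⟩
  have h5 := h3 2 Nat.prime_two ((by norm_num : 2 ∣ 4).trans h)
  have h6 : (q : ZMod 4) = 3 := (ZMod.natCast_eq_natCast_iff' q 3 4).2 (by omega)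
  have h7 : ∀ i, ZMod.castHom h (ZMod 4) (f i) = 0 ∨ ZMod.castHom h (ZMod 4) (f i) = 1 := fun i => by
    induction i with
    | zero => simp [f]
    | succ i ih =>
      rw [show f (i + 1) = q * f i + 1 from geom_sum_succ, map_add, map_mul, map_natCast, h6, map_one]
      rcases ih with ih | ih <;> rw [ih] <;> decide
  obtain ⟨i, hi⟩ := hs 2
  have := h7 i
  rw [hi, map_ofNat] at this
  revert this; decide

end Cfsg.Agent.S0694
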