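import Cfsg.Statements.S0701
import Mathlib
import Cfsg.Agent.H17.Cent

set_option autoImplicit false
open Cfsg

namespace Cfsg.Agent.S0701

/-- The centraliser in the full symmetric group of a transitive permutation group `G` is semiregular, and it is transitive if and only if `G` is regular. -/
theorem result {α : Type*} (G : Subgroup (Equiv.Perm α)) [MulAction.IsPretransitive G α] : (∀ c ∈ Subgroup.centralizer (G : Set (Equiv.Perm α)), ∀ a : α, c a = a → c = 1) ∧ (MulAction.IsPretransitive (Subgroup.centralizer (G : Set (Equiv.Perm α))) α ↔ ∀ a : α, MulAction.stabilizer G a = ⊥) := by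
  refine ⟨fun c hc a ha => ?_, fun h a => ?_, fun h => ⟨fun a b => ?_⟩⟩
  · ext x
    exact H17.comm_fix_eq (G := G) c (H17.mem_cent_iff.mp hc) ha x
  · rw [eq_bot_iff]
    intro g hg
    rw [Subgroup.mem_bot]
    ext x
    obtain ⟨c, rfl⟩ := h.exists_smul_eq a x
    have h1 := H17.mem_cent_iff.mp c.2 g a
    rw [MulAction.mem_stabilizer_iff.mp hg] at h1
    exact h1.symm
  · obtain ⟨c, hc, hab⟩ := H17.exists_comm_perm (G := G) (a := a) (b := b) (by rw [h a, h b])
    exact ⟨⟨c, H17.mem_cent_iff.mpr hc⟩, hab⟩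

end Cfsg.Agent.S0701
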