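import Cfsg.Statements.S0702
import Mathlib
import Cfsg.Agent.H17.Cent

set_option autoImplicit false
open Cfsg

namespace Cfsg.Agent.S0702

open MulAction

theorem stab_eq {α : Type*} (G : Subgroup (Equiv.Perm α)) (a : α) (n : G) :
    n ∈ Subgroup.normalizer ((stabilizer G a : Subgroup G) : Set G) ↔
      stabilizer G a = stabilizer G (n • a) := by
  rw [Subgroup.mem_normalizer_iff'']
  constructor
  · intro h
    ext g
    rw [h g]
    simp only [mem_stabilizer_iff, mul_smul, inv_smul_eq_iff]
  · intro h g
    conv_lhs => rw [h]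
    simp only [mem_stabilizer_iff, mul_smul, inv_smul_eq_iff]

/-- For a transitive permutation group `G` on a finite set, the centraliser of `G` in the symmetric group is isomorphic to `N_G(G_ω)/G_ω`, and its orbit of `ω` is the set of fixed points of `G_ω`. -/
theorem result {α : Type*} [Finite α] (G : Subgroup (Equiv.Perm α)) [MulAction.IsPretransitive G α] (a : α) : Nonempty (Subgroup.centralizer (G : Set (Equiv.Perm α)) ≃* Subgroup.normalizer ((MulAction.stabilizer G a : Subgroup G) : Set G) ⧸ (MulAction.stabilizer G a).subgroupOf (Subgroup.normalizer ((MulAction.stabilizer G a : Subgroup G) : Set G))) ∧ MulAction.orbit (Subgroup.centralizer (G : Set (Equiv.Perm α))) a = MulAction.fixedPoints (MulAction.stabilizer G a) α := by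
  have hex : ∀ n : Subgroup.normalizer ((stabilizer G a : Subgroup G) : Set G),
      ∃ c : Subgroup.centralizer (G : Set (Equiv.Perm α)), (c : Equiv.Perm α) a = (n : G)⁻¹ • a := by
    intro n
    obtain ⟨c, hc, hca⟩ := H17.exists_comm_perm ((stab_eq G a _).mp (inv_mem n.2))
    exact ⟨⟨c, H17.mem_cent_iff.mpr hc⟩, hca⟩
  choose f hf using hex
  have ext : ∀ c d : Subgroup.centralizer (G : Set (Equiv.Perm α)),
      (c : Equiv.Perm α) a = (d : Equiv.Perm α) a → c = d := by
    intro c d h
    ext x
    exact H17.comm_ext (G := G) _ _ (H17.mem_cent_iff.mp c.2) (H17.mem_cent_iff.mp d.2) h x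
  let φ : Subgroup.normalizer ((stabilizer G a : Subgroup G) : Set G) →*
      Subgroup.centralizer (G : Set (Equiv.Perm α)) := MonoidHom.mk' f (by
    intro m n
    apply ext
    rw [hf]
    simp only [Subgroup.coe_mul, mul_inv_rev, Equiv.Perm.coe_mul, Function.comp_apply]
    rw [hf, H17.mem_cent_iff.mp (f m).2, hf, mul_smul])
  have hsurj : Function.Surjective φ := by
    intro c
    obtain ⟨n, hn⟩ := exists_smul_eq G a ((c : Equiv.Perm α) a)
    have hn' : n ∈ Subgroup.normalizer ((stabilizer G a : Subgroup G) : Set G) := by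
      rw [stab_eq, hn]
      ext g
      simp only [mem_stabilizer_iff]
      rw [← H17.mem_cent_iff.mp c.2]
      exact (Equiv.apply_eq_iff_eq _).symm
    refine ⟨⟨n⁻¹, inv_mem hn'⟩, ext _ _ ?_⟩
    change (f _ : Equiv.Perm α) a = _
    rw [hf]
    simpa using hn
  have hker : φ.ker = (stabilizer G a).subgroupOf _ := by
    ext n
    rw [MonoidHom.mem_ker, Subgroup.mem_subgroupOf, mem_stabilizer_iff]
    constructor
    · intro h
      have := hf n
      change (φ n : Equiv.Perm α) a = _ at this
      rw [h] at this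
      rw [eq_comm, inv_smul_eq_iff] at this
      exact this.symm
    · intro h
      apply ext
      change (f _ : Equiv.Perm α) a = _
      rw [hf, inv_smul_eq_iff]
      exact h.symm
  refine ⟨⟨((QuotientGroup.quotientMulEquivOfEq hker.symm).trans
    (QuotientGroup.quotientKerEquivOfSurjective φ hsurj)).symm⟩, ?_⟩
  ext b
  constructor
  · rintro ⟨c, rfl⟩ g
    have h1 := H17.mem_cent_iff.mp c.2 (g : G) a
    rw [mem_stabilizer_iff.mp g.2] at h1
    exact h1.symm
  · intro hb
    have hle : stabilizer G a ≤ stabilizer G b := fun g hg => hb ⟨g, hg⟩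
    obtain ⟨c, hc, hca⟩ := H17.exists_comm_perm (H17.stabilizer_eq_of_le hle)
    exact ⟨⟨c, H17.mem_cent_iff.mpr hc⟩, hca⟩

end Cfsg.Agent.S0702
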