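import Cfsg.Statements.S0703
import Mathlib
import Cfsg.Agent.H17.Cent

set_option autoImplicit false
open Cfsg

namespace Cfsg.Agent.S0703

open MulAction

/-- An abelian transitive minimal normal subgroup `M` of a permutation group on a finite set is self-centralising in the symmetric group, regular, elementary abelian, and is the unique minimal normal subgroup. -/
theorem result {α : Type*} [Finite α] (G : Subgroup (Equiv.Perm α)) (M : Subgroup G) [M.Normal] (hM : M ≠ ⊥) (hmin : ∀ L : Subgroup G, L.Normal → L ≤ M → L = ⊥ ∨ L = M) (hab : IsMulCommutative M) (htrans : MulAction.IsPretransitive M α) : Subgroup.centralizer ((M.map G.subtype : Subgroup (Equiv.Perm α)) : Set (Equiv.Perm α)) = M.map G.subtype ∧ (∀ a : α, MulAction.stabilizer M a = ⊥) ∧ (∃ p : ℕ, p.Prime ∧ ∀ m ∈ M, m ^ p = 1) ∧ ∀ L : Subgroup G, L.Normal → L ≠ ⊥ → (∀ L' : Subgroup G, L'.Normal → L' ≤ L → L' = ⊥ ∨ L' = L) → L = M := by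
  have hcomm : ∀ m ∈ M, ∀ n ∈ M, m * n = n * m := fun m hm n hn =>
    congrArg Subtype.val (hab.is_comm.comm (⟨m, hm⟩ : M) ⟨n, hn⟩)
  have hreg : ∀ a : α, MulAction.stabilizer M a = ⊥ := by
    intro a
    rw [H17.stabilizer_sub_eq_bot_iff]
    intro m hm hma
    exact H17.semireg_of_comm M htrans m (fun n hn => hcomm n hn m hm) hma
  have hcent : Subgroup.centralizer ((M.map G.subtype : Subgroup (Equiv.Perm α)) : Set (Equiv.Perm α)) = M.map G.subtype := by
    ext c
    rw [H17.mem_cent_map_iff]
    constructor
    · intro h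
      rcases isEmpty_or_nonempty α with he | ⟨⟨a⟩⟩
      · rw [Subsingleton.elim c 1]; exact one_mem _
      obtain ⟨m, hm⟩ := htrans.exists_smul_eq a (c a)
      refine ⟨m, m.2, ?_⟩
      ext x
      refine H17.comm_ext (G := M) (fun x => m • x) c (fun g x => ?_) h hm x
      simp only [← mul_smul]
      rw [hab.is_comm.comm]
    · rintro ⟨m, hm, rfl⟩ g x
      change m • (g : G) • x = (g : G) • m • x
      rw [← mul_smul, ← mul_smul, hcomm m hm g g.2]
  refine ⟨hcent, hreg, ?_, ?_⟩
  · exact H17.min_normal_comm_pow M hM hmin hcomm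
  · intro L hL hL1 hLmin
    by_contra hne
    have hinf : L ⊓ M = ⊥ := by
      rcases hmin (L ⊓ M) inferInstance inf_le_right with h | h
      · exact h
      · rcases hLmin M inferInstance (h ▸ inf_le_left) with h' | h'
        · exact absurd h' hM
        · exact absurd h'.symm hne
    apply hL1
    rw [← hinf, left_eq_inf]
    intro l hl
    have : (l : Equiv.Perm α) ∈ Subgroup.centralizer ((M.map G.subtype : Subgroup (Equiv.Perm α)) : Set (Equiv.Perm α)) := by
      rw [H17.mem_cent_map_iff]
      intro g x
      have := Subgroup.commute_of_normal_of_disjoint L M hL inferInstance (disjoint_iff.mpr hinf) l g hl g.2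
      change l • (g : G) • x = (g : G) • l • x
      rw [← mul_smul, ← mul_smul, this.eq]
    rw [hcent] at this
    obtain ⟨m, hm, e⟩ := this
    have : m = l := Subtype.ext e
    exact this ▸ hm

end Cfsg.Agent.S0703
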