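import Cfsg.Statements.S0704
import Mathlib
import Cfsg.Agent.H17.Cent

set_option autoImplicit false
open Cfsg

namespace Cfsg.Agent.S0704

open MulAction

theorem aux {α : Type*} (G : Subgroup (Equiv.Perm α)) (M N : Subgroup G)
    (hMt : IsPretransitive M α) (hNt : IsPretransitive N α)
    (hc : ∀ m ∈ M, ∀ n ∈ N, m * n = n * m) :
    Subgroup.centralizer ((M.map G.subtype : Subgroup (Equiv.Perm α)) : Set (Equiv.Perm α)) = N.map G.subtype := by
  ext c
  rw [H17.mem_cent_map_iff]
  constructor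
  · intro h
    rcases isEmpty_or_nonempty α with he | ⟨⟨a⟩⟩
    · rw [Subsingleton.elim c 1]; exact one_mem _
    obtain ⟨m, hm⟩ := hNt.exists_smul_eq a (c a)
    refine ⟨m, m.2, ?_⟩
    ext x
    refine H17.comm_ext (G := M) (fun x => m • x) c (fun g x => ?_) h hm x
    change (m : G) • (g : G) • x = (g : G) • (m : G) • x
    rw [← mul_smul, ← mul_smul, hc g g.2 m m.2]
  · rintro ⟨m, hm, rfl⟩ g x
    change m • (g : G) • x = (g : G) • m • x
    rw [← mul_smul, ← mul_smul, hc g g.2 m hm]

theorem disj {G : Type*} [Group G] (M N : Subgroup G) [M.Normal] [N.Normal] (hN : N ≠ ⊥)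
    (hMmin : ∀ L : Subgroup G, L.Normal → L ≤ M → L = ⊥ ∨ L = M)
    (hNmin : ∀ L : Subgroup G, L.Normal → L ≤ N → L = ⊥ ∨ L = N) (hMN : M ≠ N) :
    Disjoint M N := by
  rw [disjoint_iff]
  rcases hNmin (M ⊓ N) inferInstance inf_le_right with h | h
  · exact h
  · rcases hMmin N inferInstance (h ▸ inf_le_left) with h' | h'
    · exact absurd h' hN
    · exact absurd h'.symm hMN

/-- Two distinct transitive minimal normal subgroups `M`, `N` of a permutation group are regular, non-abelian, isomorphic, each other's centraliser in the symmetric group, and the only minimal normal subgroups. -/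
theorem result {α : Type*} (G : Subgroup (Equiv.Perm α)) (M N : Subgroup G) [M.Normal] [N.Normal] (hM : M ≠ ⊥) (hN : N ≠ ⊥) (hMmin : ∀ L : Subgroup G, L.Normal → L ≤ M → L = ⊥ ∨ L = M) (hNmin : ∀ L : Subgroup G, L.Normal → L ≤ N → L = ⊥ ∨ L = N) (hMN : M ≠ N) (hMt : MulAction.IsPretransitive M α) (hNt : MulAction.IsPretransitive N α) : (∀ a : α, MulAction.stabilizer M a = ⊥) ∧ (∀ a : α, MulAction.stabilizer N a = ⊥) ∧ ¬ IsMulCommutative M ∧ Nonempty (M ≃* N) ∧ Subgroup.centralizer ((M.map G.subtype : Subgroup (Equiv.Perm α)) : Set (Equiv.Perm α)) = N.map G.subtype ∧ Subgroup.centralizer ((N.map G.subtype : Subgroup (Equiv.Perm α)) : Set (Equiv.Perm α)) = M.map G.subtype ∧ ∀ L : Subgroup G, L.Normal → L ≠ ⊥ → (∀ L' : Subgroup G, L'.Normal → L' ≤ L → L' = ⊥ ∨ L' = L) → L = M ∨ L = N := by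
  have hd := disj M N hN hMmin hNmin hMN
  have hc : ∀ m ∈ M, ∀ n ∈ N, m * n = n * m := fun m hm n hn =>
    (Subgroup.commute_of_normal_of_disjoint M N inferInstance inferInstance hd m n hm hn).eq
  have hc' : ∀ n ∈ N, ∀ m ∈ M, n * m = m * n := fun n hn m hm => (hc m hm n hn).symm
  have hMreg : ∀ a : α, ∀ m ∈ M, m • a = a → m = 1 := fun a m hm hma =>
    H17.semireg_of_comm N hNt m (fun n hn => hc' n hn m hm) hma
  have hNreg : ∀ a : α, ∀ m ∈ N, m • a = a → m = 1 := fun a m hm hma =>
    H17.semireg_of_comm M hMt m (fun n hn => hc n hn m hm) hma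
  have h1 := aux G M N hMt hNt hc
  have h2 := aux G N M hNt hMt hc'
  have hinj := Subgroup.map_injective (f := G.subtype) G.subtype_injective
  refine ⟨fun a => (H17.stabilizer_sub_eq_bot_iff M a).mpr (hMreg a),
    fun a => (H17.stabilizer_sub_eq_bot_iff N a).mpr (hNreg a), ?_, ?_, h1, h2, ?_⟩
  · intro hab
    have := aux G M M hMt hMt (fun m hm n hn =>
      congrArg Subtype.val (hab.is_comm.comm (⟨m, hm⟩ : M) ⟨n, hn⟩))
    exact hMN (hinj (this.symm.trans h1))
  · rcases isEmpty_or_nonempty α with he | ⟨⟨a⟩⟩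
    · exact absurd (Subsingleton.elim _ _) hMN
    have hex : ∀ m : M, ∃ n : N, (n : G)⁻¹ • a = (m : G) • a := by
      intro m
      obtain ⟨n, hn⟩ := hNt.exists_smul_eq a ((m : G) • a)
      exact ⟨n⁻¹, by simpa [Subgroup.smul_def] using hn⟩
    choose f hf using hex
    have ext : ∀ n n' : N, (n : G)⁻¹ • a = (n' : G)⁻¹ • a → n = n' := by
      intro n n' h
      have := hNreg a ((n' : G) * (n : G)⁻¹) (mul_mem n'.2 (inv_mem n.2)) (by rw [mul_smul, h, smul_inv_smul])
      exact Subtype.ext (mul_inv_eq_one.mp this).symm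
    let φ : M →* N := MonoidHom.mk' f (by
      intro m m'
      apply ext
      rw [hf]
      simp only [Subgroup.coe_mul, mul_inv_rev, mul_smul]
      rw [hf, ← mul_smul ((f m' : G)⁻¹), hc' _ (inv_mem (f m').2) _ m.2, mul_smul, hf])
    refine ⟨MulEquiv.ofBijective φ ⟨?_, ?_⟩⟩
    · intro m m' h
      have h3 := hf m
      have h4 := hf m'
      change f m = f m' at h
      rw [h, h4] at h3
      have := hMreg a ((m : G)⁻¹ * m') (mul_mem (inv_mem m.2) m'.2) (by rw [mul_smul, h3, inv_smul_smul])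
      exact Subtype.ext (inv_mul_eq_one.mp this)
    · intro n
      obtain ⟨m, hm⟩ := hMt.exists_smul_eq a ((n : G)⁻¹ • a)
      refine ⟨m, ext _ _ ?_⟩
      change (f m : G)⁻¹ • a = _
      rw [hf, ← hm]; rfl
  · intro L hL hL1 hLmin
    by_contra hne
    push Not at hne
    have hd1 := disj L M hM hLmin hMmin hne.1
    have hd2 := disj L N hN hLmin hNmin hne.2
    apply hL1
    rw [← hd2.eq_bot, left_eq_inf]
    intro l hl
    have : (l : Equiv.Perm α) ∈ Subgroup.centralizer ((M.map G.subtype : Subgroup (Equiv.Perm α)) : Set (Equiv.Perm α)) := by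
      rw [H17.mem_cent_map_iff]
      intro g x
      have := Subgroup.commute_of_normal_of_disjoint L M hL inferInstance hd1 l g hl g.2
      change l • (g : G) • x = (g : G) • l • x
      rw [← mul_smul, ← mul_smul, this.eq]
    rw [h1] at this
    obtain ⟨m, hm, e⟩ := this
    have : m = l := Subtype.ext e
    exact this ▸ hm

end Cfsg.Agent.S0704
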