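import Cfsg.Statements.S0705
import Mathlib
import Cfsg.Agent.H17.Gleason

set_option autoImplicit false
open scoped Pointwise
open Cfsg

namespace Cfsg.Agent.S0705

open MulAction
open scoped Pointwise

theorem aux {α : Type*} [Fintype α] [DecidableEq α] (G : Subgroup (Equiv.Perm α)) {k : ℕ}
    (hgen : ∀ s : Finset α, s.card = k + 1 → ∀ σ : Equiv.Perm ↥s, ∃ g ∈ G, ∀ x : ↥s, g (x : α) = σ x)
    (s : Finset α) (hs : s.card = k + 1) (τ : Equiv.Perm α) (hτ : ∀ x ∈ s, τ x ∈ s) :
    ∃ g ∈ G, ∀ x ∈ s, g x = τ x := by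
  obtain ⟨g, hg, h⟩ := hgen s hs (τ.subtypePermOfFintype (p := fun x => x ∈ s) hτ)
  exact ⟨g, hg, fun x hx => h ⟨x, hx⟩⟩

/-- A generously `k`-transitive permutation group (every `(k+1)`-subset has its full symmetric group induced by the setwise stabiliser) of degree greater than `k` is `k`-transitive, and for a `k`-subset the setwise and pointwise stabilisers have the same orbits outside it. -/
theorem result {α : Type*} [Fintype α] [DecidableEq α] (G : Subgroup (Equiv.Perm α)) {k : ℕ} (hk : k < Fintype.card α) (hgen : ∀ s : Finset α, s.card = k + 1 → ∀ σ : Equiv.Perm ↥s, ∃ g ∈ G, ∀ x : ↥s, g (x : α) = σ x) : MulAction.IsMultiplyPretransitive G α k ∧ ∀ s : Finset α, s.card = k → ∀ a b : α, a ∉ s → b ∉ s → (∃ g ∈ G, g • s = s ∧ g a = b) → ∃ g ∈ G, (∀ x ∈ s, g x = x) ∧ g a = b := by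
  constructor
  · rcases k with _ | k
    · exact is_zero_pretransitive'
    apply H17.mt_of_fix_trans (by simpa using hk)
    intro s hs a b ha hb
    rcases eq_or_ne a b with rfl | hab
    · exact ⟨1, fun x _ => one_smul _ _, one_smul _ _⟩
    obtain ⟨g, hg, h⟩ := aux G hgen (insert a (insert b s)) (by
      rw [Finset.card_insert_of_notMem (by simp [ha, hab]), Finset.card_insert_of_notMem hb, hs])
      (Equiv.swap a b) (by
        intro x hx
        rw [Equiv.swap_apply_def]
        split_ifs <;> simp_all)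
    refine ⟨⟨g, hg⟩, fun x hx => ?_, ?_⟩
    · change g x = x
      rw [h x (by simp [hx]), Equiv.swap_apply_of_ne_of_ne (by rintro rfl; exact ha hx) (by rintro rfl; exact hb hx)]
    · change g a = b
      rw [h a (by simp), Equiv.swap_apply_left]
  · rintro s hs a b ha hb ⟨g, hg, hgs, hab⟩
    have hgx : ∀ x ∈ s, g x ∈ s := fun x hx => by
      have : g • x ∈ g • s := Finset.smul_mem_smul_finset hx
      rwa [hgs] at this
    have hτ : ∀ x ∈ s, (Equiv.swap b a * g) x = g x := by
      intro x hx
      rw [Equiv.Perm.mul_apply, Equiv.swap_apply_of_ne_of_ne]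
      · rintro e; exact hb (e ▸ hgx x hx)
      · rintro e; exact ha (e ▸ hgx x hx)
    have hτa : (Equiv.swap b a * g) a = a := by rw [Equiv.Perm.mul_apply, hab, Equiv.swap_apply_left]
    obtain ⟨u, hu, h⟩ := aux G hgen (insert a s) (by rw [Finset.card_insert_of_notMem ha, hs])
      (Equiv.swap b a * g) (by
        intro x hx
        rcases Finset.mem_insert.mp hx with rfl | hx
        · rw [hτa]; simp
        · rw [hτ x hx]; simp [hgx x hx])
    refine ⟨g * u⁻¹, mul_mem hg (inv_mem hu), fun x hx => ?_, ?_⟩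
    · have hx' : g⁻¹ x ∈ s := Equiv.Perm.perm_symm_on_of_perm_on_finset hgx hx
      have := h (g⁻¹ x) (Finset.mem_insert_of_mem hx')
      rw [hτ _ hx'] at this
      simp only [Equiv.Perm.coe_inv, Equiv.apply_symm_apply] at this
      rw [Equiv.Perm.mul_apply, Equiv.Perm.inv_eq_iff_eq.mpr this.symm]
      simp
    · have := h a (by simp)
      rw [hτa] at this
      rw [Equiv.Perm.mul_apply, Equiv.Perm.inv_eq_iff_eq.mpr this.symm, hab]

end Cfsg.Agent.S0705
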