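import Cfsg.Statements.S0707
import Mathlib
import Cfsg.Agent.H17.Cent

set_option autoImplicit false
open Cfsg

namespace Cfsg.Agent.S0707

/-- In a primitive permutation group, distinct points have distinct stabilisers unless the group is regular of prime degree. -/
theorem result {α : Type*} (G : Subgroup (Equiv.Perm α)) [MulAction.IsPreprimitive G α] (h : ¬ (Nat.card α).Prime ∨ ∃ a : α, MulAction.stabilizer G a ≠ ⊥) {a b : α} (hab : a ≠ b) : MulAction.stabilizer G a ≠ MulAction.stabilizer G b := by
  intro hst
  have : Nontrivial α := ⟨a, b, hab⟩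
  have hco := MulAction.IsPreprimitive.isCoatom_stabilizer_of_isPreprimitive G a
  obtain ⟨n, hn⟩ := MulAction.exists_smul_eq G a b
  -- the stabiliser is normal
  have hnorm : n ∈ Subgroup.normalizer ((MulAction.stabilizer G a : Subgroup G) : Set G) := by
    rw [Subgroup.mem_normalizer_iff]
    intro g
    conv_rhs => rw [hst, ← hn]
    simp only [MulAction.mem_stabilizer_iff, mul_smul, inv_smul_smul, smul_left_cancel_iff]
  have hlt : MulAction.stabilizer G a < Subgroup.normalizer ((MulAction.stabilizer G a : Subgroup G) : Set G) := by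
    refine lt_of_le_of_ne Subgroup.le_normalizer ?_
    intro he
    rw [← he, MulAction.mem_stabilizer_iff, hn] at hnorm
    exact hab hnorm.symm
  have hN : (MulAction.stabilizer G a).Normal := Subgroup.normalizer_eq_top_iff.mp (hco.2 _ hlt)
  have hall : ∀ x : α, MulAction.stabilizer G x = ⊥ := by
    have h0 : MulAction.stabilizer G a = ⊥ := by
      rw [eq_bot_iff]
      intro g hg
      rw [Subgroup.mem_bot]
      ext x
      obtain ⟨u, rfl⟩ := MulAction.exists_smul_eq G a x
      have := hN.conj_mem g hg u⁻¹
      rw [MulAction.mem_stabilizer_iff, inv_inv, mul_smul, mul_smul, inv_smul_eq_iff] at this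
      exact this
    intro x
    obtain ⟨u, rfl⟩ := MulAction.exists_smul_eq G a x
    rw [MulAction.stabilizer_smul_eq_stabilizer_map_conj, h0, Subgroup.map_bot]
  rcases h with h | ⟨x, hx⟩
  · apply h
    have h1 := MulAction.index_stabilizer_of_transitive G a
    rw [hall a, Subgroup.index_bot] at h1
    rw [← h1]
    have : Nontrivial G := ⟨⟨n, 1, by rintro rfl; exact hab (by simpa using hn)⟩⟩
    apply H17.prime_card_of_subgroups
    intro H
    rw [hall a] at hco
    rcases eq_or_ne H ⊥ with h | h
    · exact Or.inl h
    · exact Or.inr (hco.2 H (bot_lt_iff_ne_bot.mpr h))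
  · exact hx (hall x)

end Cfsg.Agent.S0707
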