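import Cfsg.Statements.S0712
import Mathlib
import Cfsg.Agent.H17.Basic

set_option autoImplicit false
open Cfsg

namespace Cfsg.Agent.S0712

/-- Jordan: a primitive group in which the pointwise stabiliser of a set `s` is doubly transitive on the complement of `s` (which has at least 2 points) is `(|s| + 2)`-transitive. -/
theorem result {α : Type*} [Fintype α] [DecidableEq α] (G : Subgroup (Equiv.Perm α)) (hG : MulAction.IsPreprimitive G α) (s : Set α) {m : ℕ} (hsm : s.ncard = m) (hm : m + 2 ≤ Fintype.card α) (h2 : MulAction.IsMultiplyPretransitive (fixingSubgroup G s) (SubMulAction.ofFixingSubgroup G s) 2) : MulAction.IsMultiplyPretransitive G α (m + 2) := by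
  classical
  rw [MulAction.is_two_pretransitive_iff] at h2
  have h2' : ∀ a b c d : α, a ∉ s → b ∉ s → c ∉ s → d ∉ s → a ≠ b → c ≠ d →
      ∃ g : G, (∀ x ∈ s, g • x = x) ∧ g • a = c ∧ g • b = d := by
    intro a b c d ha hb hc hd hab hcd
    obtain ⟨g, h1, h2⟩ := h2 (a := ⟨a, ha⟩) (b := ⟨b, hb⟩) (c := ⟨c, hc⟩) (d := ⟨d, hd⟩)
      (fun h => hab (congrArg Subtype.val h)) (fun h => hcd (congrArg Subtype.val h))
    exact ⟨g, fun x hx => g.2 ⟨x, hx⟩, congrArg Subtype.val h1, congrArg Subtype.val h2⟩
  have hm1 : MulAction.IsMultiplyPretransitive G α (m + 1) := by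
    rcases m with _ | m
    · exact MulAction.is_one_pretransitive_iff.mpr hG.toIsPretransitive
    · have := hG.isMultiplyPreprimitive (s := s) (n := m) hsm (by simp only [Nat.card_eq_fintype_card]; omega)
        (MulAction.isPreprimitive_of_is_two_pretransitive
          (MulAction.is_two_pretransitive_iff.mpr h2))
      exact this.isMultiplyPretransitive
  have hcard : s.toFinset.card = m := by rw [← hsm, Set.ncard_eq_toFinset_card']
  obtain ⟨c, hc⟩ : ∃ c, c ∉ s.toFinset := by
    by_contra h
    push Not at h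
    have := Finset.eq_univ_iff_forall.mpr h
    rw [this, Finset.card_univ] at hcard
    omega
  apply H17.mt_succ_of_one hm1 (insert c s.toFinset) (by rw [Finset.card_insert_of_notMem hc, hcard])
  intro a b ha hb
  simp only [Finset.mem_insert, Set.mem_toFinset, not_or] at ha hb hc
  obtain ⟨g, h1, h2, h3⟩ := h2' c a c b hc ha.2 hc hb.2 (Ne.symm ha.1) (Ne.symm hb.1)
  refine ⟨g, fun x hx => ?_, h3⟩
  simp only [Finset.mem_insert, Set.mem_toFinset] at hx
  rcases hx with rfl | hx
  · exact h2
  · exact h1 x hx

end Cfsg.Agent.S0712
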