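import Cfsg.Statements.S0714
import Mathlib
import Cfsg.Agent.H17.PermMod

set_option autoImplicit false
open Cfsg

namespace Cfsg.Agent.S0714

open MulAction Equiv

/-- Over any field, the permutation module of the alternating group of degree at least 5 has exactly four invariant subspaces: zero, the constant functions, the functions with coordinate sum zero, and everything. -/
theorem result {α : Type*} [Fintype α] [DecidableEq α] (hα : 5 ≤ Fintype.card α) {K : Type*} [Field K] (W : Subrepresentation (Cfsg.permRep K (alternatingGroup α) α)) : W.toSubmodule = ⊥ ∨ W = Cfsg.permConstants K (alternatingGroup α) α ∨ W = Cfsg.permSumZero K (alternatingGroup α) α ∨ W.toSubmodule = ⊤ := by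
  have hW : ∀ g : Perm α, g ∈ alternatingGroup α → ∀ v ∈ W.toSubmodule, (fun x => v (g x)) ∈ W.toSubmodule := by
    intro g hg v hv
    have := W.apply_mem_toSubmodule (⟨g, hg⟩ : alternatingGroup α)⁻¹ hv
    convert this using 1
    ext x
    rw [H17.permRep_apply, inv_inv]; rfl
  by_cases hc : ∀ v ∈ W.toSubmodule, ∀ a b, v a = v b
  · by_cases h0 : W.toSubmodule = ⊥
    · exact Or.inl h0
    right; left
    obtain ⟨v, hv, hv0⟩ := (Submodule.ne_bot_iff _).mp h0
    obtain ⟨a, ha⟩ := Function.ne_iff.mp hv0
    apply Subrepresentation.toSubmodule_injective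
    ext u
    rw [H17.mem_permConstants]
    constructor
    · intro hu
      exact ⟨u a, funext fun x => hc u hu x a⟩
    · rintro ⟨c, rfl⟩
      convert W.toSubmodule.smul_mem (c * (v a)⁻¹) hv using 1
      ext x
      simp only [Pi.smul_apply, smul_eq_mul, hc v hv x a]
      rw [mul_assoc, inv_mul_cancel₀ ha, mul_one]
  right; right
  push Not at hc
  obtain ⟨v, hv, a, b, hab⟩ := hc
  have hab' : a ≠ b := by rintro rfl; exact hab rfl
  obtain ⟨c, d, e, hc, hd, he, hcd, hce, hde⟩ := Finset.two_lt_card_iff.mp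
    (show 2 < ({a, b}ᶜ : Finset α).card by rw [Finset.card_compl, Finset.card_pair hab']; omega)
  simp only [Finset.mem_compl, Finset.mem_insert, Finset.mem_singleton, not_or] at hc hd he
  have h1 := W.toSubmodule.sub_mem (hW (swap a c * swap a b) (by simp [hab', Ne.symm hc.1]) v hv) hv
  have h2 := W.toSubmodule.sub_mem (hW (swap a d * swap a e) (by simp [Ne.symm hd.1, Ne.symm he.1]) _ h1) h1
  have h3 : Pi.single d (1 : K) - Pi.single a 1 ∈ W.toSubmodule := by
    convert W.toSubmodule.smul_mem (v b - v a)⁻¹ h2 using 1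
    ext x
    have := sub_ne_zero.mpr hab.symm
    rw [Pi.smul_apply, smul_eq_mul, eq_inv_mul_iff_mul_eq₀ this]
    simp only [Pi.sub_apply, Perm.mul_apply, Pi.single_apply]
    by_cases hxa : x = a
    · subst hxa
      simp [swap_apply_def, *, Ne.symm hd.1, Ne.symm hc.1, Ne.symm hde, Ne.symm hce, Ne.symm hc.2, Ne.symm hab']
    by_cases hxd : x = d
    · subst hxd
      simp [swap_apply_def, *, Ne.symm hd.1, Ne.symm hc.1, Ne.symm hcd, Ne.symm hc.2, Ne.symm hab']
    by_cases hxe : x = e
    · subst hxe
      simp [swap_apply_def, *, Ne.symm hd.1, Ne.symm hc.1, Ne.symm hcd, Ne.symm hce, Ne.symm hde]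
    simp [swap_apply_of_ne_of_ne hxa hxd, swap_apply_of_ne_of_ne hxa hxe, hxa, hxd]
  have h2t : IsMultiplyPretransitive (alternatingGroup α) α 2 :=
    H17.mt_of_le (alternatingGroup.isMultiplyPretransitive α)
      (by rw [Nat.card_eq_fintype_card]; omega) (Nat.sub_le _ _)
  have h4 : ∀ x, Pi.single x (1 : K) - Pi.single a 1 ∈ W.toSubmodule := by
    intro x
    rcases eq_or_ne x a with rfl | hx
    · simp
    obtain ⟨g, h5, h6⟩ := is_two_pretransitive_iff.mp h2t hx hd.1
    convert hW g g.2 _ h3 using 1
    ext y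
    have e1 : (g : Perm α) y = d ↔ y = x := by
      rw [← h5]; exact smul_left_cancel_iff g
    have e2 : (g : Perm α) y = a ↔ y = a := by
      conv_lhs => rw [← h6]
      exact smul_left_cancel_iff g
    simp only [Pi.sub_apply, Pi.single_apply, e1, e2]
  have h5 : ∀ u : α → K, u - (∑ x, u x) • Pi.single a 1 ∈ W.toSubmodule := by
    intro u
    convert W.toSubmodule.sum_mem (t := Finset.univ) fun x _ => W.toSubmodule.smul_mem (u x) (h4 x) using 1
    ext y
    simp [Pi.single_apply, mul_sub, Finset.sum_sub_distrib, Finset.sum_mul]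
  by_cases h6 : ∀ u ∈ W.toSubmodule, ∑ x, u x = 0
  · left
    apply Subrepresentation.toSubmodule_injective
    ext u
    rw [H17.mem_permSumZero]
    exact ⟨h6 u, fun h => by simpa [h] using h5 u⟩
  · right
    push Not at h6
    obtain ⟨u, hu, hu0⟩ := h6
    have h7 : Pi.single a (1 : K) ∈ W.toSubmodule := by
      have := W.toSubmodule.smul_mem (∑ x, u x)⁻¹ (W.toSubmodule.sub_mem hu (h5 u))
      rwa [sub_sub_cancel, smul_smul, inv_mul_cancel₀ hu0, one_smul] at this
    rw [eq_top_iff]
    intro w _
    simpa using W.toSubmodule.add_mem (h5 w) (W.toSubmodule.smul_mem (∑ x, w x) h7)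

end Cfsg.Agent.S0714
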