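import Cfsg.Statements.S0716
import Cfsg.Agent.H6.Hecke

set_option autoImplicit false
open Cfsg

namespace Cfsg.Agent.S0716
open H6 H5
open scoped Classical

/-- (a) If all non-principal irreducible constituents of the permutation character of a transitive group have the same degree `f`, the character is multiplicity-free and all non-trivial subdegrees equal `f`. (b) A transitive group of rank at most 5 has multiplicity-free permutation character. -/
theorem result {G : Type*} [Group G] [Fintype G] {Ω : Type*} [Fintype Ω] [MulAction G Ω] [MulAction.IsPretransitive G Ω] (a : Ω) : ((f : ℕ) → (∀ χ : G → ℂ, Cfsg.IsIrrCharacter G χ → χ ≠ (fun _ => 1) → Cfsg.classInner (fun g : G => (Nat.card (MulAction.fixedBy Ω g) : ℂ)) χ ≠ 0 → χ 1 = f) → (∀ χ : G → ℂ, Cfsg.IsIrrCharacter G χ → Cfsg.classInner (fun g : G => (Nat.card (MulAction.fixedBy Ω g) : ℂ)) χ = 0 ∨ Cfsg.classInner (fun g : G => (Nat.card (MulAction.fixedBy Ω g) : ℂ)) χ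 = 1) ∧ ∀ b : Ω, b ≠ a → Nat.card (MulAction.orbit (MulAction.stabilizer G a) b) = f) ∧ (Nat.card (MulAction.orbitRel.Quotient (MulAction.stabilizer G a) Ω) ≤ 5 → ∀ χ : G → ℂ, Cfsg.IsIrrCharacter G χ → Cfsg.classInner (fun g : G => (Nat.card (MulAction.fixedBy Ω g) : ℂ)) χ = 0 ∨ Cfsg.classInner (fun g : G => (Nat.card (MulAction.fixedBy Ω g) : ℂ)) χ = 1) := by
  refine ⟨fun f h => mf_of_same_deg a h, fun h χ hχ => by_contra fun c => ?_⟩
  obtain ⟨m, h1, h2, h3, -⟩ := exists_mult (G := G) a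
  have h4 : 2 ≤ m ⟨χ, hχ⟩ := by
    rw [h1 ⟨χ, hχ⟩, Nat.cast_eq_zero, Nat.cast_eq_one] at c
    omega
  have h5 : (⟨χ, hχ⟩ : IrrCharacter G) ≠ ⟨_, isIrrCharacter_one⟩ := fun e => by
    rw [e, h2] at h4; omega
  obtain ⟨n, -, e⟩ := hχ.exists_apply_one
  refine c ((mf_of_same_deg a (f := n) fun ψ b d f => by_contra fun g => ?_).1 χ hχ)
  have h6 : (⟨ψ, b⟩ : IrrCharacter G) ∈ (Finset.univ.erase ⟨_, isIrrCharacter_one⟩).erase ⟨χ, hχ⟩ :=
    Finset.mem_erase.2 ⟨fun k => g (e ▸ congrFun (congrArg Subtype.val k) 1),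
      Finset.mem_erase.2 ⟨fun k => d (congrArg Subtype.val k), Finset.mem_univ _⟩⟩
  have h7 := Finset.single_le_sum (f := fun φ => m φ ^ 2) (fun _ _ => Nat.zero_le _) h6
  have h8 : 0 < m ⟨ψ, b⟩ := Nat.pos_of_ne_zero (by rwa [h1 ⟨ψ, b⟩, Nat.cast_ne_zero] at f)
  rw [h3, sum_irr_erase, ← Finset.add_sum_erase _ _ (Finset.mem_erase.2 ⟨h5, Finset.mem_univ _⟩),
    h2] at h
  nlinarith

end Cfsg.Agent.S0716
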