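import Cfsg.Statements.S0717
import Cfsg.Agent.H6.Hecke

set_option autoImplicit false
open Cfsg

namespace Cfsg.Agent.S0717
open H6 H5
open scoped Classical

/-- All suborbits of a transitive group are self-paired (every pair of points is interchanged by some group element) if and only if the permutation character is multiplicity-free and each of its irreducible constituents is real-valued. -/
theorem result {G : Type*} [Group G] [Fintype G] {Ω : Type*} [Fintype Ω] [MulAction G Ω] [MulAction.IsPretransitive G Ω] : (∀ a b : Ω, ∃ g : G, g • a = b ∧ g • b = a) ↔ ∀ χ : G → ℂ, Cfsg.IsIrrCharacter G χ → Cfsg.classInner (fun g : G => (Nat.card (MulAction.fixedBy Ω g) : ℂ)) χ ≠ 0 → Cfsg.classInner (fun g : G => (Nat.card (MulAction.fixedBy Ω g) : ℂ)) χ = 1 ∧ ∀ g : G, (starRingEnd ℂ) (χ g) = χ g := by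
  rcases isEmpty_or_nonempty Ω with _ | ⟨⟨a⟩⟩
  · exact iff_of_true (fun a => isEmptyElim a) fun χ _ h => absurd (by simp [classInner]) h
  obtain ⟨m, h1, -, h2, h3⟩ := exists_mult (G := G) a
  have h4 : ∀ χ : IrrCharacter G, (m χ * fsInd χ.1).re ≤ (m χ : ℝ) ^ 2 ∧
      ((m χ * fsInd χ.1).re = (m χ : ℝ) ^ 2 ↔ (m χ ≠ 0 → m χ = 1 ∧ fsInd χ.1 = 1)) := fun χ => by
    rcases eq_or_ne (m χ) 0 with e | e
    · simp [e]
    have h5 : (1 : ℝ) ≤ m χ := by exact_mod_cast Nat.pos_of_ne_zero e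
    rcases χ.2.fsInd_cases with f | f | f <;> rw [f]
    · simp [e, eq_comm (a := (0 : ℝ))]
    · refine ⟨by simp; nlinarith, ?_⟩
      simp [e, sq]
    · refine ⟨by simp; nlinarith, iff_of_false (fun c => ?_) (by norm_num [e])⟩
      simp at c
      nlinarith
  have h5 : ((∑ g : G, Nat.card (MulAction.fixedBy Ω (g * g)) : ℕ) : ℂ) =
      Nat.card G * ∑ χ, m χ * fsInd χ.1 := by
    rw [Nat.cast_sum, Finset.sum_congr rfl fun g _ => congrFun h3 (g * g)]
    simp only [Finset.sum_apply, Pi.smul_apply, smul_eq_mul, fsInd_def, Finset.mul_sum]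
    rw [Finset.sum_comm]
    exact Finset.sum_congr rfl fun _ _ => Finset.sum_congr rfl fun _ _ => by
      field_simp [card_ne_zero_complex G]
  have h6 : ((∑ g : G, Nat.card (MulAction.fixedBy Ω g) ^ 2 : ℕ) : ℂ) =
      Nat.card G * ∑ χ, (m χ : ℂ) ^ 2 := by
    have := inner_pc_self (G := G) a
    rw [h2, Nat.cast_sum] at this
    simp only [Nat.cast_pow] at this
    rw [← this, card_mul_classInner]
    simp [sq, pc]
  rw [swap_iff, ← Nat.cast_inj (R := ℂ), h5, h6, mul_right_inj' (card_ne_zero_complex G)]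
  refine ⟨fun h χ c d => ?_, fun h => Finset.sum_congr rfl fun χ _ => ?_⟩
  · replace h := congrArg Complex.re h
    rw [Complex.re_sum, Complex.re_sum, Finset.sum_congr rfl (s₂ := Finset.univ)
      (f := fun χ => ((m χ : ℂ) ^ 2).re) (g := fun χ => (m χ : ℝ) ^ 2) fun χ _ => by
        norm_cast] at h
    obtain ⟨e, f⟩ := (h4 ⟨χ, c⟩).2.1 ((Finset.sum_eq_sum_iff_of_le fun χ _ => (h4 χ).1).1 h _
      (Finset.mem_univ _)) (by rwa [h1 ⟨χ, c⟩, Nat.cast_ne_zero] at d)
    refine ⟨by rw [h1 ⟨χ, c⟩, e, Nat.cast_one], fun g => Complex.conj_eq_iff_im.2 (by_contra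
      fun k => one_ne_zero (f.symm.trans (c.fsInd_of_not_real ⟨g, k⟩)))⟩
  · rcases eq_or_ne (m χ) 0 with e | e
    · simp [e]
    obtain ⟨c, d⟩ := h χ χ.2 (by rwa [h1, Nat.cast_ne_zero])
    rw [← h1, c, fsInd_of_odd χ.2 (funext d) fchar_pc (c.trans Nat.cast_one.symm) odd_one]
    simp

end Cfsg.Agent.S0717
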