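import Cfsg.Statements.S0718
import Cfsg.Agent.H6.Hecke

set_option autoImplicit false
open Cfsg

namespace Cfsg.Agent.S0718
open H6

/-- Multiplicity-freeness of the permutation character is equivalent to commutativity of the centraliser ring, i.e. of the algebra of `G`-equivariant endomorphisms of the complex permutation module. -/
theorem result {G : Type*} [Group G] [Fintype G] {Ω : Type*} [Fintype Ω] [MulAction G Ω] : (∀ χ : G → ℂ, Cfsg.IsIrrCharacter G χ → Cfsg.classInner (fun g : G => (Nat.card (MulAction.fixedBy Ω g) : ℂ)) χ = 0 ∨ Cfsg.classInner (fun g : G => (Nat.card (MulAction.fixedBy Ω g) : ℂ)) χ = 1) ↔ ∀ S T : (Ω → ℂ) →ₗ[ℂ] (Ω → ℂ), S ∈ ((Cfsg.permRep ℂ G Ω).linHom (Cfsg.permRep ℂ G Ω)).invariants → T ∈ ((Cfsg.permRep ℂ G Ω).linHom (Cfsg.permRep ℂ G Ω)).invariants → S ∘ₗ T = T ∘ₗ S := by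
  change MF (pc G Ω) ↔ _
  rw [← permRep_char]
  exact ⟨fun h S T a b => (comm_of_mf h (mem_inv_iff.1 b) (mem_inv_iff.1 a)).eq,
    fun h => mf_of_comm fun S T a b => h S T (mem_inv_iff.2 a) (mem_inv_iff.2 b)⟩

end Cfsg.Agent.S0718
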