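import Cfsg.Statements.S0719
import Cfsg.Agent.H6.Hecke

set_option autoImplicit false
open Cfsg

namespace Cfsg.Agent.S0719
open H6 H5 MulAction
open scoped Classical ComplexConjugate

theorem arith {m k r s : ℤ} (hm : 2 ≤ m) (h0 : 2 ≤ k) (h1 : k ≤ 2 * m - 3)
    (e1 : 0 = k + r * (m - 1) + s * m) (e2 : 2 * m * k = k * k + r * r * (m - 1) + s * s * m) :
    m = 2 * r ^ 2 + 2 * r + 1 ∧ k = m + r := by
  obtain ⟨t, rfl⟩ : ∃ t, s = -t - r := ⟨-s - r, by ring⟩
  obtain rfl : k = r + m * t := by linarith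
  have e : 2 * r ^ 2 + 4 * r * t - 2 * r + t ^ 2 + m * t * (t - 2) = 0 :=
    mul_left_cancel₀ (by omega : m ≠ 0) (by linear_combination -e2)
  rcases lt_trichotomy t 1 with c | rfl | c
  · rcases (show t ≤ 0 by omega).eq_or_lt with rfl | c
    · nlinarith
    · nlinarith [mul_nonneg (sub_nonneg.2 hm) (by omega : 0 ≤ -t - 1), sq_nonneg (r + t),
        mul_nonneg (sub_nonneg.2 hm) (mul_self_nonneg t)]
  · constructor <;> linarith
  · rcases (show 2 ≤ t by omega).eq_or_lt with rfl | c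
    · nlinarith
    · nlinarith [mul_nonneg (sub_nonneg.2 hm) (by omega : 0 ≤ t - 3), sq_nonneg (r + t),
        mul_nonneg (sub_nonneg.2 hm) (mul_nonneg (by omega : 0 ≤ t - 3) (by omega : 0 ≤ t))]

/-- Groups of Wielandt type: if a primitive group of degree `2m` has rank 3 and permutation character `1 + χ₁ + χ₂` with irreducible `χ₁, χ₂` of degrees `m - 1` and `m`, then `m = 2a² + 2a + 1` for some positive integer `a` and the two non-trivial subdegrees are `a(2a+1)` and `(a+1)(2a+1)`. -/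
theorem result {G : Type*} [Group G] [Fintype G] {Ω : Type*} [Fintype Ω] [MulAction G Ω] (hprim : MulAction.IsPreprimitive G Ω) {m : ℕ} (hm : Fintype.card Ω = 2 * m) (a₀ : Ω) (hrank : Nat.card (MulAction.orbitRel.Quotient (MulAction.stabilizer G a₀) Ω) = 3) (χ₁ χ₂ : G → ℂ) (h₁ : Cfsg.IsIrrCharacter G χ₁) (h₂ : Cfsg.IsIrrCharacter G χ₂) (hπ : (fun g : G => (Nat.card (MulAction.fixedBy Ω g) : ℂ)) = fun g => 1 + χ₁ g + χ₂ g) (hd₁ : χ₁ 1 = (m : ℂ) - 1) (hd₂ : χ₂ 1 = m) : ∃ a : ℕ, 0 < a ∧ m = 2 * a ^ 2 + 2 * a + 1 ∧ ∀ b : Ω, b ≠ a₀ → Nat.card (MulAction.orbit (MulAction.stabilizer G a₀) b) = a * (2 * a + 1) ∨ Nat.card (MulAction.orbit (MulAction.stabilizer G a₀) b) = (a + 1) * (2 * a + 1) := by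
  have one := isIrrCharacter_one (G := G)
  replace hπ : pc G Ω = (fun _ => 1) + χ₁ + χ₂ := hπ
  have : Nonempty Ω := ⟨a₀⟩
  have h0 := classInner_perm_one_of_pretransitive (G := G) Ω
  change classInner (pc G Ω) _ = _ at h0
  rw [hπ, classInner_add_left, classInner_add_left, classInner_one_one, inner_irr h₁ one,
    inner_irr h₂ one] at h0
  have n1 : χ₁ ≠ fun _ => 1 := fun e => by
    rw [if_pos e] at h0; split_ifs at h0 <;> norm_num at h0
  have n2 : χ₂ ≠ fun _ => 1 := fun e => by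
    rw [if_pos e, if_neg n1] at h0; norm_num at h0
  have n3 : χ₁ ≠ χ₂ := fun e => by rw [e, hd₂] at hd₁; simp [eq_sub_iff_add_eq] at hd₁
  have h1 : ∀ χ, IsIrrCharacter G χ → classInner (pc G Ω) χ =
      if χ = (fun _ => 1) ∨ χ = χ₁ ∨ χ = χ₂ then 1 else 0 := fun χ a => by
    rw [hπ, classInner_add_left, classInner_add_left, inner_irr one a, inner_irr h₁ a,
      inner_irr h₂ a]
    by_cases c : χ = fun _ => 1
    · simp [c, n1, n2]
    by_cases d : χ = χ₁
    · simp [d, n1.symm, n3.symm]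
    by_cases e : χ = χ₂ <;> simp [c, d, e, n2.symm, n3, Ne.symm c, Ne.symm d, eq_comm (b := χ)]
  have h2 : MF (Cfsg.permRep ℂ G Ω).character := fun χ a => by
    rw [permRep_char, h1 χ a]; split_ifs <;> simp
  have h3 : ∀ T, Cm (Cfsg.permRep ℂ G Ω) T → trf (Cfsg.permRep ℂ G Ω) T 1 =
      classInner (trf (Cfsg.permRep ℂ G Ω) T) (fun _ => 1) +
      classInner (trf (Cfsg.permRep ℂ G Ω) T) χ₁ * (m - 1) +
      classInner (trf (Cfsg.permRep ℂ G Ω) T) χ₂ * m := fun T hT => by
    rw [congrFun (eq_sum_irr (trf_cf hT)) 1, Finset.sum_apply, ← Finset.sum_subset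
      (Finset.subset_univ {⟨_, one⟩, ⟨_, h₁⟩, ⟨_, h₂⟩}) fun χ _ c => by
        rw [trf_inner_zero hT χ.2 (by
          rw [permRep_char, h1 _ χ.2, if_neg (by simpa [Subtype.ext_iff] using c)])]; simp,
      Finset.sum_insert (by simp [n1.symm, n2.symm]), Finset.sum_pair (by simp [n3])]
    simp [hd₁, hd₂, add_assoc]
  have h4 : ∀ χ, IsIrrCharacter G χ → (χ = χ₁ ∨ χ = χ₂) → ∀ σ : ℂ →+* ℂ,
      (fun g => σ (χ g)) = χ := fun χ a b σ => by
    have c := (irr_gen a).classInner_map_ringHom σ (pc G Ω)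
    rw [h1 χ a, if_pos (.inr b), map_one, show (fun g => σ (pc G Ω g)) = pc G Ω from
      funext fun g => map_natCast σ _, h1 _ (a.map_ringHom σ)] at c
    have d := a.isCharacter.ringHom_apply_one σ
    have n : χ₁ 1 ≠ χ₂ 1 := by rw [hd₁, hd₂]; simp [sub_eq_iff_eq_add]
    rcases of_not_not (fun e => zero_ne_one ((if_neg e).symm.trans c)) with e | e | e
    · exact absurd (funext fun g => σ.injective ((congrFun e g).trans (map_one σ).symm))
        (b.elim (· ▸ n1) (· ▸ n2))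
    · exact b.elim (e.trans ·.symm) fun f => absurd ((congrFun e 1).symm.trans (f ▸ d)) n
    · exact b.elim (fun f => absurd ((congrFun e 1).symm.trans (f ▸ d)) n.symm) (e.trans ·.symm)
  have h5 : 2 ≤ m := by
    obtain ⟨n, a, b⟩ := h₁.exists_apply_one
    rw [hd₁, sub_eq_iff_eq_add] at b
    have : m = n + 1 := by exact_mod_cast b
    omega
  have h6 : ∀ b, b ≠ a₀ → 2 ≤ Nat.card (orbit (stabilizer G a₀) b) := fun b c =>
    two_le_subdeg c (by omega)
  have h7 : ∀ b, b ≠ a₀ → Nat.card (orbit (stabilizer G a₀) b) + 3 ≤ 2 * m := fun b c => by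
    by_contra! d
    have e := rank_eq (G := G) a₀
    have e1 : (Finset.univ.erase a₀).filter (· ∈ orbit (stabilizer G a₀) b) =
        Finset.univ.filter (· ∈ orbit (stabilizer G a₀) b) := Finset.ext fun x => by
      simp only [Finset.mem_filter, Finset.mem_erase, Finset.mem_univ, and_true, true_and,
        and_iff_right_iff_imp]
      rintro ⟨g, rfl⟩ f
      exact c (MulAction.injective (g : G) (f.trans g.2.symm))
    have e2 : (Finset.univ.filter (· ∈ orbit (stabilizer G a₀) b)).card =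
        Nat.card (orbit (stabilizer G a₀) b) := by
      rw [Nat.card_eq_fintype_card, Fintype.card_subtype]
    have e3 := Finset.card_filter_add_card_filter_not (s := Finset.univ.erase a₀)
      (· ∈ orbit (stabilizer G a₀) b)
    rw [e1, e2, Finset.card_erase_of_mem (Finset.mem_univ _), Finset.card_univ, hm] at e3
    have e4 := Finset.sum_le_card_nsmul ((Finset.univ.erase a₀).filter
      (· ∉ orbit (stabilizer G a₀) b)) (fun x => (Nat.card (orbit (stabilizer G a₀) x) : ℚ)⁻¹) 2⁻¹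
      fun x f => inv_anti₀ two_pos (by
        exact_mod_cast h6 x (Finset.mem_erase.1 (Finset.mem_filter.1 f).1).1)
    rw [hrank, ← Finset.sum_filter_add_sum_filter_not _ (· ∈ orbit (stabilizer G a₀) b), e1,
      Finset.sum_congr rfl fun x f => by rw [orbit_eq_iff.2 (Finset.mem_filter.1 f).2],
      Finset.sum_const, e2, nsmul_eq_mul, mul_inv_cancel₀
        (Nat.cast_ne_zero.2 (orbit_card_pos _ b).ne')] at e
    have e5 : (((Finset.univ.erase a₀).filter (· ∉ orbit (stabilizer G a₀) b)).card : ℚ) ≤ 1 := by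
      exact_mod_cast (by omega)
    rw [nsmul_eq_mul] at e4
    push_cast at e
    linarith
  have h8 : ∀ b, b ≠ a₀ → ∃ r : ℤ, (m : ℤ) = 2 * r ^ 2 + 2 * r + 1 ∧
      (Nat.card (orbit (stabilizer G a₀) b) : ℤ) = m + r := fun b c => by
    have i := orbZ_inv (G := G) a₀ b
    obtain ⟨r, e1⟩ := i.exists_int h₁ (h4 _ h₁ (.inl rfl))
    obtain ⟨s, e2⟩ := i.exists_int h₂ (h4 _ h₂ (.inr rfl))
    have e3 := h3 _ i.cm
    have e4 := h3 _ (i.cm.mul i.tr.cm)
    rw [inner_trf_mul h2 i.tr.cm i.cm one, inner_trf_mul h2 i.tr.cm i.cm h₁,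
      inner_trf_mul h2 i.tr.cm i.cm h₂, i.inner_tr one.isCharacter, i.inner_tr h₁.isCharacter,
      i.inner_tr h₂.isCharacter, ← map_mul opM, InvZ.trf (fun g x y => by
        simp only [Matrix.mul_apply]
        exact (Fintype.sum_equiv (toPerm g) _ _ fun z => by
          rw [toPerm_apply, i g, i.tr g]).symm), Finset.sum_congr rfl fun x _ => by
        rw [one_smul, Matrix.mul_apply, Finset.sum_congr rfl fun y _ => show orbZ G a₀ b x y *
          (orbZ G a₀ b).transpose y x = _ from orbZ_sq a₀ b x y,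
          i.row x a₀]] at e4
    rw [i.trf, Finset.sum_eq_zero fun x _ => by rw [one_smul, orbZ_diag c, Int.cast_zero]] at e3
    rw [i.inner_one a₀, orbZ_row, e1, e2] at e3 e4
    simp only [map_intCast, Finset.sum_const, Finset.card_univ, hm, nsmul_eq_mul, orbZ_row] at e4
    exact ⟨r, arith (s := s) (by omega) (by exact_mod_cast h6 b c) (by have := h7 b c; omega)
      (by exact_mod_cast e3) (by exact_mod_cast e4)⟩
  have : Nontrivial Ω := Fintype.one_lt_card_iff_nontrivial.1 (by omega)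
  obtain ⟨b, hb⟩ := exists_ne a₀
  obtain ⟨r, e, -⟩ := h8 b hb
  obtain ⟨a, ha⟩ : ∃ a : ℕ, (m : ℤ) = 2 * a ^ 2 + 2 * a + 1 := by
    rcases le_or_gt 0 r with c | c
    · lift r to ℕ using c
      exact ⟨r, e⟩
    · obtain ⟨a, f⟩ := Int.eq_ofNat_of_zero_le (by omega : 0 ≤ -1 - r)
      exact ⟨a, by rw [← f, e]; ring⟩
  refine ⟨a, Nat.pos_of_ne_zero fun c => by subst c; omega, by exact_mod_cast ha, fun b c => ?_⟩
  obtain ⟨r, e1, e2⟩ := h8 b c
  rcases mul_eq_zero.1 (by nlinarith : (a + r + 1 : ℤ) * (a - r) = 0)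
    with f | f
  · exact .inl (by zify; rw [e2, ha]; linear_combination f)
  · exact .inr (by zify; rw [e2, ha]; linear_combination -f)

end Cfsg.Agent.S0719
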