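import Cfsg.Statements.S0724
import Mathlib
-- import your own Cfsg.Agent.* helpers here

set_option autoImplicit false
set_option maxHeartbeats 400000
open Cfsg

namespace Cfsg.Agent.S0724

open MulAction Polynomial

/-- Blichfeldt's Theorem: if a finite set `L` of natural numbers contains the number of fixed points of every non-identity element of a permutation group `G` of degree `n`, then the order of `G` divides `∏ (n - l)` over `l ∈ L`. -/
theorem result {α : Type*} [Fintype α] [DecidableEq α] (G : Subgroup (Equiv.Perm α)) (L : Finset ℕ) (hL : ∀ g ∈ G, g ≠ 1 → Nat.card (MulAction.fixedBy α g) ∈ L) : Nat.card G ∣ ∏ l ∈ L, (Fintype.card α - l) := by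
  classical
  by_cases h : ∃ l ∈ L, Fintype.card α < l
  · obtain ⟨l, hl, h⟩ := h
    rw [Finset.prod_eq_zero hl (by omega)]
    exact dvd_zero _
  push Not at h
  have := Fintype.ofFinite G
  have h1 : ∀ k : ℕ, (Nat.card G : ℤ) ∣ ∑ g : G, (Nat.card (fixedBy α g) : ℤ) ^ k := fun k => by
    have := Fintype.ofFinite (Quotient (orbitRel G (Fin k → α)))
    have h2 := sum_card_fixedBy_eq_card_orbits_mul_card_group G (Fin k → α)
    have h3 : ∀ g : G, Fintype.card (fixedBy (Fin k → α) g) = Nat.card (fixedBy α g) ^ k := fun g => by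
      rw [← Nat.card_eq_fintype_card]
      refine (Nat.card_congr ((Equiv.subtypeEquivRight fun x => funext_iff).trans
        (Equiv.subtypePiEquivPi (p := fun (_ : Fin k) a => g • a = a)))).trans ?_
      rw [Nat.card_pi, Finset.prod_const, Finset.card_fin]; rfl
    simp only [h3] at h2
    rw [← Nat.card_eq_fintype_card (α := G)] at h2
    exact_mod_cast Dvd.intro_left _ h2.symm
  have h2 : ∀ f : ℤ[X], (Nat.card G : ℤ) ∣ ∑ g : G, f.eval (Nat.card (fixedBy α g) : ℤ) := fun f => by
    simp only [eval_eq_sum_range]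
    rw [Finset.sum_comm]
    exact Finset.dvd_sum fun k _ => Finset.mul_sum _ _ (f.coeff k) ▸ (h1 k).mul_left _
  have h3 := h2 (∏ l ∈ L, (X - C (l : ℤ)))
  rw [Finset.sum_eq_single 1 (fun g _ hg => by
    rw [eval_prod, Finset.prod_eq_zero (hL g g.2 fun h => hg (Subtype.ext h))]
    rw [eval_sub, eval_X, eval_C, sub_eq_zero]; rfl) (by simp)] at h3
  rw [← Int.natCast_dvd_natCast, Nat.cast_prod, Finset.prod_congr rfl fun l hl => Nat.cast_sub (h l hl)]
  simpa [eval_prod] using h3

end Cfsg.Agent.S0724
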