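import Cfsg.Statements.S0726
import Mathlib
import Cfsg.Agent.H17.Cent

set_option autoImplicit false
open Cfsg

namespace Cfsg.Agent.S0726

/-- The left and right regular permutation representations of a group are each other's centralisers in the symmetric group: the centraliser of the left regular image is the right regular image, and a transitive subgroup centralising the left regular image is the whole right regular image. -/
theorem result {G : Type*} [Group G] : Subgroup.centralizer ((MulAction.toPermHom G G).range : Set (Equiv.Perm G)) = (MulAction.toPermHom Gᵐᵒᵖ G).range ∧ ∀ H : Subgroup (Equiv.Perm G), H ≤ Subgroup.centralizer ((MulAction.toPermHom G G).range : Set (Equiv.Perm G)) → MulAction.IsPretransitive H G → H = (MulAction.toPermHom Gᵐᵒᵖ G).range := by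
  have key : ∀ c : Equiv.Perm G, c ∈ Subgroup.centralizer ((MulAction.toPermHom G G).range : Set (Equiv.Perm G)) ↔ ∀ g x : G, c (g * x) = g * c x := by
    intro c
    rw [Subgroup.mem_centralizer_iff]
    constructor
    · intro h g x
      exact (DFunLike.congr_fun (h _ ⟨g, rfl⟩) x).symm
    · rintro h _ ⟨g, rfl⟩
      ext x
      exact (h g x).symm
  have h1 : Subgroup.centralizer ((MulAction.toPermHom G G).range : Set (Equiv.Perm G)) = (MulAction.toPermHom Gᵐᵒᵖ G).range := by
    ext c
    rw [key]
    constructor
    · intro h
      refine ⟨MulOpposite.op (c 1), ?_⟩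
      ext x
      have := h x 1
      simp only [mul_one] at this
      simp [this]
    · rintro ⟨g, rfl⟩ u x
      simp [mul_assoc]
  refine ⟨h1, fun H hH hT => le_antisymm (h1 ▸ hH) ?_⟩
  rintro _ ⟨g, rfl⟩
  obtain ⟨c, hc⟩ := hT.exists_smul_eq 1 g.unop
  have hc' := (key c).mp (hH c.2)
  have : MulAction.toPermHom Gᵐᵒᵖ G g = c := by
    ext x
    have h2 := hc' x 1
    have h3 : (c : Equiv.Perm G) 1 = g.unop := hc
    rw [mul_one, h3] at h2
    simp [h2]
  rw [this]
  exact c.2

end Cfsg.Agent.S0726
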