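import Cfsg.Statements.S0727
import Cfsg.Agent.H5.Zs4
-- import your own Cfsg.Agent.* helpers here

set_option autoImplicit false
open Cfsg

namespace Cfsg.Agent.S0727
open H5


/-- A sharply triply transitive permutation group of degree `2^f + 1` is isomorphic to the projective general linear group of degree 2 over the field with `2^f` elements. -/
theorem result {α : Type*} [Fintype α] [DecidableEq α] {f : ℕ} (hf : 1 ≤ f) (hα : Fintype.card α = 2 ^ f + 1) (G : Subgroup (Equiv.Perm α)) (h3 : MulAction.IsMultiplyPretransitive G α 3) (hsharp : ∀ x : Fin 3 ↪ α, MulAction.stabilizer G x = ⊥) : ∃ (F : Type) (_ : Field F) (_ : Fintype F), Fintype.card F = 2 ^ f ∧ Nonempty (G ≃* Matrix.ProjGenLinGroup (Fin 2) F) := by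
  have h1 : 2 ≤ 2 ^ f := Nat.le_self_pow (by omega) 2
  have hc : 3 ≤ Nat.card α := by rw [Nat.card_eq_fintype_card]; omega
  have hz := zs_of_sharp h3 hsharp hc
  haveI : Nontrivial α := Finite.one_lt_card_iff_nontrivial.1 (by omega)
  obtain ⟨a, b, h⟩ := exists_pair_ne α
  have h2 := hz.card_F h
  rw [Nat.card_eq_fintype_card, hα, Nat.add_right_cancel_iff] at h2
  obtain ⟨K, _, _, -, e, h4, -⟩ := hz.pgl_psl_of_even_F h
    (h2 ▸ (Nat.even_pow.2 ⟨even_two, by omega⟩)) (hz.card_D_of_mt3 h3 hc h)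
  exact ⟨K, inferInstance, inferInstance, e.trans h2.symm, h4⟩

end Cfsg.Agent.S0727
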