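import Cfsg.Statements.S0733
import Mathlib
import Cfsg.Agent.H17.Prim

set_option autoImplicit false
open Cfsg

namespace Cfsg.Agent.S0733

open MulAction

/-- A permutation group of affine type — generated by the translations of a finite vector space `V` over `ZMod p` together with a group `G₀` of linear automorphisms — is primitive on `V` if and only if `G₀` is irreducible on `V`. -/
theorem result {p : ℕ} [Fact p.Prime] {V : Type*} [AddCommGroup V] [Module (ZMod p) V] [Finite V] [Nontrivial V] (G₀ : Subgroup (V ≃ₗ[ZMod p] V)) (G : Subgroup (Equiv.Perm V)) (hG : ∀ σ : Equiv.Perm V, σ ∈ G ↔ ∃ g ∈ G₀, ∃ b : V, ∀ x : V, σ x = (g : V ≃ₗ[ZMod p] V) x + b) : MulAction.IsPreprimitive G V ↔ ∀ W : Submodule (ZMod p) V, (∀ g ∈ G₀, ∀ v ∈ W, (g : V ≃ₗ[ZMod p] V) v ∈ W) → W = ⊥ ∨ W = ⊤ := by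
  have htr : ∀ b : V, Equiv.addRight b ∈ G := fun b => (hG _).mpr ⟨1, one_mem _, b, fun x => rfl⟩
  constructor
  · intro hp W hW
    have := H17.prim_rel (G := G) (α := V) (fun x y => x - y ∈ W)
      ⟨fun x => by simp, fun h => by simpa using W.neg_mem h, fun h h' => by simpa using W.add_mem h h'⟩ (by
        intro g x y hxy
        obtain ⟨u, hu, b, hb⟩ := (hG g).mp g.2
        change (g : Equiv.Perm V) x - (g : Equiv.Perm V) y ∈ W
        rw [hb, hb, add_sub_add_right_eq_sub, ← map_sub]
        exact hW u hu _ hxy)
    rcases this with h | h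
    · left
      rw [eq_bot_iff]
      intro v hv
      exact h v 0 (by simpa using hv)
    · right
      rw [eq_top_iff]
      intro v _
      simpa using h v 0
  · intro h
    have : IsPretransitive G V := ⟨fun a b => ⟨⟨_, htr (-a + b)⟩, by
      change a + (-a + b) = b
      simp⟩⟩
    apply H17.prim_of_rel
    intro r hr hinv
    have hadd : ∀ x y b, r x y → r (x + b) (y + b) := fun x y b hxy => hinv ⟨_, htr b⟩ x y hxy
    let A : AddSubgroup V :=
      { carrier := {v | r 0 v}
        zero_mem' := hr.refl 0
        add_mem' := by
          intro a b ha hb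
          have := hadd _ _ b ha
          rw [zero_add] at this
          exact hr.trans hb this
        neg_mem' := by
          intro a ha
          have := hadd _ _ (-a) ha
          rw [zero_add, add_neg_cancel] at this
          exact hr.symm this }
    rcases h (AddSubgroup.toZModSubmodule p A) (by
      intro g hg v hv
      have := hinv ⟨g.toEquiv, (hG _).mpr ⟨g, hg, 0, fun x => by simp⟩⟩ 0 v hv
      change r (g 0) (g v) at this
      rw [map_zero] at this
      exact this) with h1 | h1
    · left
      intro x y hxy
      have h2 : y - x ∈ AddSubgroup.toZModSubmodule p A := by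
        have := hadd _ _ (-x) hxy
        rw [add_neg_cancel, ← sub_eq_add_neg] at this
        exact this
      rw [h1, Submodule.mem_bot, sub_eq_zero] at h2
      exact h2.symm
    · right
      intro x y
      have h2 : y - x ∈ AddSubgroup.toZModSubmodule p A := h1 ▸ Submodule.mem_top
      have := hadd _ _ x h2
      simpa using this

end Cfsg.Agent.S0733
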