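import Cfsg.Statements.S0734
import Mathlib
import Cfsg.Agent.H17.Prim

set_option autoImplicit false
open Cfsg

namespace Cfsg.Agent.S0734

open MulAction

/-- Higman's criterion for primitivity: a transitive action on a finite set is primitive if and only if every non-trivial orbital graph (edges = images of a fixed pair of distinct points) is connected. -/
theorem result {G : Type*} [Group G] {Ω : Type*} [Finite Ω] [MulAction G Ω] [MulAction.IsPretransitive G Ω] [Nontrivial Ω] : MulAction.IsPreprimitive G Ω ↔ ∀ a b : Ω, a ≠ b → (SimpleGraph.fromRel fun x y : Ω => ∃ g : G, g • a = x ∧ g • b = y).Connected := by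
  constructor
  · intro hp a b hab
    set Γ := SimpleGraph.fromRel fun x y : Ω => ∃ g : G, g • a = x ∧ g • b = y with hΓ
    have hadj : ∀ (g : G) (x y : Ω), Γ.Adj x y → Γ.Adj (g • x) (g • y) := by
      intro g x y h
      rw [hΓ, SimpleGraph.fromRel_adj] at h ⊢
      refine ⟨by simpa using h.1, ?_⟩
      rcases h.2 with ⟨u, rfl, rfl⟩ | ⟨u, rfl, rfl⟩
      · exact Or.inl ⟨g * u, mul_smul _ _ _, mul_smul _ _ _⟩
      · exact Or.inr ⟨g * u, mul_smul _ _ _, mul_smul _ _ _⟩
    have := H17.prim_rel (G := G) Γ.Reachable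
      ⟨SimpleGraph.Reachable.refl, SimpleGraph.Reachable.symm, SimpleGraph.Reachable.trans⟩ (by
        intro g x y h
        exact h.map (⟨fun x => g • x, fun {x y} h => hadj g x y h⟩ : Γ →g Γ))
    rcases this with h | h
    · refine absurd (h a b (SimpleGraph.Adj.reachable ?_)) hab
      rw [hΓ, SimpleGraph.fromRel_adj]
      exact ⟨hab, Or.inl ⟨1, one_smul _ _, one_smul _ _⟩⟩
    · exact ⟨h⟩
  · intro h
    apply H17.prim_of_rel
    intro r hr hinv
    by_cases h1 : ∀ x y, r x y → x = y
    · exact Or.inl h1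
    right
    push Not at h1
    obtain ⟨a, b, hab, hne⟩ := h1
    intro x y
    obtain ⟨w⟩ := (h a b hne).preconnected x y
    induction w with
    | nil => exact hr.refl _
    | cons hadj _ ih =>
      refine hr.trans ?_ ih
      rw [SimpleGraph.fromRel_adj] at hadj
      rcases hadj.2 with ⟨u, rfl, rfl⟩ | ⟨u, rfl, rfl⟩
      · exact hinv u _ _ hab
      · exact hr.symm (hinv u _ _ hab)

end Cfsg.Agent.S0734
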