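import Cfsg.Statements.S0735
import Mathlib
import Cfsg.Agent.H17.Prim

set_option autoImplicit false
open Cfsg

namespace Cfsg.Agent.S0735

open MulAction
open scoped Pointwise

/-- A 2-homogeneous permutation group (transitive on 2-subsets) of even order is doubly transitive; a non-trivial 2-homogeneous group is primitive. -/
theorem result {α : Type*} [Fintype α] [DecidableEq α] (G : Subgroup (Equiv.Perm α)) (h2 : MulAction.IsPretransitive G (Set.powersetCard α 2)) (hα : 3 ≤ Fintype.card α) : (Even (Nat.card G) → MulAction.IsMultiplyPretransitive G α 2) ∧ (G ≠ ⊥ → MulAction.IsPreprimitive G α) := by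
  have key : ∀ a b c d : α, a ≠ b → c ≠ d →
      ∃ g : G, (g • a = c ∧ g • b = d) ∨ (g • a = d ∧ g • b = c) := by
    intro a b c d hab hcd
    obtain ⟨g, hg⟩ := h2.exists_smul_eq ⟨{a, b}, Finset.card_pair hab⟩ ⟨{c, d}, Finset.card_pair hcd⟩
    have hg' : g • ({a, b} : Finset α) = {c, d} := congrArg Subtype.val hg
    have h1 : g • a ∈ ({c, d} : Finset α) := hg' ▸ Finset.smul_mem_smul_finset (by simp)
    have h3 : g • b ∈ ({c, d} : Finset α) := hg' ▸ Finset.smul_mem_smul_finset (by simp)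
    have h4 : g • a ≠ g • b := by simpa using hab
    refine ⟨g, ?_⟩
    simp only [Finset.mem_insert, Finset.mem_singleton] at h1 h3
    rcases h1 with h1 | h1 <;> rcases h3 with h3 | h3
    · exact absurd (h1.trans h3.symm) h4
    · exact Or.inl ⟨h1, h3⟩
    · exact Or.inr ⟨h1, h3⟩
    · exact absurd (h1.trans h3.symm) h4
  have rel : ∀ r : α → α → Prop, Equivalence r → (∀ (g : G) (x y : α), r x y → r (g • x) (g • y)) →
      (∀ x y, r x y → x = y) ∨ ∀ x y, r x y := by
    intro r hr hinv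
    by_cases h1 : ∀ x y, r x y → x = y
    · exact Or.inl h1
    right
    push Not at h1
    obtain ⟨a, b, hab, hne⟩ := h1
    intro x y
    rcases eq_or_ne x y with rfl | hxy
    · exact hr.refl _
    obtain ⟨g, ⟨rfl, rfl⟩ | ⟨rfl, rfl⟩⟩ := key a b x y hne hxy
    · exact hinv g _ _ hab
    · exact hr.symm (hinv g _ _ hab)
  constructor
  · intro he
    obtain ⟨t, ht⟩ := exists_prime_orderOf_dvd_card' (G := G) 2 he.two_dvd
    have ht1 : t ≠ 1 := by rintro rfl; simp at ht
    obtain ⟨x, hx⟩ : ∃ x : α, t • x ≠ x := by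
      by_contra h
      push Not at h
      exact ht1 (Subtype.ext (Equiv.ext h))
    have htt : t • t • x = x := by rw [← mul_smul, ← pow_two, ← ht, pow_orderOf_eq_one, one_smul]
    have key2 : ∀ c d : α, c ≠ d → ∃ g : G, g • x = c ∧ g • t • x = d := by
      intro c d hcd
      obtain ⟨g, h | h⟩ := key x (t • x) c d hx.symm hcd
      · exact ⟨g, h⟩
      · exact ⟨g * t, by rw [mul_smul, h.2], by rw [mul_smul, htt, h.1]⟩
    rw [is_two_pretransitive_iff]
    intro a b c d hab hcd
    obtain ⟨g, rfl, rfl⟩ := key2 a b hab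
    obtain ⟨u, rfl, rfl⟩ := key2 c d hcd
    exact ⟨u * g⁻¹, by simp [mul_smul], by simp [mul_smul]⟩
  · intro hne
    have : IsPretransitive G α := by
      rcases rel (fun x y => ∃ g : G, g • x = y) ⟨fun x => ⟨1, one_smul _ _⟩,
        by rintro x _ ⟨g, rfl⟩; exact ⟨g⁻¹, inv_smul_smul _ _⟩,
        by rintro x _ _ ⟨g, rfl⟩ ⟨u, rfl⟩; exact ⟨u * g, mul_smul _ _ _⟩⟩
        (by rintro g x _ ⟨u, rfl⟩; exact ⟨g * u * g⁻¹, by simp [mul_smul]⟩) with h | h
      · exfalso
        apply hne
        rw [eq_bot_iff]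
        intro g hg
        rw [Subgroup.mem_bot]
        ext x
        exact (h x _ ⟨⟨g, hg⟩, rfl⟩).symm
      · exact ⟨h⟩
    exact H17.prim_of_rel rel

end Cfsg.Agent.S0735
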