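import Cfsg.Statements.S0738
import Cfsg.Agent.H5.Zs3
-- import your own Cfsg.Agent.* helpers here

set_option autoImplicit false
open Cfsg

namespace Cfsg.Agent.S0738
open H5


/-- Let a finite Zassenhaus group of degree `n + 1` have two-point stabilisers of order `d` with `2d ≥ n - 1`. Then a normal subgroup of a point stabiliser acting regularly on the remaining points is elementary abelian, and the degree is a prime power plus one. -/
theorem result {G Ω : Type*} [Group G] [Finite G] [MulAction G Ω] [Fintype Ω] (hZ : Cfsg.IsZassenhausGroup G Ω) {a b : Ω} (hab : a ≠ b) (hd : Fintype.card Ω - 2 ≤ 2 * Nat.card ↥(MulAction.stabilizer G a ⊓ MulAction.stabilizer G b)) (F : Subgroup G) (hFle : F ≤ MulAction.stabilizer G a) (hFn : (F.subgroupOf (MulAction.stabilizer G a)).Normal) (hreg : ∀ y z : Ω, y ≠ a → z ≠ a → ∃! u : F, (u : G) • y = z) : IsMulCommutative F ∧ ∃ p f : ℕ, p.Prime ∧ (∀ u ∈ F, u ^ p = 1) ∧ Fintype.card Ω = p ^ f + 1 := by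
  have hz := zs_of hZ
  obtain rfl : F = Fk G a := hz.eq_Fk_of_reg hFle hreg
  have hΩ := hz.card_F hab
  rw [Nat.card_eq_fintype_card] at hΩ
  obtain ⟨h1, p, hp, h2⟩ := hz.elem_of_card hab (hz.Fk_ne_bot hab (zs_D_ne_bot hZ hab)) (by
    change _ ≤ 2 * Nat.card (D2 G a b) at hd
    omega)
  refine ⟨Subgroup.le_centralizer_iff_isMulCommutative.1 h1, ?_⟩
  haveI := Fact.mk hp
  have hP : IsPGroup p (Fk G a) := fun u => ⟨1, Subtype.ext (by simpa using h2 u u.2)⟩
  obtain ⟨f, hf⟩ := IsPGroup.iff_card.1 hP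
  exact ⟨p, f, hp, h2, by rw [hΩ, hf]⟩

end Cfsg.Agent.S0738
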