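import Cfsg.Statements.S0740
import Cfsg.Agent.H5.Zs2
-- import your own Cfsg.Agent.* helpers here

set_option autoImplicit false
open Cfsg

namespace Cfsg.Agent.S0740
open H5


/-- In a finite Zassenhaus group any two points `a ≠ b` are swapped by an involution; every such involution has exactly one fixed point when the degree is odd and 0 or 2 fixed points when the degree is even; and if the two-point stabiliser has even order, some such involution has exactly 2 fixed points. -/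
theorem result {G Ω : Type*} [Group G] [Finite G] [MulAction G Ω] [Fintype Ω] (hZ : Cfsg.IsZassenhausGroup G Ω) {a b : Ω} (hab : a ≠ b) : (∃ s : G, orderOf s = 2 ∧ s • a = b ∧ s • b = a) ∧ (∀ s : G, orderOf s = 2 → s • a = b → s • b = a → (Odd (Fintype.card Ω) → Nat.card (MulAction.fixedBy Ω s) = 1) ∧ (Even (Fintype.card Ω) → Nat.card (MulAction.fixedBy Ω s) = 0 ∨ Nat.card (MulAction.fixedBy Ω s) = 2)) ∧ (Even (Fintype.card Ω) → Even (Nat.card ↥(MulAction.stabilizer G a ⊓ MulAction.stabilizer G b)) → ∃ s : G, orderOf s = 2 ∧ s • a = b ∧ s • b = a ∧ Nat.card (MulAction.fixedBy Ω s) = 2) := by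
  have hz := zs_of hZ
  have h1 : ∀ {s : G}, s • a = b → s ≠ 1 := fun h e => hab (by simpa [e] using h)
  rw [← Nat.card_eq_fintype_card]
  refine ⟨?_, fun s hs h2 h3 => ?_, fun h2 h3 => ?_⟩
  · obtain ⟨s, e1, e2, e3⟩ := hz.exists_invol_swap hab
    exact ⟨s, orderOf_eq_two_iff'.2 ⟨h1 e2, e1⟩, e2, e3⟩
  · have e1 := hz.card_fixedBy_le (h1 h2)
    have e2 := card_modEq_fixedBy (Ω := Ω) (k := 1) Nat.prime_two (g := s)
      (by rw [pow_one, ← hs, pow_orderOf_eq_one])
    rw [Nat.ModEq] at e2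
    rw [Nat.odd_iff, Nat.even_iff]
    omega
  · obtain ⟨c, e1, e2⟩ := hz.exists_third (zs_D_ne_bot hZ hab)
    obtain ⟨s, e3, e4, e5, e6⟩ := hz.exists_j hab h3 e1 e2
    refine ⟨s, orderOf_eq_two_iff'.2 ⟨h1 e4, e3⟩, e4, e5, ?_⟩
    have f1 := hz.card_fixedBy_le (h1 e4)
    have f2 := card_modEq_fixedBy (Ω := Ω) (k := 1) Nat.prime_two (g := s) (by rw [pow_one, sq, e3])
    have f3 : 0 < Nat.card (MulAction.fixedBy Ω s) := Finite.card_pos_iff.2 ⟨⟨c, e6⟩⟩
    rw [Nat.ModEq] at f2
    rw [Nat.even_iff] at h2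
    omega

end Cfsg.Agent.S0740
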