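import Cfsg.Statements.S0744
import Mathlib
import Cfsg.Agent.H17.Gleason

set_option autoImplicit false
open Cfsg

namespace Cfsg.Agent.S0744

open MulAction

/-- If for some `k > 1` the pointwise stabilisers of all `(k-1)`-subsets have the same order `> 1` and those of all `k`-subsets have the same order, then the group is `(k-1)`-transitive. -/
theorem result {α : Type*} [Fintype α] [DecidableEq α] (G : Subgroup (Equiv.Perm α)) {k : ℕ} (hk : 1 < k) (hkn : k ≤ Fintype.card α) (l m : ℕ) (hl : 1 < l) (hkm1 : ∀ s : Finset α, s.card = k - 1 → Nat.card (fixingSubgroup G (s : Set α)) = l) (hkm : ∀ s : Finset α, s.card = k → Nat.card (fixingSubgroup G (s : Set α)) = m) : MulAction.IsMultiplyPretransitive G α (k - 1) := by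
  have horb : ∀ s : Finset α, s.card = k - 1 → ∀ a, a ∉ s →
      Nat.card (orbit (fixingSubgroup G (s : Set α)) a) * m = l := by
    intro s hs a ha
    rw [← hkm1 s hs, ← hkm (insert a s) (by rw [Finset.card_insert_of_notMem ha, hs]; omega),
      Finset.coe_insert, H17.fix_insert]
    exact H17.card_orbit_mul_inf _ a
  obtain ⟨s₀, -, hs₀⟩ := Finset.exists_subset_card_eq (s := (Finset.univ : Finset α)) (n := k - 1)
    (by rw [Finset.card_univ]; omega)
  -- the common orbit length
  obtain ⟨g, hg1⟩ : ∃ g : fixingSubgroup G (s₀ : Set α), g ≠ 1 := by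
    have : Nontrivial (fixingSubgroup G (s₀ : Set α)) :=
      Finite.one_lt_card_iff_nontrivial.mp (by rw [hkm1 s₀ hs₀]; exact hl)
    exact exists_ne 1
  obtain ⟨a₀, ha₀⟩ : ∃ a : α, (g : G) • a ≠ a := by
    by_contra h
    push Not at h
    exact hg1 (Subtype.ext (Subtype.ext (Equiv.ext h)))
  have ha₀s : a₀ ∉ s₀ := fun h => ha₀ (H17.mem_fix_iff.mp g.2 a₀ h)
  have hd : Nat.card (orbit (fixingSubgroup G (s₀ : Set α)) a₀) ≠ 1 := by
    intro h
    rw [Nat.card_coe_set_eq, Set.ncard_eq_one] at h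
    obtain ⟨x, hx⟩ := h
    have h1 : a₀ ∈ orbit (fixingSubgroup G (s₀ : Set α)) a₀ := mem_orbit_self _
    have h2 : g • a₀ ∈ orbit (fixingSubgroup G (s₀ : Set α)) a₀ := mem_orbit _ _
    rw [hx] at h1 h2
    exact ha₀ (h2.trans h1.symm)
  obtain ⟨p, hp, hpd⟩ := Nat.exists_prime_and_dvd hd
  have := Fact.mk hp
  have hm : 0 < m := by
    have := horb s₀ hs₀ a₀ ha₀s
    rcases m with _ | m
    · omega
    · omega
  apply H17.gleason hp (by omega) (by simp only [Nat.card_eq_fintype_card]; omega)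
  intro s hs
  obtain ⟨P, hPH, hP, hPc⟩ := H17.exists_sylow_le (p := p) (fixingSubgroup G (s : Set α))
  refine ⟨P, hP, subset_antisymm ?_ ?_⟩
  · intro a ha
    by_contra has
    refine H17.sylow_not_fix hp hPH hPc ?_ ha
    have h1 := horb s hs a has
    rw [← horb s₀ hs₀ a₀ ha₀s] at h1
    rw [Nat.eq_of_mul_eq_mul_right hm h1]
    exact hpd
  · intro a ha u
    exact H17.mem_fix_iff.mp (hPH u.2) a ha

end Cfsg.Agent.S0744
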