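import Cfsg.Statements.S0752
import Cfsg.Agent.H12.Classify
-- import your own Cfsg.Agent.* helpers here

set_option autoImplicit false
set_option maxHeartbeats 400000
open Cfsg

namespace Cfsg.Agent.S0752

/-- Classification of alternating forms: for an alternating bilinear form B on a finite-dimensional space over any field there is a basis indexed by (Fin m ⊕ Fin m) ⊕ Fin k such that B (e_i, f_j) = δ_ij, the e's are pairwise orthogonal, the f's are pairwise orthogonal, and the last k basis vectors are orthogonal to everything (they span the radical). -/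
theorem result {F V : Type*} [Field F] [AddCommGroup V] [Module F V] [FiniteDimensional F V] (B : LinearMap.BilinForm F V) (hA : B.IsAlt) : ∃ (m k : ℕ) (b : Module.Basis ((Fin m ⊕ Fin m) ⊕ Fin k) F V), (∀ i j : Fin m, B (b (Sum.inl (Sum.inl i))) (b (Sum.inl (Sum.inr j))) = if i = j then 1 else 0) ∧ (∀ i j : Fin m, B (b (Sum.inl (Sum.inl i))) (b (Sum.inl (Sum.inl j))) = 0) ∧ (∀ i j : Fin m, B (b (Sum.inl (Sum.inr i))) (b (Sum.inl (Sum.inr j))) = 0) ∧ (∀ (j : Fin k) (v : V), B (b (Sum.inr j)) v = 0) := by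
  obtain ⟨W, hc⟩ := Submodule.exists_isCompl (LinearMap.ker B)
  have hnd : ((H12.CForm.ofAlt B hA).restrict W).Nondeg := by
    intro x hx
    have : (x : V) ∈ LinearMap.ker B := by
      ext y
      obtain ⟨a, ha, b, hb, rfl⟩ := Submodule.mem_sup.1 (hc.sup_eq_top ▸ Submodule.mem_top (x := y))
      have h1 : B x b = 0 := hx ⟨b, hb⟩
      have h2 : B x a = 0 := by rw [← hA.neg_eq, LinearMap.mem_ker.1 ha]; simp
      simp [h1, h2]
    exact Subtype.ext (Submodule.disjoint_def.1 hc.disjoint _ this x.2)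
  obtain ⟨m, hm⟩ := H12.alt_even hnd
  obtain ⟨e, he⟩ := (H12.alt_iso_spForm hnd hm).symm
  let b1 : Module.Basis (Fin m ⊕ Fin m) F W :=
    ((Pi.basisFun F _).map e).reindex (Equiv.sumComm _ _)
  have hb1 : ∀ i j, B (b1 i) (b1 j) = (H11.spForm (Fin m) F).B (Pi.single i.swap 1)
      (Pi.single j.swap 1) := fun i j => by
    rw [← he.1]; simp [b1]
  refine ⟨m, _, (b1.prod (Module.finBasis F (LinearMap.ker B))).map
    (Submodule.prodEquivOfIsCompl _ _ hc.symm), fun i j => ?_, fun i j => ?_, fun i j => ?_,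
    fun j v => ?_⟩
  · simp [hb1, H11.spForm_B, Matrix.J, Matrix.one_apply, eq_comm]
  · simp [hb1, H11.spForm_B, Matrix.J, Matrix.one_apply]
  · simp [hb1, H11.spForm_B, Matrix.J, Matrix.one_apply]
  · simp [LinearMap.mem_ker.1 (Module.finBasis F (LinearMap.ker B) j).2]

end Cfsg.Agent.S0752
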