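import Cfsg.Statements.S0753
import Cfsg.Agent.H12.Classify
-- import your own Cfsg.Agent.* helpers here

set_option autoImplicit false
set_option maxHeartbeats 400000
open Cfsg

namespace Cfsg.Agent.S0753

/-- If σ is a ring endomorphism of the field F other than the identity and B is a σ-sesquilinear conjugate-symmetric form with B v v = 0 for every v, then B = 0. -/
theorem result {F V : Type*} [Field F] [AddCommGroup V] [Module F V] (σ : F →+* F) (hσ : σ ≠ RingHom.id F) (B : V →ₛₗ[σ] V →ₗ[F] F) (hS : B.IsSymm) (h0 : ∀ v : V, B v v = 0) : B = 0 := by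
  ext x y
  obtain ⟨a, ha⟩ := H12.exists_ne_of_ne_id hσ
  have h1 := h0 (x + y)
  have h2 := h0 (x + a • y)
  simp only [map_add, LinearMap.add_apply, h0, map_smul, LinearMap.map_smulₛₗ,
    LinearMap.smul_apply, smul_eq_mul] at h1 h2
  apply mul_left_cancel₀ (sub_ne_zero.2 ha)
  simp only [LinearMap.zero_apply]
  linear_combination σ a * h1 - h2

end Cfsg.Agent.S0753
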