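import Cfsg.Statements.S0755
import Cfsg.Agent.H12.Classify
-- import your own Cfsg.Agent.* helpers here

set_option autoImplicit false
set_option maxHeartbeats 400000
open Cfsg

namespace Cfsg.Agent.S0755

/-- Classification of Hermitian forms over finite fields: if σ is a non-identity involutive automorphism of the finite field F and B is a non-degenerate conjugate-symmetric σ-sesquilinear form on the finite-dimensional space V, then V has a B-orthonormal basis. -/
theorem result {F V : Type*} [Field F] [Finite F] [AddCommGroup V] [Module F V] [FiniteDimensional F V] (σ : F →+* F) (hσ : σ ≠ RingHom.id F) (hσ2 : ∀ a : F, σ (σ a) = a) (B : V →ₛₗ[σ] V →ₗ[F] F) (hS : B.IsSymm) (hB : B.Nondegenerate) : ∃ b : Module.Basis (Fin (Module.finrank F V)) F V, ∀ i j, B (b i) (b j) = if i = j then 1 else 0 := by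
  let B' : (Fin (Module.finrank F V) → F) →ₛₗ[σ] (Fin (Module.finrank F V) → F) →ₗ[F] F :=
    LinearMap.mk₂'ₛₗ σ (RingHom.id F) (fun u v => ∑ i, σ (u i) * v i)
      (fun u u' v => by simp [add_mul, Finset.sum_add_distrib])
      (fun c u v => by simp [Finset.mul_sum, mul_assoc])
      (fun u v v' => by simp [mul_add, Finset.sum_add_distrib])
      (fun c u v => by simp [Finset.mul_sum, mul_left_comm])
  have hB' : ∀ u v, B' u v = ∑ i, σ (u i) * v i := fun _ _ => rfl
  have hS' : B'.IsSymm := ⟨fun u v => by simp [hB', hσ2, mul_comm]⟩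
  have hnd : (H12.CForm.ofHerm σ hσ hσ2 B' hS').Nondeg := fun x hx => by
    ext i
    have := hx (Pi.single i 1)
    simpa [hB', Pi.single_apply] using this
  obtain ⟨e, he⟩ := H12.herm_iso_of_finite hσ hnd (H12.CForm.ofHerm_nondeg hσ hσ2 hS hB) (by simp)
  refine ⟨(Pi.basisFun F _).map e, fun i j => ?_⟩
  have := he.1 (Pi.basisFun F _ i) (Pi.basisFun F _ j)
  simp only [H12.CForm.ofHerm_B, hB'] at this
  rw [Module.Basis.map_apply, Module.Basis.map_apply, this]
  simp [Pi.single_apply, eq_comm]

end Cfsg.Agent.S0755
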