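import Cfsg.Statements.S0756
import Cfsg.Agent.H12.SymBilin
-- import your own Cfsg.Agent.* helpers here

set_option autoImplicit false
set_option maxHeartbeats 400000
open Cfsg

namespace Cfsg.Agent.S0756

/-- Classification of symmetric bilinear forms over finite fields of odd characteristic: if B is non-degenerate symmetric on V of dimension n + 1 and α is a fixed non-square of F, there is an orthogonal basis b_0, ..., b_n with B(b_i, b_i) = 1 for i < n and B(b_n, b_n) ∈ {1, α}. -/
theorem result {F V : Type*} [Field F] [Finite F] [AddCommGroup V] [Module F V] [FiniteDimensional F V] (h2 : (2 : F) ≠ 0) (B : LinearMap.BilinForm F V) (hS : B.IsSymm) (hB : B.Nondegenerate) {n : ℕ} (hn : Module.finrank F V = n + 1) (α : F) (hα : ¬ IsSquare α) : ∃ b : Module.Basis (Fin (n + 1)) F V, (∀ i j, i ≠ j → B (b i) (b j) = 0) ∧ (∀ i, i ≠ Fin.last n → B (b i) (b i) = 1) ∧ (B (b (Fin.last n)) (b (Fin.last n)) = 1 ∨ B (b (Fin.last n)) (b (Fin.last n)) = α) := by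
  obtain ⟨v, h1, h3, h4⟩ := H12.exists_orth_basis h2 (H12.sym_nondeg h2 hS hB) one_ne_zero hn
  have hα0 : α ≠ 0 := by rintro rfl; exact hα IsSquare.zero
  change B (v (Fin.last n)) (v (Fin.last n)) ≠ 0 at h4
  obtain ⟨r, hr0, hr⟩ : ∃ r : F, r ≠ 0 ∧ (r * r * B (v (Fin.last n)) (v (Fin.last n)) = 1 ∨
      r * r * B (v (Fin.last n)) (v (Fin.last n)) = α) := by
    generalize B (v (Fin.last n)) (v (Fin.last n)) = d at h4
    by_cases hd : IsSquare d
    · obtain ⟨r, rfl⟩ := hd
      have : r ≠ 0 := left_ne_zero_of_mul h4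
      exact ⟨r⁻¹, inv_ne_zero this, Or.inl (by field_simp)⟩
    · obtain ⟨r, hr⟩ : IsSquare (d * α) := by
        rw [← H12.qsign_eq_one, H12.qsign_mul h4 hα0, H12.qsign_eq_neg_one.2 hd,
          H12.qsign_eq_neg_one.2 hα]; simp
      have : r ≠ 0 := by rintro rfl; exact mul_ne_zero h4 hα0 (by simpa using hr)
      exact ⟨r / d, div_ne_zero this h4, Or.inr (by field_simp; linear_combination -hr)⟩
  refine ⟨v.unitsSMul (Function.update 1 (Fin.last n) (Units.mk0 r hr0)), fun i j hij => ?_,
    fun i hi => ?_, ?_⟩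
  · have := h1 i j hij
    rw [H12.sym_B hS, mul_eq_zero] at this
    simp [Module.Basis.unitsSMul_apply, Units.smul_def, this.resolve_left h2]
  · rw [Module.Basis.unitsSMul_apply, Function.update_of_ne hi, Pi.one_apply, one_smul]
    exact h3 i hi
  · simpa [Module.Basis.unitsSMul_apply, Units.smul_def, mul_assoc] using hr

end Cfsg.Agent.S0756
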