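import Cfsg.Statements.S0757
import Cfsg.Agent.H12.ClassifyQuad
-- import your own Cfsg.Agent.* helpers here

set_option autoImplicit false
set_option maxHeartbeats 400000
open Cfsg

namespace Cfsg.Agent.S0757

/-- The two diagonal forms Σ x_i^2 and Σ_(i<n) x_i^2 + α x_n^2 on F^(n+1), with α a non-square and 2 ≠ 0 in F, are inequivalent quadratic forms (so over a finite field of odd order there are exactly two classes of non-singular symmetric bilinear forms in each dimension). -/
theorem result {F : Type*} [Field F] (h2 : (2 : F) ≠ 0) (n : ℕ) (α : F) (hα : ¬ IsSquare α) : ¬ (QuadraticMap.weightedSumSquares F (fun _ : Fin (n + 1) => (1 : F))).Equivalent (QuadraticMap.weightedSumSquares F (fun i : Fin (n + 1) => if i = Fin.last n then α else (1 : F))) := by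
  rintro ⟨e⟩
  have he := H12.quad_isIsomTo
    (C := H12.CForm.ofQuad (QuadraticMap.weightedSumSquares F (fun _ : Fin (n + 1) => (1 : F))))
    (C' := H12.CForm.ofQuad (QuadraticMap.weightedSumSquares F
      (fun i : Fin (n + 1) => if i = Fin.last n then α else (1 : F))))
    e.toLinearEquiv.toLinearMap fun x => e.map_app x
  have key : ∀ w : Fin (n + 1) → F, ((H12.CForm.ofQuad (QuadraticMap.weightedSumSquares F w)).gram
      (Pi.basisFun F (Fin (n + 1)))).det = 2 ^ (n + 1) * ∏ i, w i := by
    intro w
    rw [H12.det_gram_of_orth]
    · simp [Pi.single_apply]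
    · intro i j hij
      simp only [H12.CForm.ofQuad_B, QuadraticMap.polar, QuadraticMap.weightedSumSquares_apply,
        ← Finset.sum_sub_distrib]
      refine Finset.sum_eq_zero fun k _ => ?_
      by_cases h1 : k = i
      · subst h1; simp [hij]
      · by_cases h3 : k = j
        · subst h3; simp [h1]
        · simp [h1, h3]
  have h1 := H12.CForm.det_gram_eq (H12.CForm.ofQuad (QuadraticMap.weightedSumSquares F
      (fun i : Fin (n + 1) => if i = Fin.last n then α else (1 : F)))) (Pi.basisFun F _)
      (fun i => e.toLinearEquiv.toLinearMap (Pi.basisFun F _ i))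
  have h3 : (H12.CForm.ofQuad (QuadraticMap.weightedSumSquares F
      (fun i : Fin (n + 1) => if i = Fin.last n then α else (1 : F)))).gram
      (fun i => e.toLinearEquiv.toLinearMap (Pi.basisFun F _ i)) =
      (H12.CForm.ofQuad (QuadraticMap.weightedSumSquares F
        (fun _ : Fin (n + 1) => (1 : F)))).gram (Pi.basisFun F _) := by
    ext i j; exact he.1 _ _
  rw [h3, key, key] at h1
  generalize (Pi.basisFun F (Fin (n + 1))).det _ = d at h1
  have h4 : (1 : F) = d * d * α := by
    apply mul_left_cancel₀ (pow_ne_zero (n + 1) h2)
    have : (H12.quadType F).σ d = d := rfl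
    simp [this] at h1
    linear_combination h1
  exact hα ⟨d * α, by linear_combination α * h4⟩

end Cfsg.Agent.S0757
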