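import Cfsg.Statements.S0758
import Cfsg.Agent.H12.OmegaFin
-- import your own Cfsg.Agent.* helpers here

set_option autoImplicit false
set_option maxHeartbeats 400000
open Cfsg

namespace Cfsg.Agent.S0758

theorem aux {F : Type*} [Field F] {a : F} :
    (∃ x y : F, (x ≠ 0 ∨ y ≠ 0) ∧ x ^ 2 + a * y ^ 2 = 0) ↔ IsSquare (-a) := by
  constructor
  · rintro ⟨x, y, h0, h⟩
    have hy : y ≠ 0 := by
      rintro rfl
      simp at h h0
      exact h0 h
    exact ⟨x / y, by field_simp; linear_combination -h⟩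
  · rintro ⟨r, hr⟩
    exact ⟨r, 1, Or.inr one_ne_zero, by linear_combination -hr⟩

/-- For a finite field F of odd order q and a non-square α: the form x² + y² is isotropic iff q ≡ 1 mod 4, and the form x² + α y² is isotropic iff q ≡ 3 mod 4. -/
theorem result {F : Type*} [Field F] [Fintype F] (h2 : (2 : F) ≠ 0) (α : F) (hα : ¬ IsSquare α) : ((∃ x y : F, (x ≠ 0 ∨ y ≠ 0) ∧ x ^ 2 + y ^ 2 = 0) ↔ Fintype.card F % 4 = 1) ∧ ((∃ x y : F, (x ≠ 0 ∨ y ≠ 0) ∧ x ^ 2 + α * y ^ 2 = 0) ↔ Fintype.card F % 4 = 3) := by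
  have hodd := Nat.odd_iff.1 (H12.odd_card_iff.2 h2)
  have hα0 : α ≠ 0 := by rintro rfl; exact hα IsSquare.zero
  constructor
  · have := aux (F := F) (a := 1)
    simp only [one_mul] at this
    rw [this, FiniteField.isSquare_neg_one_iff]
    omega
  · rw [aux, ← H12.qsign_eq_one, ← neg_one_mul, H12.qsign_mul (by simp) hα0,
      H12.qsign_eq_neg_one.2 hα, H12.qsign_neg_one]
    split_ifs with h <;> simp [h]

end Cfsg.Agent.S0758
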