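import Cfsg.Statements.S0759
import Cfsg.Agent.H12.SymBilin
import Cfsg.Agent.S0790
-- import your own Cfsg.Agent.* helpers here

set_option autoImplicit false
set_option maxHeartbeats 400000
open Cfsg

namespace Cfsg.Agent.S0759

/-- Type of the orthonormal form: over a finite field of odd order q and for m ≥ 1, the quadratic form Σ_(i<2m) x_i² on F^(2m) admits an m-dimensional subspace on which it vanishes identically if and only if it is not the case that q ≡ 3 (mod 4) and m is odd. -/
theorem result {F : Type*} [Field F] [Fintype F] (h2 : (2 : F) ≠ 0) (m : ℕ) (hm : 1 ≤ m) : (∃ W : Submodule F (Fin (2 * m) → F), Module.finrank F W = m ∧ ∀ w ∈ W, ∑ i, w i ^ 2 = 0) ↔ ¬ (Fintype.card F % 4 = 3 ∧ Odd m) := by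
  have hS : (Matrix.toBilin' (1 : Matrix (Fin (2 * m)) (Fin (2 * m)) F)).IsSymm :=
    ⟨fun x y => by simp [Matrix.toBilin'_apply', dotProduct_comm]⟩
  have hM : LinearMap.BilinForm.toMatrix (Pi.basisFun F _)
      (Matrix.toBilin' (1 : Matrix (Fin (2 * m)) (Fin (2 * m)) F)) = 1 := by
    ext i j
    simp [LinearMap.BilinForm.toMatrix_apply, Matrix.toBilin'_apply', Matrix.one_apply,
      Pi.single_apply, eq_comm]
  have hB : (Matrix.toBilin' (1 : Matrix (Fin (2 * m)) (Fin (2 * m)) F)).Nondegenerate := by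
    rw [LinearMap.BilinForm.nondegenerate_iff_det_ne_zero (Pi.basisFun F _), hM]; simp
  have h := H12.sym_hasTS_iff_disc h2 hS hB (m := m) (by simp) (Pi.basisFun F _)
  rw [← H12.sym_hasTS h2 hS, H12.quad_hasTS_iff, hM, Matrix.det_one, mul_one,
    H12.qsign_pow (by simp), H12.qsign_neg_one] at h
  simp only [LinearMap.BilinMap.toQuadraticMap_apply, Matrix.toBilin'_apply', Matrix.one_mulVec,
    dotProduct, ← sq] at h
  rw [h]
  split_ifs with h3
  · simp [h3, neg_one_pow_eq_one_iff_even]
  · simp [h3]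

end Cfsg.Agent.S0759
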