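import Cfsg.Statements.S0761
import Cfsg.Agent.H12.Witt
-- import your own Cfsg.Agent.* helpers here

set_option autoImplicit false
set_option maxHeartbeats 400000
open Cfsg

namespace Cfsg.Agent.S0761

/-- Hyperbolic partners: let B be a non-degenerate bilinear form on a finite-dimensional space, either alternating, or symmetric with 2 ≠ 0. If Z is a subspace on which B vanishes, x ∉ Z is isotropic and orthogonal to Z, then there is an isotropic y with B x y = 1 which is orthogonal to Z. -/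
theorem result {F V : Type*} [Field F] [AddCommGroup V] [Module F V] [FiniteDimensional F V] (B : LinearMap.BilinForm F V) (hB : B.Nondegenerate) (hform : B.IsAlt ∨ (B.IsSymm ∧ (2 : F) ≠ 0)) (x : V) (Z : Submodule F V) (hxZ : x ∉ Z) (hx : B x x = 0) (hxz : ∀ z ∈ Z, B x z = 0) (hZ : ∀ z ∈ Z, ∀ z' ∈ Z, B z z' = 0) : ∃ y : V, B y y = 0 ∧ B x y = 1 ∧ ∀ z ∈ Z, B z y = 0 := by
  obtain ⟨y, hy, hxy⟩ : ∃ y, (∀ z ∈ Z, B z y = 0) ∧ B x y = 1 := by
    obtain ⟨φ, h1, h2, -⟩ := H12.exists_dual_one_ne hxZ hxZ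
    obtain ⟨y, hy⟩ := (LinearMap.BilinForm.toDual B.flip hB.flip).surjective φ
    refine ⟨y, fun z hz => ?_, ?_⟩
    · rw [← h1 z hz, ← hy]; rfl
    · rw [← h2, ← hy]; rfl
  rcases hform with hA | ⟨hS, h2⟩
  · exact ⟨y, hA y, hxy, hy⟩
  · have hyx : B y x = 1 := by rw [← hxy]; exact hS.eq y x
    refine ⟨y - (B y y / 2) • x, ?_, ?_, fun z hz => ?_⟩
    · simp only [map_sub, LinearMap.sub_apply, map_smul, LinearMap.smul_apply, smul_eq_mul, hxy,
        hyx, hx]
      field_simp; ring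
    · simp [hxy, hx]
    · have : B z x = 0 := by rw [← hxz z hz]; exact hS.eq z x
      simp [hy z hz, this]

end Cfsg.Agent.S0761
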