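import Cfsg.Statements.S0763
import Cfsg.Agent.H12.ClassifyQuad
-- import your own Cfsg.Agent.* helpers here

set_option autoImplicit false
set_option maxHeartbeats 400000
open Cfsg

namespace Cfsg.Agent.S0763

/-- Binary quadratic forms in characteristic two over a finite field: if Q is a quadratic form on a 2-dimensional space whose polar form is non-degenerate, then either there are vectors v, w with Q v = Q w = 0 and polar value 1 (Q is xy in these coordinates), or there are v, w and μ with Q v = 1, Q w = μ, polar value 1 and x² + x + μ without roots in F (Q is x² + xy + μy²). -/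
theorem result {F V : Type*} [Field F] [Finite F] [CharP F 2] [AddCommGroup V] [Module F V] (Q : QuadraticForm F V) (h2 : Module.finrank F V = 2) (hQ : (QuadraticMap.polarBilin Q).Nondegenerate) : (∃ v w : V, LinearIndependent F ![v, w] ∧ Q v = 0 ∧ Q w = 0 ∧ QuadraticMap.polar Q v w = 1) ∨ (∃ (v w : V) (μ : F), LinearIndependent F ![v, w] ∧ (∀ x : F, x ^ 2 + x + μ ≠ 0) ∧ Q v = 1 ∧ Q w = μ ∧ QuadraticMap.polar Q v w = 1) := by
  have : FiniteDimensional F V := Module.finite_of_finrank_eq_succ h2
  have hC := H12.CForm.ofQuad_nondeg hQ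
  by_cases h : ∃ v, v ≠ 0 ∧ Q v = 0
  · obtain ⟨v, h0, hv⟩ := h
    obtain ⟨w, hp⟩ := H11.exists_hypPair hC h0 hv
    exact Or.inl ⟨v, w, hp.linearIndependent, hp.left, hp.right, hp.pair⟩
  · push Not at h
    obtain ⟨v, hv⟩ := H12.exists_Q_eq hC h2.ge one_ne_zero
    have h0 : v ≠ 0 := by rintro rfl; simp at hv
    obtain ⟨w, hw⟩ := hC.exists_eq h0 1
    change QuadraticMap.polar Q v w = 1 at hw
    have hvv : QuadraticMap.polar Q v v = 0 := by
      rw [H12.polar_self', CharTwo.two_eq_zero, zero_mul]
    have hli : LinearIndependent F ![v, w] := by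
      rw [LinearIndependent.pair_iff' h0]
      rintro a rfl
      simp [hvv] at hw
    refine Or.inr ⟨v, w, Q w, hli, fun x hx => h (x • v + w) (fun h1 => one_ne_zero
      (LinearIndependent.pair_iff.1 hli x 1 (by rw [one_smul]; exact h1)).2) ?_, hv, rfl, hw⟩
    rw [H12.Q_add, H12.Q_smul, hv, QuadraticMap.polar_smul_left, hw, smul_eq_mul]
    linear_combination hx

end Cfsg.Agent.S0763
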