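import Cfsg.Statements.S0764
import Cfsg.Agent.H12.TvBridge
-- import your own Cfsg.Agent.* helpers here

set_option autoImplicit false
set_option maxHeartbeats 400000
open Cfsg

namespace Cfsg.Agent.S0764

/-- Symplectic transvections are isometries: for every vector v and scalar c the matrix of x ↦ x + c f(x, v) v lies in the symplectic group. -/
theorem result {F : Type*} [Field F] (m : ℕ) (v : Fin m ⊕ Fin m → F) (c : F) : Cfsg.sympTransvection m v c ∈ Matrix.symplecticGroup (Fin m) F := by
  rw [H11.mem_symplecticGroup_iff]
  intro x y
  rw [H12.sympTransvection_mulVec, H12.sympTransvection_mulVec]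
  exact (H11.tv (H11.spForm (Fin m) F) (H12.alt_N v) (H11.tvOk_alt (-c))).2.1 x y

end Cfsg.Agent.S0764
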