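import Cfsg.Statements.S0767
import Cfsg.Agent.H12.TvBridge
-- import your own Cfsg.Agent.* helpers here

set_option autoImplicit false
set_option maxHeartbeats 400000
open Cfsg

namespace Cfsg.Agent.S0767

/-- The root group of a point: T_v(c) T_v(d) = T_v(c + d), and for A in the symplectic group with A v = a v, the conjugate A T_v(c) A⁻¹ is again some T_v(d). -/
theorem result {F : Type*} [Field F] (m : ℕ) (v : Fin m ⊕ Fin m → F) : (∀ c d : F, Cfsg.sympTransvection m v c * Cfsg.sympTransvection m v d = Cfsg.sympTransvection m v (c + d)) ∧ ∀ (A : Matrix (Fin m ⊕ Fin m) (Fin m ⊕ Fin m) F) (a : F), A ∈ Matrix.symplecticGroup (Fin m) F → A.mulVec v = a • v → ∀ c : F, ∃ d : F, A * Cfsg.sympTransvection m v c * A⁻¹ = Cfsg.sympTransvection m v d := by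
  constructor
  · intro c d
    refine H12.matrix_ext_mulVec fun x => ?_
    simp only [← Matrix.mulVec_mulVec, H12.sympTransvection_mulVec, map_add, map_smul,
      H12.alt_B_self]
    module
  · intro A a hA hv c
    refine ⟨a * a * c, H12.matrix_ext_mulVec fun x => ?_⟩
    have hu : IsUnit A.det := SymplecticGroup.symplectic_det hA
    have h1 : A.mulVec (A⁻¹.mulVec x) = x := by
      rw [Matrix.mulVec_mulVec, Matrix.mul_nonsing_inv _ hu, Matrix.one_mulVec]
    have h2 := (H11.mem_symplecticGroup_iff A).1 hA v (A⁻¹.mulVec x)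
    rw [h1, hv, H12.alt_B_smul_left] at h2
    rw [← Matrix.mulVec_mulVec, ← Matrix.mulVec_mulVec, H12.sympTransvection_mulVec,
      H12.sympTransvection_mulVec, Matrix.mulVec_add, h1, Matrix.mulVec_smul, hv, ← h2]
    module

end Cfsg.Agent.S0767
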