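import Cfsg.Statements.S0768
import Cfsg.Agent.H11.SpSimple

set_option autoImplicit false
open scoped LinearAlgebra.Projectivization
open Cfsg

namespace Cfsg.Agent.S0768

/-- Primitivity: for m ≥ 1 and F finite, the symplectic group of the form sympForm (as a subgroup of the general linear group) acts primitively on the projective space of F^(2m). -/
theorem result {F : Type*} [Field F] [Finite F] (m : ℕ) (hm : 1 ≤ m) : MulAction.IsPreprimitive ↥(Cfsg.spGL m F) (ℙ F (Fin m ⊕ Fin m → F)) := by
  have h := H11.alt_isPreprimitive (H11.spForm_nondeg (ι := Fin m) (F := F))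
  let φ : (⊤ : Subgroup (H11.spForm (Fin m) F).isom) → Cfsg.spGL m F := fun g =>
    H11.spEquivSpGL m (H11.spEquivIsom.symm g.1)
  let f : H11.singPts (H11.spForm (Fin m) F) →ₑ[φ] ℙ F (Fin m ⊕ Fin m → F) :=
    { toFun := Subtype.val
      map_smul' := fun g p => by
        obtain ⟨p, hp⟩ := p
        obtain ⟨g, hg⟩ := g
        obtain ⟨g, rfl⟩ := H11.spEquivIsom.surjective g
        simp only [φ, MulEquiv.symm_apply_apply]
        induction p using Projectivization.ind
        rfl }
  exact MulAction.IsPreprimitive.of_surjective (f := f) fun p => ⟨⟨p, rfl⟩, rfl⟩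

end Cfsg.Agent.S0768
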