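import Cfsg.Statements.S0769
import Cfsg.Agent.H12.GeoBridge
-- import your own Cfsg.Agent.* helpers here

set_option autoImplicit false
set_option maxHeartbeats 400000
open Cfsg

namespace Cfsg.Agent.S0769

/-- Order of the Borel subgroup of GL_n(q): the invertible lower-triangular n × n matrices over a field with q elements number q^(n(n-1)/2) (q-1)^n (unitriangular part times the diagonal torus). -/
theorem result {F : Type*} [Field F] [Fintype F] {q : ℕ} (hF : Fintype.card F = q) (n : ℕ) : Nat.card {g : Matrix.GeneralLinearGroup (Fin n) F // ∀ i j : Fin n, i < j → (g : Matrix (Fin n) (Fin n) F) i j = 0} = q ^ (n * (n - 1) / 2) * (q - 1) ^ n := by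
  classical
  have e : {g : Matrix.GeneralLinearGroup (Fin n) F // ∀ i j : Fin n, i < j →
      (g : Matrix (Fin n) (Fin n) F) i j = 0} ≃ ∀ i : Fin n, Fˣ × (Finset.Iio i → F) :=
    { toFun := fun g i => (Units.mk0 (g.1.1 i i) (by
          have h1 := Matrix.det_of_lowerTriangular g.1.1 fun i j h => g.2 i j h
          have h2 := g.1.det_ne_zero
          rw [h1] at h2
          exact Finset.prod_ne_zero_iff.1 h2 i (Finset.mem_univ i)), fun j => g.1.1 i j)
      invFun := fun a => ⟨Matrix.GeneralLinearGroup.mkOfDetNeZero (Matrix.of fun i j =>
          if h : j < i then (a i).2 ⟨j, Finset.mem_Iio.2 h⟩ else if j = i then (a i).1 else 0) (by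
          rw [Matrix.det_of_lowerTriangular]
          · simp [Finset.prod_ne_zero_iff]
          · intro i j h
            have h : i < j := h
            simp [h.not_gt, h.ne']), fun i j h => by simp [h.not_gt, h.ne']⟩
      left_inv := fun g => Subtype.ext (Units.ext (by
        ext i j
        rcases lt_trichotomy i j with h | rfl | h
        · simp [h.not_gt, h.ne', g.2 i j h]
        · simp
        · simp [h]))
      right_inv := fun a => funext fun i => Prod.ext (Units.ext (by simp)) (funext fun j => by
        simp [Finset.mem_Iio.1 j.2]) }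
  rw [Nat.card_congr e, Nat.card_pi]
  simp only [Nat.card_eq_fintype_card, Fintype.card_prod, Fintype.card_units, hF, Fintype.card_fun,
    Fintype.card_coe, Fin.card_Iio, Finset.prod_mul_distrib, Finset.prod_const, Finset.card_univ,
    Fintype.card_fin, Finset.prod_pow_eq_pow_sum]
  rw [mul_comm, Fin.sum_univ_eq_sum_range (fun i => i), Finset.sum_range_id]

end Cfsg.Agent.S0769
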