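import Cfsg.Statements.S0770
-- import your own Cfsg.Agent.* helpers here

set_option autoImplicit false
set_option maxHeartbeats 400000
open Cfsg

namespace Cfsg.Agent.S0770

theorem mem_range {F : Type*} [Field F] {n : ℕ} (g : Matrix.GeneralLinearGroup (Fin n) F) :
    g ∈ (Units.map (Matrix.diagonalRingHom (Fin n) F).toMonoidHom).range ↔
      ∀ i j, i ≠ j → g.1 i j = 0 := by
  constructor
  · rintro ⟨d, rfl⟩ i j hij
    exact Matrix.diagonal_apply_ne _ hij
  · intro h
    have h1 : g.1 = Matrix.diagonal fun i => g.1 i i := by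
      ext i j
      by_cases hij : i = j
      · subst hij; simp
      · rw [h i j hij, Matrix.diagonal_apply_ne _ hij]
    have h2 : ∀ i, g.1 i i ≠ 0 := by
      have := g.det_ne_zero
      rw [h1, Matrix.det_diagonal] at this
      exact fun i => Finset.prod_ne_zero_iff.1 this i (Finset.mem_univ i)
    refine ⟨⟨fun i => g.1 i i, fun i => (g.1 i i)⁻¹, funext fun i => mul_inv_cancel₀ (h2 i),
      funext fun i => inv_mul_cancel₀ (h2 i)⟩, Units.ext h1.symm⟩

theorem conj_mem {F : Type*} [Field F] {n : ℕ} (g : Matrix.GeneralLinearGroup (Fin n) F)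
    (h : ∀ i : Fin n, ∃! j : Fin n, (g : Matrix (Fin n) (Fin n) F) i j ≠ 0) (d)
    (hd : d ∈ (Units.map (Matrix.diagonalRingHom (Fin n) F).toMonoidHom).range) :
    g * d * g⁻¹ ∈ (Units.map (Matrix.diagonalRingHom (Fin n) F).toMonoidHom).range := by
  obtain ⟨d, rfl⟩ := hd
  choose σ hσ hσ' using h
  refine ⟨⟨fun i => d.1 (σ i), fun i => (d⁻¹).1 (σ i), funext fun i => congrFun d.mul_inv (σ i),
    funext fun i => congrFun d.inv_mul (σ i)⟩, ?_⟩
  rw [eq_mul_inv_iff_mul_eq]
  refine Units.ext ?_
  ext i j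
  change (Matrix.diagonal (fun i => d.1 (σ i)) * g.1) i j = (g.1 * Matrix.diagonal d.1) i j
  rw [Matrix.diagonal_mul, Matrix.mul_diagonal]
  by_cases hj : g.1 i j = 0
  · simp [hj]
  · rw [hσ' i j hj, mul_comm]

/-- For a field with at least 3 elements, an invertible matrix normalises the subgroup of invertible diagonal matrices of GL_n if and only if it is monomial (exactly one non-zero entry in each row). -/
theorem result {F : Type*} [Field F] (hF : ∃ a : F, a ≠ 0 ∧ a ≠ 1) (n : ℕ) (g : Matrix.GeneralLinearGroup (Fin n) F) : g ∈ Subgroup.normalizer ((Units.map (Matrix.diagonalRingHom (Fin n) F).toMonoidHom).range : Subgroup (Matrix.GeneralLinearGroup (Fin n) F)) ↔ ∀ i : Fin n, ∃! j : Fin n, (g : Matrix (Fin n) (Fin n) F) i j ≠ 0 := by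
  obtain ⟨a, ha0, ha1⟩ := hF
  have row : ∀ (g : Matrix.GeneralLinearGroup (Fin n) F) (i : Fin n), ∃ j, g.1 i j ≠ 0 := by
    intro g i
    by_contra h
    push Not at h
    exact g.det_ne_zero (Matrix.det_eq_zero_of_row_eq_zero i h)
  constructor
  · intro hg i
    obtain ⟨j, hj⟩ := row g i
    refine ⟨j, hj, fun k hk => ?_⟩
    by_contra hkj
    let d : (Fin n → F)ˣ := ⟨fun l => if l = j then a else 1, fun l => if l = j then a⁻¹ else 1,
      funext fun l => by by_cases h : l = j <;> simp [h, ha0],
      funext fun l => by by_cases h : l = j <;> simp [h, ha0]⟩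
    obtain ⟨d', hd'⟩ := (Subgroup.mem_normalizer_iff.1 hg _).1 ⟨d, rfl⟩
    rw [eq_mul_inv_iff_mul_eq] at hd'
    have h1 : ∀ l, d'.1 i * g.1 i l = g.1 i l * d.1 l := fun l => by
      have : (Matrix.diagonal d'.1 * g.1) i l = (g.1 * Matrix.diagonal d.1) i l :=
        congrArg (fun x : Matrix.GeneralLinearGroup (Fin n) F => x.1 i l) hd'
      rwa [Matrix.diagonal_mul, Matrix.mul_diagonal] at this
    have h2 := h1 j
    have h3 := h1 k
    simp only [d, if_true, if_neg hkj, mul_one] at h2 h3
    rw [mul_comm] at h2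
    have h4 := mul_left_cancel₀ hj h2
    rw [h4] at h3
    exact ha1 (mul_right_cancel₀ hk (h3.trans (one_mul _).symm))
  · intro h
    have h' : ∀ i : Fin n, ∃! j : Fin n, (g⁻¹).1 i j ≠ 0 := by
      choose σ hσ hσ' using h
      have hsurj : Function.Surjective σ := fun j => by
        by_contra hj
        push Not at hj
        refine g.det_ne_zero (Matrix.det_eq_zero_of_column_eq_zero j fun i => ?_)
        by_contra hi
        exact hj i (hσ' i j hi).symm
      have key : ∀ i k, (g⁻¹).1 (σ i) k ≠ 0 → k = i := fun i k hk => by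
        by_contra hki
        have := congrFun (congrFun g.mul_inv i) k
        rw [Matrix.mul_apply, Finset.sum_eq_single (σ i), Matrix.one_apply_ne (Ne.symm hki)] at this
        · exact mul_ne_zero (hσ i) hk this
        · intro l _ hl
          by_cases h0 : g.1 i l = 0
          · rw [h0, zero_mul]
          · exact absurd (hσ' i l h0) hl
        · simp
      intro j
      obtain ⟨i, rfl⟩ := hsurj j
      obtain ⟨k, hk⟩ := row g⁻¹ (σ i)
      exact ⟨k, hk, fun l hl => (key i l hl).trans (key i k hk).symm⟩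
    rw [Subgroup.mem_normalizer_iff]
    intro d
    refine ⟨conj_mem g h d, fun hd => ?_⟩
    have := conj_mem g⁻¹ h' _ hd
    simpa [mul_assoc] using this

end Cfsg.Agent.S0770
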