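import Cfsg.Statements.S0771
import Cfsg.Agent.H12.GeoBridge
import Cfsg.Agent.H12.StabBridge
-- import your own Cfsg.Agent.* helpers here

set_option autoImplicit false
set_option maxHeartbeats 400000
open Cfsg

namespace Cfsg.Agent.S0771

theorem card_glStab {F V : Type*} [Field F] [AddCommGroup V] [Module F V] [FiniteDimensional F V]
    {W U : Submodule F V} (h : IsCompl U W) :
    Nat.card (H12.glStab W) = Nat.card ((U →ₗ[F] W) × (W ≃ₗ[F] W) × (U ≃ₗ[F] U)) := by
  let e := Submodule.prodEquivOfIsCompl U W h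
  have he : ∀ x : U × W, e x ∈ W ↔ x.1 = 0 := fun x => by
    change (x.1 : V) + x.2 ∈ W ↔ _
    rw [W.add_mem_iff_left x.2.2]
    exact ⟨fun h1 => Subtype.ext (Submodule.disjoint_def.1 h.disjoint _ x.1.2 h1),
      fun h1 => by simp [h1]⟩
  symm
  refine Nat.card_eq_of_bijective (fun x => ⟨e.symm.trans ((x.2.2.skewProd x.2.1 x.1).trans e),
    fun v => ?_⟩) ⟨?_, ?_⟩
  · obtain ⟨v, rfl⟩ := e.surjective v
    simp [he]
  · rintro ⟨a, b, c⟩ ⟨a', b', c'⟩ H
    have H' : ∀ x, c.skewProd b a x = c'.skewProd b' a' x := fun x => by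
      simpa using LinearEquiv.congr_fun (congrArg Subtype.val H) (e x)
    have h1 : b = b' := LinearEquiv.ext fun w => by simpa using H' (0, w)
    have h2 : c = c' := LinearEquiv.ext fun u => by simpa using congrArg Prod.fst (H' (u, 0))
    have h3 : a = a' := LinearMap.ext fun u => by simpa using congrArg Prod.snd (H' (u, 0))
    rw [h1, h2, h3]
  · rintro ⟨g, hg⟩
    let g' := e.trans (g.trans e.symm)
    have hg' : ∀ x, (g' x).1 = 0 ↔ x.1 = 0 := fun x => by
      rw [← he, ← he, hg (e x)]; simp [g']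
    let c : U →ₗ[F] U := (LinearMap.fst F U W).comp (g'.toLinearMap.comp (LinearMap.inl F U W))
    let b : W →ₗ[F] W := (LinearMap.snd F U W).comp (g'.toLinearMap.comp (LinearMap.inr F U W))
    have hc : Function.Injective c := (injective_iff_map_eq_zero c).2 fun u hu => (hg' (u, 0)).1 hu
    have hb : Function.Injective b := (injective_iff_map_eq_zero b).2 fun w hw => by
      have : g' (0, w) = 0 := Prod.ext ((hg' (0, w)).2 rfl) hw
      simpa using this
    refine ⟨((LinearMap.snd F U W).comp (g'.toLinearMap.comp (LinearMap.inl F U W)),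
      LinearEquiv.ofInjectiveEndo b hb, LinearEquiv.ofInjectiveEndo c hc),
      Subtype.ext (LinearEquiv.ext fun v => ?_)⟩
    obtain ⟨⟨u, w⟩, rfl⟩ := e.surjective v
    have h1 : g (e (u, w)) = e (g' (u, 0) + g' (0, w)) := by simp [← map_add, g']
    simp only [LinearEquiv.trans_apply, LinearEquiv.symm_apply_apply, h1]
    congr 1
    refine Prod.ext ?_ (add_comm _ _)
    change (g' (u, 0)).1 = (g' (u, 0)).1 + (g' (0, w)).1
    rw [(hg' (0, w)).2 rfl, add_zero]

/-- Maximal parabolic of GL_n(q): the stabiliser of the coordinate subspace spanned by the first k basis vectors has order q^(k(n-k)) · |GL_k(q)| · |GL_(n-k)(q)| (unipotent radical of order q^(k(n-k)) and Levi complement GL_k × GL_(n-k)). -/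
theorem result {F : Type*} [Field F] [Fintype F] {q : ℕ} (hF : Fintype.card F = q) (n k : ℕ) (hk : k ≤ n) : Nat.card ↥(Cfsg.stabilizing (Cfsg.glToMat (Fin n) F) {v : Fin n → F | ∀ i : Fin n, k ≤ (i : ℕ) → v i = 0}) = q ^ (k * (n - k)) * (∏ i : Fin k, (q ^ k - q ^ (i : ℕ))) * ∏ i : Fin (n - k), (q ^ (n - k) - q ^ (i : ℕ)) := by
  subst hF
  obtain ⟨U, hU⟩ := (H12.coordSub F n k).exists_isCompl
  have h1 := H12.finrank_coordSub (F := F) hk
  have h2 := Submodule.finrank_add_eq_of_isCompl hU
  have h3 : Module.finrank F U = n - k := by simp at h2; omega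
  have h4 : Nat.card ↥(Cfsg.stabilizing (Cfsg.glToMat (Fin n) F)
      {v : Fin n → F | ∀ i : Fin n, k ≤ (i : ℕ) → v i = 0}) =
      Nat.card (H12.glStab (H12.coordSub F n k)) :=
    Nat.card_congr (H12.subCongr (H12.glEquiv (Fin n) F) _ _ fun g => Iff.rfl).toEquiv
  rw [h4, card_glStab hU.symm, Nat.card_prod, Nat.card_prod, H12.card_linearEquiv _ h1,
    H12.card_linearEquiv _ h3, H11.card_module (F := F), Module.finrank_linearMap, h1, h3,
    mul_comm (n - k) k, mul_assoc]

end Cfsg.Agent.S0771
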