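import Cfsg.Statements.S0772
import Cfsg.Agent.H12.GeoBridge
-- import your own Cfsg.Agent.* helpers here

set_option autoImplicit false
set_option maxHeartbeats 400000
open Cfsg

namespace Cfsg.Agent.S0772

/-- Maximal parabolics are maximal: over a finite field, for 0 < k < n the stabiliser in GL_n of the span of the first k coordinate vectors is a maximal proper subgroup. -/
theorem result {F : Type*} [Field F] [Finite F] (n k : ℕ) (hk0 : 0 < k) (hkn : k < n) : IsCoatom (Cfsg.stabilizing (Cfsg.glToMat (Fin n) F) {v : Fin n → F | ∀ i : Fin n, k ≤ (i : ℕ) → v i = 0}) := by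
  have hk := H12.finrank_coordSub (F := F) hkn.le
  have h0 : H12.coordSub F n k ≠ ⊥ := H12.ne_bot_of_finrank_pos (by omega)
  have h1 : H12.coordSub F n k ≠ ⊤ := H12.ne_top_of_finrank_lt (by simp; omega)
  have : Cfsg.Geo.IsMaximalIn ⊤ (H12.glStab (H12.coordSub F n k)) := by
    refine H12.isMaximalIn_of _ _ le_top (fun h => H12.not_SLV_le_glStab h0 h1 (le_top.trans h))
      fun M h2 _ g hg hg' k _ => ?_
    have h3 := H12.SLV_le_of_glStab (inf_le_left.trans h2) hg hg'
    obtain ⟨s, hs, e⟩ := H12.exists_glStab_det h0 (LinearEquiv.det k)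
    have : k * s⁻¹ ∈ H12.SLV F (Fin n → F) := by
      rw [H12.SLV, MonoidHom.mem_ker, map_mul, map_inv, e, mul_inv_cancel]
    exact (M.mul_mem_cancel_right (M.inv_mem (h2 hs))).1 (h3 this)
  have h2 := H12.isMaximalIn_comap (H12.glEquiv (Fin n) F) this
  rw [Subgroup.comap_top] at h2
  exact ⟨h2.1.ne, fun M hM => (h2.2 M hM.le le_top).resolve_left hM.ne'⟩

end Cfsg.Agent.S0772
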