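import Cfsg.Statements.S0773
import Cfsg.Agent.H12.GeoBridge
import Cfsg.Agent.H12.StabBridge
-- import your own Cfsg.Agent.* helpers here

set_option autoImplicit false
set_option maxHeartbeats 400000
open Cfsg

namespace Cfsg.Agent.S0773

open Matrix in
/-- Inverse transpose. -/
def invT (ι : Type) [Fintype ι] [DecidableEq ι] (F : Type*) [Field F] : GL ι F ≃* GL ι F where
  toFun g := ⟨(g⁻¹).1ᵀ, g.1ᵀ, by rw [← transpose_mul]; simp, by rw [← transpose_mul]; simp⟩
  invFun g := ⟨(g⁻¹).1ᵀ, g.1ᵀ, by rw [← transpose_mul]; simp, by rw [← transpose_mul]; simp⟩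
  left_inv g := Units.ext rfl
  right_inv g := Units.ext rfl
  map_mul' a b := Units.ext (by
    change ((a * b)⁻¹).1ᵀ = (a⁻¹).1ᵀ * (b⁻¹).1ᵀ
    rw [_root_.mul_inv_rev, Units.val_mul, transpose_mul])

theorem mem_iff {F : Type*} [Field F] {n k : ℕ} (g : GL (Fin n) F) :
    g ∈ Cfsg.Geo.subspaceStabilizer (H12.coordSub F n k) ↔
      ∀ i j : Fin n, k ≤ (i : ℕ) → (j : ℕ) < k → g.1 i j = 0 := by
  constructor
  · intro h i j hi hj
    have := (h (Pi.single j 1)).1 (fun l hl => Pi.single_eq_of_ne (by rintro rfl; omega) _) i hi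
    simpa using this
  · intro h
    refine H12.mem_glStab_of_mapsTo (W := H12.coordSub F n k) (g := H12.glEquiv _ F g)
      fun v hv i hi => ?_
    change ∑ j, g.1 i j * v j = 0
    refine Finset.sum_eq_zero fun j _ => ?_
    by_cases hj : (j : ℕ) < k
    · rw [h i j hi hj, zero_mul]
    · rw [hv j (by omega), mul_zero]

/-- The stabilisers in GL_n(F), F finite, of the coordinate subspaces of dimensions k and n − k are isomorphic groups, but when 2k ≠ n (and 0 < k < n) no element of GL_n conjugates one onto the other. -/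
theorem result {F : Type*} [Field F] [Finite F] (n k : ℕ) (hk0 : 0 < k) (hkn : k < n) (h2 : 2 * k ≠ n) : Nonempty (↥(Cfsg.stabilizing (Cfsg.glToMat (Fin n) F) {v : Fin n → F | ∀ i : Fin n, k ≤ (i : ℕ) → v i = 0}) ≃* ↥(Cfsg.stabilizing (Cfsg.glToMat (Fin n) F) {v : Fin n → F | ∀ i : Fin n, n - k ≤ (i : ℕ) → v i = 0})) ∧ ∀ g : Matrix.GeneralLinearGroup (Fin n) F, (Cfsg.stabilizing (Cfsg.glToMat (Fin n) F) {v : Fin n → F | ∀ i : Fin n, k ≤ (i : ℕ) → v i = 0}).map (MulAut.conj g).toMonoidHom ≠ Cfsg.stabilizing (Cfsg.glToMat (Fin n) F) {v : Fin n → F | ∀ i : Fin n, n - k ≤ (i : ℕ) → v i = 0} := by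
  constructor
  · let e : GL (Fin n) F ≃* GL (Fin n) F := (invT (Fin n) F).trans (Cfsg.Geo.glReindex Fin.revPerm)
    have key : ∀ g, g ∈ Cfsg.Geo.subspaceStabilizer (H12.coordSub F n k) ↔
        e g ∈ Cfsg.Geo.subspaceStabilizer (H12.coordSub F n (n - k)) := by
      intro g
      rw [← Subgroup.inv_mem_iff, mem_iff, mem_iff]
      change _ ↔ ∀ i j : Fin n, _ → _ → (g⁻¹).1 j.rev i.rev = 0
      constructor
      · intro h i j hi hj
        exact h _ _ (by rw [Fin.val_rev]; omega) (by rw [Fin.val_rev]; omega)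
      · intro h i j hi hj
        have := h j.rev i.rev (by rw [Fin.val_rev]; omega) (by rw [Fin.val_rev]; omega)
        simpa only [Fin.rev_rev] using this
    exact ⟨H12.subCongr e _ _ key⟩
  · intro g hg
    have h1 := H12.finrank_coordSub (F := F) hkn.le
    have h3 := H12.finrank_coordSub (F := F) (Nat.sub_le n k)
    have h4 : Module.finrank F ((H12.coordSub F n k).map (H12.glEquiv _ F g).toLinearMap) = k := by
      rw [LinearEquiv.finrank_map_eq, h1]
    have := H12.eq_of_glStab_le (W := H12.coordSub F n (n - k))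
      (W' := (H12.coordSub F n k).map (H12.glEquiv _ F g).toLinearMap)
      (H12.ne_bot_of_finrank_pos (by omega)) (H12.ne_top_of_finrank_lt (by simp; omega))
      (H12.ne_bot_of_finrank_pos (by omega)) (H12.ne_top_of_finrank_lt (by simp; omega)) (by
        rintro s ⟨hs, -⟩
        obtain ⟨s, rfl⟩ := (H12.glEquiv (Fin n) F).surjective s
        have : s ∈ Cfsg.stabilizing (Cfsg.glToMat (Fin n) F)
          {v : Fin n → F | ∀ i : Fin n, n - k ≤ (i : ℕ) → v i = 0} := hs
        rw [← hg] at this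
        obtain ⟨t, ht, rfl⟩ := this
        simp only [MulEquiv.toMonoidHom_eq_coe, MonoidHom.coe_coe, MulAut.conj_apply, map_mul,
          map_inv]
        exact H12.conj_mem_glStab.2 ht)
    rw [this] at h3
    omega

end Cfsg.Agent.S0773
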