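import Cfsg.Statements.S0774
import Cfsg.Agent.H12.SpMat
import Cfsg.Agent.S0769
-- import your own Cfsg.Agent.* helpers here

set_option autoImplicit false
set_option maxHeartbeats 400000
open Cfsg

namespace Cfsg.Agent.S0774

/-- Borel subgroup of the symplectic group: the elements of Sp_2m(q) stabilising each of the totally isotropic coordinate subspaces ⟨e_0, ..., e_k⟩ (k < m) form a subgroup of order q^(m²) (q − 1)^m. -/
theorem result {F : Type*} [Field F] [Fintype F] {q : ℕ} (hF : Fintype.card F = q) (m : ℕ) : Nat.card ↥(⨅ k : Fin m, Cfsg.stabilizing (Cfsg.spToMat m F) {v : Fin m ⊕ Fin m → F | (∀ i : Fin m, (k : ℕ) < (i : ℕ) → v (Sum.inl i) = 0) ∧ ∀ i : Fin m, v (Sum.inr i) = 0}) = q ^ (m ^ 2) * (q - 1) ^ m := by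
  open Matrix in
  have key : ∀ g : Matrix.symplecticGroup (Fin m) F, g ∈ (⨅ k : Fin m, Cfsg.stabilizing
      (Cfsg.spToMat m F) {v : Fin m ⊕ Fin m → F | (∀ i : Fin m, (k : ℕ) < (i : ℕ) →
        v (Sum.inl i) = 0) ∧ ∀ i : Fin m, v (Sum.inr i) = 0}) ↔
      (∀ i j : Fin m, j < i → g.1 (.inl i) (.inl j) = 0) ∧ ∀ i j, g.1 (.inr i) (.inl j) = 0 := by
    intro g
    rw [Subgroup.mem_iInf]
    constructor
    · intro h
      have h1 := fun j => (h j (Pi.single (.inl j) 1)).1 ⟨fun i hi => Pi.single_eq_of_ne (by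
        rintro ⟨⟩; omega) _, fun i => by simp⟩
      exact ⟨fun i j hij => by simpa using (h1 j).1 i hij, fun i j => by simpa using (h1 j).2 i⟩
    · rintro ⟨h1, h2⟩ k
      refine H12.mem_stabilizing_of_mapsTo _ ?_
      rintro v ⟨h3, h4⟩
      refine ⟨fun i hi => ?_, fun i => ?_⟩
      · change ∑ j, g.1 _ j * v j = 0
        refine Finset.sum_eq_zero ?_
        rintro (j | j) -
        · by_cases hj : j < i
          · rw [h1 i j hj, zero_mul]
          · rw [h3 j (by omega), mul_zero]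
        · rw [h4, mul_zero]
      · change ∑ j, g.1 _ j * v j = 0
        refine Finset.sum_eq_zero ?_
        rintro (j | j) -
        · rw [h2, zero_mul]
        · rw [h4, mul_zero]
  let tr : GL (Fin m) F → GL (Fin m) F := fun X => ⟨X.1ᵀ, (X⁻¹).1ᵀ,
    by rw [← transpose_mul, Units.inv_mul, transpose_one],
    by rw [← transpose_mul, Units.mul_inv, transpose_one]⟩
  have h := Nat.card_eq_of_bijective (fun x : {g : GL (Fin m) F // ∀ i j : Fin m, i < j →
      (g : Matrix (Fin m) (Fin m) F) i j = 0} × {S : Matrix (Fin m) (Fin m) F // Sᵀ = S} =>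
      (⟨H12.spBlock (tr x.1.1) x.2.1 x.2.2, (key _).2 ⟨fun i j h => x.1.2 j i h, fun i j => rfl⟩⟩ :
        (⨅ k : Fin m, Cfsg.stabilizing (Cfsg.spToMat m F) {v : Fin m ⊕ Fin m → F |
          (∀ i : Fin m, (k : ℕ) < (i : ℕ) → v (Sum.inl i) = 0) ∧ ∀ i : Fin m, v (Sum.inr i) = 0} :
            Subgroup _))) ⟨by
      rintro ⟨X, S⟩ ⟨X', S'⟩ h
      obtain ⟨h1, h2⟩ := H12.spBlock_inj S.2 S'.2 (congrArg Subtype.val h)
      exact Prod.ext (Subtype.ext (Units.ext (transpose_injective (congrArg Units.val h1))))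
        (Subtype.ext h2), by
      rintro ⟨g, hg⟩
      obtain ⟨h1, h2⟩ := (key g).1 hg
      obtain ⟨X, S, hS, rfl⟩ := H12.exists_spBlock g h2
      exact ⟨(⟨tr X, fun i j h => h1 j i h⟩, ⟨S, hS⟩), rfl⟩⟩
  rw [← h, Nat.card_prod, Cfsg.Agent.S0769.result hF, H12.card_symm, hF, Fintype.card_fin,
    mul_right_comm, ← pow_add]
  congr 2
  rw [Nat.choose_two_right, Nat.add_sub_cancel]
  have h1 := Nat.two_mul_div_two_of_even (Nat.even_mul_pred_self m)
  have h2 := Nat.two_mul_div_two_of_even (mul_comm m (m + 1) ▸ Nat.even_mul_succ_self m)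
  rcases m with _ | m
  · rfl
  · rw [Nat.add_sub_cancel] at *
    nlinarith

end Cfsg.Agent.S0774
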