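import Cfsg.Statements.S0775
import Cfsg.Agent.H12.StabBridge
-- import your own Cfsg.Agent.* helpers here

set_option autoImplicit false
set_option maxHeartbeats 400000
open Cfsg

namespace Cfsg.Agent.S0775

/-- Maximal parabolics of the symplectic group: if W is a k-dimensional subspace of F^(2m) on which the symplectic form vanishes identically, its stabiliser in Sp_2m(q) has order q^(k(k+1)/2 + 2k(m−k)) · |Sp_(2m−2k)(q)| · |GL_k(q)|. -/
theorem result {F : Type*} [Field F] [Fintype F] {q : ℕ} (hF : Fintype.card F = q) (m k : ℕ) (hk : k ≤ m) (W : Submodule F (Fin m ⊕ Fin m → F)) (hWk : Module.finrank F W = k) (hW : ∀ u ∈ W, ∀ v ∈ W, Cfsg.sympForm m F u v = 0) : Nat.card ↥(Cfsg.stabilizing (Cfsg.spToMat m F) (W : Set (Fin m ⊕ Fin m → F))) = q ^ (k * (k + 1) / 2 + 2 * k * (m - k)) * (q ^ ((m - k) ^ 2) * ∏ i ∈ Finset.range (m - k), (q ^ (2 * (i + 1)) - 1)) * ∏ i : Fin k, (q ^ k - q ^ (i : ℕ)) := by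
  subst hF
  obtain ⟨H, h1, -, h2, h3⟩ := H12.card_stab_ts (C := H11.spForm (Fin m) F) H11.spForm_nondeg
    (W := W) ⟨fun _ _ => rfl, fun u hu v hv => (H11.spForm_B_eq m u v).trans (hW u hu v hv)⟩ hWk
  have hd : Module.finrank F (Fin m ⊕ Fin m → F) = 2 * m := by simp [two_mul]
  have h4 := (H11.spForm_nondeg (ι := Fin m) (F := F)).finrank_add_finrank_perp H
  rw [Nat.card_congr (H12.spStabEquiv m W).toEquiv, h3, H11.card_isom_alt (m - k)
    (H11.spForm_nondeg.restrict_perp h1) (by omega), H11.card_ker_altType, ← pow_add, hd, mul_comm]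
  congr 3
  have h5 := H12.two_mul_sum_range_sub (2 * m - k - 1) k (by omega)
  have h6 := Nat.two_mul_div_two_of_even (Nat.even_mul_succ_self k)
  rcases k with _ | k
  · simp
  obtain ⟨d, rfl⟩ := Nat.exists_eq_add_of_le hk
  rw [show 2 * (k + 1 + d) - (k + 1) - 1 = k + 2 * d by omega] at *
  rw [Nat.add_sub_cancel_left]
  nlinarith

end Cfsg.Agent.S0775
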