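import Cfsg.Statements.S0776
import Cfsg.Agent.H12.StabBridge
-- import your own Cfsg.Agent.* helpers here

set_option autoImplicit false
set_option maxHeartbeats 400000
open Cfsg

namespace Cfsg.Agent.S0776

/-- If W ≤ F^(2m) is a 2k-dimensional subspace on which the symplectic form is non-degenerate, then the stabiliser of W in Sp_2m(F) is isomorphic to Sp_2k(F) × Sp_(2m−2k)(F). -/
theorem result {F : Type*} [Field F] (m k : ℕ) (hk : k ≤ m) (W : Submodule F (Fin m ⊕ Fin m → F)) (hWk : Module.finrank F W = 2 * k) (hW : ∀ u ∈ W, (∀ v ∈ W, Cfsg.sympForm m F u v = 0) → u = 0) : Nonempty (↥(Cfsg.stabilizing (Cfsg.spToMat m F) (W : Set (Fin m ⊕ Fin m → F))) ≃* Matrix.symplecticGroup (Fin k) F × Matrix.symplecticGroup (Fin (m - k)) F) := by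
  have hC := H11.spForm_nondeg (ι := Fin m) (F := F)
  have h1 : (H11.spForm (Fin m) F).NondegOn W := fun u hu h =>
    hW u hu fun v hv => (H11.spForm_B_eq m u v).symm.trans (h v hv)
  have hd : Module.finrank F (Fin m ⊕ Fin m → F) = 2 * m := by simp [two_mul]
  have h4 := hC.finrank_add_finrank_perp W
  obtain ⟨e1⟩ := (H12.alt_iso_spForm ((H12.CForm.restrict_nondeg_iff _).2 h1) hWk).isom_equiv
  obtain ⟨e2⟩ := (H12.alt_iso_spForm (hC.restrict_perp h1) (m := m - k) (by omega)).isom_equiv
  exact ⟨(H12.spStabEquiv m W).trans ((hC.stabEquivProd h1).trans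
    ((e1.trans H11.spEquivIsom.symm).prodCongr (e2.trans H11.spEquivIsom.symm)))⟩

end Cfsg.Agent.S0776
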