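import Cfsg.Statements.S0777
import Cfsg.Agent.H12.SpMat
-- import your own Cfsg.Agent.* helpers here

set_option autoImplicit false
set_option maxHeartbeats 400000
open Cfsg

namespace Cfsg.Agent.S0777

open Matrix

variable {F : Type*} [Field F] {m : ℕ}

/-- The torus. -/
abbrev T (F : Type*) [Field F] (m : ℕ) : Subgroup (symplecticGroup (Fin m) F) :=
  ⨅ i : Fin m ⊕ Fin m, Cfsg.stabilizing (Cfsg.spToMat m F) ((Submodule.span F
    {(Pi.single i (1 : F) : Fin m ⊕ Fin m → F)} : Submodule F (Fin m ⊕ Fin m → F)) :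
      Set (Fin m ⊕ Fin m → F))

theorem mem_T [Finite F] {t : symplecticGroup (Fin m) F} :
    t ∈ T F m ↔ ∀ i, ∃ a : F, t.1 *ᵥ Pi.single i 1 = a • Pi.single i 1 := by
  rw [Subgroup.mem_iInf]
  refine forall_congr' fun i => ⟨fun h => ?_, fun ⟨a, ha⟩ => ?_⟩
  · obtain ⟨a, ha⟩ := Submodule.mem_span_singleton.1
      ((h _).1 (Submodule.mem_span_singleton_self _))
    exact ⟨a, ha.symm⟩
  · refine H12.mem_stabilizing_of_mapsTo _ fun v hv => ?_
    obtain ⟨c, rfl⟩ := Submodule.mem_span_singleton.1 hv
    change t.1 *ᵥ _ ∈ _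
    rw [mulVec_smul, ha]
    exact Submodule.smul_mem _ _ (Submodule.smul_mem _ _ (Submodule.mem_span_singleton_self _))

/-- Monomial matrices. -/
def mon {ι : Type} [DecidableEq ι] (π : ι → ι) (c : ι → F) : Matrix ι ι F :=
  of fun i j => if i = π j then c j else 0

theorem mon_single {ι : Type} [Fintype ι] [DecidableEq ι] (π : ι → ι) (c : ι → F) (j : ι) :
    mon π c *ᵥ Pi.single j 1 = c j • Pi.single (π j) 1 := by
  ext i; simp [mon, Pi.single_apply]

theorem mon_mem (π : Fin m ⊕ Fin m → Fin m ⊕ Fin m) (c : Fin m ⊕ Fin m → F) :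
    mon π c ∈ symplecticGroup (Fin m) F ↔
      ∀ i j, c i * J (Fin m) F (π i) (π j) * c j = J (Fin m) F i j := by
  rw [SymplecticGroup.mem_iff', ← Matrix.ext_iff]
  refine forall_congr' fun i => forall_congr' fun j => ?_
  simp only [mul_apply, mon, transpose_apply, of_apply, ite_mul, zero_mul, mul_ite, mul_zero,
    Finset.sum_ite_eq', Finset.mem_univ, if_true]

theorem J_ne_zero {i j : Fin m ⊕ Fin m} : J (Fin m) F i j ≠ 0 ↔ j = i.swap := by
  rcases i with i | i <;> rcases j with j | j <;> simp [J, one_apply, eq_comm]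

theorem mem_N [Finite F] {a : F} (ha0 : a ≠ 0) (ha : a ^ 2 ≠ 1) (g : symplecticGroup (Fin m) F) :
    g ∈ Subgroup.normalizer (T F m : Set (symplecticGroup (Fin m) F)) ↔
      ∃ (π : Equiv.Perm (Fin m ⊕ Fin m)) (c : _ → F), g.1 = mon π c := by
  have hinj := H12.toMat_mulVec_injective (Cfsg.spToMat m F) g
  constructor
  · intro hg
    have h1 : ∀ j, ∃ i, ∀ k, k ≠ i → g.1 k j = 0 := by
      intro j
      obtain ⟨i, hi⟩ : ∃ i, g.1 i j ≠ 0 := by
        by_contra h
        push Not at h
        have : (Pi.single j 1 : _ → F) = 0 := hinj (by ext i; simpa using h i)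
        simpa using congrFun this j
      refine ⟨i, fun k hk => ?_⟩
      by_contra hk0
      let d : Fin m ⊕ Fin m → F := fun l => if l = i then a else if l = i.swap then a⁻¹ else 1
      have hsw : ∀ l : Fin m ⊕ Fin m, l.swap ≠ l := by rintro (l | l) <;> simp
      have hd : mon id d ∈ symplecticGroup (Fin m) F := (mon_mem _ _).2 fun x y => by
        by_cases h : y = x.swap
        · subst h
          have : d x * d x.swap = 1 := by
            by_cases h1 : x = i
            · simp [d, h1, hsw, ha0]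
            by_cases h2 : x = i.swap
            · simp [d, h2, hsw, ha0]
            have h3 : x.swap ≠ i := by rintro rfl; simp at h2
            have h4 : x.swap ≠ i.swap := fun h => h1 (Sum.swap_leftInverse.injective h)
            simp [d, h1, h2, h3, h4]
          rw [mul_right_comm, this, one_mul]; rfl
        · have : J (Fin m) F x y = 0 := by_contra fun h' => h (J_ne_zero.1 h')
          simp [this]
      have ht : (⟨_, hd⟩ : symplecticGroup (Fin m) F) ∈ T F m := mem_T.2 fun l => ⟨_, mon_single _ _ l⟩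
      obtain ⟨b, hb⟩ := mem_T.1 ((Subgroup.mem_normalizer_iff''.1 hg _).1 ht) j
      have h2 : mon id d *ᵥ (g.1 *ᵥ Pi.single j 1) = b • (g.1 *ᵥ Pi.single j 1) := by
        rw [← mulVec_smul, ← hb, mulVec_mulVec, mulVec_mulVec]
        congr 1
        exact congrArg Subtype.val (show (⟨_, hd⟩ * g : symplecticGroup (Fin m) F) =
          g * (g⁻¹ * ⟨_, hd⟩ * g) by group)
      have h3 : ∀ l, d l * g.1 l j = b * g.1 l j := fun l => by
        simpa [mon, mulVec, dotProduct, Pi.single_apply] using congrFun h2 l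
      have h4 := mul_right_cancel₀ hi (h3 i)
      have h5 := mul_right_cancel₀ hk0 (h3 k)
      simp only [d, if_true, if_neg hk] at h4 h5
      rw [← h4] at h5
      apply ha
      split_ifs at h5
      · rw [sq]; nth_rw 1 [← h5]; exact inv_mul_cancel₀ ha0
      · rw [← h5, one_pow]
    choose π hπ using h1
    have h2 : g.1 = mon π fun j => g.1 (π j) j := by
      ext i j
      by_cases h : i = π j
      · simp [mon, h]
      · simp [mon, h, hπ j i h]
    have h3 : Function.Injective π := fun j k h => by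
      by_contra hjk
      have h4 : g.1 *ᵥ (g.1 (π k) k • Pi.single j 1) = g.1 *ᵥ (g.1 (π j) j • Pi.single k 1) := by
        rw [mulVec_smul, mulVec_smul]
        conv_lhs => rw [h2, mon_single]
        conv_rhs => rw [h2, mon_single]
        rw [← h2, h, smul_comm]
      have h5 : g.1 (π k) k = 0 := by simpa [hjk] using congrFun (hinj h4) j
      have h6 : (Pi.single k 1 : _ → F) = 0 := hinj (by
        change g.1 *ᵥ _ = g.1 *ᵥ _
        rw [h2, mon_single, h5]; simp)
      simpa using congrFun h6 k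
    exact ⟨Equiv.ofBijective π (Finite.injective_iff_bijective.1 h3), _, h2⟩
  · rintro ⟨π, c, h⟩
    refine Subgroup.mem_normalizer_fintype fun t ht => mem_T.2 fun i => ?_
    obtain ⟨j, rfl⟩ := π.surjective i
    obtain ⟨b, hb⟩ := mem_T.1 ht j
    have h1 : g.1 *ᵥ Pi.single j 1 = c j • Pi.single (π j) 1 := by rw [h, mon_single]
    have hc : c j ≠ 0 := fun h0 => by
      have h6 : (Pi.single j 1 : _ → F) = 0 := hinj (by
        change g.1 *ᵥ _ = g.1 *ᵥ _
        rw [h1, h0]; simp)
      simpa using congrFun h6 j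
    refine ⟨b, smul_right_injective _ hc ?_⟩
    change c j • _ = c j • _
    rw [← mulVec_smul, ← h1, smul_comm, ← h1, ← mulVec_smul, ← hb, mulVec_mulVec, mulVec_mulVec]
    congr 1
    exact congrArg Subtype.val (show (g * t * g⁻¹ * g : symplecticGroup (Fin m) F) = g * t by group)

/-- The swap involution. -/
def sw (m : ℕ) : Equiv.Perm (Fin m ⊕ Fin m) := Equiv.sumComm _ _

theorem card_cent (m : ℕ) : Nat.card (Subgroup.centralizer {sw m}) = 2 ^ m * m.factorial := by
  haveI : Fact (Nat.Prime 2) := ⟨Nat.prime_two⟩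
  have h1 := Equiv.Perm.cycleType_of_pow_prime_eq_one (σ := sw m) (p := 2) (by
    ext (i | i) <;> rfl)
  have h2 := (sw m).sum_cycleType
  have h3 : (sw m).support = Finset.univ := by
    ext (i | i) <;> simp [sw]
  rw [h3, h1] at h2
  simp only [Multiset.sum_replicate, smul_eq_mul, Finset.card_univ, Fintype.card_sum,
    Fintype.card_fin] at h2
  rw [show (sw m).cycleType.card = m by omega] at h1
  rw [Equiv.Perm.nat_card_centralizer, h1]
  rcases m with _ | m
  · simp
  · rw [Multiset.toFinset_replicate, if_neg (Nat.succ_ne_zero m), Finset.prod_singleton,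
      Multiset.count_replicate_self, Multiset.sum_replicate, Multiset.prod_replicate]
    simp [mul_two]

/-- Weyl group of type C_m: for q ≥ 4 the diagonal matrices of Sp_2m(q) form a torus T ≅ (C_(q−1))^m (the elements stabilising every coordinate axis), and the normaliser of T in Sp_2m(q) has order 2^m · m! · (q − 1)^m. -/
theorem result {F : Type*} [Field F] [Fintype F] {q : ℕ} (hF : Fintype.card F = q) (hq : 4 ≤ q) (m : ℕ) : Nat.card ↥(Subgroup.normalizer (⨅ i : Fin m ⊕ Fin m, Cfsg.stabilizing (Cfsg.spToMat m F) ((Submodule.span F {(Pi.single i (1 : F) : Fin m ⊕ Fin m → F)} : Submodule F (Fin m ⊕ Fin m → F)) : Set (Fin m ⊕ Fin m → F)) : Set (Matrix.symplecticGroup (Fin m) F))) = 2 ^ m * Nat.factorial m * (q - 1) ^ m := by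
  classical
  obtain ⟨a, ha0, ha⟩ : ∃ a : F, a ≠ 0 ∧ a ^ 2 ≠ 1 := by
    by_contra h
    push Not at h
    have : (Finset.univ : Finset F) ⊆ {0, 1, -1} := fun x _ => by
      by_cases hx : x = 0
      · simp [hx]
      · rcases sq_eq_one_iff.1 (h x hx) with h | h <;> simp [h]
    have h1 := Finset.card_le_card this
    have h2 := Finset.card_le_three (a := (0 : F)) (b := 1) (c := -1)
    rw [Finset.card_univ] at h1
    omega
  have hJ : ∀ i : Fin m ⊕ Fin m, J (Fin m) F i i.swap ≠ 0 := fun i => J_ne_zero.2 rfl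
  have hJ' : ∀ i : Fin m ⊕ Fin m, J (Fin m) F i.swap i = - J (Fin m) F i i.swap := by
    rintro (i | i) <;> simp [J]
  let c : Equiv.Perm (Fin m ⊕ Fin m) → (Fin m → Fˣ) → Fin m ⊕ Fin m → F := fun π d =>
    Sum.elim (fun i => d i) fun i => J (Fin m) F (.inl i) (.inr i) /
      (d i * J (Fin m) F (π (.inl i)) (π (.inl i)).swap)
  have hc : ∀ π ∈ Subgroup.centralizer {sw m}, ∀ d, mon π (c π d) ∈ symplecticGroup (Fin m) F := by
    intro π hπ d
    have h1 : ∀ x, π x.swap = (π x).swap := fun x =>
      congrArg (fun f : Equiv.Perm _ => f x) (Subgroup.mem_centralizer_singleton_iff.1 hπ)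
    refine (mon_mem _ _).2 fun x y => ?_
    by_cases h : y = x.swap
    · subst h
      rcases x with x | x
      · have := hJ (π (.inl x))
        rw [h1]
        simp only [c, Sum.elim_inl, Sum.swap_inl, Sum.elim_inr]
        field_simp
      · have := hJ (π (.inl x))
        rw [show π (.inr x) = (π (.inl x)).swap from h1 (.inl x), Sum.swap_inr, hJ',
          show J (Fin m) F (.inr x) (.inl x) = _ from hJ' (.inl x)]
        simp only [c, Sum.elim_inl, Sum.swap_inl, Sum.elim_inr]
        field_simp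
    · have h2 : J (Fin m) F x y = 0 := by_contra fun h' => h (J_ne_zero.1 h')
      have h3 : J (Fin m) F (π x) (π y) = 0 := by_contra fun h' =>
        h (π.injective ((J_ne_zero.1 h').trans (h1 x).symm))
      simp [h2, h3]
  have hc0 : ∀ π d x, c π d x ≠ 0 := by
    rintro π d (x | x)
    · exact (d x).ne_zero
    · exact div_ne_zero (hJ (.inl x)) (mul_ne_zero (d x).ne_zero (hJ _))
  have h := Nat.card_eq_of_bijective (fun x : Subgroup.centralizer {sw m} × (Fin m → Fˣ) =>
    (⟨⟨_, hc x.1.1 x.1.2 x.2⟩, (mem_N ha0 ha _).2 ⟨_, _, rfl⟩⟩ :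
      Subgroup.normalizer (T F m : Set (symplecticGroup (Fin m) F)))) ⟨by
      rintro ⟨⟨π, hπ⟩, d⟩ ⟨⟨π', hπ'⟩, d'⟩ h
      have h1 : mon π (c π d) = mon π' (c π' d') := congrArg (fun x => x.1.1) h
      have h2 : ∀ j, (if π j = π' j then c π' d' j else 0) = c π d j := fun j => by
        simpa [mon] using (congrFun (congrFun h1 (π j)) j).symm
      obtain rfl : π = π' := Equiv.ext fun j => by
        by_contra h3
        exact hc0 π d j (by rw [← h2 j, if_neg h3])
      refine Prod.ext rfl (funext fun i => Units.ext ?_)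
      simpa [c] using (h2 (.inl i)).symm, by
      rintro ⟨g, hg⟩
      obtain ⟨π, e, he⟩ := (mem_N ha0 ha g).1 hg
      have h1 := (mon_mem π e).1 (he ▸ g.2)
      have h2 : ∀ x, π x.swap = (π x).swap := fun x => J_ne_zero.1 fun h0 => hJ x (by
        rw [← h1, h0]; simp)
      have h3 : ∀ x, e x ≠ 0 := fun x h0 => hJ x (by rw [← h1, h0]; simp)
      refine ⟨(⟨π, Subgroup.mem_centralizer_singleton_iff.2 (Equiv.ext h2)⟩,
        fun i => Units.mk0 _ (h3 (.inl i))), Subtype.ext (Subtype.ext ?_)⟩
      rw [he]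
      change mon π (c π _) = _
      congr 1
      ext (x | x)
      · rfl
      · have h4 := h1 (.inl x) (.inr x)
        have h5 := hJ (π (.inl x))
        have h6 := h3 (.inl x)
        rw [show π (.inr x) = (π (.inl x)).swap from h2 (.inl x)] at h4
        simp only [c, Sum.elim_inr, Units.val_mk0, ← h4]
        field_simp⟩
  rw [Set.iInf_eq_iInter, ← Subgroup.coe_iInf]
  refine h.symm.trans ?_
  rw [Nat.card_prod, card_cent, Nat.card_fun, Nat.card_eq_fintype_card, Fintype.card_units, hF]
  simp

end Cfsg.Agent.S0777
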