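import Cfsg.Statements.S0778
import Cfsg.Agent.H12.SpMat
-- import your own Cfsg.Agent.* helpers here

set_option autoImplicit false
set_option maxHeartbeats 400000
open Cfsg

namespace Cfsg.Agent.S0778

/-- The elements of Sp_2m(F) stabilising both W = ⟨e_1..e_m⟩ and U = ⟨f_1..f_m⟩ form a subgroup isomorphic to GL_m(F) (block-diagonal matrices diag(X, X^(−ᵀ)) up to the sign convention of J), for m ≥ 1 or m = 0 alike. -/
theorem result {F : Type*} [Field F] (m : ℕ) : Nonempty (↥(Cfsg.stabilizing (Cfsg.spToMat m F) {v : Fin m ⊕ Fin m → F | ∀ i : Fin m, v (Sum.inr i) = 0} ⊓ Cfsg.stabilizing (Cfsg.spToMat m F) {v : Fin m ⊕ Fin m → F | ∀ i : Fin m, v (Sum.inl i) = 0}) ≃* Matrix.GeneralLinearGroup (Fin m) F) := by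
  open Matrix in
  let f : GL (Fin m) F →* Matrix.symplecticGroup (Fin m) F :=
    { toFun := fun X => H12.spBlock X 0 transpose_zero
      map_one' := Subtype.ext (by simp [H12.spBlock])
      map_mul' := fun X Y => Subtype.ext (by simp [H12.spBlock, fromBlocks_multiply]) }
  have hf : Function.Injective f := fun X Y h => 
    (H12.spBlock_inj Matrix.transpose_zero Matrix.transpose_zero h).1
  refine ⟨(MulEquiv.subgroupCongr ?_).trans (MonoidHom.ofInjective hf).symm⟩
  have key : ∀ (X : GL (Fin m) F) (v : Fin m ⊕ Fin m → F), (Cfsg.spToMat m F (f X)).mulVec v =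
      Sum.elim (X.1.mulVec (v ∘ .inl)) ((X⁻¹).1.transpose.mulVec (v ∘ .inr)) := fun X v => by
    change (Matrix.fromBlocks _ _ _ _).mulVec v = _
    rw [Matrix.fromBlocks_mulVec]; simp
  apply le_antisymm
  · rintro g ⟨h1, h2⟩
    obtain ⟨X, S, hS, rfl⟩ := H12.exists_spBlock g fun i j => by
      simpa using (h1 (Pi.single (.inl j) 1)).1 (fun i => by simp) i
    obtain rfl : S = 0 := by
      rw [← Units.mul_right_eq_zero X]
      ext i j
      simpa [H12.spBlock] using (h2 (Pi.single (.inr j) 1)).1 (fun i => by simp) i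
    exact ⟨X, rfl⟩
  · rintro _ ⟨X, rfl⟩
    constructor
    · refine H12.mem_stabilizing_of_both _ ?_ ?_
      all_goals
        intro v hv i
        simp only [← map_inv f, key, show v ∘ Sum.inr = 0 from funext hv]; simp
    · refine H12.mem_stabilizing_of_both _ ?_ ?_
      all_goals
        intro v hv i
        simp only [← map_inv f, key, show v ∘ Sum.inl = 0 from funext hv]; simp

end Cfsg.Agent.S0778
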