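import Cfsg.Statements.S0779
import Cfsg.Agent.H12.TvBridge
-- import your own Cfsg.Agent.* helpers here

set_option autoImplicit false
set_option maxHeartbeats 400000
open Cfsg

namespace Cfsg.Agent.S0779

/-- Unitary transvections: let |F| = q², h the standard Hermitian form Σ x_i y_i^q and v ≠ 0 with h(v, v) = 0. The linear map x ↦ x + c h(x, v) v is an isometry of h if and only if c = 0 or c^(q−1) = −1. -/
theorem result {F : Type*} [Field F] [Fintype F] {q : ℕ} (hF : Fintype.card F = q ^ 2) (n : ℕ) (v : Fin n → F) (hv : v ≠ 0) (hv0 : Cfsg.hermForm n F q v v = 0) (c : F) : (∀ x y : Fin n → F, Cfsg.hermForm n F q ((Cfsg.unitaryTransvection n q v c).mulVec x) ((Cfsg.unitaryTransvection n q v c).mulVec y) = Cfsg.hermForm n F q x y) ↔ (c = 0 ∨ c ^ (q - 1) = -1) := by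
  have hq := H11.two_le_of_card_sq hF
  have key : c + H11.frob hF c = 0 ↔ (c = 0 ∨ c ^ (q - 1) = -1) := by
    rw [H11.frob_apply]
    conv_lhs => rw [← Nat.sub_add_cancel (show 1 ≤ q by omega), pow_succ]
    rw [show c + c ^ (q - 1) * c = c * (c ^ (q - 1) + 1) by ring, mul_eq_zero,
      add_eq_zero_iff_eq_neg]
  rw [← key]
  constructor
  · intro h
    obtain ⟨x, hx⟩ := (H11.hermC_nondeg (ι := Fin n) hF).exists_eq hv 1
    have h1 := h x x
    rw [← H11.hermC_N_eq hF, ← H11.hermC_N_eq hF, H12.unitaryTransvection_mulVec hF,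
      H12.herm_N_add, (H11.hermC (Fin n) hF).N_smul_of_zero hv0, H12.CForm.B_smul_right,
      H12.herm_symm v x, hx] at h1
    simpa using h1
  · intro h x y
    rw [H12.unitaryTransvection_mulVec hF, H12.unitaryTransvection_mulVec hF]
    exact (H11.tv (H11.hermC (Fin n) hF) (u := v) hv0 (H11.tvOk_herm.2 h)).2.1 y x

end Cfsg.Agent.S0779
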