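import Cfsg.Statements.S0781
import Cfsg.Agent.H12.TvBridge
-- import your own Cfsg.Agent.* helpers here

set_option autoImplicit false
set_option maxHeartbeats 400000
open Cfsg

namespace Cfsg.Agent.S0781

/-- In SU_n(q) with n ≥ 4, or n = 3 and q > 2, every element whose matrix is a unitary transvection x ↦ x + c h(x, v) v (v isotropic) is a commutator ⁅B, C⁆ of two elements of SU_n(q). -/
theorem result {F : Type*} [Field F] [Fintype F] {q : ℕ} (hF : Fintype.card F = q ^ 2) (n : ℕ) (hn : 4 ≤ n ∨ (n = 3 ∧ 3 ≤ q)) (A : ↥(Cfsg.SU n F q)) (v : Fin n → F) (c : F) (hv0 : Cfsg.hermForm n F q v v = 0) (hA : ((A : Matrix.SpecialLinearGroup (Fin n) F) : Matrix (Fin n) (Fin n) F) = Cfsg.unitaryTransvection n q v c) : A ∈ commutatorSet ↥(Cfsg.SU n F q) := by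
  obtain ⟨d, hd, h⟩ := H12.eq_tv_of_apply (H11.hermC_nondeg hF) (H12.suHom hF n A) (v := v) hv0
    (c := c) fun x => by rw [H12.suHom_apply, hA, H12.unitaryTransvection_mulVec hF]
  obtain ⟨g, hg, k, hk, e⟩ := H12.tv_eq_commutator (H11.frob_ne_id hF)
    (H11.hermC_nondeg (ι := Fin n) hF) (by simp; omega) (v := v) hv0 hd
  rw [← H12.range_suHom] at hg hk
  obtain ⟨g, rfl⟩ := hg
  obtain ⟨k, rfl⟩ := hk
  exact ⟨g, k, H12.suHom_injective hF n (by rw [map_commutatorElement, e, h])⟩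

end Cfsg.Agent.S0781
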