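import Cfsg.Statements.S0782
import Cfsg.Agent.H12.StabBridge
-- import your own Cfsg.Agent.* helpers here

set_option autoImplicit false
set_option maxHeartbeats 400000
open Cfsg

namespace Cfsg.Agent.S0782

/-- Maximal parabolics of SU_n(q): if W is a k-dimensional subspace of F^n (n ≥ 1, |F| = q²) on which the Hermitian form vanishes, then (q + 1) times the order of its stabiliser in SU_n(q) equals q^(k(2n−3k)) · |GL_k(q²)| · |GU_(n−2k)(q)|, where |GU_m(q)| = q^(m(m−1)/2) Π_(i=1..m) (q^i − (−1)^i). -/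
theorem result {F : Type*} [Field F] [Fintype F] {q : ℕ} (hF : Fintype.card F = q ^ 2) (n k : ℕ) (hn : 1 ≤ n) (hk : 2 * k ≤ n) (W : Submodule F (Fin n → F)) (hWk : Module.finrank F W = k) (hW : ∀ u ∈ W, ∀ v ∈ W, Cfsg.hermForm n F q u v = 0) : (q + 1) * Nat.card ↥((Cfsg.stabilizing (Cfsg.slToMat n F) (W : Set (Fin n → F))).subgroupOf (Cfsg.SU n F q)) = q ^ (k * (2 * n - 3 * k)) * (∏ i : Fin k, ((q ^ 2) ^ k - (q ^ 2) ^ (i : ℕ))) * (q ^ ((n - 2 * k) * ((n - 2 * k) - 1) / 2) * ∏ i ∈ Finset.range (n - 2 * k), (if Even i then q ^ (i + 1) + 1 else q ^ (i + 1) - 1)) := by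
  have hW' : (H11.hermC (Fin n) hF).TS W := ⟨fun u hu => hW u hu u hu, fun u hu v hv => hW v hv u hu⟩
  obtain ⟨H, h1, -, h2, h3⟩ := H12.card_stab_ts (H11.hermC_nondeg hF) hW' hWk
  have hd : Module.finrank F (Fin n → F) = n := by simp
  have h4 := (H11.hermC_nondeg (ι := Fin n) hF).finrank_add_finrank_perp H
  rw [← Subgroup.card_map_of_injective (H12.suHom_injective hF n), H12.map_suHom_stab,
    H12.card_inf_sisom hF (H11.hermC_nondeg hF), h3, H11.card_isom_herm (n - 2 * k)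
      ((H11.hermC_nondeg hF).restrict_perp h1) (by omega), H11.card_ker_hermT, hF, ← pow_mul q 2 (∑ i ∈ _, _),
      ← pow_add, hd, ← mul_assoc, mul_comm (∏ i : Fin k, _)]
  · congr 3
    have h5 := H12.two_mul_sum_range_sub (n - k - 1) k (by omega)
    rcases k with _ | k
    · simp
    obtain ⟨d, rfl⟩ := Nat.exists_eq_add_of_le hk
    rw [show 2 * (k + 1) + d - (k + 1) - 1 = k + d by omega] at *
    rw [show 2 * (2 * (k + 1) + d) - 3 * (k + 1) = k + 1 + 2 * d by omega]
    nlinarith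
  · intro u hu
    by_cases h0 : W = ⊥
    · obtain ⟨g, rfl⟩ : u ∈ (H11.guDet n F q).range := by
        rw [H11.range_guDet hF hn]; exact hu
      exact ⟨H11.guEquivIsom hF n g, H12.CForm.mem_stab_of_mapsTo fun v hv => by
        rw [h0, Submodule.mem_bot] at hv ⊢; rw [hv, map_zero], H12.det_guEquivIsom hF n g⟩
    · obtain ⟨a, ha, h⟩ := H11.exists_pow_pred_eq hF (c := (u⁻¹ : Fˣ)) (by
        rw [← pow_succ', ← Units.val_pow_eq_pow_val, inv_pow, hu]; simp)
      obtain ⟨g, hg, hg'⟩ := H12.exists_stab_det (H11.hermC_nondeg hF) hW' h0 ha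
      refine ⟨g, hg, Units.ext ?_⟩
      rw [hg', H11.hermT_sigma, h]
      simp [ha]

end Cfsg.Agent.S0782
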