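import Cfsg.Statements.S0783
import Cfsg.Agent.H11.SUBasic
-- import your own Cfsg.Agent.* helpers here

set_option autoImplicit false
set_option maxHeartbeats 400000
open Cfsg

namespace Cfsg.Agent.S0783

/-- PGU_n(q)/PSU_n(q) is cyclic of order (n, q+1): for n ≥ 2 and |F| = q² there is a surjective homomorphism from GU_n(q) onto the cyclic group of order gcd(n, q + 1) whose kernel is generated by the determinant-one elements together with the centre. -/
theorem result {F : Type*} [Field F] [Fintype F] {q : ℕ} (hF : Fintype.card F = q ^ 2) (n : ℕ) (hn : 2 ≤ n) : ∃ φ : ↥(Cfsg.GU n F q) →* Multiplicative (ZMod (Nat.gcd n (q + 1))), Function.Surjective φ ∧ φ.ker = (Matrix.GeneralLinearGroup.det : Matrix.GeneralLinearGroup (Fin n) F →* Fˣ).ker.subgroupOf (Cfsg.GU n F q) ⊔ Subgroup.center ↥(Cfsg.GU n F q) := by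
  classical
  let U : Subgroup Fˣ := (powMonoidHom (q + 1) : Fˣ →* Fˣ).ker
  have hr := H11.range_guDet hF (n := n) (by omega)
  let d : Cfsg.GU n F q →* U := (H11.guDet n F q).codRestrict U fun g => hr.le ⟨g, rfl⟩
  have hd : Function.Surjective d := fun u => by
    obtain ⟨g, hg⟩ := hr.ge u.2
    exact ⟨g, Subtype.ext hg⟩
  let N : Subgroup U := (powMonoidHom n : U →* U).range
  have hcard : Nat.card (U ⧸ N) = Nat.card (Multiplicative (ZMod (Nat.gcd n (q + 1)))) := by
    rw [← Subgroup.index_eq_card, IsCyclic.index_powMonoidHom_range, H11.card_normOne_units hF,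
      Nat.card_congr Multiplicative.toAdd, Nat.card_zmod, Nat.gcd_comm]
  haveI : IsCyclic (U ⧸ N) := isCyclic_of_surjective _ (QuotientGroup.mk'_surjective N)
  let e := mulEquivOfCyclicCardEq hcard
  refine ⟨e.toMonoidHom.comp ((QuotientGroup.mk' N).comp d),
    e.surjective.comp ((QuotientGroup.mk'_surjective N).comp hd), ?_⟩
  have hmem : ∀ g, g ∈ (e.toMonoidHom.comp ((QuotientGroup.mk' N).comp d)).ker ↔ d g ∈ N := by
    intro g
    rw [MonoidHom.mem_ker]
    change e (QuotientGroup.mk (d g)) = 1 ↔ _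
    rw [map_eq_one_iff _ e.injective, QuotientGroup.eq_one_iff]
  have hdet : ∀ (g : Cfsg.GU n F q) (a : F), (∀ x, (H11.guEquivIsom hF n g).1 x = a • x) →
      ((d g).1 : F) = a ^ n := fun g a h => by
    have := H11.det_of_scalar h
    rw [show (H11.guEquivIsom hF n g).1 = H11.glEquiv g.1 from rfl, H11.det_glEquiv] at this
    rw [Module.finrank_fin_fun] at this
    exact this
  apply le_antisymm
  · intro g hg
    obtain ⟨u, hu⟩ := (hmem g).1 hg
    have hu' : (u.1 : F) * (u.1 : F) ^ q = 1 := by
      rw [← pow_succ']; exact congrArg Units.val u.2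
    obtain ⟨s, hs⟩ := (H11.guEquivIsom hF n).surjective (H11.hermScalar _ hu')
    have hs' : ∀ x, (H11.guEquivIsom hF n s).1 x = (u.1 : F) • x := fun x => by rw [hs]; rfl
    have hc : s ∈ Subgroup.center (Cfsg.GU n F q) := by
      rw [← H11.mem_center_equiv (H11.guEquivIsom hF n), Subgroup.mem_center_iff]
      intro t
      refine Subtype.ext (LinearEquiv.ext fun x => ?_)
      change t.1 ((H11.guEquivIsom hF n s).1 x) = (H11.guEquivIsom hF n s).1 (t.1 x)
      rw [hs', hs', map_smul]
    have h1 : d s = d g := Subtype.ext (Units.ext (by rw [hdet s _ hs', ← hu]; simp))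
    have h2 : d (g * s⁻¹) = 1 := by rw [map_mul, map_inv, h1, mul_inv_cancel]
    rw [← inv_mul_cancel_right g s]
    exact Subgroup.mul_mem_sup (congrArg Subtype.val h2) hc
  · refine sup_le (fun g hg => (hmem g).2 ?_) fun g hg => (hmem g).2 ?_
    · rw [show d g = 1 from Subtype.ext hg]; exact N.one_mem
    · rw [← H11.mem_center_equiv (H11.guEquivIsom hF n),
        ← H11.mem_center_equiv Subgroup.topEquiv.symm] at hg
      obtain ⟨a, ha⟩ := H11.herm_scalar_of_mem_center (H11.hermC_nondeg hF) (by simpa using hn)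
        le_top _ hg
      haveI : Nontrivial (Fin n → F) :=
        Module.finrank_pos_iff.1 (show 0 < Module.finrank F (Fin n → F) by simp; omega)
      have h1 := H11.herm_norm_of_scalar (H11.hermC_nondeg hF) ha
      refine ⟨⟨Units.mk0 a (left_ne_zero_of_mul_eq_one h1), Units.ext ?_⟩,
        Subtype.ext (Units.ext ?_)⟩
      · simpa [pow_succ'] using h1
      · rw [hdet g a ha]; simp

end Cfsg.Agent.S0783
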