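import Cfsg.Statements.S0787
import Cfsg.Agent.H12.Bridge
import Cfsg.Agent.H12.OmegaMore
-- import your own Cfsg.Agent.* helpers here

set_option autoImplicit false
set_option maxHeartbeats 400000
open Cfsg

namespace Cfsg.Agent.S0787

theorem aux {G G' : Type*} [Group G] [Group G'] (φ : G ≃* G') (K : Subgroup G) (K' : Subgroup G')
    (key : ∀ g, g ∈ K ↔ φ g ∈ K') (n : ℕ) (h : ∃! H : Subgroup K', H.index = n) :
    ∃! H : Subgroup K, H.index = n := by
  obtain ⟨e⟩ : Nonempty (K ≃* K') :=
    ⟨(φ.subgroupMap K).trans (MulEquiv.subgroupCongr (by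
      ext g
      obtain ⟨g, rfl⟩ := φ.surjective g
      rw [← key]
      exact Subgroup.mem_map_iff_mem φ.injective))⟩
  obtain ⟨H, hH, hu⟩ := h
  refine ⟨H.comap (e : K →* K'), (Subgroup.index_comap_of_surjective _ e.surjective).trans hH,
    fun L hL => ?_⟩
  have h1 : L.map (e : K →* K') = H := hu _ ((Subgroup.index_map_equiv L e).trans hL)
  rw [← h1, Subgroup.comap_map_eq_self_of_injective e.injective]

/-- Existence and uniqueness of Ω: if F is finite, n ≥ 2, Q is a quadratic form on F^n with non-degenerate polar form and (|F|, n) ≠ (2, 4), then the group of isometries of determinant one has a unique subgroup of index 2. -/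
theorem result {F : Type*} [Field F] [Fintype F] {n : ℕ} (hn : 2 ≤ n) (Q : QuadraticForm F (Fin n → F)) (hQ : (QuadraticMap.polarBilin Q).Nondegenerate) (h : Fintype.card F ≠ 2 ∨ n ≠ 4) : ∃! H : Subgroup ↥(Cfsg.specialIsometryGroup F ⇑Q), H.index = 2 := by
  have key : ∀ g, g ∈ Cfsg.specialIsometryGroup F ⇑Q ↔ H12.orthEquiv Q g ∈ H12.sorth Q := fun g => by
    rw [H12.mem_sorth, H12.det_orthEquiv, Cfsg.specialIsometryGroup, MonoidHom.mem_ker,
      ← Units.val_eq_one]
    rfl
  exact aux _ _ _ key 2 (H12.existsUnique_index_two_sorth hQ.1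
    (H12.notExc_of_card H12.finrank_fin_fun h) (by simpa using hn))

end Cfsg.Agent.S0787
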