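import Cfsg.Statements.S0792
import Cfsg.Agent.H12.Bridge
import Cfsg.Agent.H12.OmegaMore
-- import your own Cfsg.Agent.* helpers here

set_option autoImplicit false
open Cfsg

namespace Cfsg.Agent.S0792

/-- For q odd and Q with non-degenerate polar form on F^n, the determinant-one isometries form the subgroup generated by all products r_u r_v of two reflections (Q(u), Q(v) ≠ 0). -/
theorem result {F : Type*} [Field F] [Fintype F] (h2 : (2 : F) ≠ 0) {n : ℕ} (Q : QuadraticForm F (Fin n → F)) (hQ : (QuadraticMap.polarBilin Q).Nondegenerate) : Cfsg.specialIsometryGroup F ⇑Q = Subgroup.closure {g : ↥(Cfsg.isometryGroup F ⇑Q) | ∃ u v : Fin n → F, Q u ≠ 0 ∧ Q v ≠ 0 ∧ ((g : Matrix.GeneralLinearGroup (Fin n) F) : Matrix (Fin n) (Fin n) F) = Cfsg.reflectionMatrix ⇑Q u * Cfsg.reflectionMatrix ⇑Q v} := by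
  have key : ∀ g, g ∈ Cfsg.specialIsometryGroup F ⇑Q ↔ H12.orthEquiv Q g ∈ H12.sorth Q := fun g => by
    rw [H12.mem_sorth, H12.det_orthEquiv, Cfsg.specialIsometryGroup, MonoidHom.mem_ker,
      ← Units.val_eq_one]
    rfl
  rw [H12.closure_eq_comap (H12.orthEquiv Q) _
    {g | ∃ u v, Q u ≠ 0 ∧ Q v ≠ 0 ∧ g = H12.refl Q u * H12.refl Q v} (fun g => by
      simp only [Set.mem_setOf_eq]
      refine exists₂_congr fun u v => and_congr_right fun _ => and_congr_right fun _ => ?_
      refine H12.orthEquiv_eq_iff Q g _ _ fun x => ?_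
      rw [← Matrix.mulVec_mulVec, H12.reflectionMatrix_mulVec, H12.reflectionMatrix_mulVec]; rfl),
    ← H12.ker_dickson_eq_closure hQ.1 (H12.notExc_of_two_ne_zero h2), ← H12.sorth_eq_ker hQ.1 h2]
  ext g
  exact key g

end Cfsg.Agent.S0792
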