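import Cfsg.Statements.S0796
-- import your own Cfsg.Agent.* helpers here

set_option autoImplicit false
set_option maxHeartbeats 400000
open Cfsg

namespace Cfsg.Agent.S0796

/-- If G is finite and acts faithfully and primitively on X, H is the stabiliser of a point, A is a normal subgroup of H whose normal closure in G is G, then for every non-trivial normal subgroup K of G the quotient G ⧸ K is isomorphic to A ⧸ B for some normal subgroup B of A. -/
theorem result {G X : Type*} [Group G] [Finite G] [MulAction G X] [FaithfulSMul G X] (hprim : MulAction.IsPreprimitive G X) (x : X) (A : Subgroup G) (hA : A ≤ MulAction.stabilizer G x) (hAn : (A.subgroupOf (MulAction.stabilizer G x)).Normal) (hgen : Subgroup.normalClosure (A : Set G) = ⊤) (K : Subgroup G) [K.Normal] (hK : K ≠ ⊥) : ∃ (B : Subgroup A) (_ : B.Normal), Nonempty (G ⧸ K ≃* A ⧸ B) := by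
  have htr : MulAction.IsPretransitive K X := by
    refine MulAction.IsQuasiPreprimitive.isPretransitive_of_normal fun h => hK ?_
    refine eq_bot_iff.2 fun k hk => ?_
    rw [Subgroup.mem_bot]
    refine FaithfulSMul.eq_of_smul_eq_smul (α := X) fun y => ?_
    have : y ∈ MulAction.fixedPoints K X := h ▸ Set.mem_univ y
    rw [one_smul]
    exact this ⟨k, hk⟩
  have hdec : ∀ g : G, ∃ h ∈ MulAction.stabilizer G x, (g : G ⧸ K) = h := fun g => by
    obtain ⟨k, hk⟩ := htr.exists_smul_eq (g • x) x
    refine ⟨k * g, by rw [MulAction.mem_stabilizer_iff, mul_smul]; exact hk, ?_⟩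
    rw [QuotientGroup.mk_mul, (QuotientGroup.eq_one_iff k.1).2 k.2, one_mul]
  have hn : (A.map (QuotientGroup.mk' K)).Normal := ⟨by
    rintro _ ⟨a, ha, rfl⟩ g
    obtain ⟨g, rfl⟩ := QuotientGroup.mk_surjective g
    obtain ⟨h, hh, e⟩ := hdec g
    rw [e]
    exact ⟨h * a * h⁻¹, hAn.conj_mem ⟨a, hA ha⟩ ha ⟨h, hh⟩, by simp⟩⟩
  have htop : A.map (QuotientGroup.mk' K) = ⊤ := by
    have h1 : Subgroup.normalClosure (A : Set G) ≤ (A.map (QuotientGroup.mk' K)).comap
        (QuotientGroup.mk' K) := Subgroup.normalClosure_le_normal fun a ha => ⟨a, ha, rfl⟩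
    rw [hgen] at h1
    refine eq_top_iff.2 fun g _ => ?_
    obtain ⟨g, rfl⟩ := QuotientGroup.mk_surjective g
    exact h1 (Subgroup.mem_top g)
  let f : A →* G ⧸ K := (QuotientGroup.mk' K).comp A.subtype
  have hf : Function.Surjective f := fun g => by
    obtain ⟨a, ha, rfl⟩ : g ∈ A.map (QuotientGroup.mk' K) := htop ▸ Subgroup.mem_top g
    exact ⟨⟨a, ha⟩, rfl⟩
  exact ⟨f.ker, inferInstance, ⟨(QuotientGroup.quotientKerEquivOfSurjective f hf).symm⟩⟩

end Cfsg.Agent.S0796
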