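import Cfsg.Statements.S0797
import Cfsg.Agent.H12.Bridge
import Cfsg.Agent.H12.OmegaMore
-- import your own Cfsg.Agent.* helpers here

set_option autoImplicit false
open Cfsg

namespace Cfsg.Agent.S0797

/-- O^ε_2m(q) ≅ Ω.2² for q odd: if F is finite of odd characteristic, n ≥ 2 is even and Q has non-degenerate polar form on F^n, the isometry group of Q has exactly three subgroups of index 2. -/
theorem result {F : Type*} [Field F] [Fintype F] (h2 : (2 : F) ≠ 0) {n : ℕ} (hn : 2 ≤ n) (heven : Even n) (Q : QuadraticForm F (Fin n → F)) (hQ : (QuadraticMap.polarBilin Q).Nondegenerate) : Nat.card {H : Subgroup ↥(Cfsg.isometryGroup F ⇑Q) // H.index = 2} = 3 := by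
  refine H12.card_index_two_eq_three ((H12.dickson Q).comp (H12.orthEquiv Q : _ →* _))
    ((H12.spinor Q).comp (H12.orthEquiv Q : _ →* _)) (fun g h1 h3 => ?_) fun x => ?_
  · rw [H12.commutator_eq_comap (H12.orthEquiv Q)]
    exact (H12.mem_commutator_iff hQ.1 (H12.notExc_of_two_ne_zero h2) _).2 ⟨h1, h3⟩
  · obtain ⟨g, hg⟩ := H12.dickson_spinor_surjective hQ.1 h2 (by simpa using hn) x
    exact ⟨(H12.orthEquiv Q).symm g, by simpa using hg⟩

end Cfsg.Agent.S0797
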