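import Cfsg.Statements.S0798
import Cfsg.Agent.H12.Bridge
import Cfsg.Agent.H12.ReflClass
-- import your own Cfsg.Agent.* helpers here

set_option autoImplicit false
set_option maxHeartbeats 400000
open Cfsg

namespace Cfsg.Agent.S0798

/-- For q odd, n ≥ 2 even, Q with non-degenerate polar form (n, |F|) ≠ (4, 3), and a fixed c ≠ 0: the subgroup of the isometry group generated by the reflections r_v with Q(v) ∈ c·(F^×)² has index 2. -/
theorem result {F : Type*} [Field F] [Fintype F] (h2 : (2 : F) ≠ 0) {n : ℕ} (hn : 2 ≤ n) (heven : Even n) (Q : QuadraticForm F (Fin n → F)) (hQ : (QuadraticMap.polarBilin Q).Nondegenerate) (h43 : ¬ (n = 4 ∧ Fintype.card F = 3)) (c : F) (hc : c ≠ 0) : (Subgroup.closure {g : ↥(Cfsg.isometryGroup F ⇑Q) | ∃ (v : Fin n → F) (t : F), t ≠ 0 ∧ Q v = c * t ^ 2 ∧ ((g : Matrix.GeneralLinearGroup (Fin n) F) : Matrix (Fin n) (Fin n) F) = Cfsg.reflectionMatrix ⇑Q v}).index = 2 := by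
  rw [H12.closure_eq_comap (H12.orthEquiv Q) _
    {g | ∃ v, Q v ≠ 0 ∧ H12.qsign (Q v) = H12.qsign c ∧ g = H12.refl Q v} (fun g => by
      simp only [Set.mem_setOf_eq, H12.coe_eq_reflection_iff]
      refine exists_congr fun v => ⟨?_, ?_⟩
      · rintro ⟨t, ht, hv, h⟩
        refine ⟨by rw [hv]; positivity, ?_, h⟩
        rw [hv, H12.qsign_mul hc (by positivity), sq, H12.qsign_mul_self, mul_one]
      · rintro ⟨hv, hs, h⟩
        obtain ⟨r, hr⟩ := (H12.isSquare_mul_iff hv hc).2 hs
        have hr0 : r ≠ 0 := by rintro rfl; simp [hv, hc] at hr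
        exact ⟨r / c, by positivity, by field_simp; linear_combination hr, h⟩),
    Subgroup.index_comap_of_surjective _ (H12.orthEquiv Q).surjective]
  refine H12.index_reflClass hQ.1 h2 _ (by simpa using hn) ?_
  rw [H12.finrank_fin_fun]
  have h1 := H12.odd_card_iff.2 h2
  have h3 : 1 < Fintype.card F := Fintype.one_lt_card
  by_cases h : 3 < Fintype.card F
  · exact Or.inl (H12.exists_mul_self_ne_one h)
  · right
    rw [Nat.odd_iff] at h1
    rw [Nat.even_iff] at heven
    omega

end Cfsg.Agent.S0798
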