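import Cfsg.Statements.S0800
import Cfsg.Agent.H27.DicksonFin
-- import your own Cfsg.Agent.* helpers here

set_option autoImplicit false
open Cfsg

namespace Cfsg.Agent.S0800


/-- Tori of SL_2(q): if g ∈ SL_2(q) has order coprime to the characteristic p, then the order of g divides q − 1 or q + 1. -/
theorem result {F : Type*} [Field F] [Fintype F] {q : ℕ} (hF : Fintype.card F = q) (p : ℕ) [Fact p.Prime] [CharP F p] (g : Matrix.SpecialLinearGroup (Fin 2) F) (hg : Nat.Coprime (orderOf g) p) : orderOf g ∣ q - 1 ∨ orderOf g ∣ q + 1 := by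
  subst hF
  let K := AlgebraicClosure F
  let f : F →+* K := algebraMap F K
  set q := Fintype.card F with hq
  have hq1 : 1 < q := Fintype.one_lt_card
  let A : Matrix (Fin 2) (Fin 2) K := g.1.map f
  have hA : ∀ n : ℕ, A ^ n = 1 → orderOf g ∣ n := by
    intro n hn
    apply orderOf_dvd_of_pow_eq_one
    apply Subtype.ext
    apply Matrix.map_injective f.injective
    simp only [Matrix.SpecialLinearGroup.coe_pow, Matrix.SpecialLinearGroup.coe_one]
    rw [Matrix.map_pow, Matrix.map_one _ (map_zero f) (map_one f)]
    exact hn
  set t := g.1.trace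
  have hsq : A * A = f t • A - 1 := by
    have := congrArg (fun M => M.map f) (H11.sl2_sq g)
    simp only [Matrix.map_mul] at this
    rw [this]
    ext i j
    simp [A, t, Matrix.one_apply, apply_ite f]
  obtain ⟨l, hl⟩ := IsAlgClosed.exists_root
    (Polynomial.C (1 : K) * Polynomial.X ^ 2 + Polynomial.C (-f t) * Polynomial.X +
      Polynomial.C 1) (by rw [Polynomial.degree_quadratic one_ne_zero]; decide)
  simp only [map_one, one_mul, Polynomial.IsRoot.def, Polynomial.eval_add, Polynomial.eval_pow,
    Polynomial.eval_X, Polynomial.eval_mul, Polynomial.eval_C, Polynomial.eval_one] at hl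
  set m := f t - l with hm
  have hlm : l * m = 1 := by linear_combination -hl
  have hl0 : l ≠ 0 := left_ne_zero_of_mul_eq_one hlm
  have hpow : ∀ n : ℕ, (l - m) • A ^ n = (l ^ n - m ^ n) • A + (l * m ^ n - m * l ^ n) • 1 := by
    intro n
    induction n with
    | zero => simp
    | succ n ih =>
      rw [pow_succ, ← smul_mul_assoc, ih, add_mul, smul_mul_assoc, smul_mul_assoc, hsq, one_mul,
        show f t = l + m by rw [hm]; ring]
      ext i j
      simp only [Matrix.add_apply, Matrix.smul_apply, Matrix.sub_apply, smul_eq_mul]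
      linear_combination (-(l ^ n - m ^ n) * (1 : Matrix (Fin 2) (Fin 2) K) i j) * hlm * (-1)
  obtain ⟨k, hk0, hk⟩ := H11.exists_card_eq_pow F p
  haveI : CharP K p := inferInstance
  have hfrob : (l ^ q) ^ 2 + -f t * l ^ q + 1 = 0 := by
    have := congrArg (iterateFrobenius K p k) hl
    simp only [map_add, map_mul, map_pow, map_neg, map_one, map_zero, iterateFrobenius_def] at this
    rw [← hk, ← map_pow, FiniteField.pow_card] at this
    exact this
  by_cases hne : l = m
  · left
    have h1 : (Matrix.ProjGenLinGroup.mk (Matrix.SpecialLinearGroup.toGL g) : H27.PG F) ^ p = 1 := by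
      apply H27.pow_p_eq_one_of_disc
      apply f.injective
      have : H27.dt (Matrix.SpecialLinearGroup.toGL g) = 1 := H11.sl2_det g
      rw [this]
      have h2 : f t = f (g 0 0 + g 1 1) := by simp [t, Matrix.trace_fin_two]
      change f ((g 0 0 + g 1 1) ^ 2 - 4 * 1) = f 0
      rw [map_sub, map_pow, ← h2, show f t = l + m by rw [hm]; ring, ← hne]
      rw [← hne] at hlm
      simp only [mul_one, map_ofNat, map_zero]
      linear_combination 4 * hlm
    have h2 : g ^ p ∈ Subgroup.center _ := by
      rw [← Matrix.SpecialLinearGroup.toPGL_ker, MonoidHom.mem_ker, map_pow]; exact h1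
    have h3 : g ∈ Subgroup.center _ := by
      have : g ∈ Subgroup.zpowers (g ^ p) := by
        rw [mem_zpowers_pow_iff]; exact hg.symm
      exact (Subgroup.zpowers_le.2 h2) this
    obtain ⟨r, -, hr⟩ := Matrix.SpecialLinearGroup.mem_center_iff.1 h3
    apply orderOf_dvd_of_pow_eq_one
    apply Subtype.ext
    have hr0 : r ≠ 0 := by
      rintro rfl
      have := g.2
      rw [← hr] at this
      simp at this
    rw [Matrix.SpecialLinearGroup.coe_pow, ← hr, ← map_pow,
      FiniteField.pow_card_sub_one_eq_one r hr0, map_one]
    rfl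
  · have key : ∀ n : ℕ, l ^ n = 1 → orderOf g ∣ n := by
      intro n hn
      apply hA
      have hmn : m ^ n = 1 := by
        have := mul_pow l m n
        rw [hlm, hn, one_pow, one_mul] at this
        exact this.symm
      have := hpow n
      rw [hn, hmn, sub_self, zero_smul, zero_add, mul_one, mul_one] at this
      exact smul_right_injective _ (sub_ne_zero.2 hne) this
    have : (l ^ q - l) * (l ^ q - m) = 0 := by linear_combination hfrob - hl + (l - l) * hlm
    rcases mul_eq_zero.1 this with h | h
    · left
      apply key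
      apply mul_right_cancel₀ hl0
      rw [← pow_succ, Nat.sub_add_cancel hq1.le, one_mul]
      exact sub_eq_zero.1 h
    · right
      apply key
      rw [pow_succ, sub_eq_zero.1 h, mul_comm, hlm]

end Cfsg.Agent.S0800
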