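import Cfsg.Statements.S0802
import Cfsg.Agent.H27.PSL2Max
-- import your own Cfsg.Agent.* helpers here

set_option autoImplicit false
open Cfsg

namespace Cfsg.Agent.S0802


/-- PSL_2(p^n) has a subgroup isomorphic to A_4 if and only if it is not the case that p = 2 and n is odd. -/
theorem result {F : Type*} [Field F] [Fintype F] (p n : ℕ) [Fact p.Prime] [CharP F p] (hF : Fintype.card F = p ^ n) : (∃ H : Subgroup (Matrix.ProjectiveSpecialLinearGroup (Fin 2) F), Nonempty (H ≃* alternatingGroup (Fin 4))) ↔ ¬ (p = 2 ∧ Odd n) := by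
  rw [H27.exists_psl_iff]
  constructor
  · rintro ⟨H, -, h⟩ ⟨rfl, k, rfl⟩
    have hc : Nat.card H = 12 := by rw [H27.card_of_equiv h, H27.card_A4]
    rcases H27.dickson_sub 2 H with ⟨x, hx⟩ | ⟨a, s, hT, hx⟩ | ⟨hp, -⟩ | ⟨h1, -⟩ | ⟨c, F₁, h3, h1⟩
    · have h1 := Subgroup.card_dvd_of_le hx
      rw [hc, H27.card_stabilizer_PG, hF] at h1
      have h2 := (show 3 ∣ 12 by norm_num).trans h1
      have h4 : 2 ^ (2 * k + 1) % 3 = 2 := by
        rw [pow_succ, pow_mul, Nat.mul_mod, Nat.pow_mod]; simp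
      rw [Nat.Prime.dvd_mul (by norm_num)] at h2
      clear h1
      generalize 2 ^ (2 * k + 1) = r at *
      omega
    · exact (H27.hasA4_of_A4 h).not_le_torus hT hx
    · exact hp (by rw [hc]; norm_num)
    · omega
    · have h4 := H27.char_dvd_card_subfield 2 F₁
      have h5 := H27.card_pslOf F₁
      rw [H27.gcd_two_of_even (even_iff_two_dvd.2 h4) Nat.card_pos, one_mul] at h5
      have h6 : 4 * (4 ^ 2 - 1) ≤ Nat.card F₁ * (Nat.card F₁ ^ 2 - 1) :=
        Nat.mul_le_mul (by omega) (Nat.sub_le_sub_right (Nat.pow_le_pow_left (by omega) 2) 1)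
      rcases h1 with rfl | rfl <;> rw [H27.card_cj] at hc
      · omega
      · rw [H27.card_pglOf] at hc; omega
  · intro h
    suffices ∃ a b : F, a ^ 2 - a + b ^ 2 + b * 1 + 1 = 0 by
      obtain ⟨a, b, hab⟩ := this
      obtain ⟨ψ, hψ⟩ := H27.exists_A4_of_eq hab
      exact ⟨ψ.range, H27.range_A4_le_PS ψ, ⟨(MonoidHom.ofInjective hψ).symm⟩⟩
    by_cases h2 : (2 : F) = 0
    · have hp2 : p = 2 := by
        have := (CharP.cast_eq_zero_iff F p 2).1 (by simpa using h2)
        exact (Nat.prime_dvd_prime_iff_eq Fact.out Nat.prime_two).1 this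
      subst hp2
      obtain ⟨k, rfl⟩ : Even n := by simpa using h
      obtain ⟨τ, hτ⟩ := H27.exists_tau (F := F) (by
        rw [hF, ← pow_mul, show (k + k) * 2 = 4 * k by ring, pow_mul]
        exact Dvd.dvd.mul_left ((show 5 ∣ 2 ^ 4 - 1 by norm_num).trans
          (Nat.sub_one_dvd_pow_sub_one _ _)) _)
      exact ⟨τ, 0, by linear_combination hτ + h2⟩
    · exact H27.exists_triangle_eq h2 1

end Cfsg.Agent.S0802
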