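import Cfsg.Statements.S0805
import Cfsg.Agent.H27.PSL2Max
-- import your own Cfsg.Agent.* helpers here

set_option autoImplicit false
open Cfsg

namespace Cfsg.Agent.S0805


/-- Subfield subgroups: let F be a finite field of odd order q and K a finite field with |K|^m = q, m ≥ 1. Then PSL_2(F) has a subgroup isomorphic to PSL_2(K), and has a subgroup isomorphic to PGL_2(K) if and only if m is even. -/
theorem result {F K : Type*} [Field F] [Fintype F] [Field K] [Fintype K] {q : ℕ} (hF : Fintype.card F = q) (hodd : Odd q) (m : ℕ) (hm : 1 ≤ m) (hK : Fintype.card K ^ m = q) : (∃ H : Subgroup (Matrix.ProjectiveSpecialLinearGroup (Fin 2) F), Nonempty (H ≃* Matrix.ProjectiveSpecialLinearGroup (Fin 2) K)) ∧ ((∃ H : Subgroup (Matrix.ProjectiveSpecialLinearGroup (Fin 2) F), Nonempty (H ≃* Matrix.ProjGenLinGroup (Fin 2) K)) ↔ Even m) := by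
  subst hF
  obtain ⟨p, hp⟩ := CharP.exists F
  haveI := Fact.mk (CharP.char_is_prime F p)
  have hc : Nat.card F = Nat.card K ^ m := by simp only [Nat.card_eq_fintype_card, hK]
  obtain ⟨F₀, ⟨e⟩⟩ := H27.exists_subfield_equiv hc
  have hK0 : Nat.card K = Nat.card F₀ := Nat.card_congr e.toEquiv
  rw [hK0] at hc
  have ho : Odd (Nat.card F) := by rwa [Nat.card_eq_fintype_card]
  have h2 : (2 : F) ≠ 0 := H27.two_ne_zero_iff_odd.2 hodd
  have eP : H27.pglOf F₀ ≃* Matrix.ProjGenLinGroup (Fin 2) K :=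
    (H27.pglOfEquiv F₀).symm.trans (H11.pglCongr (Equiv.refl _) e.symm)
  rw [H27.exists_psl_iff, H27.exists_psl_iff]
  refine ⟨⟨_, H27.pslOf_le_PS F₀, ⟨(H27.pslOfEquiv F₀).symm.trans
    (H11.pslCongr (Equiv.refl _) e.symm)⟩⟩, ?_, fun h => ⟨_, (H27.pglOf_le_PS_iff hc ho).2 h, ⟨eP⟩⟩⟩
  rintro ⟨H, hL, ⟨f⟩⟩
  have hH : Nat.card H = Nat.card F₀ * (Nat.card F₀ ^ 2 - 1) := by
    rw [← H27.card_pglOf]; exact Nat.card_congr (f.trans eP.symm).toEquiv
  have hA : H27.HasA4 H := by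
    letI := Fintype.ofFinite F₀
    obtain ⟨a, b, hab⟩ := H27.exists_triangle_eq (F := F₀) (fun h => h2 (congrArg Subtype.val h)) 1
    obtain ⟨ψ, hψ⟩ := H27.exists_A4_of_eq hab
    let g : H27.PG F₀ ≃* H := (H27.pglOfEquiv F₀).trans (eP.trans f.symm)
    exact ⟨H.subtype.comp (g.toMonoidHom.comp ψ), H.subtype_injective.comp (g.injective.comp hψ),
      by rintro _ ⟨x, rfl⟩; exact (g (ψ x)).2⟩
  have ho0 := (H27.odd_card_subfield F₀).2 ho
  have h20 := H27.two_le_card_subfield F₀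
  have mono : StrictMono fun r : ℕ => (r + 1) * ((r + 1) ^ 2 - 1) := fun a b h =>
    Nat.mul_lt_mul_of_le_of_lt (by omega) (by
      have := Nat.pow_lt_pow_left (show a + 1 < b + 1 by omega) two_ne_zero
      have := Nat.one_le_pow 2 (a + 1) (by omega)
      omega) (by omega)
  have inj : ∀ a b : ℕ, 0 < a → 0 < b → a * (a ^ 2 - 1) = b * (b ^ 2 - 1) → a = b := by
    intro a b ha hb h
    obtain ⟨a, rfl⟩ := Nat.exists_eq_succ_of_ne_zero ha.ne'
    obtain ⟨b, rfl⟩ := Nat.exists_eq_succ_of_ne_zero hb.ne'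
    rw [mono.injective h]
  rcases H27.dickson_sub p H with ⟨x, hx⟩ | ⟨a, s, hT, hx⟩ | ⟨hp, -⟩ | ⟨-, h1⟩ | ⟨c, F₁, h3, h1⟩
  · exact absurd hx (hA.not_le_stabilizer h2 x)
  · exact absurd hx (hA.not_le_torus hT)
  · exact absurd (hH ▸ Dvd.dvd.mul_right (H27.char_dvd_card_subfield p F₀) _) hp
  · rw [H27.card_of_equiv h1, H27.card_A5] at hH
    have := inj 4 _ (by norm_num) (by omega) hH
    rw [← this] at ho0
    exact absurd ho0 (by decide)
  · rcases h1 with rfl | rfl <;> rw [H27.card_cj] at hH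
    · exfalso
      have h5 := H27.card_pslOf F₁
      have ho1 := (H27.odd_card_subfield F₁).2 ho
      rw [H27.gcd_two_of_odd ho1, hH] at h5
      have d1 : Nat.card F₀ ∣ Nat.card F₁ :=
        (H27.coprime_card_subfield F₀ F₁ two_pos).dvd_of_dvd_mul_right
          (h5 ▸ Dvd.dvd.mul_left (dvd_mul_right _ _) _)
      have d2 : Nat.card F₁ ∣ Nat.card F₀ :=
        (H27.coprime_card_subfield F₁ F₀ two_pos).dvd_of_dvd_mul_right
          ((Nat.Coprime.symm (Nat.coprime_two_left.2 ho1)).dvd_of_dvd_mul_left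
            (h5 ▸ dvd_mul_right _ _))
      rw [Nat.dvd_antisymm d2 d1] at h5
      have : 0 < Nat.card F₀ * (Nat.card F₀ ^ 2 - 1) := hH ▸ Nat.card_pos
      omega
    · rw [H27.card_pglOf] at hH
      have := H27.subfield_eq_of_card (inj _ _ Nat.card_pos Nat.card_pos hH)
      subst this
      rw [H27.cj_le_iff, H27.cj_of_normal] at hL
      exact (H27.pglOf_le_PS_iff hc ho).1 hL

end Cfsg.Agent.S0805
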