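import Cfsg.Statements.S0807
import Cfsg.Agent.H27.Klein
-- import your own Cfsg.Agent.* helpers here

set_option autoImplicit false
open Cfsg

namespace Cfsg.Agent.S0807


/-- For q odd, twelve times the number of Klein four-subgroups of PSL_2(q) equals the order of PSL_2(q). -/
theorem result {F : Type*} [Field F] [Fintype F] {q : ℕ} (hF : Fintype.card F = q) (hodd : Odd q) : 12 * Nat.card {V : Subgroup (Matrix.ProjectiveSpecialLinearGroup (Fin 2) F) // IsKleinFour V} = Nat.card (Matrix.ProjectiveSpecialLinearGroup (Fin 2) F) := by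
  subst hF
  have h2 : (2 : F) ≠ 0 := H27.two_ne_zero_iff_odd.2 hodd
  have h1 := H27.card_klein h2
  have h3 := H27.card_PS (F := F)
  rw [H27.gcd_two_of_odd hodd, ← H27.card_PG, ← Nat.card_congr (H27.pslEquiv F).toEquiv] at h3
  change 24 * Nat.card {V : Subgroup (Matrix.ProjectiveSpecialLinearGroup (Fin 2) F) // IsKleinFour V} = _ at h1
  change 2 * Nat.card (Matrix.ProjectiveSpecialLinearGroup (Fin 2) F) = _ at h3
  omega

end Cfsg.Agent.S0807
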