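import Cfsg.Statements.S0808
import Cfsg.Agent.H27.Klein
-- import your own Cfsg.Agent.* helpers here

set_option autoImplicit false
open Cfsg

namespace Cfsg.Agent.S0808


/-- Conjugacy classes of four-groups in PSL_2(q), q odd: if q ≡ 3 or 5 (mod 8) all Klein four-subgroups are conjugate; if q ≡ 1 or 7 (mod 8) there are two Klein four-subgroups which are not conjugate, and every Klein four-subgroup is conjugate to one of them. -/
theorem result {F : Type*} [Field F] [Fintype F] {q : ℕ} (hF : Fintype.card F = q) (hodd : Odd q) : ((q % 8 = 3 ∨ q % 8 = 5) → ∀ V W : Subgroup (Matrix.ProjectiveSpecialLinearGroup (Fin 2) F), IsKleinFour V → IsKleinFour W → ∃ g : Matrix.ProjectiveSpecialLinearGroup (Fin 2) F, W = V.map (MulAut.conj g).toMonoidHom) ∧ ((q % 8 = 1 ∨ q % 8 = 7) → ∃ V₁ V₂ : Subgroup (Matrix.ProjectiveSpecialLinearGroup (Fin 2) F), IsKleinFour V₁ ∧ IsKleinFour V₂ ∧ (¬ ∃ g : Matrix.ProjectiveSpecialLinearGroup (Fin 2) F, V₂ = V₁.map (MulAut.conj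 g).toMonoidHom) ∧ ∀ W : Subgroup (Matrix.ProjectiveSpecialLinearGroup (Fin 2) F), IsKleinFour W → (∃ g : Matrix.ProjectiveSpecialLinearGroup (Fin 2) F, W = V₁.map (MulAut.conj g).toMonoidHom) ∨ (∃ g : Matrix.ProjectiveSpecialLinearGroup (Fin 2) F, W = V₂.map (MulAut.conj g).toMonoidHom)) := by
  subst hF
  have h2 : (2 : F) ≠ 0 := H27.two_ne_zero_iff_odd.2 hodd
  have hs := FiniteField.isSquare_two_iff (F := F)
  have ho := Nat.odd_iff.1 hodd
  constructor
  · intro hq V W hV hW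
    have hV' := (H27.isKleinFour_up V).2 hV
    obtain ⟨c, hc⟩ := H27.klein_conj h2 hV' (H27.up_le V) ((H27.isKleinFour_up W).2 hW) (H27.up_le W)
    apply (H27.psl_conj_iff V W).2
    by_cases h : c ∈ H27.PS F
    · exact ⟨c, h, hc⟩
    · have := (H27.klein_normalizer h2 hV' (H27.up_le V)).2
      rw [hs] at this
      have h3 : ¬ Subgroup.normalizer (H27.up V : Set (H27.PG F)) ≤ H27.PS F := by
        rw [this]; omega
      obtain ⟨n, hn, hn'⟩ := SetLike.not_le_iff_exists.1 h3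
      refine ⟨c * n, H27.mul_mem_PS h hn', ?_⟩
      rw [hc, eq_comm, H27.cj_eq_iff]
      simpa using hn
  · intro hq
    obtain ⟨K, hK, hKL⟩ := H27.exists_klein h2
    obtain ⟨V, rfl⟩ := H27.exists_up hKL
    have hi := H27.index_PS (F := F)
    rw [H27.gcd_two_of_odd hodd] at hi
    obtain ⟨t, ht⟩ : ∃ t, t ∉ H27.PS F := by
      by_contra h
      push Not at h
      rw [(Subgroup.eq_top_iff' _).2 h, Subgroup.index_top] at hi
      omega
    have hc : ∀ c, H27.cj c (H27.up V) ≤ H27.PS F := fun c => by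
      rw [H27.cj_le_iff, H27.cj_of_normal]; exact hKL
    obtain ⟨V₂, h₂⟩ := H27.exists_up (hc t)
    have hN := (H27.klein_normalizer h2 hK hKL).2
    rw [hs] at hN
    have hN := hN.2 (by omega)
    refine ⟨V, V₂, (H27.isKleinFour_up V).1 hK, ?_, ?_, fun W hW => ?_⟩
    · rw [← H27.isKleinFour_up, h₂]; exact H27.isKleinFour_congr (H27.cjEquiv t _) hK
    · intro h
      obtain ⟨c, hc, e⟩ := (H27.psl_conj_iff V V₂).1 h
      rw [h₂, H27.cj_eq_iff] at e
      exact ht (by simpa using mul_mem hc (hN e))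
    · obtain ⟨c, e⟩ := H27.klein_conj h2 hK hKL ((H27.isKleinFour_up W).2 hW) (H27.up_le W)
      by_cases h : c ∈ H27.PS F
      · exact Or.inl ((H27.psl_conj_iff V W).2 ⟨c, h, e⟩)
      · refine Or.inr ((H27.psl_conj_iff V₂ W).2 ⟨c * t⁻¹, H27.mul_mem_PS h (by simpa using ht), ?_⟩)
        rw [e, h₂, H27.cj_cj, inv_mul_cancel_right]

end Cfsg.Agent.S0808
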