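import Cfsg.Statements.S0816
import Cfsg.Agent.H22.OrthOut2

set_option autoImplicit false
open Cfsg

namespace Cfsg.Agent.S0816

/-- |Aut(PΩ_(2m+1)(q))| = 2 f · |PΩ_(2m+1)(q)| for q = p^f odd and m ≥ 3 (for the form quadFormOdd). -/
theorem result {F : Type*} [Field F] [Fintype F] (p f : ℕ) [Fact p.Prime] (hf : 1 ≤ f) (hF : Fintype.card F = p ^ f) (hodd : Odd p) (m : ℕ) (hm : 3 ≤ m) : Nat.card (MulAut (Cfsg.POmega F (Cfsg.quadFormOdd m F))) = 2 * f * Nat.card (Cfsg.POmega F (Cfsg.quadFormOdd m F)) := by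
  have h2 := H22.two_ne_zero_of_card hF (by rintro rfl; exact absurd hodd (by decide))
  rw [H22.card_aut_of (H11.coe_qOdd m) (H11.qOdd_nondeg h2 m) (H22.five_odd (by omega))
    (H22.odd_Th_surj h2 hm) _ (H22.odd_range_iO _ _ _ (by simp [parity_simps])) _
    (H22.odδ_surj (H11.qOdd_nondeg h2 m) (H22.five_odd (by omega)) h2)
    (H22.odδ_eq_one _ _ _ (by simp [parity_simps]) h2)
    fun σ => ⟨H22.stdF _ σ (H22.odd_isSS_inr σ), rfl⟩, H22.card_ringAut hF]
  simp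

end Cfsg.Agent.S0816
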