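import Cfsg.Statements.S0818
import Cfsg.Agent.H22.OrthOut2

set_option autoImplicit false
open Cfsg

namespace Cfsg.Agent.S0818

/-- |Aut(PΩ⁻_2m(q))| for q = p^f, m ≥ 4 (form quadFormMinus (m−1) with anisotropic binary part): |PΩ⁻_2m(q)| times f, times 2 if p = 2, and times 4 or 8 if p is odd according as m(q−1)/2 is even or odd. -/
theorem result {F : Type*} [Field F] [Fintype F] (p f : ℕ) [Fact p.Prime] (hf : 1 ≤ f) (hF : Fintype.card F = p ^ f) (m : ℕ) (hm : 4 ≤ m) (a b : F) (hab : ∀ z₁ z₂ : F, z₁ ^ 2 + a * z₁ * z₂ + b * z₂ ^ 2 = 0 → z₁ = 0 ∧ z₂ = 0) : Nat.card (MulAut (Cfsg.POmega F (Cfsg.quadFormMinus (m - 1) F a b))) = (if p = 2 then 2 else (if Even (m * (p ^ f - 1) / 2) then 4 else 8)) * f * Nat.card (Cfsg.POmega F (Cfsg.quadFormMinus (m - 1) F a b)) := by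
  classical
  rw [H22.card_aut_even (H11.coe_qMinus (m - 1) a b) (H22.Aniso.nondeg hab _)
    (H22.five_minus (by omega)) H22.card_minus (H22.minus_exists_t hab)
    (H22.minus_Th_surj hab (by omega)) (H22.minus_rS_surj hab), H22.card_ringAut hF]
  by_cases hp : p = 2
  · subst hp
    rw [if_pos (H22.two_eq_zero_of_card hF), if_pos rfl]
  have h2 := H22.two_ne_zero_of_card hF hp
  have ho := H12.odd_card_iff.2 h2
  have := (H22.minus_spinor (m := m - 1) ho hab).trans (by
    rw [← Nat.not_odd_iff_even, ← Nat.odd_add_one, ← H22.isSquare_neg_one_pow' ho, not_not,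
      H12.isSquare_neg_one_pow_iff' ho, hF, Nat.sub_add_cancel (by omega)])
  rw [if_neg h2, if_neg hp, if_congr this rfl rfl]

end Cfsg.Agent.S0818
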