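import Cfsg.Statements.S0828
import Cfsg.Agent.H12.StabBridge
-- import your own Cfsg.Agent.* helpers here

set_option autoImplicit false
set_option maxHeartbeats 400000
open Cfsg

namespace Cfsg.Agent.S0828

/-- The symplectic generalised quadrangle over a field with q elements: the number of 2-dimensional subspaces of F^4 on which the symplectic form vanishes is (q + 1)(q² + 1), and every non-zero vector lies in exactly q + 1 of them. -/
theorem result {F : Type*} [Field F] [Fintype F] {q : ℕ} (hF : Fintype.card F = q) : Nat.card {W : Submodule F (Fin 2 ⊕ Fin 2 → F) // Module.finrank F W = 2 ∧ ∀ u ∈ W, ∀ v ∈ W, Cfsg.sympForm 2 F u v = 0} = (q + 1) * (q ^ 2 + 1) ∧ ∀ v : Fin 2 ⊕ Fin 2 → F, v ≠ 0 → Nat.card {W : Submodule F (Fin 2 ⊕ Fin 2 → F) // Module.finrank F W = 2 ∧ v ∈ W ∧ ∀ u ∈ W, ∀ w ∈ W, Cfsg.sympForm 2 F u w = 0} = q + 1 := by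
  classical
  have hC := H11.spForm_nondeg (ι := Fin 2) (F := F)
  have hd : Module.finrank F (Fin 2 ⊕ Fin 2 → F) = 2 * 2 := by simp
  obtain ⟨W, hW, hk⟩ := H12.alt_hasTS' hC hd
  obtain ⟨H, h1, -, h2, h3⟩ := H12.card_stab_ts hC hW hk
  have h4 := hC.finrank_add_finrank_perp H
  have h5 := H12.card_ts_mul_card_stab hC hW
  rw [h3, H11.card_isom_alt 0 (hC.restrict_perp h1) (by omega), H11.card_isom_alt 2 hC hd,
    H11.card_ker_altType, hF, hd, hk] at h5
  have e : ∀ X : Submodule F (Fin 2 ⊕ Fin 2 → F),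
      (∀ u ∈ X, ∀ v ∈ X, Cfsg.sympForm 2 F u v = 0) ↔ (H11.spForm (Fin 2) F).TS X := fun X =>
    ⟨fun h => ⟨fun _ _ => rfl, fun u hu v hv => (H11.spForm_B_eq 2 u v).trans (h u hu v hv)⟩,
      fun h u hu v hv => (H11.spForm_B_eq 2 u v).symm.trans (h.2 u hu v hv)⟩
  simp only [e]
  have hq : 2 ≤ q := hF ▸ Fintype.one_lt_card
  have p1 : ∀ k, 1 ≤ q ^ k := fun k => Nat.one_le_pow _ _ (by omega)
  have p2 : q ≤ q ^ 2 := Nat.le_self_pow (by omega) _
  have hq' : (2 : ℤ) ≤ q := by exact_mod_cast hq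
  have q2 : (1 : ℤ) < q ^ 2 := by nlinarith
  have hN : Nat.card {X : Submodule F (Fin 2 ⊕ Fin 2 → F) // Module.finrank F X = 2 ∧
      (H11.spForm (Fin 2) F).TS X} = (q + 1) * (q ^ 2 + 1) := by
    generalize Nat.card {X : Submodule F (Fin 2 ⊕ Fin 2 → F) // _} = N at h5 ⊢
    simp only [Fin.prod_univ_two, Finset.sum_range_succ, Finset.prod_range_succ] at h5
    norm_num at h5
    zify [p1, p2] at h5 ⊢
    have n1 : ((q : ℤ) ^ 2 - 1) * (q - 1) * q ^ 4 ≠ 0 := by
      have : (0 : ℤ) < q ^ 4 := by positivity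
      refine mul_ne_zero (mul_ne_zero ?_ ?_) ?_ <;> omega
    apply mul_left_cancel₀ n1
    linear_combination h5
  refine ⟨hN, fun v hv => ?_⟩
  let S := {X : Submodule F (Fin 2 ⊕ Fin 2 → F) // Module.finrank F X = 2 ∧
      (H11.spForm (Fin 2) F).TS X}
  have := Fintype.ofFinite S
  have h6 := H12.sum_card_comm fun (u : {u : Fin 2 ⊕ Fin 2 → F // u ≠ 0}) (X : S) => u.1 ∈ X.1
  have h7 : ∀ u : {u : Fin 2 ⊕ Fin 2 → F // u ≠ 0}, Nat.card {X : S // u.1 ∈ X.1} =
      Nat.card {W : Submodule F (Fin 2 ⊕ Fin 2 → F) // Module.finrank F W = 2 ∧ v ∈ W ∧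
        (H11.spForm (Fin 2) F).TS W} := by
    intro u
    obtain ⟨g, hg, hgu⟩ := hC.witt_one u.2 hv rfl
    refine Nat.card_congr
      { toFun := fun X => ⟨X.1.1.map g.toLinearMap, (LinearEquiv.finrank_map_eq _ _).trans X.1.2.1,
          ⟨u, X.2, hgu⟩, X.1.2.2.map hg⟩
        invFun := fun X => ⟨⟨X.1.map g.symm.toLinearMap,
          (LinearEquiv.finrank_map_eq _ _).trans X.2.1,
          X.2.2.2.map (Subgroup.inv_mem _ hg)⟩, v, X.2.2.1, by simp [← hgu]⟩
        left_inv := fun X => Subtype.ext (Subtype.ext (by simp [← Submodule.map_comp]))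
        right_inv := fun X => Subtype.ext (by simp [← Submodule.map_comp]) }
  have h8 : ∀ X : S, Nat.card {u : {u : Fin 2 ⊕ Fin 2 → F // u ≠ 0} // u.1 ∈ X.1} = q ^ 2 - 1 := by
    intro X
    have : Nat.card {u : X.1 // u ≠ 0} = q ^ 2 - 1 := by
      rw [Nat.card_eq_fintype_card, Fintype.card_subtype_compl, Fintype.card_subtype_eq,
        Module.card_eq_pow_finrank (K := F), hF, X.2.1]
    rw [← this]
    exact Nat.card_congr
      { toFun := fun u => ⟨⟨u.1.1, u.2⟩, fun h => u.1.2 (congrArg Subtype.val h)⟩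
        invFun := fun u => ⟨⟨u.1.1, fun h => u.2 (Subtype.ext h)⟩, u.1.2⟩
        left_inv := fun _ => rfl
        right_inv := fun _ => rfl }
  simp only [h7, h8, Finset.sum_const, Finset.card_univ, smul_eq_mul] at h6
  rw [← Nat.card_eq_fintype_card (α := S), hN, Fintype.card_subtype_compl, Fintype.card_subtype_eq,
    Module.card_eq_pow_finrank (K := F), hF, hd] at h6
  generalize Nat.card {X : Submodule F (Fin 2 ⊕ Fin 2 → F) // _} = N at h6 ⊢
  zify [p1] at h6 ⊢
  have n1 : ((q : ℤ) ^ 2 - 1) * (q ^ 2 + 1) ≠ 0 := mul_ne_zero (by omega) (by omega)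
  apply mul_left_cancel₀ n1
  linear_combination h6

end Cfsg.Agent.S0828
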