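import Cfsg.Statements.S0829
import Cfsg.Agent.H12.StabBridge
-- import your own Cfsg.Agent.* helpers here

set_option autoImplicit false
set_option maxHeartbeats 400000
open Cfsg

namespace Cfsg.Agent.S0829

/-- The unitary quadrangle of PSU_4(q): with |F| = q², the number of 2-dimensional subspaces of F^4 on which the Hermitian form Σ x_i y_i^q vanishes is (q + 1)(q³ + 1). -/
theorem result {F : Type*} [Field F] [Fintype F] {q : ℕ} (hF : Fintype.card F = q ^ 2) : Nat.card {W : Submodule F (Fin 4 → F) // Module.finrank F W = 2 ∧ ∀ u ∈ W, ∀ v ∈ W, Cfsg.hermForm 4 F q u v = 0} = (q + 1) * (q ^ 3 + 1) := by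
  have hC := H11.hermC_nondeg (ι := Fin 4) hF
  have hd : Module.finrank F (Fin 4 → F) = 4 := by simp
  obtain ⟨W, hW, hk⟩ := H12.hermT_hasTS hF 2 hC (by simp)
  obtain ⟨H, h1, -, h2, h3⟩ := H12.card_stab_ts hC hW hk
  have h4 := hC.finrank_add_finrank_perp H
  have h5 := H12.card_ts_mul_card_stab hC hW
  rw [h3, H11.card_isom_herm 0 (hC.restrict_perp h1) (by omega), H11.card_isom_herm 4 hC hd,
    H11.card_ker_hermT, hF, hd, hk] at h5
  have e : ∀ X : Submodule F (Fin 4 → F), (H11.hermC (Fin 4) hF).TS X ↔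
      ∀ u ∈ X, ∀ v ∈ X, Cfsg.hermForm 4 F q u v = 0 := fun X =>
    ⟨fun h u hu v hv => h.2 v hv u hu, fun h => ⟨fun u hu => h u hu u hu, fun u hu v hv => h v hv u hu⟩⟩
  simp only [e] at h5
  generalize Nat.card {X : Submodule F (Fin 4 → F) // _} = N at h5 ⊢
  have hq := H11.two_le_of_card_sq hF
  have p1 : ∀ k, 1 ≤ q ^ k := fun k => Nat.one_le_pow _ _ (by omega)
  have p2 : q ^ 2 ≤ (q ^ 2) ^ 2 := Nat.le_self_pow (by omega) _
  have p3 : 1 ≤ (q ^ 2) ^ 2 := (p1 2).trans p2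
  simp only [Fin.prod_univ_two, Finset.sum_range_succ, Finset.prod_range_succ] at h5
  norm_num [Nat.even_iff] at h5
  zify [p1, p2, p3] at h5 ⊢
  have hq' : (2 : ℤ) ≤ q := by exact_mod_cast hq
  have n1 : ((q : ℤ) ^ 4 - 1) * (q ^ 2 - 1) * q ^ 6 ≠ 0 := by
    have : (1 : ℤ) < q ^ 2 := by nlinarith
    have : (1 : ℤ) < q ^ 4 := by nlinarith
    have : (0 : ℤ) < q ^ 6 := by positivity
    refine mul_ne_zero (mul_ne_zero ?_ ?_) ?_ <;> omega
  apply mul_left_cancel₀ n1
  linear_combination h5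

end Cfsg.Agent.S0829
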