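import Cfsg.Statements.S0831
import Cfsg.Agent.H12.MaxTS
import Cfsg.Agent.H12.Parab
-- import your own Cfsg.Agent.* helpers here

set_option autoImplicit false
set_option maxHeartbeats 400000
open Cfsg

namespace Cfsg.Agent.S0831

/-- The two families of maximal totally singular subspaces of the hyperbolic quadric: for the form Σ x_i y_i on F^(2m), m ≥ 1, and m-dimensional subspaces U, W, X on which it vanishes, the parities of m − dim(U ∩ W), m − dim(W ∩ X) and m − dim(U ∩ X) sum to an even number (so 'even codimension of the intersection' is an equivalence relation), and there exist two such subspaces meeting in codimension 1 (so there are exactly two classes). -/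
theorem result {F : Type*} [Field F] (m : ℕ) (hm : 1 ≤ m) : (∀ U W X : Submodule F (Fin m ⊕ Fin m → F), (Module.finrank F U = m ∧ ∀ w ∈ U, Cfsg.quadFormPlus m F w = 0) → (Module.finrank F W = m ∧ ∀ w ∈ W, Cfsg.quadFormPlus m F w = 0) → (Module.finrank F X = m ∧ ∀ w ∈ X, Cfsg.quadFormPlus m F w = 0) → Even ((m - Module.finrank F ↥(U ⊓ W)) + (m - Module.finrank F ↥(W ⊓ X)) + (m - Module.finrank F ↥(U ⊓ X)))) ∧ ∃ U W : Submodule F (Fin m ⊕ Fin m → F), (Module.finrank F U = m ∧ ∀ w ∈ U, Cfsg.quadFormPlus m F w = 0) ∧ (Module.finrank F W = m ∧ ∀ w ∈ W, Cfsg.quadFormPlus m F w = 0) ∧ Module.finrank F ↥(U ⊓ W) + 1 = m := by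
  have hC := H11.qPlus_nondeg (F := F) m
  have key : ∀ U : Submodule F (Fin m ⊕ Fin m → F), (Module.finrank F U = m ∧
      ∀ w ∈ U, Cfsg.quadFormPlus m F w = 0) ↔ (H12.CForm.ofQuad (H11.qPlus m F)).Lag U := by
    intro U
    rw [H12.CForm.Lag, H12.quad_ts_iff, and_comm]
    simp only [H12.CForm.ofQuad_N, H11.coe_qPlus, Module.finrank_fintype_fun_eq_card,
      Fintype.card_sum, Fintype.card_fin]
    exact and_congr_right' ⟨fun h => by omega, fun h => by omega⟩
  constructor
  · intro U W X hU hW hX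
    have := ((key U).1 hU).parity hC ((key W).1 hW) ((key X).1 hX)
    have h1 := Submodule.finrank_mono (inf_le_left : U ⊓ W ≤ U)
    have h2 := Submodule.finrank_mono (inf_le_left : W ⊓ X ≤ W)
    have h3 := Submodule.finrank_mono (inf_le_left : U ⊓ X ≤ U)
    have h4 := hU.1
    have h5 := hW.1
    rw [Nat.even_iff] at this ⊢
    omega
  · obtain ⟨W, hW, hWm⟩ := H12.qPlus_hasTS (F := F) m
    have hW' : (H12.CForm.ofQuad (H11.qPlus m F)).Lag W := ⟨hW, by simp [hWm, two_mul]⟩
    obtain ⟨Y, h1, h2⟩ := H12.exists_le_finrank_eq W (l := m - 1) (by omega)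
    obtain ⟨W', h3, h4⟩ := hW'.exists_ne hC h1 (by omega)
    exact ⟨W, W', (key W).2 hW', (key W').2 h3, by rw [h4]; omega⟩

end Cfsg.Agent.S0831
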