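import Cfsg.Statements.S0832
import Cfsg.Agent.H12.MaxTS
import Cfsg.Agent.H12.Parab
-- import your own Cfsg.Agent.* helpers here

set_option autoImplicit false
set_option maxHeartbeats 400000
open Cfsg

namespace Cfsg.Agent.S0832

/-- For the form Σ x_i y_i on F^(2m) over a finite field, m ≥ 1: an (m−1)-dimensional subspace on which the form vanishes is contained in exactly two m-dimensional subspaces on which it vanishes. -/
theorem result {F : Type*} [Field F] [Finite F] (m : ℕ) (hm : 1 ≤ m) (U : Submodule F (Fin m ⊕ Fin m → F)) (hU : Module.finrank F U + 1 = m ∧ ∀ u ∈ U, Cfsg.quadFormPlus m F u = 0) : Nat.card {W : Submodule F (Fin m ⊕ Fin m → F) // Module.finrank F W = m ∧ (∀ w ∈ W, Cfsg.quadFormPlus m F w = 0) ∧ U ≤ W} = 2 := by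
  have hC := H11.qPlus_nondeg (F := F) m
  have key : ∀ U : Submodule F (Fin m ⊕ Fin m → F), (Module.finrank F U = m ∧
      ∀ w ∈ U, Cfsg.quadFormPlus m F w = 0) ↔ (H12.CForm.ofQuad (H11.qPlus m F)).Lag U := by
    intro U
    rw [H12.CForm.Lag, H12.quad_ts_iff, and_comm]
    simp only [H12.CForm.ofQuad_N, H11.coe_qPlus, Module.finrank_fintype_fun_eq_card,
      Fintype.card_sum, Fintype.card_fin]
    exact and_congr_right' ⟨fun h => by omega, fun h => by omega⟩
  obtain ⟨W0, hW0, hWm⟩ := H12.qPlus_hasTS (F := F) m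
  have hU' : (H12.CForm.ofQuad (H11.qPlus m F)).TS U := H12.quad_ts_iff.2 (by
    simpa only [H12.CForm.ofQuad_N, H11.coe_qPlus] using hU.2)
  obtain ⟨W, h1, h2, h3⟩ := hU'.exists_le hC hW0 (by omega)
  have hW : (H12.CForm.ofQuad (H11.qPlus m F)).Lag W := ⟨h1, by simp [h3, hWm, two_mul]⟩
  obtain ⟨W', h4, h5⟩ := hW.exists_ne hC h2 (by omega)
  have h6 := (key W).2 hW
  have h7 := (key W').2 h4
  rw [Nat.card_eq_two_iff]
  refine ⟨⟨W, h6.1, h6.2, h2⟩, ⟨W', h7.1, h7.2, h5.ge.trans inf_le_right⟩, fun h => ?_, ?_⟩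
  · have : W = W' := congrArg Subtype.val h
    rw [← this, inf_idem] at h5
    rw [h5] at h3
    omega
  · refine Set.eq_univ_of_forall fun X => ?_
    rcases hW.eq_or hC h4 ((key X.1).1 ⟨X.2.1, X.2.2.1⟩) (by rw [h5]; omega)
      (h5.le.trans X.2.2.2) with h | h
    · exact Or.inl (Subtype.ext h)
    · exact Or.inr (Subtype.ext h)

end Cfsg.Agent.S0832
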