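import Cfsg.Statements.S0836
import Cfsg.Agent.H11.SL
-- import your own Cfsg.Agent.* helpers here

set_option autoImplicit false
set_option maxHeartbeats 400000
open Cfsg

namespace Cfsg.Agent.S0836

open Matrix.SpecialLinearGroup in
theorem conj_diag {ι : Type*} [Fintype ι] [DecidableEq ι] {F : Type*} [Field F] {i j : ι}
    (hij : i ≠ j) (a : F) (ha : a ≠ 0) (b : F) :
    diag2n hij a ha * transvection hij b = transvection hij (a ^ 2 * b) * diag2n hij a ha := by
  apply H11.sl_ext_smul
  intro v
  simp only [mul_smul, H11.transvection_smul]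
  simp only [Matrix.SpecialLinearGroup.smul_def, Matrix.smul_eq_mulVec, diag2n_coe]
  ext k
  simp only [Matrix.mulVec_diagonal, Pi.add_apply]
  by_cases hi : k = i
  · subst hi
    simp [hij.symm]
    field_simp
  · simp [hi]

/-- For i ≠ j and any scalar c, the elementary transvection 1 + c E_ij is a commutator ⁅g, h⁆ of two elements of SL_n(F) provided n ≥ 3, or n = 2 and F contains x ≠ 0 with x² ≠ 1. -/
theorem result {F : Type*} [Field F] (n : ℕ) (hn : 3 ≤ n ∨ (n = 2 ∧ ∃ x : F, x ≠ 0 ∧ x ^ 2 ≠ 1)) (i j : Fin n) (hij : i ≠ j) (c : F) (t : Matrix.SpecialLinearGroup (Fin n) F) (ht : (t : Matrix (Fin n) (Fin n) F) = Matrix.transvection i j c) : t ∈ commutatorSet (Matrix.SpecialLinearGroup (Fin n) F) := by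
  have ht' : t = Matrix.SpecialLinearGroup.transvection hij c := Subtype.ext ht
  subst ht'
  rcases hn with hn | ⟨-, x, hx, hx2⟩
  · obtain ⟨k, hk⟩ : ∃ k : Fin n, k ∉ ({i, j} : Finset (Fin n)) := by
      by_contra h
      push Not at h
      have := Finset.card_le_card (show Finset.univ ⊆ ({i, j} : Finset (Fin n)) from fun k _ => h k)
      have h2 := Finset.card_le_two (a := i) (b := j)
      simp only [Finset.card_univ, Fintype.card_fin] at this
      omega
    simp only [Finset.mem_insert, Finset.mem_singleton, not_or] at hk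
    exact ⟨_, _, (H11.commutator_transvection hij (Ne.symm hk.1) hk.2 c 1).trans (by rw [mul_one])⟩
  · refine ⟨Matrix.SpecialLinearGroup.diag2n hij x hx,
      Matrix.SpecialLinearGroup.transvection hij (c / (x ^ 2 - 1)), ?_⟩
    rw [commutatorElement_def, conj_diag, mul_inv_cancel_right,
      Matrix.SpecialLinearGroup.transvection_inv, ← Matrix.SpecialLinearGroup.transvection_add]
    congr 1
    have := sub_ne_zero.2 hx2
    field_simp
    ring

end Cfsg.Agent.S0836
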