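import Cfsg.Statements.S0837
import Cfsg.Agent.H12.StabBridge
-- import your own Cfsg.Agent.* helpers here

set_option autoImplicit false
set_option maxHeartbeats 400000
open Cfsg

namespace Cfsg.Agent.S0837

/-- If W ≤ F^n (|F| = q²) is a k-dimensional subspace on which the Hermitian form Σ x_i y_i^q is non-degenerate, then the stabiliser of W in GU_n(q) is isomorphic to GU_k(q) × GU_(n−k)(q). -/
theorem result {F : Type*} [Field F] [Fintype F] {q : ℕ} (hF : Fintype.card F = q ^ 2) (n k : ℕ) (hk : k ≤ n) (W : Submodule F (Fin n → F)) (hWk : Module.finrank F W = k) (hW : ∀ u ∈ W, (∀ v ∈ W, Cfsg.hermForm n F q u v = 0) → u = 0) : Nonempty (↥((Cfsg.stabilizing (Cfsg.glToMat (Fin n) F) (W : Set (Fin n → F))).subgroupOf (Cfsg.GU n F q)) ≃* ↥(Cfsg.GU k F q) × ↥(Cfsg.GU (n - k) F q)) := by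
  have hC := H11.hermC_nondeg (ι := Fin n) hF
  have h1 : (H11.hermC (Fin n) hF).NondegOn W := fun u hu h =>
    hW u hu fun v hv => (H11.hermC (Fin n) hF).B_swap_zero (h v hv)
  have hd : Module.finrank F (Fin n → F) = n := by simp
  have h4 := hC.finrank_add_finrank_perp W
  obtain ⟨e1⟩ := (H12.hermT_iso_hermC hF ((H12.CForm.restrict_nondeg_iff _).2 h1) hWk).isom_equiv
  obtain ⟨e2⟩ := (H12.hermT_iso_hermC hF (hC.restrict_perp h1) (n := n - k) (by omega)).isom_equiv
  exact ⟨(H12.guStabEquiv hF n W).trans ((hC.stabEquivProd h1).trans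
    ((e1.trans (H11.guEquivIsom hF k).symm).prodCongr
      (e2.trans (H11.guEquivIsom hF (n - k)).symm)))⟩

end Cfsg.Agent.S0837
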