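import Cfsg.Statements.S0841
import Mathlib.Tactic.Group
import Mathlib.Tactic.Ring
-- import your own Cfsg.Agent.* helpers here

set_option autoImplicit false
open Cfsg

namespace Cfsg.Agent.S0841


/-- If the commutator subgroup of G lies in the centre, then for all x, y in G and every natural number n one has (x * y) ^ n = x ^ n * y ^ n * c ^ (n * (n - 1) / 2) with c = y⁻¹ * x⁻¹ * y * x. -/
theorem result {G : Type*} [Group G] (hG : commutator G ≤ Subgroup.center G) (x y : G) (n : ℕ) : (x * y) ^ n = x ^ n * y ^ n * (y⁻¹ * x⁻¹ * y * x) ^ (n * (n - 1) / 2) := by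
  set c := y⁻¹ * x⁻¹ * y * x with hc
  have hz : c ∈ Subgroup.center G := by
    apply hG
    have := Subgroup.commutator_mem_commutator (Subgroup.mem_top y⁻¹) (Subgroup.mem_top x⁻¹)
    simpa [commutatorElement_def, commutator, hc] using this
  have hcom : ∀ g, Commute g c := fun g => Subgroup.mem_center_iff.mp hz g
  have h1 : ∀ k : ℕ, y ^ k * x = x * y ^ k * c ^ k := fun k => by
    induction k with
    | zero => simp
    | succ k ih =>
      have h2 : y * x = x * y * c := by rw [hc]; group
      calc y ^ (k + 1) * x = y * (y ^ k * x) := by rw [pow_succ', mul_assoc]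
        _ = (y * x) * y ^ k * c ^ k := by rw [ih]; simp only [mul_assoc]
        _ = x * y * (c * y ^ k) * c ^ k := by rw [h2]; simp only [mul_assoc]
        _ = x * y ^ (k + 1) * c ^ (k + 1) := by
          rw [← (hcom (y ^ k)).eq, pow_succ' y, pow_succ' c]; simp only [mul_assoc]
  induction n with
  | zero => simp
  | succ n ih =>
    have h3 : (n + 1) * (n + 1 - 1) / 2 = n * (n - 1) / 2 + n := by
      rw [← Nat.add_mul_div_right _ _ two_pos]
      congr 1
      cases n with
      | zero => rfl
      | succ m => simp only [Nat.add_sub_cancel]; ring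
    rw [pow_succ (x * y), ih, h3]
    calc x ^ n * y ^ n * c ^ (n * (n - 1) / 2) * (x * y)
        = x ^ n * (y ^ n * x) * y * c ^ (n * (n - 1) / 2) := by
          rw [mul_assoc _ _ (x * y), ← ((hcom (x * y)).pow_right _).eq]; simp only [mul_assoc]
      _ = x ^ (n + 1) * y ^ n * (c ^ n * y) * c ^ (n * (n - 1) / 2) := by
          rw [h1, pow_succ x]; simp only [mul_assoc]
      _ = _ := by
          rw [← ((hcom y).pow_right n).eq, pow_succ y, add_comm _ n, pow_add c]
          simp only [mul_assoc]

end Cfsg.Agent.S0841
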