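import Cfsg.Statements.S0842
import Cfsg.Agent.H5.BS16
-- import your own Cfsg.Agent.* helpers here

set_option autoImplicit false
open Cfsg

namespace Cfsg.Agent.S0842
open H5


/-- Suppose a Sylow 2-subgroup S of the finite group G is generalized quaternion of order at least 16, and let D be the commutator subgroup of S, C its centralizer and N its normalizer in G. Then there is a subgroup K of odd order, contained in C and normalized by N, with K ⊔ S = N and K ⊔ (S ⊓ C) = C, and C has index 2 in N. -/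
theorem result {G : Type*} [Group G] [Finite G] (S : Sylow 2 G) (n : ℕ) (e : (S : Subgroup G) ≃* QuaternionGroup (2 ^ (n + 2))) (D : Subgroup G) (hD : D = ⁅(S : Subgroup G), (S : Subgroup G)⁆) : ∃ K : Subgroup G, Odd (Nat.card K) ∧ K ≤ Subgroup.centralizer (D : Set G) ∧ Subgroup.normalizer (D : Set G) ≤ Subgroup.normalizer (K : Set G) ∧ K ⊔ (S : Subgroup G) = Subgroup.normalizer (D : Set G) ∧ K ⊔ ((S : Subgroup G) ⊓ Subgroup.centralizer (D : Set G)) = Subgroup.centralizer (D : Set G) ∧ ((Subgroup.centralizer (D : Set G)).subgroupOf (Subgroup.normalizer (D : Set G))).index = 2 := by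
  obtain ⟨a, b, h⟩ := exists_qData e
  rw [h.commutator_eq] at hD
  subst hD
  have hodd := H3.hasNPC_iff_forall_mem.1 h.hasNPC_normalizer
  set N := Subgroup.normalizer (Subgroup.zpowers (a ^ 2) : Set G) with hN
  have hKC : (Cfsg.pResidual 2 N).map N.subtype ≤
      Subgroup.centralizer (Subgroup.zpowers (a ^ 2) : Set G) :=
    H3.map_subtype_pResidual_le_iff.2 fun g hg ho => h.odd_mem_centralizer hg ho
  have hn : N ≤ Subgroup.normalizer (((Cfsg.pResidual 2 N).map N.subtype : Subgroup G) : Set G) :=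
    H1.le_normalizer_map_subtype _
  have hsup : (Cfsg.pResidual 2 N).map N.subtype ⊔ (S : Subgroup G) = N := by
    have := congrArg (Subgroup.map N.subtype) (H3.pResidual_sup_sylow (S.subtype h.le_normalizer))
    rwa [Subgroup.map_sup, H1.map_subtype_top, Sylow.coe_subtype,
      Subgroup.map_subgroupOf_eq_of_le h.le_normalizer] at this
  have hdec : ∀ x ∈ N, ∃ k ∈ (Cfsg.pResidual 2 N).map N.subtype, ∃ s ∈ (S : Subgroup G),
      k * s = x := fun x hx =>
    (H1.mem_sup_of_le_normalizer' (h.le_normalizer.trans hn)).1 (hsup.ge hx)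
  refine ⟨(Cfsg.pResidual 2 N).map N.subtype, ?_, hKC, hn, hsup, ?_, ?_⟩
  · rw [Subgroup.card_map_of_injective N.subtype_injective]
    exact Nat.coprime_two_right.1 (H3.hasNPC_iff_coprime.1 h.hasNPC_normalizer)
  · refine le_antisymm (sup_le hKC inf_le_right) fun x hx => ?_
    obtain ⟨k, hk, s, hs, rfl⟩ := hdec x (Subgroup.centralizer_le_normalizer _ hx)
    exact Subgroup.mul_mem_sup hk ⟨hs, (Subgroup.mul_mem_cancel_left _ (hKC hk)).1 hx⟩
  · rw [Subgroup.index_eq_two_iff_exists_notMem_and]
    refine ⟨⟨b⁻¹, inv_mem (h.le_normalizer h.b_mem)⟩, fun hb => h.b_notMem_centralizer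
      (inv_mem_iff.1 hb), fun x => ?_⟩
    obtain ⟨k, hk, s, hs, hx⟩ := hdec x x.2
    rcases h.cases hs with ⟨i, rfl⟩ | ⟨i, rfl⟩
    · right
      rw [Subgroup.mem_subgroupOf, ← hx]
      exact mul_mem (hKC hk) (QData.zpowers_le_centralizer (Subgroup.zpow_mem_zpowers a i))
    · left
      rw [Subgroup.mem_subgroupOf, Subgroup.coe_mul, ← hx, ← mul_assoc, mul_inv_cancel_right]
      exact mul_mem (hKC hk) (QData.zpowers_le_centralizer (Subgroup.zpow_mem_zpowers a i))

end Cfsg.Agent.S0842
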