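import Cfsg.Statements.S0848
import Cfsg.Agent.H5.Misc
-- import your own Cfsg.Agent.* helpers here

set_option autoImplicit false
open Cfsg

namespace Cfsg.Agent.S0848
open H5

theorem arith1 (I n : ℕ) (hI : I % 2 = 1) (hn : 0 < n)
    (h : (I : ℤ) * (n - 1) ^ 2 = 32 * (n * (n + 1))) : I = 45 := by
  obtain ⟨m, rfl⟩ : ∃ m, n = m + 1 := ⟨n - 1, by omega⟩
  push_cast at h
  have h1 : (m : ℤ) ∣ 64 := ⟨I * m - 32 * m - 96, by linear_combination -h⟩
  have h2 : m ≤ 64 := Nat.le_of_dvd (by norm_num) (by exact_mod_cast h1)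
  interval_cases m <;> omega

theorem arith2 (I n : ℕ) (hI : I % 2 = 1) (hn : 0 < n)
    (h : (I : ℤ) * (n + 2) ^ 2 = 32 * (n * (n + 1))) : I = 21 := by
  have h1 : ((n + 2 : ℕ) : ℤ) ∣ 64 :=
    ⟨I * (n + 2) - 32 * (n + 2) + 96, by push_cast; linear_combination -h⟩
  have h2 : n + 2 ≤ 64 := Nat.le_of_dvd (by norm_num) (by exact_mod_cast h1)
  have h3 : n ≤ 62 := by omega
  interval_cases n <;> omega


/-- If a finite group equals its own commutator subgroup and contains an involution whose centralizer is isomorphic to the dihedral group of order 8, then the group has order 168 or 360. -/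
theorem result {G : Type*} [Group G] [Finite G] (hperf : commutator G = ⊤) (t : G) (ht : orderOf t = 2) (e : Subgroup.centralizer ({t} : Set G) ≃* DihedralGroup 4) : Nat.card G = 168 ∨ Nat.card G = 360 := by
  classical
  have := Fintype.ofFinite G
  set D := Subgroup.centralizer ({t} : Set G) with hD
  have ht2 := H10.mul_self_of_orderOf_two ht
  have ht1 := H10.ne_one_of_orderOf_two ht
  have hti := H10.inv_eq_of_orderOf_two ht
  have htD : t ∈ D := Subgroup.mem_centralizer_singleton_iff.2 rfl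
  have hmem : ∀ g : G, g * t * g⁻¹ = t → g ∈ D := fun g hg =>
    Subgroup.mem_centralizer_singleton_iff.2 (mul_inv_eq_iff_eq_mul.1 hg)
  have het : e ⟨t, htD⟩ = .r 2 := by
    have h1 : ∀ z : DihedralGroup 4, z ≠ 1 → (∀ y, y * z = z * y) → z = .r 2 := by decide
    refine h1 _ (by simpa [Subtype.ext_iff] using ht1) fun y => ?_
    obtain ⟨y, rfl⟩ := e.surjective y
    rw [← map_mul, ← map_mul]
    exact congrArg e (Subtype.ext (Subgroup.mem_centralizer_singleton_iff.1 y.2))
  have hval : ∀ x : D, e x = .r 2 → (x : G) = t := fun x hx =>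
    congrArg Subtype.val (e.injective (hx.trans het.symm))
  have hcard : Nat.card D = 8 := by rw [Nat.card_congr e.toEquiv, DihedralGroup.nat_card]
  set σ : D := e.symm (.r 1) with hσ
  have hσ2 : (σ : G) * σ = t := hval (σ * σ) (by simp [hσ]; rfl)
  have hσo : orderOf (σ : G) = 4 := by simp [hσ]
  have hI : D.index % 2 = 1 := by
    have h1 : IsPGroup 2 D := IsPGroup.of_card (n := 3) hcard
    have h2 : H10.IsSylowIn 2 D ⊤ := ⟨le_top, h1, fun Q hQ hle _ => by
      by_contra hne
      obtain ⟨g, -, hgD, hg⟩ := H10.exists_mem_normalizer_of_lt hQ (lt_of_le_of_ne hle (Ne.symm hne))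
      refine hgD (hmem g ?_)
      have h3 : ∀ z : DihedralGroup 4, z * z = 1 ∨ z * z = .r 2 := by decide
      have h4 := H1.conj_mem_of_mem_normalizer hg σ.2
      have h5 : g * t * g⁻¹ = (g * σ * g⁻¹) * (g * σ * g⁻¹) := by rw [← hσ2]; group
      rcases h3 (e ⟨_, h4⟩) with h6 | h6
      · rw [← map_mul, map_eq_one_iff _ e.injective, Subtype.ext_iff] at h6
        exact absurd (by simpa using h5.trans h6) ht1
      · rw [← map_mul] at h6
        exact h5.trans (hval _ h6)⟩
    have := h2.not_dvd_relIndex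
    rw [Subgroup.relIndex_top_right] at this
    omega
  have hG : Nat.card G = 8 * D.index := by rw [← hcard, D.card_mul_index]
  have hconj : ∀ u : G, IsConj t u ↔ u * u = 1 ∧ u ≠ 1 := fun u => by
    rw [← H10.orderOf_eq_two_iff]
    refine ⟨fun h => (H10.orderOf_eq_of_isConj h).symm.trans ht, fun hu => ?_⟩
    obtain ⟨g, hg⟩ := exists_conj_mem_of_index (Subgroup.zpowers (σ : G)) (by
      have := (Subgroup.zpowers (σ : G)).card_mul_index
      rw [Nat.card_zpowers, hσo, hG] at this
      omega) (hu ▸ pow_orderOf_eq_one u)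
      (hom_eq_one_of_mem_commutator (hperf ▸ Subgroup.mem_top u))
    rw [H10.invol_unique_of_isCyclic inferInstance (hσ2 ▸ mul_mem (Subgroup.mem_zpowers _)
      (Subgroup.mem_zpowers _)) hg ht (by rw [H10.orderOf_conj, hu])]
    exact (isConj_iff.2 ⟨g, rfl⟩).symm
  have hTI : ∀ g : G, g ∉ D → ∀ s ∈ {s : G | s = t ∨ s * s = t},
      g * s * g⁻¹ ∈ {s : G | s = t ∨ s * s = t} → s = 1 := by
    rintro g hg s (rfl | hs) (h' | h')
    · exact absurd (hmem g h') hg
    · refine absurd ?_ ht1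
      rw [← h', show g * s * g⁻¹ * (g * s * g⁻¹) = g * (s * s) * g⁻¹ by group, ht2]; group
    · refine absurd ?_ ht1
      rw [← hs, show s * s = g⁻¹ * (g * s * g⁻¹ * (g * s * g⁻¹)) * g by group, h', ht2]; group
    · refine absurd (hmem g ?_) hg
      calc _ = g * (s * s) * g⁻¹ := by rw [hs]
        _ = _ := by rw [← h']; group
  have hA : ∀ x : D, d8Val (e.toMonoidHom x) ≠ 0 → (x : G) ∈ {s : G | s = t ∨ s * s = t} := by
    intro x hx
    have h1 : ∀ z : DihedralGroup 4, d8Val z ≠ 0 → z = .r 2 ∨ z * z = .r 2 := by decide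
    exact (h1 _ hx).imp (hval x) fun h => hval (x * x) (by rw [map_mul]; exact h)
  obtain ⟨α, β, hα, hβ, hne, hα1, hβ1, he⟩ := exists_irr_of_d8 D e.toMonoidHom e.surjective hTI hA
  have hθ := isGeneralizedCharacter_d8Val.comp e.toMonoidHom
  have h1 := congrFun he 1
  rw [indFun_apply_one, map_one, show d8Val 1 = 0 by decide] at h1
  have h2 := congrFun he t
  rw [indFun_apply_of_TIset D hTI hθ.isClassFunction (fun x hx => by
      by_contra h; exact hx (hA x (by exact_mod_cast h))) ⟨t, htD⟩ (Or.inl rfl)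
      (by simpa [Subtype.ext_iff] using ht1)] at h2
  erw [het] at h2
  rw [show d8Val (.r 2) = 4 by decide] at h2
  have h3 := pairSum_indFun D (fun x => (d8Val (e.toMonoidHom x) : ℂ)) t t (by
    intro s x hs hx hy
    have hx2 := ((hconj x).1 hx).1
    have hy2 := ((hconj _).1 hy).1
    have hx' : x⁻¹ = x := inv_eq_of_mul_eq_one_right hx2
    have h4 : x * s * x⁻¹ = (s : G)⁻¹ := by
      rw [hx'] at hy2 ⊢
      rw [eq_inv_iff_mul_eq_one, ← hy2]; group
    refine hmem x ?_
    rcases hA s (by exact_mod_cast hs) with h5 | h5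
    · rw [← h5, h4, h5, hti]
    · calc _ = (x * s * x⁻¹) * (x * s * x⁻¹) := by rw [← h5]; group
        _ = _ := by rw [h4, ← mul_inv_rev, h5, hti])
  have h4 : ∀ x : D, classInd t (x : G) = ((if e x * e x = 1 ∧ e x ≠ 1 then 1 else 0 : ℤ) : ℂ) := by
    intro x
    have : IsConj t x ↔ e x * e x = 1 ∧ e x ≠ 1 := by
      rw [hconj, ← map_mul, map_eq_one_iff _ e.injective, Ne, Ne, map_eq_one_iff _ e.injective,
        Subtype.ext_iff, Subtype.ext_iff]; rfl
    split_ifs with h
    · rw [classInd_of_isConj (this.2 h), Int.cast_one]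
    · rw [classInd_of_not_isConj (mt this.1 h), Int.cast_zero]
  have h5 : ∑ x : D, ∑ y : D, classInd t (x : G) * classInd t (y : G) *
      (d8Val (e.toMonoidHom (x * y)) : ℂ) = 32 := by
    have : ∑ x : DihedralGroup 4, ∑ y : DihedralGroup 4, (if x * x = 1 ∧ x ≠ 1 then 1 else 0 : ℤ) *
      (if y * y = 1 ∧ y ≠ 1 then 1 else 0 : ℤ) * d8Val (x * y) = 32 := by decide
    rw [← Int.cast_ofNat (R := ℂ) 32, ← this, Int.cast_sum, ← Equiv.sum_comp e.toEquiv]
    refine Finset.sum_congr rfl fun x _ => ?_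
    rw [Int.cast_sum, ← Equiv.sum_comp e.toEquiv]
    refine Finset.sum_congr rfl fun y _ => ?_
    rw [h4, h4, map_mul, Int.cast_mul, Int.cast_mul]; rfl
  rw [h5, he, pairSum_sub, pairSum_add, pairSum_one, hα.pairSum_eq, hβ.pairSum_eq, ← hD] at h3
  have h6 := three_norm_sq_le_card_centralizer isIrrCharacter_one hα hβ hα1.symm hβ1.symm hne t
  obtain ⟨a, ha⟩ := hα.isGeneralizedCharacter.exists_int_of_sq_eq_one (by rw [sq, ht2])
  obtain ⟨b, hb⟩ := hβ.isGeneralizedCharacter.exists_int_of_sq_eq_one (by rw [sq, ht2])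
  obtain ⟨n, hn0, hn⟩ := hα.exists_apply_one
  simp only [Pi.add_apply, Pi.sub_apply, ha, hb, hn] at h1 h2
  have h7 : β 1 = n + 1 := by push_cast at h1; linear_combination h1
  have h8 : b = a - 3 := by
    have : (b : ℂ) = a - 3 := by push_cast at h2; linear_combination h2
    exact_mod_cast this
  rw [ha, hb, ← hD, hcard, norm_one, Complex.norm_intCast, Complex.norm_intCast, sq_abs, sq_abs] at h6
  have h9 : 1 ^ 2 + a ^ 2 + b ^ 2 ≤ 8 := by exact_mod_cast h6
  rw [ha, hb, hn, h7, h8] at h3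
  have hi : (D.index : ℂ) ≠ 0 := Nat.cast_ne_zero.2 Subgroup.index_ne_zero_of_finite
  have hn1 : (n : ℂ) ≠ 0 := Nat.cast_ne_zero.2 hn0.ne'
  have hn2 : (n : ℂ) + 1 ≠ 0 := Nat.cast_add_one_ne_zero n
  field_simp at h3
  have h10 : a = 1 ∨ a = 2 := by
    subst h8
    have : a < 3 := by nlinarith
    have : 0 < a := by nlinarith
    omega
  rw [hG]
  rcases h10 with rfl | rfl
  · right
    rw [arith1 D.index n hI hn0 (by
      have : (D.index : ℂ) * (n - 1) ^ 2 = 32 * (n * (n + 1)) := by
        push_cast at h3; linear_combination h3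
      exact_mod_cast this)]
  · left
    rw [arith2 D.index n hI hn0 (by
      have : (D.index : ℂ) * (n + 2) ^ 2 = 32 * (n * (n + 1)) := by
        push_cast at h3; linear_combination h3
      exact_mod_cast this)]

end Cfsg.Agent.S0848
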