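import Cfsg.Statements.S0849
import Cfsg.Agent.H5.Pairs
-- import your own Cfsg.Agent.* helpers here

set_option autoImplicit false
open Cfsg

namespace Cfsg.Agent.S0849
open H5


/-- Let H be a subgroup of a finite group G and S a subset of H that is mapped to itself under conjugation by H, is disjoint from its conjugate by any element outside H, and is closed under inverses. Let φ be a class function of H vanishing on H away from S, and let u, v be involutions of G. Then the sum of the induced function of φ over all products a * b with a conjugate to u and b conjugate to v equals the index of H times the sum of φ (a * b) over such pairs with a and b in H. -/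
theorem result {G : Type*} [Group G] [Fintype G] (H : Subgroup G) (S : Set G) (hSH : S ⊆ H) (hHS : ∀ h ∈ H, ∀ s ∈ S, h * s * h⁻¹ ∈ S) (hTI : ∀ g : G, g ∉ H → ∀ s ∈ S, g * s * g⁻¹ ∉ S) (hinv : ∀ s ∈ S, s⁻¹ ∈ S) (φ : H → ℂ) (hφ : Cfsg.IsClassFunction H φ) (hφS : ∀ x : H, (x : G) ∉ S → φ x = 0) (u v : G) (hu : orderOf u = 2) (hv : orderOf v = 2) : ∑ᶠ p ∈ {p : G × G | IsConj u p.1 ∧ IsConj v p.2}, Cfsg.indFun H φ (p.1 * p.2) = (H.index : ℂ) * ∑ᶠ p ∈ {p : H × H | IsConj u (p.1 : G) ∧ IsConj v (p.2 : G)}, φ (p.1 * p.2) := by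
  classical
  have hu2 : ∀ x, IsConj u x → x * x = 1 := fun x hx => by
    obtain ⟨c, rfl⟩ := isConj_iff.1 hx
    rw [← sq, conj_pow, ← hu, pow_orderOf_eq_one]; group
  have hv2 : ∀ x, IsConj v x → x * x = 1 := fun x hx => by
    obtain ⟨c, rfl⟩ := isConj_iff.1 hx
    rw [← sq, conj_pow, ← hv, pow_orderOf_eq_one]; group
  rw [← pairSum_eq_finsum, pairSum_indFun H φ u v]
  · congr 1
    rw [finsum_mem_eq_finite_toFinset_sum _ (Set.toFinite _), ← Finset.sum_product',
      Finset.univ_product_univ]
    rw [← Finset.sum_subset (Finset.subset_univ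
      (Set.toFinite {p : H × H | IsConj u (p.1 : G) ∧ IsConj v (p.2 : G)}).toFinset)]
    · refine Finset.sum_congr rfl fun p hp => ?_
      simp only [Set.Finite.mem_toFinset, Set.mem_ofPred_eq] at hp
      simp [classInd_of_isConj hp.1, classInd_of_isConj hp.2]
    · intro p _ hp
      simp only [Set.Finite.mem_toFinset, Set.mem_ofPred_eq, not_and] at hp
      by_cases h1 : IsConj u (p.1 : G)
      · simp [classInd_of_not_isConj (hp h1)]
      · simp [classInd_of_not_isConj h1]
  · intro t x ht hx hy
    by_contra hxH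
    have htS : (t : G) ∈ S := by_contra fun h => ht (hφS t h)
    refine hTI x hxH t htS ?_
    have h1 := hu2 x hx
    have h2 := hv2 _ hy
    have hx' : x⁻¹ = x := inv_eq_of_mul_eq_one_right h1
    have : x * t * x⁻¹ = (t : G)⁻¹ := by
      rw [hx'] at h2 ⊢
      rw [eq_inv_iff_mul_eq_one, ← h2]; group
    rw [this]
    exact hinv _ htS

end Cfsg.Agent.S0849
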