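import Cfsg.Statements.S0850
import Cfsg.Agent.H5.Misc
-- import your own Cfsg.Agent.* helpers here

set_option autoImplicit false
open Cfsg

namespace Cfsg.Agent.S0850
open H5


/-- Let K be a subgroup of the finite group G that meets each conjugate by an element outside its normalizer N trivially, is properly contained in N, and contains the centralizer of each of its non-identity elements (a T.I. subgroup with Frobenius normalizer). Then no element of N outside K is conjugate in G to an element of K, and for every class function ϑ of N that vanishes on N away from K and at the identity, the function induced from ϑ to G agrees with ϑ on all of N. -/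
theorem result {G : Type*} [Group G] [Fintype G] (K : Subgroup G) (hTI : ∀ g : G, g ∉ Subgroup.normalizer (K : Set G) → ∀ k ∈ K, g * k * g⁻¹ ∈ K → k = 1) (hlt : K < Subgroup.normalizer (K : Set G)) (hC : ∀ k ∈ K, k ≠ 1 → Subgroup.centralizer ({k} : Set G) ≤ K) : (∀ x ∈ Subgroup.normalizer (K : Set G), x ∉ K → ∀ g : G, g * x * g⁻¹ ∉ K) ∧ ∀ (ϑ : Subgroup.normalizer (K : Set G) → ℂ), Cfsg.IsClassFunction (Subgroup.normalizer (K : Set G)) ϑ → (∀ x : Subgroup.normalizer (K : Set G), (x : G) ∉ K → ϑ x = 0) → ϑ 1 = 0 → ∀ x : Subgroup.normalizer (K : Set G), Cfsg.indFun (Subgroup.normalizer (K : Set G)) ϑ x = ϑ x := by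
  have key : ∀ x ∈ Subgroup.normalizer (K : Set G), x ∉ K → ∀ g : G, g * x * g⁻¹ ∉ K :=
    fun x hxN hxK g hg => hxK (mem_of_orderOf_dvd_of_coprime
      (coprime_card_index_of_centralizer_le hC) hxN
      (H10.orderOf_conj g x ▸ K.orderOf_dvd_natCard hg))
  refine ⟨key, fun ϑ hϑ hK h1 x => ?_⟩
  by_cases hx : (x : G) ∈ K
  · by_cases hx1 : x = 1
    · subst hx1
      rw [OneMemClass.coe_one, indFun_apply_one, h1, mul_zero]
    · exact indFun_apply_of_TIset _ (A := K) hTI hϑ hK x hx hx1
  · rw [hK x hx]
    exact indFun_eq_zero _ _ fun g hg => hK _ (key x x.2 hx g)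

end Cfsg.Agent.S0850
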