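import Cfsg.Statements.S0851
import Cfsg.Agent.H5.FrobChar
-- import your own Cfsg.Agent.* helpers here

set_option autoImplicit false
open Cfsg

namespace Cfsg.Agent.S0851
open H5


/-- Let K be a subgroup of the finite group G that meets each conjugate by an element outside its normalizer N trivially, is properly contained in N, and contains the centralizer of each of its non-identity elements (a T.I. subgroup with Frobenius normalizer). Suppose K is abelian, let e be the index of K in N, and call an irreducible character of N relevant when it takes at some element of K a value different from its degree. Then either there is exactly one relevant character and K is an elementary abelian p-group of order e + 1 for some prime p, or there are a sign ε and an injective map f from the relevant characters to the irreducible characters of G such that inducing χ - ξ to G gives ε (f χ - f ξ) for all relevant χ and ξ. -/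
theorem result {G : Type*} [Group G] [Fintype G] (K : Subgroup G) (hTI : ∀ g : G, g ∉ Subgroup.normalizer (K : Set G) → ∀ k ∈ K, g * k * g⁻¹ ∈ K → k = 1) (hlt : K < Subgroup.normalizer (K : Set G)) (hC : ∀ k ∈ K, k ≠ 1 → Subgroup.centralizer ({k} : Set G) ≤ K) (hab : ∀ a ∈ K, ∀ b ∈ K, a * b = b * a) : (Nat.card {χ : Cfsg.IrrCharacter (Subgroup.normalizer (K : Set G)) // ∃ k : Subgroup.normalizer (K : Set G), (k : G) ∈ K ∧ (χ : ↥(Subgroup.normalizer (K : Set G)) → ℂ) k ≠ (χ : ↥(Subgroup.normalizer (K : Set G)) → ℂ) 1} = 1 ∧ ∃ p : ℕ, p.Prime ∧ Cfsg.IsElementaryAbelian p K ∧ Nat.card K = (K.subgroupOf (Subgroup.normalizer (K : Set G))).index + 1) ∨ ∃ (ε : ℂ) (f : {χ : Cfsg.IrrCharacter (Subgroup.normalizer (K : Set G)) // ∃ k : Subgroup.normalizer (K : Set G), (k : G) ∈ K ∧ (χ : ↥(Subgroup.normalizer (K : Set G)) → ℂ) k ≠ (χ : ↥(Subgroup.normalizer (K : Set G)) → ℂ) 1} → Cfsg.IrrCharacter G), (ε = 1 ∨ ε = -1) ∧ Function.Injective f ∧ ∀ χ ξ, Cfsg.indFun (Subgroup.normalizer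 (K : Set G)) ((χ.1 : ↥(Subgroup.normalizer (K : Set G)) → ℂ) - (ξ.1 : ↥(Subgroup.normalizer (K : Set G)) → ℂ)) = ε • ((f χ : G → ℂ) - (f ξ : G → ℂ)) := by
  classical
  right
  set N := Subgroup.normalizer (K : Set G) with hN
  rcases isEmpty_or_nonempty {χ : Cfsg.IrrCharacter N // ∃ k : N, (k : G) ∈ K ∧
    (χ : N → ℂ) k ≠ (χ : N → ℂ) 1} with h0 | ⟨⟨χ₀⟩⟩
  · exact ⟨1, fun χ => h0.elim χ, Or.inl rfl, fun χ => h0.elim χ, fun χ => h0.elim χ⟩
  have hk : ∀ χ : {χ : Cfsg.IrrCharacter N // ∃ k : N, (k : G) ∈ K ∧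
      (χ : N → ℂ) k ≠ (χ : N → ℂ) 1}, ¬ K.subgroupOf N ≤ charKer (χ.1 : N → ℂ) := fun χ =>
    (not_le_charKer_subgroupOf_iff χ.1.2.isCharacter).2 χ.2
  have hdeg := fun χ => Cfsg.IsIrrCharacter.apply_one_of_frob_of_comm (frob_subgroupOf hC N)
    (fun a ha b hb => Subtype.ext (hab _ ha _ hb)) χ.1.2 (hk χ)
  have hvan := fun χ (x : N) (hx : (x : G) ∉ K) =>
    Cfsg.IsIrrCharacter.apply_eq_zero_of_frob (frob_subgroupOf hC N) χ.1.2 (hk χ) hx
  have hne : ∀ {χ ξ : {χ : Cfsg.IrrCharacter N // ∃ k : N, (k : G) ∈ K ∧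
      (χ : N → ℂ) k ≠ (χ : N → ℂ) 1}}, χ ≠ ξ → (χ.1 : N → ℂ) ≠ ξ.1 :=
    fun h h' => h (Subtype.ext (Subtype.ext h'))
  obtain ⟨ε, hε, μ, h1, h2, h3⟩ := H6.exceptional_of_isometry χ₀
    (fun χ => Cfsg.indFun N ((χ.1 : N → ℂ) - (χ₀.1 : N → ℂ))) (by simp [indFun_zero])
    (fun χ => (χ.1.2.isGeneralizedCharacter.sub χ₀.1.2.isGeneralizedCharacter).ind)
    (fun χ => by simp [indFun_apply_one, hdeg]) (fun χ ξ hχ hξ => by
      rw [classInner_indFun_of_TIset _ (A := K) hTI (ξ.1.2.isClassFunction.sub χ₀.1.2.isClassFunction)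
        (fun x hx => by simp [hvan _ x hx]) (fun x hx => by simp [hvan _ x hx]) (by simp [hdeg]),
        classInner_sub_left, classInner_sub_right, classInner_sub_right,
        χ.1.2.classInner_of_ne χ₀.1.2 (hne hχ), χ₀.1.2.classInner_of_ne ξ.1.2 (hne hξ.symm),
        χ₀.1.2.classInner_self]
      split_ifs with h
      · rw [h, ξ.1.2.classInner_self]; norm_num
      · rw [χ.1.2.classInner_of_ne ξ.1.2 (hne h)]; norm_num)
  refine ⟨ε, fun χ => ⟨μ χ, h1 χ⟩, hε, fun χ ξ h => h2 (congrArg Subtype.val h), fun χ ξ => ?_⟩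
  have := congrArg₂ (· - ·) (h3 χ) (h3 ξ)
  simp only [← indFun_sub, ← smul_sub, sub_sub_sub_cancel_right] at this
  exact this

end Cfsg.Agent.S0851
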