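import Cfsg.Statements.S0853
import Cfsg.Agent.H5.FrobChar
-- import your own Cfsg.Agent.* helpers here

set_option autoImplicit false
open Cfsg

namespace Cfsg.Agent.S0853
open H5


/-- Let K be a subgroup of the finite group G that meets each conjugate by an element outside its normalizer N trivially, is properly contained in N, and contains the centralizer of each of its non-identity elements (a T.I. subgroup with Frobenius normalizer). Let S be the set of irreducible characters of N taking at some element of K a value different from their degree, suppose S has at least two members, and let star be a linear isometry on the integer span of S into the generalized characters of G that agrees with induction on the members vanishing at the identity (so S is coherent, with star as the extending isometry). Then there is a single integer m such that star χ k - χ k = m * χ 1 / e for every χ in S and every non-identity element k of K, where e is the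 index of K in N. -/
theorem result {G : Type*} [Group G] [Fintype G] (K : Subgroup G) (hTI : ∀ g : G, g ∉ Subgroup.normalizer (K : Set G) → ∀ k ∈ K, g * k * g⁻¹ ∈ K → k = 1) (hlt : K < Subgroup.normalizer (K : Set G)) (hC : ∀ k ∈ K, k ≠ 1 → Subgroup.centralizer ({k} : Set G) ≤ K) [Fintype ↥(Subgroup.normalizer (K : Set G))] (S : Set (↥(Subgroup.normalizer (K : Set G)) → ℂ)) (hS : S = {χ : ↥(Subgroup.normalizer (K : Set G)) → ℂ | Cfsg.IsIrrCharacter ↥(Subgroup.normalizer (K : Set G)) χ ∧ ∃ k : ↥(Subgroup.normalizer (K : Set G)), (k : G) ∈ K ∧ χ k ≠ χ 1}) (htwo : ∃ χ ∈ S, ∃ ξ ∈ S, χ ≠ ξ) (star : (↥(Subgroup.normalizer (K : Set G)) → ℂ) → (G → ℂ)) (hstar : Cfsg.IsLinearIsometryOn (Cfsg.zspan S) star) (hext : ∀ α ∈ Cfsg.zspanOn S ({1}ᶜ : Set ↥(Subgroup.normalizer (K : Set G))), star α = Cfsg.indFun (Subgroup.normalizer (K : Set G)) α) : ∃ m : ℤ, ∀ χ ∈ S, ∀ k : ↥(Subgroup.normalizer (K : Set G)), (k : G) ∈ K → k ≠ 1 → star χ k - χ k = (m : ℂ) *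 χ 1 / ((K.subgroupOf (Subgroup.normalizer (K : Set G))).index : ℂ) := by
  classical
  let N := Subgroup.normalizer (K : Set G)
  have hS' : ∀ χ, χ ∈ S ↔ Cfsg.IsIrrCharacter _ χ ∧ ¬ K.subgroupOf _ ≤ charKer χ := fun χ => by
    rw [hS]
    exact and_congr_right fun h => (not_le_charKer_subgroupOf_iff h.isCharacter).symm
  have hsp : ∀ χ ∈ S, χ ∈ Cfsg.zspan S := fun χ hχ => Submodule.subset_span hχ
  have hconst : ∀ χ ∈ S, ∀ a b : N, (a : G) ∈ K → (b : G) ∈ K → a ≠ 1 → b ≠ 1 →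
      star χ a - χ a = star χ b - χ b := fun χ hχ a b =>
    coherent_const hTI hC hS' hstar hext (hstar.2.2.2 _ (hsp χ hχ)).isClassFunction
      ((hS' χ).1 hχ).1.isClassFunction fun ξ hξ => hstar.2.2.1 _ (hsp χ hχ) _ (hsp ξ hξ)
  obtain ⟨χ₀, hχ₀, -⟩ := htwo
  obtain ⟨h1, h2⟩ := (hS' χ₀).1 hχ₀
  obtain ⟨k₀, hk₀, hk1⟩ := (not_le_charKer_subgroupOf_iff h1.isCharacter).1 h2
  have hk1' : k₀ ≠ 1 := fun h => hk1 (by rw [h])
  have hint : ∀ χ ∈ S, ∃ d : ℤ, star χ k₀ - χ k₀ = d := fun χ hχ =>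
    (((hstar.2.2.2 _ (hsp χ hχ)).restrict N).sub
      ((hS' χ).1 hχ).1.isGeneralizedCharacter).exists_int_of_const (K := K.subgroupOf N) hk₀
      fun k hk hk' => hconst χ hχ k k₀ hk hk₀ hk' hk1'
  have he : ((K.subgroupOf N).index : ℂ) ≠ 0 := Nat.cast_ne_zero.2 Subgroup.index_ne_zero_of_finite
  set μ : ℂ := (star χ₀ k₀ - χ₀ k₀) * (K.subgroupOf N).index / χ₀ 1 with hμ
  have hval : ∀ χ ∈ S, star χ k₀ - χ k₀ = μ * χ 1 / (K.subgroupOf N).index := fun χ hχ => by
    have h3 := (coherent_apply hTI hC hS' hstar hext hχ₀ hχ).2 k₀ hk₀ hk1'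
    have := h1.apply_one_ne_zero
    rw [hμ]
    field_simp
    linear_combination h3
  have hdeg : ∀ χ ∈ S, ∃ (n : ℕ) (d : ℤ), n ∣ Nat.card (K.subgroupOf N) ∧
      χ 1 = (K.subgroupOf N).index * n ∧ μ * n = d := fun χ hχ => by
    obtain ⟨n, -, h3, h4⟩ :=
      ((hS' χ).1 hχ).1.exists_apply_one_of_frob (frob_subgroupOf hC _) ((hS' χ).1 hχ).2
    obtain ⟨d, hd⟩ := hint χ hχ
    refine ⟨n, d, h3, h4, ?_⟩
    rw [← hd, hval χ hχ, h4]
    field_simp
    rfl
  obtain ⟨m, hm⟩ : ∃ m : ℤ, μ = m := by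
    obtain ⟨n, d, ⟨r, hr⟩, -, hd⟩ := hdeg χ₀ hχ₀
    have h3 := sum_irr_not_le_charKer (K := K.subgroupOf N) (one_mem _)
    obtain ⟨z, hz⟩ : ∃ z : ℤ, μ * ∑ χ ∈ Finset.univ.filter (fun χ : Cfsg.IrrCharacter N =>
        ¬ K.subgroupOf N ≤ charKer χ.1), χ.1 1 * χ.1 1 = (K.subgroupOf N).index ^ 2 * z := by
      rw [Finset.mul_sum]
      refine Finset.sum_induction _ (fun x => ∃ z : ℤ, x = ((K.subgroupOf N).index : ℂ) ^ 2 * z)
        ?_ ⟨0, by simp⟩ fun χ hχ => ?_
      · rintro _ _ ⟨x, rfl⟩ ⟨y, rfl⟩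
        exact ⟨x + y, by push_cast; ring⟩
      · obtain ⟨n, d, -, h4, h5⟩ := hdeg χ ((hS' χ).2 ⟨χ.2, (Finset.mem_filter.1 hχ).2⟩)
        exact ⟨d * n, by rw [h4]; push_cast; rw [← h5]; ring⟩
    rw [h3, regChar_one, ← (K.subgroupOf N).card_mul_index, hr] at hz
    refine ⟨d * r - (K.subgroupOf N).index * z, ?_⟩
    push_cast at hz ⊢
    rw [← hd]
    refine mul_left_cancel₀ he ?_
    linear_combination -hz
  exact ⟨m, fun χ hχ k hk hk' => by rw [hconst χ hχ k k₀ hk hk₀ hk' hk1', hval χ hχ, hm]⟩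

end Cfsg.Agent.S0853
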