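import Cfsg.Statements.S0855
import Cfsg.Agent.H6.RelM
import Cfsg.Agent.H6.Zeros

set_option autoImplicit false
open Cfsg

namespace Cfsg.Agent.S0855
open H6 H20 H19 H18 Subgroup

/-- For a finite group G and a prime p: every irreducible character of G has degree a power of p if and only if G has an abelian normal subgroup whose order is prime to p and whose index is a power of p. -/
theorem result {G : Type*} [Group G] [Finite G] (p : ℕ) (hp : p.Prime) : (∀ χ : Cfsg.IrrCharacter G, ∃ k : ℕ, (χ : G → ℂ) 1 = (p : ℂ) ^ k) ↔ ∃ A : Subgroup G, A.Normal ∧ (∀ a ∈ A, ∀ b ∈ A, a * b = b * a) ∧ Nat.Coprime (Nat.card A) p ∧ ∃ k : ℕ, A.index = p ^ k := by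
  have e : (∀ χ : Cfsg.IrrCharacter G, ∃ k : ℕ, (χ : G → ℂ) 1 = (p : ℂ) ^ k) ↔
      Dg (⊤ : Subgroup G) ⊥ (PiN {p}) := by
    rw [dg_top]
    refine forall_congr' fun χ => ?_
    rw [H6.irr_deg χ.2]
    exact ⟨fun ⟨k, e⟩ => (by exact_mod_cast e : charDegree (χ : G → ℂ) = p ^ k) ▸ .prime_pow hp k,
      fun h => (h.exists_pow (H6.irr_deg_pos χ.2).ne').imp fun k e => by rw [e, Nat.cast_pow]⟩
  rw [e]
  refine ⟨fun h => ?_, fun ⟨A, a, b, _, k, d⟩ χ hχ _ => ?_⟩
  · have h1 := thompson_hall hp (h.imp fun d a b => (a.dvd_of_ne_one b).2)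
    have h2 := Ores_normal p (⊤ : Subgroup G)
    have h3 := ab_of_dg (G := Ores p ⊤) fun θ a b => (h.normal h2 (fun _ _ c d => d.dvd c) θ a b).eq_one
      (h1.pi.dvd (H20.irr_deg_dvd a))
    exact ⟨_, h2.normal, fun a c b d => (comm_iff_le_cent.1 h3 d a c), h1.pi.coprime_prime hp,
      relIndex_top_right (Ores p (⊤ : Subgroup G)) ▸ (Ores_idx hp ⊤).exists_pow (relIndex_ne_zero' _ _)⟩
  · exact (PiN.prime_pow hp k).dvd (d ▸ relIndex_top_right A ▸ deg_dvd_of_ab normalIn_top hχ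
      ((commg_eq_bot.2 fun x c y e => b y e x c).le.trans bot_le))

end Cfsg.Agent.S0855
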