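import Cfsg.Statements.S0856
import Cfsg.Agent.H6.Gallagher

set_option autoImplicit false
open Cfsg

namespace Cfsg.Agent.S0856

/-- Let N be a normal subgroup of the finite group G and φ, ϑ irreducible characters of N that are invariant under conjugation by G, such that the pointwise product φ * ϑ is irreducible and ϑ is the restriction of an irreducible character χ of G. Then multiplication by χ is a bijection from the set of irreducible characters of G having nonzero inner product with the function induced from φ onto the set of those having nonzero inner product with the function induced from φ * ϑ. -/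
theorem result {G : Type*} [Group G] [Fintype G] (N : Subgroup G) [hN : N.Normal] (φ ϑ : N → ℂ) (hφ : Cfsg.IsIrrCharacter N φ) (hϑ : Cfsg.IsIrrCharacter N ϑ) (hφinv : ∀ (g : G) (n : N), φ ⟨g * n * g⁻¹, hN.conj_mem (n : G) n.2 g⟩ = φ n) (hϑinv : ∀ (g : G) (n : N), ϑ ⟨g * n * g⁻¹, hN.conj_mem (n : G) n.2 g⟩ = ϑ n) (hprod : Cfsg.IsIrrCharacter N (φ * ϑ)) (χ : G → ℂ) (hχ : Cfsg.IsIrrCharacter G χ) (hext : ∀ n : N, χ n = ϑ n) : Set.BijOn (fun β : G → ℂ => β * χ) {β : G → ℂ | Cfsg.IsIrrCharacter G β ∧ Cfsg.classInner (Cfsg.indFun N φ) β ≠ 0} {ψ : G → ℂ | Cfsg.IsIrrCharacter G ψ ∧ Cfsg.classInner (Cfsg.indFun N (φ * ϑ)) ψ ≠ 0} := by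
  have := Fintype.ofFinite N
  have hθ : ϑ = fun n : N => χ n := (funext hext).symm
  subst hθ
  have hinv : ∀ g, H6.cj g φ = φ := fun g => funext (hφinv g)
  have hχ' := H6.irr_char hχ
  have key : ∀ (θ : N → ℂ) {β : G → ℂ}, Cfsg.IsIrrCharacter G β →
      (Cfsg.classInner (Cfsg.indFun N θ) β ≠ 0 ↔ Cfsg.classInner (fun n : N => β n) θ ≠ 0) :=
    fun θ β hβ => by rw [H6.inner_indFun_left _ _ (H6.irr_cf hβ), H6.inner_ne_zero_comm]
  refine ⟨fun β ⟨hβ, h⟩ => ?_, fun β ⟨hβ, h⟩ γ ⟨hγ, h'⟩ e => ?_, fun ψ ⟨hψ, h⟩ => ?_⟩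
  · rw [key _ hβ] at h
    have h1 := H6.gallagher_irr hφ hinv hχ' hprod hβ h
    exact ⟨h1, by rwa [key _ h1, H6.gallagher_inner_res hφ hinv hprod hβ h]⟩
  · exact H6.gallagher_inj hφ hinv hχ' hprod hβ hγ ((key _ hβ).mp h) ((key _ hγ).mp h') e
  · obtain ⟨β, h1, h2, h3⟩ := H6.gallagher_surj hφ hinv hχ' hprod hψ ((key _ hψ).mp h)
    exact ⟨β, ⟨h1, (key _ h1).mpr h2⟩, h3.symm⟩

end Cfsg.Agent.S0856
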