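import Cfsg.Statements.S0857
import Cfsg.Agent.H6.Gallagher

set_option autoImplicit false
open Cfsg

namespace Cfsg.Agent.S0857

/-- Let L < K be normal subgroups of the finite group G with no normal subgroup of G strictly between them and with K / L abelian (the commutator subgroup of K lies in L). Let ϑ be an irreducible character of K invariant under conjugation by G. Then the restriction of ϑ to L is irreducible; or it equals e times an irreducible character of L with e ^ 2 equal to the index of L in K; or it is the sum of a family of pairwise distinct irreducible characters of L indexed by a set whose size is the index of L in K. -/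
theorem result {G : Type*} [Group G] [Fintype G] (K L : Subgroup G) [hK : K.Normal] [L.Normal] (hLK : L < K) (hchief : ∀ M : Subgroup G, M.Normal → L ≤ M → M ≤ K → M = L ∨ M = K) (hab : ⁅K, K⁆ ≤ L) (ϑ : K → ℂ) (hϑ : Cfsg.IsIrrCharacter K ϑ) (hinv : ∀ (g : G) (n : K), ϑ ⟨g * n * g⁻¹, hK.conj_mem (n : G) n.2 g⟩ = ϑ n) : Cfsg.IsIrrCharacter L (fun x : L => ϑ ⟨(x : G), hLK.le x.2⟩) ∨ (∃ (φ : L → ℂ) (e : ℕ), Cfsg.IsIrrCharacter L φ ∧ (fun x : L => ϑ ⟨(x : G), hLK.le x.2⟩) = (e : ℂ) • φ ∧ e ^ 2 = L.relIndex K) ∨ (∃ F : Finset (L → ℂ), (∀ φ ∈ F, Cfsg.IsIrrCharacter L φ) ∧ F.card = L.relIndex K ∧ (fun x : L => ϑ ⟨(x : G), hLK.le x.2⟩) = ∑ φ ∈ F, φ) := by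
  classical
  rcases H6.going_down hLK.le hchief hab hϑ (fun g => funext (hinv g)) with h | h | ⟨φ, hφ, h1, h2⟩
  · exact Or.inl h
  · exact Or.inr (Or.inl h)
  · have hφ' := (H6.irr_toSub hLK.le).mpr hφ
    have h3 : Cfsg.classInner (fun n : L.subgroupOf K => ϑ n) (H6.toSub hLK.le φ) = 1 := by
      rw [← H6.inner_indFun_right _ _ (H6.irr_cf hϑ), H6.indFun_toSub, h2, H6.inner_irr_self hϑ]
    have h4 := H6.clifford hϑ hφ' (by rw [h3]; simp)
    rw [h3, one_smul] at h4
    let e := (Subgroup.subgroupOfEquivOfLe hLK.le).symm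
    have hinj : Function.Injective fun a : L.subgroupOf K → ℂ => a ∘ e :=
      e.surjective.injective_comp_right
    refine Or.inr (Or.inr ⟨(H6.cjSet (H6.toSub hLK.le φ)).image (· ∘ e), fun ψ hψ => ?_, ?_, ?_⟩)
    · obtain ⟨a, ha, rfl⟩ := Finset.mem_image.mp hψ
      obtain ⟨g, rfl⟩ := H6.mem_cjSet.mp ha
      exact H6.irr_comp_equiv (H6.irr_cj hφ' g) e
    · rw [Finset.card_image_of_injective _ hinj, H6.card_cjSet, H6.inertia_toSub,
        ← Subgroup.inf_subgroupOf_right, h1]
      rfl
    · rw [Finset.sum_image hinj.injOn]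
      ext x
      have := congrFun h4 (e x)
      simp only [Finset.sum_apply] at this ⊢
      exact this

end Cfsg.Agent.S0857
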