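import Cfsg.Statements.S0858
import Cfsg.Agent.H6.RelM

set_option autoImplicit false
open Cfsg

namespace Cfsg.Agent.S0858
open H6 H20 H19 H18 Subgroup

/-- Let N be a normal subgroup of the finite group G with G / N solvable, and suppose that for every subgroup H containing N and all subgroups L < K between N and H that are normal in H with no subgroup normal in H strictly between them, the index of L in K is not a perfect square. Then every irreducible character χ of G is induced from an irreducible character ψ of some subgroup H containing N such that the restriction of ψ to N is irreducible. -/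
theorem result {G : Type*} [Group G] [Fintype G] (N : Subgroup G) [N.Normal] (hsolv : Group.IsSolvable (G ⧸ N)) (hchief : ∀ (H K L : Subgroup G), N ≤ L → L < K → K ≤ H → (∀ h ∈ H, ∀ k ∈ K, h * k * h⁻¹ ∈ K) → (∀ h ∈ H, ∀ l ∈ L, h * l * h⁻¹ ∈ L) → (∀ M : Subgroup G, L ≤ M → M ≤ K → (∀ h ∈ H, ∀ m ∈ M, h * m * h⁻¹ ∈ M) → M = L ∨ M = K) → ¬ IsSquare (L.relIndex K)) (χ : G → ℂ) (hχ : Cfsg.IsIrrCharacter G χ) : ∃ (H : Subgroup G) (hNH : N ≤ H) (ψ : H → ℂ), Cfsg.IsIrrCharacter H ψ ∧ Cfsg.indFun H ψ = χ ∧ Cfsg.IsIrrCharacter N (fun n : N => ψ ⟨(n : G), hNH n.2⟩) := by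
  obtain ⟨H, h1, -, ψ, h2, h3, h4⟩ := exists_qprim (mem_Irr_top.2 hχ) (le_top (a := N))
  obtain ⟨e⟩ := quo_top_equiv N
  have h5 := Res_irr_of_qprim (normalIn_top.of_le h1 le_top) (sol_mono
    (Group.isSolvable_of_isSolvable_injective (f := e.toMonoidHom) e.injective) (quo_mono N le_top))
    h2 h4 fun L K a b => hchief H K L a b.lt b.normU.le (fun _ c _ d => b.normU.conj_mem c d)
      (fun _ c _ d => b.normV.conj_mem c d) fun M c d e => b.min M c d fun g f =>
        mem_norm_of_cj_le (cj_le_iff.2 fun x hx => mem_cj_inv.2 (e g f x hx))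
  refine ⟨H, h1, rs H ψ, irr_rs h2, (Ind_top_eq_indFun H ψ).symm.trans h3, ?_⟩
  simpa [rs] using irr_rs h5

end Cfsg.Agent.S0858
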