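import Cfsg.Statements.S0859
import Cfsg.Agent.H6.RelM

set_option autoImplicit false
open Cfsg

namespace Cfsg.Agent.S0859
open H6 H20 H19 H18 Subgroup

/-- Let G be a finite solvable group and N a normal subgroup such that for every prime p every Sylow p-subgroup of N is abelian. Suppose every irreducible character of G is induced from an irreducible character of some subgroup containing N whose restriction to N is irreducible. Then every irreducible character of G is induced from a character of degree 1 of some subgroup. -/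
theorem result {G : Type*} [Group G] [Fintype G] [Group.IsSolvable G] (N : Subgroup G) [N.Normal] (hab : ∀ (p : ℕ) [Fact p.Prime] (P : Sylow p N), ∀ a ∈ P, ∀ b ∈ P, a * b = b * a) (hrel : ∀ χ : G → ℂ, Cfsg.IsIrrCharacter G χ → ∃ (H : Subgroup G) (hNH : N ≤ H) (ψ : H → ℂ), Cfsg.IsIrrCharacter H ψ ∧ Cfsg.indFun H ψ = χ ∧ Cfsg.IsIrrCharacter N (fun n : N => ψ ⟨(n : G), hNH n.2⟩)) (χ : G → ℂ) (hχ : Cfsg.IsIrrCharacter G χ) : ∃ (U : Subgroup G) (lam : U → ℂ), Cfsg.IsCharacter U lam ∧ lam 1 = 1 ∧ Cfsg.indFun U lam = χ := by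
  obtain ⟨H, h1, ψ, h2, rfl, h3⟩ := hrel χ hχ
  obtain ⟨U, -, h4, θ, h5, h6, h7⟩ := exists_qprim (ext_mem_Irr.2 h2) (bot_le (a := H))
  have hn : N ⊴ H := normalIn_top.of_le h1 le_top
  have h8 : Res N (extendByZero H ψ) ∈ Irr N := by
    rw [← ext_rs, ext_mem_Irr]
    convert h3 using 2 with n
    exact extendByZero_of_mem H ψ (h1 n.2)
  rw [← h6] at h8
  rw [Res_Ind_sup hn h4 (le_sup_of_Res_Ind h1 h4 (irr_chr h5) h8) (irr_cinv h5), ← Ind_Res] at h8
  have h10 := irr_of_Ind_irr (chr_Res (irr_chr h5) inf_le_left) inf_le_right h8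
  have h11 := lin_of_qprim (M := U ⊓ N) (inf_normal_of_norm' (hn.norms h4)) inferInstance
    (fun p P a b => ?_) h5 fun B a => h7 B a bot_le
  · have h12 := (der_le_cker h10).1 (le_cker_Res (der_le _) h11)
    refine ⟨U, rs U θ, (irr_chr h5).1, ?_, ?_⟩
    · exact (irr_lin_of_deg h5 ((deg_Res _ _).symm.trans h12)).one
    · rw [← Ind_top_eq_indFun, ← Ind_Ind h4 le_top, h6, Ind_top_eq_indFun, rs_ext]
  · by_cases hp : p.Prime
    · obtain ⟨Q, c, d⟩ := a.exists_syl (b.trans inf_le_right)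
      have := Fact.mk hp
      obtain ⟨S, rfl⟩ := c.exists_sylow
      refine comm_mono (comm_iff_le_cent.2 ?_) d
      rintro _ ⟨x, e, rfl⟩ _ ⟨y, f, rfl⟩
      exact congrArg Subtype.val (hab p S y f x e)
    · exact a.eq_bot_of_not_prime hp ▸ inferInstance

end Cfsg.Agent.S0859
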