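import Cfsg.Statements.S0861
import Cfsg.Agent.H6.RelM

set_option autoImplicit false
open Cfsg

namespace Cfsg.Agent.S0861
open H6 H20 H19 H18 Subgroup
open scoped Classical

/-- Let P be a normal abelian Sylow p-subgroup of the finite group G and suppose some element g of P has centralizer exactly P. Then the number of irreducible characters of G is at most the order of P, and if equality holds then G / P is abelian (the commutator subgroup lies in P). -/
theorem result {G : Type*} [Group G] [Finite G] (p : ℕ) [Fact p.Prime] (P : Sylow p G) [(P : Subgroup G).Normal] (hab : ∀ a ∈ P, ∀ b ∈ P, a * b = b * a) (g : G) (hg : g ∈ P) (hC : Subgroup.centralizer ({g} : Set G) = P) : Nat.card (Cfsg.IrrCharacter G) ≤ Nat.card P ∧ (Nat.card (Cfsg.IrrCharacter G) = Nat.card P → commutator G ≤ P) := by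
  have hp : p.Prime := Fact.out
  have hP := syl_sylow_top P
  have h1 : ∀ χ ∈ Irr (⊤ : Subgroup G), ((gens g).ncard : ℝ) ≤ ∑ y ∈ fin (gens g), ‖χ y‖ ^ 2 :=
    fun χ a => card_gens_le (irr_zirr a) (chr_ne_zero hp (irr_chr a) ((hP.idx.dvd (deg_dvd_of_ab
      normalIn_top a ((commg_eq_bot.2 fun x c y e => hab y e x c).le.trans bot_le))).not_dvd hp rfl)
        (hP.pi.elt hg))
  have h2 : ∑ χ ∈ Irr (⊤ : Subgroup G), ∑ y ∈ fin (gens g), ‖χ y‖ ^ 2 =
      Nat.card P * (gens g).ncard := by
    rw [Finset.sum_comm, Finset.sum_congr rfl fun y a => by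
      rw [sum_irr_norm_sq' (mem_top y), top_inf_eq, gens_cent (mem_fin.1 a), hC], sum_fin_const,
      nsmul_eq_mul, mul_comm]
  have h3 : (0 : ℝ) < (gens g).ncard := by exact_mod_cast gens_pos g
  rw [H5.card_irr, ← card_Irr_top]
  have h4 := Finset.sum_le_sum h1
  refine ⟨?_, fun e => by_contra fun c => ?_⟩
  · rw [h2, Finset.sum_const, nsmul_eq_mul] at h4
    exact_mod_cast le_of_mul_le_mul_right h4 h3
  obtain ⟨χ, a, b, d⟩ := exists_nonlin normalIn_top c
  refine (Finset.sum_lt_sum h1 ⟨χ, a, ?_⟩).ne (by rw [h2, Finset.sum_const, nsmul_eq_mul, e])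
  rw [Finset.sum_congr rfl fun y f => by
    rw [cker_apply (b (zpowers_le.2 hg (gens_mem (mem_fin.1 f)))), chr_norm_one (irr_chr a)],
    sum_fin_const, nsmul_eq_mul]
  exact lt_mul_of_one_lt_right h3 (one_lt_pow₀ (by
    exact_mod_cast Nat.lt_of_le_of_ne (H20.irr_deg_pos a) (Ne.symm d)) two_ne_zero)

end Cfsg.Agent.S0861
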