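import Cfsg.Statements.S0864
import Cfsg.Agent.H6.Extend

set_option autoImplicit false
open Cfsg

namespace Cfsg.Agent.S0864

/-- Let N be a normal subgroup of the finite group G and λ a character of N of degree 1 invariant under conjugation by G. Suppose that for every prime p dividing the order of λ (in the group of functions under pointwise multiplication) there is a subgroup H containing N, of index prime to p and with the index of N in H a power of p, together with a character of H of degree 1 restricting to λ. Then λ is the restriction of a character of G of degree 1. -/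
theorem result {G : Type*} [Group G] [Finite G] (N : Subgroup G) [hN : N.Normal] (lam : N → ℂ) (hlam : Cfsg.IsCharacter N lam ∧ lam 1 = 1) (hinv : ∀ (g : G) (n : N), lam ⟨g * n * g⁻¹, hN.conj_mem (n : G) n.2 g⟩ = lam n) (hsyl : ∀ p : ℕ, p.Prime → p ∣ orderOf lam → ∃ (H : Subgroup G) (hNH : N ≤ H) (ν : H → ℂ), Nat.Coprime H.index p ∧ (∃ k : ℕ, N.relIndex H = p ^ k) ∧ Cfsg.IsCharacter H ν ∧ ν 1 = 1 ∧ ∀ n : N, ν ⟨(n : G), hNH n.2⟩ = lam n) : ∃ μ : G → ℂ, Cfsg.IsCharacter G μ ∧ μ 1 = 1 ∧ ∀ n : N, μ n = lam n := by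
  obtain ⟨ν, rfl⟩ := H5.Cfsg.IsCharacter.exists_unitsHom hlam.1 hlam.2
  obtain ⟨μ, hμ⟩ := H6.mem_extSub_of_sylow (ν := ν) (fun g => funext (hinv g)) fun p hp h => by
    obtain ⟨T, hNT, η, h1, -, h2, h3, h4⟩ := hsyl p hp (by rwa [H6.orderOf_hom])
    obtain ⟨η, rfl⟩ := H5.Cfsg.IsCharacter.exists_unitsHom h2 h3
    exact ⟨T, hNT, η, (Nat.Prime.coprime_iff_not_dvd hp).mp h1.symm, fun n => Units.ext (h4 n)⟩
  exact ⟨_, H6.char_hom μ, by simp, fun n => congrArg Units.val (hμ n)⟩

end Cfsg.Agent.S0864
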