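import Cfsg.Statements.S0865
import Cfsg.Agent.H6.Extend

set_option autoImplicit false
open Cfsg

namespace Cfsg.Agent.S0865

/-- Let N be a normal subgroup of the finite group G and λ a character of N of degree 1, invariant under conjugation by G, whose order (under pointwise multiplication) is coprime to the index of N. Then there is a character μ of G of degree 1 restricting to λ with the same order as λ, and μ is the only degree-1 character of G restricting to λ whose order is coprime to the index of N. -/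
theorem result {G : Type*} [Group G] [Finite G] (N : Subgroup G) [hN : N.Normal] (lam : N → ℂ) (hlam : Cfsg.IsCharacter N lam ∧ lam 1 = 1) (hinv : ∀ (g : G) (n : N), lam ⟨g * n * g⁻¹, hN.conj_mem (n : G) n.2 g⟩ = lam n) (hcop : Nat.Coprime N.index (orderOf lam)) : ∃ μ : G → ℂ, (Cfsg.IsCharacter G μ ∧ μ 1 = 1 ∧ (∀ n : N, μ n = lam n) ∧ orderOf μ = orderOf lam) ∧ ∀ μ' : G → ℂ, Cfsg.IsCharacter G μ' ∧ μ' 1 = 1 → (∀ n : N, μ' n = lam n) → Nat.Coprime N.index (orderOf μ') → μ' = μ := by
  obtain ⟨ν, rfl⟩ := H5.Cfsg.IsCharacter.exists_unitsHom hlam.1 hlam.2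
  rw [H6.orderOf_hom] at hcop
  obtain ⟨μ, h1, h2⟩ := H6.exists_ext_orderOf_eq (ν := ν) (fun g => funext (hinv g)) hcop
  refine ⟨_, ⟨H6.char_hom μ, by simp, fun n => congrArg Units.val (h1 n), by
    rw [H6.orderOf_hom, H6.orderOf_hom, h2]⟩, fun μ' ⟨e1, e2⟩ e3 e4 => ?_⟩
  obtain ⟨μ', rfl⟩ := H5.Cfsg.IsCharacter.exists_unitsHom e1 e2
  rw [H6.orderOf_hom] at e4
  rw [H6.hom_eq_of_res_eq_of_orderOf (N := N) (μ := μ') (μ' := μ)
    (fun n => (Units.ext (e3 n)).trans (h1 n).symm) e4 (h2 ▸ hcop)]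

end Cfsg.Agent.S0865
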