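import Cfsg.Statements.S0868
import Cfsg.Agent.H6.Gallagher

set_option autoImplicit false
open scoped ComplexConjugate
open Cfsg

namespace Cfsg.Agent.S0868

/-- Let N be a normal subgroup of the finite group G, χ an irreducible character of G whose restriction ϑ to N is irreducible, and ψ an irreducible character of G. Define η on G by η g = (1 / order of N) * Σ over n in N of ψ (n * g) * conj (χ (n * g)). Then: if the restriction of ψ to N has nonzero inner product with ϑ, η is an irreducible character of G; if that inner product is zero, η vanishes identically; and if ψ = χ then η is identically 1. -/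
theorem result {G : Type*} [Group G] [Fintype G] (N : Subgroup G) [N.Normal] [Fintype N] (χ : G → ℂ) (hχ : Cfsg.IsIrrCharacter G χ) (hχN : Cfsg.IsIrrCharacter N (fun n : N => χ n)) (ψ : G → ℂ) (hψ : Cfsg.IsIrrCharacter G ψ) (η : G → ℂ) (hη : η = fun g => (Nat.card N : ℂ)⁻¹ * ∑ n : N, ψ ((n : G) * g) * conj (χ ((n : G) * g))) : (Cfsg.classInner (fun n : N => ψ n) (fun n : N => χ n) ≠ 0 → Cfsg.IsIrrCharacter G η) ∧ (Cfsg.classInner (fun n : N => ψ n) (fun n : N => χ n) = 0 → η = 0) ∧ (ψ = χ → η = fun _ => 1) := by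
  have hχ' := H6.irr_char hχ
  subst hη
  refine ⟨fun h => ?_, fun h => ?_, fun h => ?_⟩
  · obtain ⟨β, h1, h2, rfl⟩ := H6.gallagher_one_surj hχ' hχN hψ h
    convert h1 using 2 with g
    have : ∀ n : N, (β * χ) (n * g) * conj (χ (n * g)) = β g * (χ (n * g) * conj (χ (n * g))) :=
      fun n => by rw [Pi.mul_apply, h2 n.2 g, mul_assoc]
    simp only [this, ← Finset.mul_sum, H6.coset_sum_self hχ' hχN]
    have := H6.natCard_ne_zero' N
    field_simp
  · ext g
    simp [H6.coset_sum_eq_zero hχ' hχN (H6.irr_char hψ) h]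
  · ext g
    rw [h, H6.coset_sum_self hχ' hχN, inv_mul_cancel₀ (H6.natCard_ne_zero' N)]

end Cfsg.Agent.S0868
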