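import Cfsg.Statements.S0875
import Cfsg.Agent.H6.PiPart

set_option autoImplicit false
open Cfsg

namespace Cfsg.Agent.S0875
open H6 H20 H19

/-- Let G be a finite group of order m * n with m and n coprime, and g an element whose order is coprime to m. Every x in G factors uniquely as x = u * v with u, v commuting, the order of u coprime to n and the order of v coprime to m; let ϑ be the function on G equal to n at those x whose factor v is conjugate to g and equal to 0 elsewhere. Then ϑ is a linear combination of the irreducible characters of G with algebraic-integer coefficients. -/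
theorem result {G : Type*} [Group G] [Fintype G] (m n : ℕ) (hmn : Nat.card G = m * n) (hcop : Nat.Coprime m n) (g : G) (hg : Nat.Coprime (orderOf g) m) (ϑ : G → ℂ) (hϑ1 : ∀ x : G, (∃ v : G, IsConj v g ∧ (∃ u : G, x = u * v ∧ Commute u v ∧ Nat.Coprime (orderOf u) n ∧ Nat.Coprime (orderOf v) m)) → ϑ x = n) (hϑ0 : ∀ x : G, (¬ ∃ v : G, IsConj v g ∧ (∃ u : G, x = u * v ∧ Commute u v ∧ Nat.Coprime (orderOf u) n ∧ Nat.Coprime (orderOf v) m)) → ϑ x = 0) : ∃ c : Cfsg.IrrCharacter G → ℂ, (∀ χ, c χ ∈ Cfsg.AlgInt) ∧ ϑ = ∑ᶠ χ : Cfsg.IrrCharacter G, c χ • (χ : G → ℂ) := by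
  classical
  have key : ∀ x v : G, (∃ u : G, x = u * v ∧ Commute u v ∧ Nat.Coprime (orderOf u) n ∧
      Nat.Coprime (orderOf v) m) ↔ v = constt (primes m)ᶜ x := fun x v => by
    have hpi : ∀ u : G, PiE (primes m) u ↔ (orderOf u).Coprime n := fun u =>
      ⟨fun h => h.coprime (PiN.of_coprime_pi hcop.symm), fun h => piN_primes.dvd
        (h.dvd_of_dvd_mul_right (hmn ▸ orderOf_dvd_natCard u))⟩
    constructor
    · rintro ⟨u, rfl, hc, h1, h2⟩
      rw [hc.eq]
      exact (constt_eq (PiN.of_coprime_pi h2) ((hpi u).2 h1).compl_compl hc.eq.symm).symm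
    · rintro rfl
      exact ⟨constt (primes m) x, (constt_mul_compl _ x).symm, constt_commute _ _ x,
        (hpi _).1 (constt_pi _ x), (constt_pi _ x).coprime' piN_primes⟩
  have e : ϑ = sect (primes m) n g := funext fun x => by
    rw [sect]
    split_ifs with h
    · exact hϑ1 x ⟨_, h, (key x _).2 rfl⟩
    · exact hϑ0 x fun ⟨v, h1, h2⟩ => h ((key x v).1 h2 ▸ h1)
  have hn : ∀ B : Subgroup G, PiG (primes m)ᶜ B → Nat.card B ∣ n := fun B hB =>
    (hB.coprime' piN_primes).dvd_of_dvd_mul_left (hmn ▸ Subgroup.card_subgroup_dvd_card B)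
  refine ⟨fun χ => dot ⊤ ϑ χ, fun χ => e ▸ integral_dot_sect hn g (irr_chr (coe_mem_Irr_top χ)), ?_⟩
  have h1 : ϑ ∈ CF (⊤ : Subgroup G) := e ▸ mem_CF_top.2 (cinv_sect _ _ _)
  conv_lhs => rw [H20.eq_sum_irr h1]
  rw [finsum_eq_sum_of_fintype]
  exact (Finset.sum_bij (fun (χ : Cfsg.IrrCharacter G) _ => (χ : G → ℂ))
    (fun χ _ => coe_mem_Irr_top χ) (fun a _ b _ h => Subtype.ext h)
    (fun χ hχ => ⟨⟨χ, mem_Irr_top.1 hχ⟩, Finset.mem_univ _, rfl⟩) fun _ _ => rfl).symm

end Cfsg.Agent.S0875
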