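import Cfsg.Statements.S0876
import Cfsg.Agent.H6.PiPart

set_option autoImplicit false
open Cfsg

namespace Cfsg.Agent.S0876
open H6 H20 H19

/-- Let G be a finite group, p a prime and M a maximal ideal of the ring of algebraic integers containing p. Let x, y be elements with p-parts a and b (so a⁻¹ * x and b⁻¹ * y are their p-regular parts). Then a⁻¹ * x and b⁻¹ * y are conjugate in G if and only if, for every irreducible character χ, the difference χ x - χ y lies in the local ideal at M. -/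
theorem result {G : Type*} [Group G] [Finite G] (p : ℕ) (M : Ideal Cfsg.AlgInt) (hM : Cfsg.IsPModular p M) (x y a b : G) (ha : Cfsg.IsPPart p x a) (hb : Cfsg.IsPPart p y b) : IsConj (a⁻¹ * x) (b⁻¹ * y) ↔ ∀ χ : Cfsg.IrrCharacter G, Cfsg.MemLocalIdeal M ((χ : G → ℂ) x - (χ : G → ℂ) y) := by
  have key : ∀ x a : G, Cfsg.IsPPart p x a → a⁻¹ * x = constt {p}ᶜ x := by
    rintro _ a ⟨y, rfl, hc, ⟨k, hk⟩, hy⟩
    rw [inv_mul_cancel_left, hc.eq]
    exact (constt_eq (PiN.of_not_dvd hy) (PiN.compl_compl (hk ▸ PiN.prime_pow hM.1 k))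
      hc.eq.symm).symm
  rw [key x a ha, key y b hb, isConj_constt_iff hM]
  have : ∀ χ ∈ Irr (⊤ : Subgroup G), H8.red M (χ x) = H8.red M (χ y) ↔
      Cfsg.MemLocalIdeal M (χ x - χ y) := fun χ hχ =>
    have h := zirr_integral (irr_zirr hχ)
    (H8.memLocalIdeal_sub_iff_red hM (h x).isAlgebraic (h y).isAlgebraic
      (H8.mem_V_of_isIntegral M (h x)) (H8.mem_V_of_isIntegral M (h y))).symm
  exact ⟨fun h χ => (this _ (coe_mem_Irr_top χ)).1 (h _ (coe_mem_Irr_top χ)),
    fun h χ hχ => (this χ hχ).2 (h ⟨χ, mem_Irr_top.1 hχ⟩)⟩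

end Cfsg.Agent.S0876
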