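import Cfsg.Statements.S0878
import Cfsg.Agent.H5.Zs2
-- import your own Cfsg.Agent.* helpers here

set_option autoImplicit false
open Cfsg

namespace Cfsg.Agent.S0878
open H5


/-- Let G be a Zassenhaus group on the finite set Ω, a a point, and let H be the subgroup of the stabilizer of a consisting of the identity and the elements fixing no point other than a (given here as a subgroup of the stabilizer of order one less than the number of points whose non-identity elements fix only a; it is the Frobenius kernel of the stabilizer). Then an element outside the stabilizer of a conjugates no non-identity element of H into H, and the normalizer of H is exactly the stabilizer of a. -/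
theorem result {G Ω : Type*} [Group G] [Finite G] [MulAction G Ω] [Fintype Ω] (hZ : Cfsg.IsZassenhausGroup G Ω) (a : Ω) (H : Subgroup G) (hHa : H ≤ MulAction.stabilizer G a) (hHcard : Nat.card H + 1 = Fintype.card Ω) (hHfix : ∀ u ∈ H, u ≠ 1 → ∀ c : Ω, u • c = c → c = a) : (∀ g : G, g ∉ MulAction.stabilizer G a → ∀ u ∈ H, g * u * g⁻¹ ∈ H → u = 1) ∧ Subgroup.normalizer (H : Set G) = MulAction.stabilizer G a := by
  have hz := zs_of hZ
  obtain ⟨b, h⟩ := zs_exists_ne hZ a
  obtain rfl := hz.eq_Fk_of_card h hHa (by rwa [Nat.card_eq_fintype_card (α := Ω)]) hHfix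
  refine ⟨fun g hg u hu h1 => ?_, hz.normalizer_Fk (hz.Fk_ne_bot h (zs_D_ne_bot hZ h))⟩
  by_contra h2
  exact hg (hz.fix_of_conj_mem hu h2 (Fk_le a h1))

end Cfsg.Agent.S0878
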