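import Cfsg.Statements.S0881
import Cfsg.Agent.H5.Zs6
-- import your own Cfsg.Agent.* helpers here

set_option autoImplicit false
open Cfsg

namespace Cfsg.Agent.S0881
open H5


/-- Let G be a finite simple Zassenhaus group on Ω with n points, a ≠ b points with two-point stabilizer E of odd order less than n - 2, and let H be the subgroup of the stabilizer of a consisting of the identity and the elements fixing no point other than a (given here as a subgroup of the stabilizer of order one less than the number of points whose non-identity elements fix only a; it is the Frobenius kernel of the stabilizer). Let μ be a character of degree 1 of the stabilizer of a that is identically 1 on H but not identically 1. Then the function induced from μ to G is an irreducible character of G, and it takes the value 1 at every non-identity element of H. -/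
theorem result {G Ω : Type*} [Group G] [Fintype G] [MulAction G Ω] [Fintype Ω] (hZ : Cfsg.IsZassenhausGroup G Ω) {a b : Ω} (hab : a ≠ b) [IsSimpleGroup G] (hodd : Odd (Nat.card ↥(MulAction.stabilizer G a ⊓ MulAction.stabilizer G b : Subgroup G))) (hlt : Nat.card ↥(MulAction.stabilizer G a ⊓ MulAction.stabilizer G b : Subgroup G) < Fintype.card Ω - 2) (H : Subgroup G) (hHa : H ≤ MulAction.stabilizer G a) (hHcard : Nat.card H + 1 = Fintype.card Ω) (hHfix : ∀ u ∈ H, u ≠ 1 → ∀ c : Ω, u • c = c → c = a) (μ : MulAction.stabilizer G a → ℂ) (hμ : Cfsg.IsCharacter (MulAction.stabilizer G a) μ ∧ μ 1 = 1) (hμH : ∀ u : MulAction.stabilizer G a, (u : G) ∈ H → μ u = 1) (hμne : μ ≠ fun _ => 1) : Cfsg.IsIrrCharacter G (Cfsg.indFun (MulAction.stabilizer G a) μ) ∧ ∀ u ∈ H, u ≠ 1 → Cfsg.indFun (MulAction.stabilizer G a) μ u = 1 := by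
  have hz := zo_of hZ hab hodd
  obtain rfl := hz.eq_Fk_of_card hab hHa (by rwa [Nat.card_eq_fintype_card (α := Ω)]) hHfix
  have h1 : H20.Lin _ (extendByZero _ μ) := ⟨H20.ext_mem_Chr.2 hμ.1, (ext_one _ _).trans hμ.2⟩
  have h2 : ∀ u ∈ Fk G a, extendByZero _ μ u = 1 := fun u hu =>
    (congrFun (H20.rs_ext _ μ) ⟨u, hHa hu⟩).trans (hμH _ hu)
  rw [← H20.rs_ext _ μ, ← H20.Ind_top_eq_indFun]
  refine ⟨H20.mem_Irr_top.1 (hz.Ind_lin_irr hab h1 (fun u hu => (h1.mem_cker (hHa hu)).2 (h2 u hu))
    fun e => hμne ?_), fun u hu u1 => (hz.Ind_F (H20.chr_cinv h1.chr) hu u1).trans (h2 u hu)⟩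
  rw [← H20.rs_ext _ μ, e, H20.rs_triv]

end Cfsg.Agent.S0881
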