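import Cfsg.Statements.S0885
import Cfsg.Agent.H5.Zs6
-- import your own Cfsg.Agent.* helpers here

set_option autoImplicit false
open Cfsg

namespace Cfsg.Agent.S0885
open H5


/-- Let G be a finite Zassenhaus group on Ω with h + 1 points whose two-point stabilizer E has odd order e, and let H be the subgroup of the stabilizer of a consisting of the identity and the elements fixing no point other than a (given here as a subgroup of the stabilizer of order one less than the number of points whose non-identity elements fix only a; it is the Frobenius kernel of the stabilizer). Then either h - 1 ≤ 2 * e, or H is a non-abelian 2-group whose commutator subgroup has index at most 4 * e ^ 2 + 1 in H. -/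
theorem result {G Ω : Type*} [Group G] [Finite G] [MulAction G Ω] [Fintype Ω] (hZ : Cfsg.IsZassenhausGroup G Ω) {a b : Ω} (hab : a ≠ b) (h e : ℕ) (hh : Fintype.card Ω = h + 1) (he : Nat.card ↥(MulAction.stabilizer G a ⊓ MulAction.stabilizer G b : Subgroup G) = e) (hodd : Odd e) (H : Subgroup G) (hHa : H ≤ MulAction.stabilizer G a) (hHcard : Nat.card H + 1 = Fintype.card Ω) (hHfix : ∀ u ∈ H, u ≠ 1 → ∀ c : Ω, u • c = c → c = a) : h - 1 ≤ 2 * e ∨ (IsPGroup 2 H ∧ (∃ u v : H, u * v ≠ v * u) ∧ (commutator H).index ≤ 4 * e ^ 2 + 1) := by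
  subst he
  have hz := zs_of hZ
  obtain rfl := hz.eq_Fk_of_card hab hHa (by rwa [Nat.card_eq_fintype_card (α := Ω)]) hHfix
  obtain rfl : Nat.card (Fk G a) = h := by omega
  rcases zs_cases hZ hab with e | ⟨-, e⟩ | ⟨m, e1, e2, e3⟩
  · exact .inl (e.ge.trans (Nat.le_mul_of_pos_left _ two_pos))
  · exact .inl e.ge
  refine .inr ⟨.of_card e1, by_contra fun H => e2 ?_, ?_⟩
  · push Not at H
    exact Subgroup.commutator_eq_bot_iff_le_centralizer.2 fun x hx y hy =>
      congrArg Subtype.val (H ⟨y, hy⟩ ⟨x, hx⟩)
  · rw [← Subgroup.map_subtype_commutator, Subgroup.relIndex, Subgroup.subgroupOf,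
      Subgroup.comap_map_eq_self_of_injective (Subgroup.subtype_injective _)] at e3
    exact e3.le.trans (Nat.le_succ _)

end Cfsg.Agent.S0885
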