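import Cfsg.Statements.S0889
import Cfsg.Agent.H6.Berger

set_option autoImplicit false
open Cfsg

namespace Cfsg.Agent.S0889
open H6 H20 H19 Subgroup

/-- Let G be a finite solvable group and χ an irreducible character of G such that for every normal subgroup N the restriction of χ to N is a natural-number multiple of one irreducible character of N. Then χ is not induced from a character of any proper subgroup. -/
theorem result {G : Type*} [Group G] [Fintype G] [Group.IsSolvable G] (χ : G → ℂ) (hχ : Cfsg.IsIrrCharacter G χ) (hqp : ∀ (N : Subgroup G), N.Normal → ∃ (ϑ : N → ℂ) (e : ℕ), Cfsg.IsIrrCharacter N ϑ ∧ (fun n : N => χ n) = (e : ℂ) • ϑ) (K : Subgroup G) (hK : K ≠ ⊤) (ψ : K → ℂ) (hψ : Cfsg.IsCharacter K ψ) : Cfsg.indFun K ψ ≠ χ := by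
  classical
  have e2 : indFun K ψ = Ind ⊤ K (extendByZero K ψ) := by rw [Ind_top_eq_indFun, rs_ext]
  rw [e2]
  have hχ' := mem_Irr_top.2 hχ
  refine berger (.bot ⊤) (sol_quo (sol_of_equiv topEquiv.symm inferInstance) ⊥) hχ'
    (fun M a1 _ η a3 a4 => ?_) bot_le hK (ext_mem_Chr.2 hψ)
  obtain ⟨φ, e, b1, b2⟩ := hqp M a1.normal
  have b3 : Res M χ = (e : ℂ) • extendByZero M φ :=
    eq_of_rs (L := M) (fun _ => Res_of_not_mem _) (fun x hx => by simp [ext_zero M φ x hx])
      ((rs_Res _).trans (b2.trans (congrArg ((e : ℂ) • ·) (rs_ext M φ).symm)))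
  rw [← dot_Res_left, b3, dot_smul_left] at a4
  have b4 := ((irr_cinv hχ').Res a1.norm).smul (e : ℂ)⁻¹
  rwa [b3, smul_smul, inv_mul_cancel₀ (left_ne_zero_of_mul a4), one_smul,
    irr_eq_of_dot (ext_mem_Irr.2 b1) a3 (right_ne_zero_of_mul a4)] at b4

end Cfsg.Agent.S0889
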