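import Cfsg.Statements.S0890
import Cfsg.Agent.H6.Berger

set_option autoImplicit false
open Cfsg

namespace Cfsg.Agent.S0890
open H6 H20 H19 Subgroup

/-- Let L ≤ H < G with L normal in G, H a maximal subgroup and G / L solvable. Let ϑ be an irreducible character of H whose restriction to L is irreducible and whose induction χ to G is irreducible. Then there is a normal subgroup M of G containing L such that the restriction of χ to M is not a natural-number multiple of a single irreducible character of M. -/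
theorem result {G : Type*} [Group G] [Fintype G] (L H : Subgroup G) [L.Normal] (hLH : L ≤ H) (hmax : IsCoatom H) (hsolv : Group.IsSolvable (G ⧸ L)) (ϑ : H → ℂ) (hϑ : Cfsg.IsIrrCharacter H ϑ) (hϑL : Cfsg.IsIrrCharacter L (fun x : L => ϑ ⟨(x : G), hLH x.2⟩)) (hind : Cfsg.IsIrrCharacter G (Cfsg.indFun H ϑ)) : ∃ M : Subgroup G, M.Normal ∧ L ≤ M ∧ ¬ ∃ (φ : M → ℂ) (e : ℕ), Cfsg.IsIrrCharacter M φ ∧ (fun m : M => Cfsg.indFun H ϑ m) = (e : ℂ) • φ := by
  classical
  have e2 : indFun H ϑ = Ind ⊤ H (extendByZero H ϑ) := by rw [Ind_top_eq_indFun, rs_ext]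
  rw [e2] at hind ⊢
  have h1 : Res L (extendByZero H ϑ) ∈ Irr L := mem_Irr.2 ⟨by
    convert hϑL using 1
    funext x
    exact (Res_coe _ x).trans (congrFun (rs_ext H ϑ) ⟨x, hLH x.2⟩), fun x => Res_of_not_mem _⟩
  obtain ⟨M, a1, a2, η, a3, a4, a5⟩ := not_qp normalIn_top hLH hmax.1.lt_top
    (fun X a _ => hmax.2 X a) (sol_of_equiv (quo_top_equiv L).some.symm hsolv) (ext_mem_Irr.2 hϑ) h1
    (mem_Irr_top.2 hind)
  refine ⟨M, a1.normal, a2, fun ⟨φ, e, b1, b2⟩ => a5 ?_⟩
  have b3 : Res M (Ind ⊤ H (extendByZero H ϑ)) = (e : ℂ) • extendByZero M φ :=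
    eq_of_rs (L := M) (fun _ => Res_of_not_mem _) (fun x hx => by simp [ext_zero M φ x hx])
      ((rs_Res _).trans (b2.trans (congrArg ((e : ℂ) • ·) (rs_ext M φ).symm)))
  rw [← dot_Res_left, b3, dot_smul_left] at a4
  have b4 := ((cinv_Ind ⊤ H (extendByZero H ϑ)).Res a1.norm).smul (e : ℂ)⁻¹
  rwa [b3, smul_smul, inv_mul_cancel₀ (left_ne_zero_of_mul a4), one_smul,
    irr_eq_of_dot (ext_mem_Irr.2 b1) a3 (right_ne_zero_of_mul a4)] at b4

end Cfsg.Agent.S0890
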