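import Cfsg.Statements.S0893
import Cfsg.Agent.H6.Berger

set_option autoImplicit false
open Cfsg

namespace Cfsg.Agent.S0893
open H6 H20 H19 Subgroup

/-- Let P be an extraspecial p-group of order p ^ (2 * n + 1), A an abelian subgroup of order p ^ (n + 1), and λ a character of A of degree 1 that is not identically 1 on the elements of A lying in the centre of P. Then the function induced from λ to P is an irreducible character of P and vanishes at every element outside the centre. -/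
theorem result {P : Type*} [Group P] [Fintype P] (p n : ℕ) [Fact p.Prime] (hP : Cfsg.IsExtraspecial p P) (hcard : Nat.card P = p ^ (2 * n + 1)) (A : Subgroup P) (hab : ∀ a ∈ A, ∀ b ∈ A, a * b = b * a) (hA : Nat.card A = p ^ (n + 1)) (lam : A → ℂ) (hlam : Cfsg.IsCharacter A lam ∧ lam 1 = 1) (hZ : ∃ a : A, (a : P) ∈ Subgroup.center P ∧ lam a ≠ 1) : Cfsg.IsIrrCharacter P (Cfsg.indFun A lam) ∧ ∀ x : P, x ∉ Subgroup.center P → Cfsg.indFun A lam x = 0 := by
  classical
  have hp : p.Prime := Fact.out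
  have e1 : Z((⊤ : Subgroup P)) = center P := by rw [top_inf_eq, coe_top, centralizer_univ]
  have hd : ⁅(⊤ : Subgroup P), ⊤⁆ = Z(⊤) := hP.1.2.2.trans e1.symm
  have hc : #Z((⊤ : Subgroup P)) = p := e1 ▸ hP.2
  have hl : Lin A (extendByZero A lam) := ⟨ext_mem_Chr.2 hlam.1, by
    rw [← hlam.2]; exact congrFun (rs_ext A lam) 1⟩
  obtain ⟨a, a1, a2⟩ := hZ
  have a3 : (a : P) ∉ cker (extendByZero A lam) := fun e =>
    a2 ((congrFun (rs_ext A lam) a).symm.trans ((hl.mem_cker a.2).1 e))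
  have a4 : Z(⊤) ≤ A := le_of_prime_of_inf_ne_bot (hc ▸ hp)
    (ne_bot_of_mem (x := a) ⟨e1 ▸ a1, a.2⟩ fun e => a3 (e ▸ one_mem _))
  have e2 : indFun A lam = Ind ⊤ A (extendByZero A lam) := by rw [Ind_top_eq_indFun, rs_ext]
  have h0 := chr_Ind hl.chr (le_top (a := A))
  have h1 := deg_Ind hl.chr (le_top (a := A))
  have h2 := card_mul_relIndex (le_top (a := A))
  rw [hA, card_top, hcard, show 2 * n + 1 = n + 1 + n by ring, pow_add _ (n + 1),
    Nat.mul_right_inj (pow_ne_zero _ hp.ne_zero)] at h2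
  rw [hl.deg, h2, mul_one] at h1
  obtain ⟨χ, b1, b2⟩ := irr_exists_above hl.irr (le_top (a := A))
  have b3 : ¬ Z(⊤) ≤ cker χ := fun e =>
    a3 (le_cker_of_below (irr_chr b1) le_top hl.irr b2 a4 e (e1 ▸ a1))
  have b4 := card_mul_relIndex (center_normal (⊤ : Subgroup P)).le
  rw [← xs_deg hd.le (hc ▸ hp) b1 b3, hc, card_top, hcard, pow_succ' p, mul_comm 2, pow_mul,
    Nat.mul_right_inj hp.ne_zero, Nat.pow_left_inj two_ne_zero] at b4
  rw [e2, eq_irr_of_deg_le h0 b1 (by
    rwa [Ne, dot_eq_zero_comm, dot_Ind_right le_top _ (irr_cinv b1)]) (h1.trans b4.symm).le]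
  exact ⟨mem_Irr_top.1 b1, fun x hx => xs_vanish hd.le (hc ▸ hp) b1 b3 (e1 ▸ hx)⟩

end Cfsg.Agent.S0893
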