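import Cfsg.Statements.S0894
import Cfsg.Agent.H6.Berger

set_option autoImplicit false
open Cfsg

namespace Cfsg.Agent.S0894
open H6 H20 H19 Subgroup

/-- Let P be an extraspecial p-group of order p ^ (2 * n + 1). Then every irreducible character of P has degree 1 or p ^ n, and exactly p - 1 of them have degree p ^ n. -/
theorem result {P : Type*} [Group P] [Finite P] (p n : ℕ) [Fact p.Prime] (hP : Cfsg.IsExtraspecial p P) (hcard : Nat.card P = p ^ (2 * n + 1)) : (∀ χ : Cfsg.IrrCharacter P, (χ : P → ℂ) 1 = 1 ∨ (χ : P → ℂ) 1 = (p : ℂ) ^ n) ∧ Nat.card {χ : Cfsg.IrrCharacter P // (χ : P → ℂ) 1 = (p : ℂ) ^ n} = p - 1 := by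
  classical
  have hp : p.Prime := Fact.out
  have e1 : Z((⊤ : Subgroup P)) = center P := by rw [top_inf_eq, coe_top, centralizer_univ]
  have hd : ⁅(⊤ : Subgroup P), ⊤⁆ = Z(⊤) := hP.1.2.2.trans e1.symm
  have hc : #Z((⊤ : Subgroup P)) = p := e1 ▸ hP.2
  have h1 : ∀ χ ∈ Irr (⊤ : Subgroup P), ¬ Z(⊤) ≤ cker χ → χ 1 = (p : ℂ) ^ n := fun χ a b => by
    have := card_mul_relIndex (center_normal (⊤ : Subgroup P)).le
    rw [← xs_deg hd.le (hc ▸ hp) a b, hc, card_top, hcard, pow_succ' p, mul_comm 2, pow_mul,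
      Nat.mul_right_inj hp.ne_zero, Nat.pow_left_inj two_ne_zero] at this
    rw [H20.irr_deg a, this, Nat.cast_pow]
  have h2 : ∀ χ ∈ Irr (⊤ : Subgroup P), Z(⊤) ≤ cker χ → χ 1 = 1 := fun χ a b =>
    ((irr_lin_iff a).2 (hd.trans_le b)).one
  refine ⟨fun χ => (em _).imp (h2 _ (coe_mem_Irr_top χ)) (h1 _ (coe_mem_Irr_top χ)), ?_⟩
  rw [card_top_irr (A := IrrK ⊤ Z(⊤) ⊥) (fun _ => irrK_irr) fun χ => ⟨fun h => h1 _ (irrK_irr h)
    (mem_IrrK.1 h).2.2, fun h => mem_IrrK.2 ⟨coe_mem_Irr_top χ, bot_le, fun e => ?_⟩⟩,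
    ← hc, ← xs_card hd.le (hc ▸ hp), Nat.add_sub_cancel]
  rw [h2 _ (coe_mem_Irr_top χ) e, eq_comm, ← Nat.cast_pow, Nat.cast_eq_one, Nat.pow_eq_one,
    or_iff_right hp.ne_one] at h
  subst h
  have h3 : Z((⊤ : Subgroup P)) = ⊤ := eq_of_le_of_card_eq le_top (by rw [hc]; simp [hcard])
  exact ne_bot_of_prime (hc ▸ hp) (hd.symm.trans (commg_eq_bot.2 (h3.ge.trans inf_le_right)))

end Cfsg.Agent.S0894
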