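import Cfsg.Statements.S0897
import Cfsg.Agent.H6.Dade

set_option autoImplicit false
open Cfsg

namespace Cfsg.Agent.S0897
open H6 H20 H19 Subgroup

/-- Let N be a normal subgroup of the finite group G with the index of N a power of the prime p, and P a Sylow p-subgroup of G such that P ⊓ N lies in the centre of P and every character of degree 1 of P ⊓ N is the restriction of a character of degree 1 of P. Then every irreducible character of N invariant under conjugation by G is the restriction of an irreducible character of G. -/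
theorem result {G : Type*} [Group G] [Fintype G] (p : ℕ) [Fact p.Prime] (N : Subgroup G) [hN : N.Normal] (hind : ∃ k : ℕ, N.index = p ^ k) (P : Sylow p G) (hcent : ∀ x ∈ (P : Subgroup G) ⊓ N, ∀ y ∈ (P : Subgroup G), x * y = y * x) (hlin : ∀ lam : ↥((P : Subgroup G) ⊓ N) → ℂ, Cfsg.IsCharacter ↥((P : Subgroup G) ⊓ N) lam → lam 1 = 1 → ∃ μ : ↥(P : Subgroup G) → ℂ, Cfsg.IsCharacter ↥(P : Subgroup G) μ ∧ μ 1 = 1 ∧ ∀ x : ↥((P : Subgroup G) ⊓ N), μ ⟨(x : G), x.2.1⟩ = lam x) (ϑ : N → ℂ) (hϑ : Cfsg.IsIrrCharacter N ϑ) (hinv : ∀ (g : G) (n : N), ϑ ⟨g * n * g⁻¹, hN.conj_mem (n : G) n.2 g⟩ = ϑ n) : ∃ χ : G → ℂ, Cfsg.IsIrrCharacter G χ ∧ ∀ n : N, χ n = ϑ n := by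
  classical
  have hp : p.Prime := Fact.out
  obtain ⟨k, hk⟩ := hind
  have hi : CInv ⊤ (amb ⟨ϑ, hϑ⟩) := (cinv_amb le_normalizer_of_normal _).2 fun s _ g g' e =>
    (congrArg ϑ (Subtype.ext e)).trans (hinv s g)
  have ha : Ab ((P : Subgroup G) ⊓ N) := comm_iff_le_cent.2 fun x hx =>
    mem_cent.2 fun y hy => (hcent x hx y hy.1).symm
  obtain ⟨χ, a1, a2⟩ := dade_ext hp normalIn_top
    (by rw [relIndex_top_right, hk]; exact PiN.prime_pow hp k) (syl_sylow_top P)
    (le_bot_iff.1 (le_of_forall_cker (.bot _) (inf_le_inf_right N (der_le _)) fun l a _ x hx => by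
      have b := irr_lin_of_ab a ha
      obtain ⟨μ, c1, c2, c3⟩ := hlin _ b.chr.1 b.one
      have d : Lin (P : Subgroup G) (extendByZero (P : Subgroup G) μ) :=
        ⟨ext_mem_Chr.2 c1, (congrFun (rs_ext _ μ) 1).trans c2⟩
      have e := der_le _ hx.1
      exact (b.mem_cker ⟨e, hx.2⟩).2 ((c3 ⟨x, e, hx.2⟩).symm.trans
        ((congrFun (rs_ext _ μ) ⟨x, e⟩).symm.trans ((d.mem_cker e).1 (d.der_le hx.1))))))
    (amb_irr _) hi
  exact ⟨χ, mem_Irr_top.1 a1, fun n => (Res_coe χ n).symm.trans ((congrFun a2 n).trans (amb_coe _ n))⟩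

end Cfsg.Agent.S0897
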