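import Cfsg.Statements.S0898
import Cfsg.Agent.H5.FTB
-- import your own Cfsg.Agent.* helpers here

set_option autoImplicit false
open Cfsg

namespace Cfsg.Agent.S0898
open H5


/-- Let H be an abelian subgroup of the finite group G meeting the centre of G trivially, such that for every non-central g the centralizer of g has nontrivial intersection with at most one conjugate of H. Let χ be an irreducible character of G with χ h ≠ χ 1 for some h in H, and let c be the inner product of the restriction of χ to H with the principal character. Then χ(1)² > (order of H)·c²; and if in addition χ 1 ≠ 1 and no proper normal subgroup of G contains H, then (1 + χ 1)² > order of H (both sides read as real numbers). -/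
theorem result {G : Type*} [Group G] [Fintype G] (H : Subgroup G) [Fintype H] (hab : ∀ a ∈ H, ∀ b ∈ H, a * b = b * a) (hZ : H ⊓ Subgroup.center G = ⊥) (hone : ∀ g : G, g ∉ Subgroup.center G → ∀ a b : G, Subgroup.centralizer ({g} : Set G) ⊓ H.map (MulAut.conj a).toMonoidHom ≠ ⊥ → Subgroup.centralizer ({g} : Set G) ⊓ H.map (MulAut.conj b).toMonoidHom ≠ ⊥ → H.map (MulAut.conj a).toMonoidHom = H.map (MulAut.conj b).toMonoidHom) (χ : G → ℂ) (hχ : Cfsg.IsIrrCharacter G χ) (hker : ∃ h ∈ H, χ h ≠ χ 1) : (χ 1).re ^ 2 > (Nat.card H : ℝ) * (Cfsg.classInner (fun h : H => χ h) (fun _ => 1)).re ^ 2 ∧ (χ 1 ≠ 1 → (∀ M : Subgroup G, M.Normal → H ≤ M → M = ⊤) → (1 + (χ 1).re) ^ 2 > (Nat.card H : ℝ)) := by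
  open H19 H20 H6 Subgroup in
  have h1 := mem_Irr_top.2 hχ
  have h2 : Ab H := ⟨⟨fun x y => Subtype.ext (hab _ x.2 _ y.2)⟩⟩
  have h3 : C((⊤ : Subgroup G)) = center G := by rw [coe_top, centralizer_univ]
  have h4 : H5.FTB.One H ⊤ := fun g _ b a _ c d => mem_norm_iff_cj.2 (by
    have := hone g (h3 ▸ b) a 1 (by rwa [inf_comm] at d) (by rwa [← cj_def, H19.cj_one, inf_comm])
    rwa [← cj_def, ← cj_def, H19.cj_one] at this)
  rw [H20.irr_deg h1, Complex.natCast_re]
  refine ⟨?_, fun a b => H5.FTB.core2 le_top h2 (h3 ▸ hZ) h4 h1 (fun e => a (by rw [e, Nat.cast_one]))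
    fun M c => b M c.normal⟩
  obtain ⟨h, a, b⟩ := hker
  have := H5.FTB.core le_top h2 (h3 ▸ hZ) h4 h1 fun e => b (cker_apply (e a))
  obtain ⟨n, hn⟩ := chr_dot_nat (chr_Res (irr_chr h1) (le_top (a := H))) (irr_chr (triv_mem_Irr H))
  rw [dot_Res_left] at hn
  rw [hn, Complex.norm_natCast] at this
  rw [dot_eq_classInner, rs_triv] at hn
  rwa [hn, Complex.natCast_re]

end Cfsg.Agent.S0898
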