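import Cfsg.Statements.S0899
import Cfsg.Agent.H5.FTB2
-- import your own Cfsg.Agent.* helpers here

set_option autoImplicit false
open Cfsg

namespace Cfsg.Agent.S0899
open H5


/-- Let G be a finite group with a faithful complex representation of degree n (on Fin n → ℂ) and p a prime. Suppose either that (n + 1) ^ 2 ≤ p, or that n + 1 < p and every subgroup of G whose order is not divisible by p ^ 2 has a normal Sylow p-subgroup. Then every Sylow p-subgroup of G is normal. -/
theorem result {G : Type*} [Group G] [Finite G] (n : ℕ) (ρ : Representation ℂ G (Fin n → ℂ)) (hρ : Function.Injective ρ) (p : ℕ) [Fact p.Prime] (h : (n + 1) ^ 2 ≤ p ∨ (n + 1 < p ∧ ∀ K : Subgroup G, ¬ p ^ 2 ∣ Nat.card K → ∀ Q : Sylow p K, (Q : Subgroup K).Normal)) (P : Sylow p G) : (P : Subgroup G).Normal := by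
  open H19 H20 H6 Subgroup in
  have hp : p.Prime := Fact.out
  have h1 : ρ.character ∈ Chr ⊤ := mem_Chr_top.2 ⟨n, ρ, rfl⟩
  have h2 : cker ρ.character = ⊥ :=
    (H5.charKer_character ρ).trans ((MonoidHom.ker_eq_bot_iff ρ).2 hρ)
  have h3 : deg ρ.character = n := by simp [deg, Representation.char_one]
  have h4 := hp.two_le
  refine NormalIn.normal (h.elim (fun h => ?_) fun h => ?_)
  · rcases n with _ | n
    · exact H5.FTB.small hp h1 h2 (by omega) (.inl (by omega)) (syl_sylow_top P)
    · exact H5.FTB.small hp h1 h2 (by nlinarith) (.inl (by nlinarith)) (syl_sylow_top P)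
  refine H5.FTB.ftb hp h1 h2 (by omega) (fun K Q a b => ?_) (syl_sylow_top P)
  obtain ⟨S, rfl⟩ := b.exists_sylow
  haveI := h.2 K a S
  exact normalIn_map_subtype _

end Cfsg.Agent.S0899
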