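import Cfsg.Statements.S0900
import Cfsg.Agent.H6.Gallagher

set_option autoImplicit false
open Cfsg

namespace Cfsg.Agent.S0900

/-- Let N be a normal subgroup of the finite group G, χ an irreducible character of G and ϑ an irreducible character of N having nonzero inner product with the restriction of χ. Consider: (a) the restriction of χ to N is e • ϑ for a natural number e with e ^ 2 equal to the index of N; (b) χ vanishes outside N and ϑ is invariant under conjugation by G; (c) ϑ is invariant and every irreducible character of G having nonzero inner product with the function induced from ϑ equals χ. Then (a) ↔ (b) and (a) ↔ (c). -/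
theorem result {G : Type*} [Group G] [Fintype G] (N : Subgroup G) [hN : N.Normal] [Fintype N] (χ : G → ℂ) (hχ : Cfsg.IsIrrCharacter G χ) (ϑ : N → ℂ) (hϑ : Cfsg.IsIrrCharacter N ϑ) (hcon : Cfsg.classInner (fun n : N => χ n) ϑ ≠ 0) : ((∃ e : ℕ, (fun n : N => χ n) = (e : ℂ) • ϑ ∧ e ^ 2 = N.index) ↔ ((∀ g : G, g ∉ N → χ g = 0) ∧ ∀ (g : G) (n : N), ϑ ⟨g * n * g⁻¹, hN.conj_mem (n : G) n.2 g⟩ = ϑ n)) ∧ ((∃ e : ℕ, (fun n : N => χ n) = (e : ℂ) • ϑ ∧ e ^ 2 = N.index) ↔ (∀ (g : G) (n : N), ϑ ⟨g * n * g⁻¹, hN.conj_mem (n : G) n.2 g⟩ = ϑ n ∧ ∀ ψ : G → ℂ, Cfsg.IsIrrCharacter G ψ → Cfsg.classInner (Cfsg.indFun N ϑ) ψ ≠ 0 → ψ = χ)) := by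
  have key : ∀ e : ℕ, (fun n : N => χ n) = (e : ℂ) • ϑ → ∀ g, H6.cj g ϑ = ϑ := fun e h =>
    H6.invariant_of_res_eq_smul (H6.irr_cf hχ) (fun e0 => hcon (by rw [h, e0]; simp)) h
  refine ⟨⟨fun ⟨e, h1, h2⟩ => ⟨(H6.sq_eq_index_iff hχ hϑ h1).mp h2,
    fun g n => congrFun (key e h1 g) n⟩, fun ⟨h1, h2⟩ => ?_⟩, ⟨fun ⟨e, h1, h2⟩ g n =>
      ⟨congrFun (key e h1 g) n, fun ψ hψ h => ?_⟩, fun h => ?_⟩⟩
  · obtain ⟨e, -, -, h3⟩ := H6.exists_res_eq_nat_smul hχ hϑ (fun g => funext (h2 g)) hcon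
    exact ⟨e, h3, (H6.sq_eq_index_iff hχ hϑ h3).mpr h1⟩
  · rw [H6.indFun_eq_smul_of_sq_eq hχ hϑ h1 h2, H6.inner_smul_left] at h
    exact (H6.irr_eq_of_inner_ne_zero hχ hψ (right_ne_zero_of_mul h)).symm
  · obtain ⟨e, -, -, h3⟩ := H6.exists_res_eq_nat_smul hχ hϑ
      (fun g => funext fun n => (h g n).1) hcon
    exact ⟨e, h3, H6.sq_eq_index_of_unique hχ hϑ h3 (h 1 1).2⟩

end Cfsg.Agent.S0900
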