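import Cfsg.Statements.S0901
import Cfsg.Agent.H7.PPart

set_option autoImplicit false
open Cfsg

open H5 H8 H7 Polynomial

namespace Cfsg.Agent.S0901

theorem aux (p : ℕ) [Fact p.Prime] {R k : Type*} [CommRing R] [Field k] [CharP k p] (φ : R →+* k)
    {a : R} (ha : IsIntegral ℤ a) (h0 : φ a ≠ 0) : ∃ N, N ≠ 0 ∧ φ a ^ N = 1 := by
  letI := ZMod.algebra k p
  have hi' : IsIntegral (ZMod p) (φ a) := (map_isIntegral_int φ ha).tower_top
  haveI : Module.Finite (ZMod p) (Algebra.adjoin (ZMod p) {φ a}) :=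
    Module.Finite.iff_fg.2 hi'.fg_adjoin_singleton
  haveI : Finite (Algebra.adjoin (ZMod p) {φ a}) := Module.finite_of_finite (ZMod p)
  obtain ⟨i, j, hij, he⟩ := Finite.exists_ne_map_eq_of_infinite
    (fun i : ℕ => (⟨φ a ^ i, pow_mem (Algebra.self_mem_adjoin_singleton _ _) i⟩ :
      Algebra.adjoin (ZMod p) {φ a}))
  have he' : φ a ^ i = φ a ^ j := congrArg Subtype.val he
  wlog hlt : i < j generalizing i j
  · exact this j i hij.symm he.symm he'.symm (by omega)
  refine ⟨j - i, by omega, mul_left_cancel₀ (pow_ne_zero i h0) ?_⟩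
  rw [← pow_add, mul_one, he']
  congr 1
  omega

/-- Let M be a maximal ideal of the ring of algebraic integers containing the prime p, and let U be the set of complex roots of unity of order prime to p. Then reduction modulo M is injective on U, and every algebraic integer not in M is congruent modulo M to an element of U (so U maps bijectively onto the nonzero residues). -/
theorem result (p : ℕ) [Fact p.Prime] (M : Ideal Cfsg.AlgInt) (hM : Cfsg.IsPModular p M) : (∀ ε₁ ε₂ : Cfsg.AlgInt, (∃ m : ℕ, ¬ p ∣ m ∧ (ε₁ : ℂ) ^ m = 1) → (∃ m : ℕ, ¬ p ∣ m ∧ (ε₂ : ℂ) ^ m = 1) → ε₁ - ε₂ ∈ M → ε₁ = ε₂) ∧ (∀ a : Cfsg.AlgInt, a ∉ M → ∃ ε : Cfsg.AlgInt, (∃ m : ℕ, ¬ p ∣ m ∧ (ε : ℂ) ^ m = 1) ∧ a - ε ∈ M) := by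
  classical
  haveI := charP_kk hM
  have hp : p.Prime := Fact.out
  have hmem : ∀ a : Cfsg.AlgInt, a ∈ M ↔ red M (a : ℂ) = 0 := fun a => by
    rw [mem_M_iff hM.2.1, red_eq_zero_iff (algInt_mem_V M a)]
  constructor
  · rintro ε₁ ε₂ ⟨m, hm, h1⟩ ⟨n, hn, h2⟩ h
    have hm0 : m ≠ 0 := by rintro rfl; exact hm (dvd_zero _)
    have hn0 : n ≠ 0 := by rintro rfl; exact hn (dvd_zero _)
    have hmn : ¬ p ∣ m * n := fun h => (hp.dvd_mul.1 h).elim hm hn
    by_contra hne
    have hne' : (ε₁ : ℂ) ≠ ε₂ := fun h => hne (Subtype.ext h)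
    have hs := Commute.geom_sum₂_mul (Commute.all (ε₁ : ℂ) ε₂) (m * n)
    rw [pow_mul, h1, one_pow, mul_comm m n, pow_mul, h2, one_pow, sub_self,
      mul_eq_zero, sub_eq_zero, or_iff_left hne'] at hs
    have hr : red M (ε₁ : ℂ) = red M (ε₂ : ℂ) := by
      rw [hmem, Subalgebra.coe_sub, red_sub (algInt_mem_V M _) (algInt_mem_V M _),
        sub_eq_zero] at h
      exact h
    have hs' := congrArg (red M) hs
    rw [red_sum _ _ (fun i _ => mul_mem (pow_mem (algInt_mem_V M _) _)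
      (pow_mem (algInt_mem_V M _) _)), red_zero] at hs'
    have : ∀ i ∈ Finset.range (n * m), red M ((ε₁ : ℂ) ^ i * (ε₂ : ℂ) ^ (n * m - 1 - i)) =
        red M (ε₂ : ℂ) ^ (n * m - 1) := fun i hi => by
      rw [red_mul (pow_mem (algInt_mem_V M _) _) (pow_mem (algInt_mem_V M _) _),
        red_pow (algInt_mem_V M _), red_pow (algInt_mem_V M _), hr, ← pow_add]
      congr 1
      have := Finset.mem_range.1 hi
      omega
    rw [Finset.sum_congr rfl this, Finset.sum_const, Finset.card_range, nsmul_eq_mul,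
      mul_eq_zero, natCast_kk_eq_zero_iff hM, mul_comm n m, or_iff_right hmn] at hs'
    have h3 : red M (ε₂ : ℂ) = 0 := eq_zero_of_pow_eq_zero hs'
    have h4 := congrArg (red M) h2
    rw [red_pow (algInt_mem_V M _), h3, zero_pow hn0, red_one] at h4
    exact zero_ne_one h4
  · intro a ha
    let φ : Cfsg.AlgInt →+* kk M := (IsLocalRing.residue (V M)).comp
      ((Cfsg.AlgInt.val : Cfsg.AlgInt →+* ℂ).codRestrict (V M).toSubring (algInt_mem_V M))
    have hφ : ∀ b, φ b = red M (b : ℂ) := fun b => (red_of_mem (algInt_mem_V M b)).symm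
    have h0 : φ a ≠ 0 := by rw [hφ]; exact fun h => ha ((hmem a).2 h)
    have hfin := aux p φ (integralClosure.isIntegral a) h0
    obtain ⟨N, hN, hN1⟩ := hfin
    obtain ⟨k, m, hm, rfl⟩ := Nat.exists_eq_pow_mul_and_not_dvd hN p hp.ne_one
    have hm0 : 0 < m := Nat.pos_of_ne_zero (by rintro rfl; exact hm (dvd_zero _))
    have hm1 : φ a ^ m = 1 := kk_pow_injective hM k (by rw [← pow_mul, mul_comm, hN1, one_pow])
    have hζ := Complex.isPrimitiveRoot_exp m hm0.ne'
    have hf := congrArg (Polynomial.eval (a : ℂ)) (X_pow_sub_one_eq_prod hm0 hζ)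
    rw [eval_sub, eval_pow, eval_X, eval_one, eval_prod] at hf
    have hroot : ∀ z ∈ nthRootsFinset m (1 : ℂ), z ^ m = 1 := fun z hz =>
      (mem_nthRootsFinset hm0 1).1 hz
    have hV : ∀ z ∈ nthRootsFinset m (1 : ℂ), eval (a : ℂ) (X - C z) ∈ V M := fun z hz => by
      rw [eval_sub, eval_X, eval_C]
      exact sub_mem (algInt_mem_V M a) (mem_V_of_pow_eq_one hm0.ne' (hroot z hz))
    have hf' := congrArg (red M) hf
    rw [red_prod _ _ hV, red_sub (pow_mem (algInt_mem_V M a) _) (one_mem _),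
      red_pow (algInt_mem_V M a), ← hφ, hm1, red_one, sub_self, eq_comm,
      Finset.prod_eq_zero_iff] at hf'
    obtain ⟨z, hz, hz0⟩ := hf'
    refine ⟨⟨z, IsIntegral.of_pow hm0 (by rw [hroot z hz]; exact isIntegral_one)⟩,
      ⟨m, hm, hroot z hz⟩, ?_⟩
    rw [hmem]
    simpa using hz0

end Cfsg.Agent.S0901
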