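import Cfsg.Statements.S0902
import Cfsg.Agent.H7.Height

set_option autoImplicit false
open Cfsg

open H5 H28 H8 H7

namespace Cfsg.Agent.S0902

theorem aux {G : Type*} [Group G] [Finite G] {p : ℕ} {M M' : Ideal Cfsg.AlgInt}
    (hM : Cfsg.IsPModular p M) (hM' : Cfsg.IsPModular p M') {χ ψ : Cfsg.IrrCharacter G}
    (h : Cfsg.SameBlock M χ.1 ψ.1) : Cfsg.SameBlock M' χ.1 ψ.1 := by
  have hB := isPBlock_blockOf (M := M) χ
  obtain ⟨χ₀, h0, h1⟩ := exists_blockHeight_eq_zero (p := p) (isPBlock_nonempty hM hB)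
  have key : ∀ ξ ∈ Cfsg.blockOf M χ.1, ξ ∈ Cfsg.blockOf M' χ₀.1 := by
    intro ξ hξ
    by_contra hn
    have := (red_omega_zreg_ne_zero_iff hM hB hξ).2 ⟨h0, h1⟩
    rw [omega_zreg_of_notMem hM' (isPBlock_blockOf (M := M') χ₀) (mem_blockOf_self hM' χ₀) hn,
      red_zero] at this
    exact this rfl
  exact sameBlock_of_mem hM' (isPBlock_blockOf (M := M') χ₀) (key χ (mem_blockOf_self hM χ))
    (key ψ h)

/-- If two irreducible characters of a finite group lie in the same block relative to one maximal ideal M of the algebraic integers containing the prime p, then at every element the difference of their central characters is an algebraic integer lying in every maximal ideal containing p; in particular they lie in the same block relative to any such ideal. -/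
theorem result {G : Type*} [Group G] [Finite G] (p : ℕ) [Fact p.Prime] (M : Ideal Cfsg.AlgInt) (hM : Cfsg.IsPModular p M) (χ ψ : Cfsg.IrrCharacter G) (h : Cfsg.SameBlock M (χ : G → ℂ) (ψ : G → ℂ)) (M' : Ideal Cfsg.AlgInt) (hM' : Cfsg.IsPModular p M') (g : G) : ∃ r : Cfsg.AlgInt, r ∈ M' ∧ (r : ℂ) = Cfsg.centralChar (χ : G → ℂ) g - Cfsg.centralChar (ψ : G → ℂ) g := by
  haveI := hM'.2.1
  refine ⟨⟨_, (isIntegral_centralChar χ g).sub (isIntegral_centralChar ψ g)⟩, ?_, rfl⟩
  exact memI_algInt_iff.1 (aux hM hM' h g)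

end Cfsg.Agent.S0902
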