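import Cfsg.Statements.S0903
import Cfsg.Agent.H8.Brauer

set_option autoImplicit false
open Cfsg

open H28 H8

namespace Cfsg.Agent.S0903

/-- Let P be a p-subgroup of the finite group G, let c centralize P and let g, h ∈ G. The number of pairs (x, y) with x conjugate to g, y conjugate to h and x * y = c is congruent modulo p to the number of such pairs in which x and y both centralize P. (This is why the Brauer map on class sums is multiplicative.) -/
theorem result {G : Type*} [Group G] [Finite G] (p : ℕ) [Fact p.Prime] (P : Subgroup G) (hP : IsPGroup p P) (c : G) (hc : c ∈ Subgroup.centralizer (P : Set G)) (g h : G) : Nat.card {xy : G × G // IsConj g xy.1 ∧ IsConj h xy.2 ∧ xy.1 * xy.2 = c} ≡ Nat.card {xy : G × G // IsConj g xy.1 ∧ IsConj h xy.2 ∧ xy.1 * xy.2 = c ∧ xy.1 ∈ Subgroup.centralizer (P : Set G) ∧ xy.2 ∈ Subgroup.centralizer (P : Set G)} [MOD p] := by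
  classical
  haveI := Fintype.ofFinite G
  have key := card_modEq_fixed hP (fun (u : G) (xy : G × G) => (u * xy.1 * u⁻¹, u * xy.2 * u⁻¹))
    (Finset.univ.filter fun xy : G × G => IsConj g xy.1 ∧ IsConj h xy.2 ∧ xy.1 * xy.2 = c)
    (fun x _ => by simp) (fun a _ b _ x _ => by simp [mul_assoc])
    (fun u hu x hx => by
      simp only [Finset.mem_filter, Finset.mem_univ, true_and] at hx ⊢
      refine ⟨hx.1.trans (isConj_iff.2 ⟨u, rfl⟩), hx.2.1.trans (isConj_iff.2 ⟨u, rfl⟩), ?_⟩
      have := Subgroup.mem_centralizer_iff.1 hc u hu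
      calc u * x.1 * u⁻¹ * (u * x.2 * u⁻¹) = u * (x.1 * x.2) * u⁻¹ := by group
        _ = c := by rw [hx.2.2, this]; group)
  rw [Nat.card_eq_fintype_card, Nat.card_eq_fintype_card, Fintype.card_subtype,
    Fintype.card_subtype]
  convert key using 2
  ext xy
  simp only [Finset.mem_filter, Finset.mem_univ, true_and, Subgroup.mem_centralizer_iff,
    SetLike.mem_coe, Prod.ext_iff, mul_inv_eq_iff_eq_mul]
  constructor
  · rintro ⟨h1, h2, h3, h4, h5⟩
    exact ⟨⟨h1, h2, h3⟩, fun u hu => ⟨h4 u hu, h5 u hu⟩⟩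
  · rintro ⟨⟨h1, h2, h3⟩, h4⟩
    exact ⟨h1, h2, h3, fun u hu => (h4 u hu).1, fun u hu => (h4 u hu).2⟩

end Cfsg.Agent.S0903
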