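import Cfsg.Statements.S0904
import Cfsg.Agent.H21.BT
import Cfsg.Agent.H21.SylowPrime
import Cfsg.Agent.H5.Burnside
import Cfsg.Agent.H7.Prin

set_option autoImplicit false
open Cfsg

namespace Cfsg.Agent.S0904

open H5 H7 H8 H28 H21 Finset
open scoped ComplexConjugate

/-- Let G be a finite simple group of order p ^ a * q ^ b * r with p, q, r distinct primes. Then every Sylow r-subgroup S of G satisfies C_G(S) = S. -/
theorem result {G : Type*} [Group G] [Finite G] [IsSimpleGroup G] (p q r a b : ℕ) (hp : p.Prime) (hq : q.Prime) [Fact r.Prime] (hpq : p ≠ q) (hpr : p ≠ r) (hqr : q ≠ r) (hcard : Nat.card G = p ^ a * q ^ b * r) (S : Sylow r G) : Subgroup.centralizer (S : Set G) = (S : Subgroup G) := by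
  have hr : r.Prime := Fact.out
  refine centralizer_sylow_of_three hp hq hr hpr hqr hcard ?_
  rw [card_sylow_eq_pow S (a := 1) (m := p ^ a * q ^ b) (by rw [hcard]; ring), pow_one]
  exact hr.coprime_iff_not_dvd.1 (Nat.Coprime.mul_right
    (((Nat.coprime_primes hr hp).2 hpr.symm).pow_right a) (((Nat.coprime_primes hr hq).2 hqr.symm).pow_right b))

end Cfsg.Agent.S0904
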