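import Cfsg.Statements.S0905
import Cfsg.Agent.H7.Quot

set_option autoImplicit false
open Cfsg

open H5 H7 H8 H28

namespace Cfsg.Agent.S0905

/-- Let F be a field of characteristic p and let g be an element of the finite group G no conjugate of which centralizes O_p(G). Then the class sum of g is a nilpotent element of the group algebra F[G]. -/
theorem result {G : Type*} [Group G] [Finite G] (p : ℕ) [Fact p.Prime] (F : Type*) [Field F] [CharP F p] (g : G) (hg : ∀ x : G, IsConj g x → x ∉ Subgroup.centralizer (Cfsg.pCore p G : Set G)) : IsNilpotent (∑ᶠ x ∈ ConjClasses.carrier (ConjClasses.mk g), MonoidAlgebra.single x (1 : F) : MonoidAlgebra F G) := by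
  classical
  obtain ⟨M, hM⟩ := exists_isPModular (Fact.out : p.Prime)
  have hn : (pCore p G).Normal := by
    rw [← pCoreOf_top]
    exact normal_iff_top_le.2 (le_normalizer_pCoreOf p ⊤)
  have h1 : IsNilpotent (classSum (kk M) g) := isNilpotent_of_forall_lam (classSum_mem_Zc g)
    fun χ => lam_eq_zero_of_br_eq_zero hM (isPGroup_pCore p G) χ (classSum_mem_Zc g) (by
      by_contra h
      obtain ⟨c, h1, h2⟩ := br_classSum_ne_zero_iff.1 h
      exact hg c h2 h1)
  have := charP_kk hM
  have h2 : IsNilpotent (classSum (ZMod p) g) := by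
    obtain ⟨n, hn⟩ := h1
    refine ⟨n, ga_ext fun x => (ZMod.castHom (dvd_refl p) (kk M)).injective ?_⟩
    rw [classSum, ← map_setSum (ZMod.castHom (dvd_refl p) (kk M)), ← map_pow] at hn
    have := congrArg (fun a => a.coeff x) hn
    simp only [MonoidAlgebra.coeff_mapRingHom] at this
    rw [classSum, this]
    simp
  have h3 := h2.map (MonoidAlgebra.mapRingHom G (ZMod.castHom (dvd_refl p) F))
  rw [classSum, map_setSum] at h3
  convert h3
  rw [finsum_mem_eq_finite_toFinset_sum _ (Set.toFinite _)]
  refine ga_ext fun x => ?_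
  rw [coeff_sum_apply, coeff_setSum]
  simp only [MonoidAlgebra.coeff_single, Finsupp.single_apply, Finset.sum_ite_eq',
    Set.Finite.mem_toFinset, ConjClasses.mem_carrier_iff_mk_eq, ConjClasses.mk_eq_mk_iff_isConj,
    Set.mem_ofPred_eq, isConj_comm (g := x)]

end Cfsg.Agent.S0905
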