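import Cfsg.Statements.S0911
import Cfsg.Agent.H7.Defect

set_option autoImplicit false
open Cfsg

open H5 H7 H8 H28

namespace Cfsg.Agent.S0911

/-- The min–max Theorem for defect classes. Let B be a block of the finite group G relative to a maximal ideal M of the algebraic integers containing the prime p, let g represent a defect class of B and let D be a Sylow p-subgroup of the centralizer of g (viewed in G). For any h: (a) if the idempotent coefficient of B at h is a local integer outside the local ideal, then some conjugate of D contains a Sylow p-subgroup of the centralizer of h; (b) if the central character of some member of B at h is outside the local ideal, then some conjugate of D is contained in a Sylow p-subgroup of the centralizer of h. -/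
theorem result {G : Type*} [Group G] [Finite G] (p : ℕ) [Fact p.Prime] (M : Ideal Cfsg.AlgInt) (hM : Cfsg.IsPModular p M) (B : Set (Cfsg.IrrCharacter G)) (hB : Cfsg.IsPBlock M B) (g : G) (hg : Cfsg.IsDefectClass M B g) (D : Sylow p (Subgroup.centralizer ({g} : Set G))) (h : G) : (Cfsg.MemLocalRing M (Cfsg.blockCoeff B h) → ¬ Cfsg.MemLocalIdeal M (Cfsg.blockCoeff B h) → ∃ (x : G) (Q : Sylow p (Subgroup.centralizer ({h} : Set G))), (Q : Subgroup (Subgroup.centralizer ({h} : Set G))).map (Subgroup.centralizer ({h} : Set G)).subtype ≤ ((D : Subgroup (Subgroup.centralizer ({g} : Set G))).map (Subgroup.centralizer ({g} : Set G)).subtype).map (MulAut.conj x).toMonoidHom) ∧ ((∃ χ ∈ B, ¬ Cfsg.MemLocalIdeal M (Cfsg.centralChar (χ : G → ℂ) h)) → ∃ (x : G) (Q : Sylow p (Subgroup.centralizer ({h} : Set G))), ((D : Subgroup (Subgroup.centralizer ({g} : Set G))).map (Subgroup.centralizer ({g} : Set G)).subtype).map (MulAut.conj x).toMonoidHom ≤ (Q : Subgroup (Subgroup.centralizer ({h} : Set G))).map (Subgroup.centralizer ({h} : Set G)).subtype)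 := by
  have hD := isSylowIn_map_subtype D
  have hD' : IsDefectGroup p M B _ := isDefectGroup_iff.2 ⟨g, hg, hD⟩
  constructor
  · intro h1 h2
    have h3 := (unit_blockCoeff_iff hM h).1 ⟨h1, h2⟩
    obtain ⟨Q, hQ⟩ := exists_isSylowIn p (Subgroup.centralizer ({h} : Set G))
    obtain ⟨x, hx⟩ := exists_cj_le_of_br_ne_zero hM hB hD' hQ.isPGroup
      (br_ne_zero_iff.2 ⟨h, le_centralizer_singleton_iff.1 hQ.le, h3⟩)
    obtain ⟨S, rfl⟩ := hQ.exists_sylow
    exact ⟨x⁻¹, S, cj_le_iff.1 hx⟩
  · rintro ⟨χ, hχ, h1⟩
    rw [memI_centralChar_iff hM] at h1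
    obtain ⟨c, hc, hcc⟩ := exists_conj_mem_centralizer hM hB hχ hD' h1
    obtain ⟨y, rfl⟩ := isConj_iff.1 hcc.symm
    have h2 := cj_mono y (le_centralizer_singleton_iff.2 hc)
    rw [cj_centralizer_singleton] at h2
    obtain ⟨Q, hQ, h3⟩ := exists_isSylowIn_ge (isPGroup_cj y hD.isPGroup) h2
    obtain ⟨S, rfl⟩ := hQ.exists_sylow
    exact ⟨y, S, h3⟩

end Cfsg.Agent.S0911
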