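import Cfsg.Statements.S0918
import Cfsg.Agent.H7.Defect

set_option autoImplicit false
open Cfsg

open H5 H7 H8 H28

namespace Cfsg.Agent.S0918

/-- Let P be a p-subgroup of the finite group G and H a subgroup with P·C_G(P) ≤ H ≤ N_G(P); let b be a block of H and B a block of G relative to a maximal ideal M of the algebraic integers containing p. Then b induces B if and only if, for every g ∈ G, every ξ ∈ b and every χ ∈ B, the central character of χ at g is congruent modulo the local ideal at M to the sum of ξ h / ξ 1 over the elements h of H conjugate in G to g and centralizing P. -/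
theorem result {G : Type*} [Group G] [Finite G] (p : ℕ) [Fact p.Prime] (M : Ideal Cfsg.AlgInt) (hM : Cfsg.IsPModular p M) (P H : Subgroup G) (hP : IsPGroup p P) (hPH : P ≤ H) (hCH : Subgroup.centralizer (P : Set G) ≤ H) (hHN : H ≤ Subgroup.normalizer (P : Set G)) (b : Set (Cfsg.IrrCharacter H)) (hb : Cfsg.IsPBlock M b) (B : Set (Cfsg.IrrCharacter G)) (hB : Cfsg.IsPBlock M B) : Cfsg.IsInducedBlock M H b B ↔ ∀ ξ ∈ b, ∀ χ ∈ B, ∀ g : G, Cfsg.MemLocalIdeal M (Cfsg.brauerCentralChar P H (ξ : H → ℂ) g - Cfsg.centralChar (χ : G → ℂ) g) := by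
  have key : ∀ (ξ : IrrCharacter H) (g : G), MemLocalIdeal M
      (brauerCentralChar P H ξ.1 g - inducedCentralChar H ξ.1 g) := fun ξ g => by
    have hZ : restr H (br P (classSum ℂ g)) ∈ Zc ℂ H :=
      restr_mem_Zc (br_mem_inv hHN (Zc_le_inv H (classSum_mem_Zc g)))
    have hV : restr H (br P (classSum ℂ g)) ∈ VG M H :=
      restr_mem_VG H (trunc_mem_VG _ (classSum_mem_VG g))
    have hI : IsIntegral ℤ (brauerCentralChar P H ξ.1 g) := by
      classical
      rw [brauerCentralChar_eq]
      refine isIntegral_omega ξ hZ fun h => ?_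
      rw [coeff_restr, coeff_trunc, coeff_classSum]
      split_ifs
      exacts [isIntegral_one, isIntegral_zero, isIntegral_zero]
    rw [memI_sub_iff_red_of_isIntegral hM hI (isIntegral_inducedCentralChar H ξ g),
      ← lam_restr_classSum, brauerCentralChar_eq, ← lam_redG ξ hV hZ, redG_restr, redG_trunc,
      redG_classSum, lam_restr_br hM hP hPH hHN ξ (Zc_le_inv H (classSum_mem_Zc g))]
  have := hM.2.1
  constructor
  · intro h ξ hξ χ hχ g
    simpa using memI_add (key ξ g) (h.2.2 ξ hξ χ hχ g)
  · intro h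
    refine ⟨hb, hB, fun ξ hξ χ hχ g => ?_⟩
    simpa using memI_sub (h ξ hξ χ hχ g) (key ξ g)

end Cfsg.Agent.S0918
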