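import Cfsg.Statements.S0926
import Cfsg.Agent.H7.Height

set_option autoImplicit false
open Cfsg

open H5 H7 H8 H28

namespace Cfsg.Agent.S0926

/-- Let B be a block of the finite group G with defect group D (relative to a maximal ideal M of the algebraic integers containing p), let χ ∈ B have height zero, and let x be a p-element. Then some conjugate of x lies in D if and only if χ does not vanish on the whole p-section of x (the elements whose p-part is conjugate to x). -/
theorem result {G : Type*} [Group G] [Finite G] (p : ℕ) [Fact p.Prime] (M : Ideal Cfsg.AlgInt) (hM : Cfsg.IsPModular p M) (B : Set (Cfsg.IrrCharacter G)) (hB : Cfsg.IsPBlock M B) (D : Subgroup G) (hD : Cfsg.IsDefectGroup p M B D) (χ : Cfsg.IrrCharacter G) (hχ : χ ∈ B) (h0 : Cfsg.blockHeight p B (χ : G → ℂ) = 0) (x : G) (hx : ∃ k : ℕ, orderOf x = p ^ k) : (∃ g : G, g * x * g⁻¹ ∈ D) ↔ ∃ u : G, (∃ z : G, Cfsg.IsPPart p u z ∧ IsConj x z) ∧ (χ : G → ℂ) u ≠ 0 := by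
  constructor
  · rintro ⟨g, hg⟩
    obtain ⟨y, hy, hS⟩ := isDefectGroup_iff.1 hD
    have hc : Commute (g * x * g⁻¹) y := Subgroup.mem_centralizer_singleton_iff.1 (hS.le hg)
    have hx' := IsPElt.conj hx g
    refine ⟨g * x * g⁻¹ * y, ⟨_, isPPart_mk hc hx' (not_dvd_of_isDefectClass hM hB hy),
      isConj_iff.2 ⟨g, rfl⟩⟩, fun h => ?_⟩
    exact red_ne_zero_mul_defectClass hM hB hy hx' hc hχ h0 (by rw [h, red_zero])
  · rintro ⟨u, ⟨z, hz, hc⟩, h⟩
    obtain ⟨E, hE, hzE⟩ := exists_isDefectGroup_mem hM hB hχ hz h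
    obtain ⟨c, rfl⟩ := isConj_iff.1 hc
    obtain ⟨w, rfl⟩ := isDefectGroup_conj hM hB hE hD
    refine ⟨w * c, ?_⟩
    have := conj_mem_cj (g := w) hzE
    convert this using 1
    group

end Cfsg.Agent.S0926
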