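import Cfsg.Statements.S0928
import Cfsg.Agent.H8.Cover
import Cfsg.Agent.H7.Quot

set_option autoImplicit false
open Cfsg

open H5 H28 H8 H7 MonoidAlgebra

namespace Cfsg.Agent.S0928

/-- Let χ be an irreducible character of the finite group G and p a prime. If χ g = 0 for every element g of order p, then the exponent of p in the degree χ(1) equals the exponent of p in the order of G (χ has p-defect zero). -/
theorem result {G : Type*} [Group G] [Finite G] (p : ℕ) [Fact p.Prime] (χ : Cfsg.IrrCharacter G) (hvan : ∀ g : G, orderOf g = p → (χ : G → ℂ) g = 0) : (Cfsg.charDegree (χ : G → ℂ)).factorization p = (Nat.card G).factorization p := by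
  classical
  haveI := Fintype.ofFinite G
  have hp : p.Prime := Fact.out
  obtain ⟨M, hM⟩ := exists_isPModular hp
  haveI := charP_kk hM
  have hB := isPBlock_blockOf (M := M) χ
  have hχ := mem_blockOf_self hM χ
  obtain ⟨D, hD⟩ := H8.exists_isDefectGroup hM hB
  rw [← val_one_eq_card_iff hM, ← isDefectGroup_bot_iff hM hB hχ]
  by_cases hD0 : D = ⊥
  · exact hD0 ▸ hD
  exfalso
  have hD' := (H8.isDefectGroup_iff hM hB).1 hD
  obtain ⟨z, hzD, hz⟩ := exists_orderOf_eq_of_isPGroup hD'.isP hD0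
  have hZ : IsPGroup p (Subgroup.zpowers z) := hD'.isP.to_le (Subgroup.zpowers_le.2 hzD)
  have hBr := hD'.Br_ne_zero (Subgroup.zpowers_le.2 hzD)
  have hCN : 𝐂 (Subgroup.zpowers z) ≤ ⊤ ⊓ 𝐍 (Subgroup.zpowers z) :=
    le_inf le_top (Subgroup.centralizer_le_normalizer _)
  have hmem : ∀ a ∈ ZA (kk M) (⊤ : Subgroup G) ⊤, Br (Subgroup.zpowers z) a ∈
      ZA (kk M) (𝐂 (Subgroup.zpowers z)) (𝐂 (Subgroup.zpowers z)) := fun a ha =>
    ZA_mono inf_le_right hCN (Br_mem_ZA _ ha)
  obtain ⟨f, hf, hf'⟩ := exists_prim_le (isCommSub_ZA le_rfl) (hmem _ (eB_mem_ZA _))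
    (Br_idem hZ (eB_mem_Fix _ _) (isPrim_eB hM hB).idem) hBr
  have hconj : ∀ h g : G, h * g * h⁻¹ ∈ {x : G | x ^ p = 1} ↔ g ∈ {x : G | x ^ p = 1} :=
    fun h g => by simp only [Set.mem_ofPred_eq, conj_pow, conj_eq_one_iff]
  have ha : setSum (kk M) {x : G | x ^ p = 1} ∈ ZA (kk M) (⊤ : Subgroup G) ⊤ :=
    mem_Zc_iff.1 (setSum_mem_Zc hconj)
  have h1 := lam_eq_lam_Br le_rfl hZ le_top le_rfl inf_le_right hCN hf (isPrim_eB hM hB) hf' ha
  have h2 : (H8.lam (eB M (Cfsg.blockOf M χ.1)) (setSum (kk M) {x : G | x ^ p = 1}) : kk M) = 1 := by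
    rw [← redG_setSum, lam_eB_redG hM hB hχ (setSum_mem_VG _)
      (mem_Zc_iff_Fix.1 (setSum_mem_Zc hconj)), omega_eq_sum, Finset.sum_eq_single 1,
      coeff_setSum_of_mem (by simp), one_mul, div_self χ.2.apply_one_ne_zero, red_one]
    · intro g _ hg
      rw [coeff_setSum]
      split_ifs with h
      · rw [hvan g (orderOf_eq_prime h hg), mul_zero, zero_div]
      · simp
    · simp
  rw [h2, (hf.isHomOn_lam (isCommSub_ZA le_rfl)).eq_zero_of_nilpotent (hmem _ ha) ⟨2, ?_⟩] at h1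
  · exact one_ne_zero h1
  have hw : ∀ u ∈ Subgroup.zpowers z, ∀ y,
      (Br (Subgroup.zpowers z) (setSum (kk M) {x : G | x ^ p = 1})).coeff (u * y) =
      (Br (Subgroup.zpowers z) (setSum (kk M) {x : G | x ^ p = 1})).coeff y := by
    intro u hu y
    have huC : u ∈ 𝐂 (Subgroup.zpowers z) := le_centralizer_self_iff.2 inferInstance hu
    by_cases hy : y ∈ 𝐂 (Subgroup.zpowers z)
    · rw [coeff_Br_of_mem _ hy, coeff_Br_of_mem _ (mul_mem huC hy), coeff_setSum, coeff_setSum]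
      have hc : Commute u y := mem_centralizer'.1 hy u hu
      have hu' : u ^ p = 1 := by
        rw [← hz, ← orderOf_dvd_iff_pow_eq_one]
        exact orderOf_dvd_of_mem_zpowers hu
      simp only [Set.mem_ofPred_eq, hc.mul_pow, hu', one_mul]
    · rw [coeff_Br_of_not_mem _ hy, coeff_Br_of_not_mem _ fun h => hy ?_]
      exact (Subgroup.mul_mem_cancel_left _ huC).1 h
  refine H8.ga_ext fun g => ?_
  rw [sq, H8.coeff_mul_sum, sum_eq_sum_fixed p_smul_eq_zero hZ (fun u x => u * x) _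
    (fun x _ => one_mul x) (fun a _ b _ x _ => mul_assoc a b x) (fun _ _ _ _ => Finset.mem_univ _),
    Finset.sum_eq_zero]
  · rfl
  · intro x hx
    have := (Finset.mem_filter.1 hx).2 z (Subgroup.mem_zpowers z)
    rw [mul_eq_right] at this
    rw [this, orderOf_one] at hz
    exact absurd hz hp.one_lt.ne
  · intro u hu x _
    rw [hw u hu]
    by_cases hx : x ∈ 𝐂 (Subgroup.zpowers z)
    · rw [mem_centralizer'.1 hx u hu, mul_inv_rev, mul_assoc, hw _ (inv_mem hu)]
    · rw [coeff_Br_of_not_mem _ hx, zero_mul, zero_mul]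

end Cfsg.Agent.S0928
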