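import Cfsg.Statements.S0931
import Cfsg.Agent.H7.Height

set_option autoImplicit false
open Cfsg

open H5 H7 H8 H28

namespace Cfsg.Agent.S0931

/-- Let H be a subgroup of the finite group G and fix a maximal ideal M of the algebraic integers containing the prime p. If the block b of H induces the block B of G, then b has defect 0 if and only if B has defect 0. -/
theorem result {G : Type*} [Group G] [Finite G] (p : ℕ) [Fact p.Prime] (M : Ideal Cfsg.AlgInt) (hM : Cfsg.IsPModular p M) (H : Subgroup G) (b : Set (Cfsg.IrrCharacter H)) (B : Set (Cfsg.IrrCharacter G)) (hind : Cfsg.IsInducedBlock M H b B) : Cfsg.blockDefect p b = 0 ↔ Cfsg.blockDefect p B = 0 := by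
  obtain ⟨D, hD⟩ := exists_isDefectGroup hM hind.1
  obtain ⟨P, hP, hDP⟩ := exists_isDefectGroup_ge_of_induced hM hind hD
  rw [blockDefect_eq_zero_iff hM hind.1 hD, blockDefect_eq_zero_iff hM hind.2.1 hP]
  constructor
  · rintro rfl
    by_contra h
    obtain ⟨x, hx, hx1⟩ := (Subgroup.bot_or_exists_ne_one _).resolve_left
      (center_ne_bot (isPGroup_of_isDefectGroup hP) h)
    obtain ⟨z, h1, h2, -⟩ := exists_conj_mem_center_of_induced hM hind hD hP hx.1 hx.2
    rw [Subgroup.mem_bot] at h2
    subst h2
    exact hx1 (isConj_one_left.1 h1)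
  · rintro rfl
    exact (Subgroup.map_eq_bot_iff_of_injective _ H.subtype_injective).1 (le_bot_iff.1 hDP)

end Cfsg.Agent.S0931
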