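import Cfsg.Statements.S0932
import Cfsg.Agent.H7.Height

set_option autoImplicit false
open Cfsg

open H5 H7 H8 H28

namespace Cfsg.Agent.S0932

/-- Let H be a subgroup of the finite group G and ξ a character of H. For every g ∈ G, the sum of ξ h / ξ 1 over the elements h ∈ H that are conjugate in G to g equals the central character at g of the character of G induced from ξ (class size times value divided by degree). -/
theorem result {G : Type*} [Group G] [Fintype G] (H : Subgroup G) (ξ : H → ℂ) (hξ : Cfsg.IsCharacter H ξ) (g : G) : Cfsg.inducedCentralChar H ξ g = Cfsg.centralChar (Cfsg.indFun H ξ) g := by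
  classical
  have := Fintype.ofFinite H
  have h1 : ((Subgroup.centralizer ({g} : Set G)).index : ℂ) *
      Nat.card (Subgroup.centralizer ({g} : Set G)) = H.index * Nat.card H := by
    norm_cast
    rw [Subgroup.index_mul_card, Subgroup.index_mul_card]
  have h2 : (H.index : ℂ) ≠ 0 := Nat.cast_ne_zero.2 Subgroup.index_ne_zero_of_finite
  have h3 := card_ne_zero_complex H
  rw [centralChar, indFun_apply_eq_sum_isConj, indFun_apply_one, ← mul_assoc, ← mul_div_assoc, h1,
    mul_div_cancel_right₀ _ h3, mul_div_mul_left _ _ h2, inducedCentralChar,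
    finsum_mem_eq_finite_toFinset_sum _ (Set.toFinite _), Finset.sum_div, ← Finset.sum_filter_add_sum_filter_not Finset.univ (fun h : H => IsConj g (h : G))]
  rw [Finset.sum_eq_zero (s := Finset.univ.filter fun h : H => ¬ IsConj g (h : G))
    (fun h hh => by rw [if_neg (Finset.mem_filter.1 hh).2, zero_div]), add_zero]
  refine Finset.sum_congr (by ext; simp) fun h hh => ?_
  rw [if_pos (Finset.mem_filter.1 hh).2]

end Cfsg.Agent.S0932
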