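import Cfsg.Statements.S0934
import Cfsg.Agent.H7.Height

set_option autoImplicit false
open Cfsg

open H5 H7 H8 H28

namespace Cfsg.Agent.S0934

/-- Let H be a subgroup of the finite group G and fix a maximal ideal M of the algebraic integers containing the prime p. If the block b of H induces the block B of G and ξ ∈ b, then there is χ ∈ B whose restriction to H has nonzero inner product with ξ. -/
theorem result {G : Type*} [Group G] [Fintype G] (p : ℕ) [Fact p.Prime] (M : Ideal Cfsg.AlgInt) (hM : Cfsg.IsPModular p M) (H : Subgroup G) [Fintype H] (b : Set (Cfsg.IrrCharacter H)) (B : Set (Cfsg.IrrCharacter G)) (hind : Cfsg.IsInducedBlock M H b B) (ξ : Cfsg.IrrCharacter H) (hξ : ξ ∈ b) : ∃ χ ∈ B, Cfsg.classInner (fun h : H => (χ : G → ℂ) h) (ξ : H → ℂ) ≠ 0 := by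
  classical
  by_contra hc
  push Not at hc
  apply (induced_iff_lam_eB hM ⟨B, hind⟩ hξ hind.2.1).1 hind
  rw [← redG_fB, ← redG_restr, lam_redG ξ (restr_mem_VG H (fB_mem_VG hM hind.2.1))
    (restr_mem_Zc' (fB_mem_Zc B)), omega_apply, ev_eq_sum]
  simp only [coeff_restr, coeff_fB, blockCoeff_eq_sum, Finset.mul_sum, Finset.sum_mul]
  rw [Finset.sum_comm, Finset.sum_eq_zero, zero_div, red_zero]
  intro χ hχ
  have h1 := (classInner_eq_zero_comm _ _).1 (hc χ (Finset.mem_filter.1 hχ).2)
  rw [classInner_def, mul_eq_zero, inv_eq_zero] at h1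
  have h2 := h1.resolve_left (card_ne_zero_complex H)
  calc _ = (Nat.card G : ℂ)⁻¹ * χ.1 1 * ∑ h : H, ξ.1 h * (starRingEnd ℂ) (χ.1 h) := by
        rw [Finset.mul_sum]
        exact Finset.sum_congr rfl fun h _ => by ring
    _ = 0 := by rw [h2, mul_zero]

end Cfsg.Agent.S0934
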