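import Cfsg.Statements.S0940
import Cfsg.Agent.H8.Count
import Cfsg.Agent.H7.Expand

set_option autoImplicit false
open Cfsg

open H5 H28 H8 H7 MonoidAlgebra

namespace Cfsg.Agent.S0940

open Classical in
theorem exists_gen {G : Type*} [Group G] [Finite G] {p : ℕ} (hp : p.Prime) :
    ∃ u : ℕ, ¬ p ∣ u ∧ Cfsg.IsGeneralizedCharacter G fun g => if IsPElt p g then u else 0 := by
  have key : ∀ s : Finset ℕ, (∀ q ∈ s, q.Prime ∧ q ≠ p) → ∃ u : ℕ, ¬ p ∣ u ∧
      Cfsg.IsGeneralizedCharacter G fun g => if ∀ q ∈ s, ¬ q ∣ orderOf g then u else 0 := by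
    intro s
    induction s using Finset.induction_on with
    | empty => exact fun _ => ⟨1, hp.one_lt.ne' ∘ Nat.dvd_one.1,
        by simpa using isGeneralizedCharacter_one⟩
    | insert q s hq ih =>
      intro h
      obtain ⟨u, hu, hg⟩ := ih fun r hr => h r (Finset.mem_insert_of_mem hr)
      obtain ⟨hq1, hq2⟩ := h q (Finset.mem_insert_self _ _)
      refine ⟨q ^ (Nat.card G).factorization q * u, fun hd => (hp.dvd_mul.1 hd).elim
        (fun h => hq2 ((Nat.prime_dvd_prime_iff_eq hp hq1).1 (hp.dvd_of_dvd_pow h)).symm) hu, ?_⟩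
      convert (isGen_regular_indicator (G := G) hq1).mul hg using 1
      funext g
      simp only [Finset.forall_mem_insert, Pi.mul_apply]
      by_cases h1 : q ∣ orderOf g <;> by_cases h2 : ∀ q ∈ s, ¬ q ∣ orderOf g <;> simp [h1, h2]
  obtain ⟨u, hu, hg⟩ := key ((Nat.card G).primeFactors.erase p) fun q hq =>
    ⟨Nat.prime_of_mem_primeFactors (Finset.mem_of_mem_erase hq), Finset.ne_of_mem_erase hq⟩
  refine ⟨u, hu, ?_⟩
  convert hg using 3 with g
  constructor
  · rintro ⟨k, hk⟩ q hq hd
    rw [hk] at hd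
    exact Finset.ne_of_mem_erase hq ((Nat.prime_dvd_prime_iff_eq
      (Nat.prime_of_mem_primeFactors (Finset.mem_of_mem_erase hq)) hp).1
        ((Nat.prime_of_mem_primeFactors (Finset.mem_of_mem_erase hq)).dvd_of_dvd_pow hd))
  · intro h
    refine ⟨_, Nat.eq_prime_pow_of_unique_prime_dvd (orderOf_pos g).ne' fun {q} hq hd => ?_⟩
    by_contra hne
    exact h q (Finset.mem_erase.2 ⟨hne, Nat.mem_primeFactors.2
      ⟨hq, hd.trans (orderOf_dvd_natCard g), Nat.card_pos.ne'⟩⟩) hd

/-- Let G be a finite group and M a maximal ideal of the algebraic integers containing the prime p. For every p-regular g, the idempotent coefficient of the principal block at g (the inverse of the group order times the sum over χ in the principal block of χ 1 * conj (χ g)) is congruent modulo the local ideal at M to N / R, where N is the number of pairs (x, y) with x of p-power order, y of order prime to p and x * y = g, and R is the number of elements of G of order prime to p. -/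
theorem result {G : Type*} [Group G] [Finite G] (p : ℕ) [Fact p.Prime] (M : Ideal Cfsg.AlgInt) (hM : Cfsg.IsPModular p M) (g : G) (hg : ¬ p ∣ orderOf g) : Cfsg.MemLocalIdeal M (Cfsg.blockCoeff (Cfsg.principalBlock M G) g - (Nat.card {xy : G × G // (∃ k : ℕ, orderOf xy.1 = p ^ k) ∧ ¬ p ∣ orderOf xy.2 ∧ xy.1 * xy.2 = g} : ℂ) / (Nat.card {y : G // ¬ p ∣ orderOf y} : ℂ)) := by
  classical
  haveI := Fintype.ofFinite G
  obtain ⟨u, hu, hΨ⟩ := exists_gen (G := G) hM.1
  have hB := isPBlock_principalBlock (M := M) (G := G)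
  have h1 := irrOne_mem_principalBlock (G := G) hM
  have key := red_ev_mul_single hM hΨ (zreg_irr_mem_VG (p := p) (irrOne G))
    (zreg_irr_mem_Zc (irrOne G)) g⁻¹
  have hR : omega (irrOne G).1 (zreg p (irrOne G).1) = Nat.card {y : G // ¬ p ∣ orderOf y} := by
    rw [omega_apply, ev_zreg, Nat.card_eq_fintype_card, Fintype.card_subtype]
    simp [irrOne]
  have hR0 := (red_omega_zreg_ne_zero_iff hM hB h1).2 ⟨h1, blockHeight_irrOne _⟩
  rw [hR] at hR0
  rw [Finset.sum_eq_single_of_mem _ (mem_blocks.2 hB), lB_eq hM hB h1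
    (redG_mem_Zc (zreg_irr_mem_Zc _)), lam_redG _ (zreg_irr_mem_VG _) (zreg_irr_mem_Zc _), hR,
    blockPart_congr_of_secClosed hM hB secClosed_regular hΨ.isClassFunction
      (ψ := ((u : ℂ) / Nat.card G) • regChar G)
      (fun x y => by simp only [Pi.smul_apply, isCharacter_regChar.isClassFunction x y])
      (fun x hx => ?_) (g := g⁻¹) (by simpa using hg)] at key
  · have h2 : Cfsg.blockPart (Cfsg.principalBlock M G) (((u : ℂ) / Nat.card G) • regChar G) g⁻¹ =
        u * Cfsg.blockCoeff (Cfsg.principalBlock M G) g := by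
      have := blockPart_regChar (Cfsg.principalBlock M G) g⁻¹
      rw [blockPart_eq_sum] at this ⊢
      simp only [classInner_smul_left, mul_assoc]
      rw [← Finset.mul_sum, this, inv_inv]
      have := card_ne_zero_complex G
      field_simp
    have h3 : ev (fun g => if IsPElt p g then (u : ℂ) else 0)
        (zreg p (irrOne G).1 * single g⁻¹ 1) = u * Nat.card {xy : G × G //
          (∃ k : ℕ, orderOf xy.1 = p ^ k) ∧ ¬ p ∣ orderOf xy.2 ∧ xy.1 * xy.2 = g} := by
      have : Nat.card {xy : G × G //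
          (∃ k : ℕ, orderOf xy.1 = p ^ k) ∧ ¬ p ∣ orderOf xy.2 ∧ xy.1 * xy.2 = g} =
          Nat.card {y : G // ¬ p ∣ orderOf y ∧ IsPElt p (y * g⁻¹)} :=
        Nat.card_congr ⟨fun xy => ⟨xy.1.2, xy.2.2.1, by
            obtain ⟨⟨x, y⟩, h1, h2, rfl⟩ := xy
            rw [mul_inv_rev, mul_inv_cancel_left]; exact IsPElt.inv h1⟩,
          fun y => ⟨(g * y.1⁻¹, y.1), by
            have := y.2.2.inv
            rwa [mul_inv_rev, inv_inv] at this, y.2.1, by simp⟩,
          fun xy => Subtype.ext (Prod.ext (mul_inv_eq_iff_eq_mul.2 xy.2.2.2.symm) rfl),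
          fun _ => rfl⟩
      rw [this, ev_mul_single, Nat.card_eq_fintype_card, Fintype.card_subtype, Finset.card_filter,
        Nat.cast_sum, Finset.mul_sum]
      refine Finset.sum_congr rfl fun y _ => ?_
      rw [coeff_zreg]
      by_cases h1 : p ∣ orderOf y <;> by_cases h2 : IsPElt p (y * g⁻¹) <;> simp [h1, h2, irrOne]
    have hu' : red M (u : ℂ) ≠ 0 := by rwa [red_natCast, Ne, natCast_kk_eq_zero_iff hM]
    rw [h2, h3, red_mul (natCast_mem _ _) (natCast_mem _ _),
      red_mul (natCast_mem _ _) (blockCoeff_mem_V hM hB g), mul_left_comm,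
      mul_right_inj' hu'] at key
    have hv := red_ne_zero_iff.1 hR0
    rw [memLocalIdeal_sub_iff_red hM (isAlgebraic_blockCoeff _ _)
      (isAlgebraic_div (isAlgebraic_natCast _) (isAlgebraic_natCast _)) (blockCoeff_mem_V hM hB g)
      (by rw [div_eq_mul_inv]; exact mul_mem (natCast_mem _ _) (inv_mem_V_of_val_eq_one hv)),
      red_div (natCast_mem _ _) hv, key, mul_div_cancel_left₀ _ hR0]
  · by_cases hx1 : x = 1
    · subst hx1
      have := card_ne_zero_complex G
      simp only [isPElt_one, if_true, Pi.smul_apply, regChar_one, smul_eq_mul]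
      field_simp
    · rw [if_neg fun h => hx1 (h.eq_one_of_not_dvd hx), Pi.smul_apply, regChar_of_ne_one hx1,
        smul_zero]
  · intro B hB' hne
    rw [mem_blocks] at hB'
    obtain ⟨χ, hχ⟩ := isPBlock_nonempty hM hB'
    rw [lB_eq hM hB' hχ (redG_mem_Zc (zreg_irr_mem_Zc _)),
      lam_redG _ (zreg_irr_mem_VG _) (zreg_irr_mem_Zc _),
      omega_zreg_of_notMem hM hB h1 fun h => hne (block_eq_of_mem hM hB' hB hχ h), red_zero,
      zero_mul]

end Cfsg.Agent.S0940
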