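import Cfsg.Statements.S0944
import Cfsg.Agent.H7.Quot

set_option autoImplicit false
open Cfsg

open H5 H7 H8 H28

namespace Cfsg.Agent.S0944

/-- Let χ be an irreducible character of the finite group G and u an involution. Then χ u is a rational integer n with n ≡ χ 1 (mod 2). -/
theorem result {G : Type*} [Group G] [Finite G] (χ : Cfsg.IrrCharacter G) (u : G) (hu : orderOf u = 2) : ∃ n : ℤ, (χ : G → ℂ) u = (n : ℂ) ∧ (2 : ℤ) ∣ (Cfsg.charDegree (χ : G → ℂ) : ℤ) - n := by
  obtain ⟨M, hM⟩ := exists_isPModular Nat.prime_two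
  obtain ⟨n, hn⟩ := χ.2.isGeneralizedCharacter.exists_int_of_sq_eq_one (g := u)
    (hu ▸ pow_orderOf_eq_one u)
  refine ⟨n, hn, ?_⟩
  have h := red_char_of_isPElt hM χ.2.isCharacter (x := u) ⟨1, by simpa using hu⟩
  rw [eq_comm, red_eq_iff (irr_apply_mem_V _ _) (irr_apply_mem_V _ _), hn, irr_apply_one] at h
  have := (val_intCast_lt_one_iff hM ((charDegree χ.1 : ℤ) - n)).1 (by simpa using h)
  simpa using this

end Cfsg.Agent.S0944
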