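import Cfsg.Statements.S0950
import Cfsg.Agent.H7.BS8

set_option autoImplicit false
open Cfsg

open H5 H7 H8 H28

namespace Cfsg.Agent.S0950

/-- Let S be a Sylow 2-subgroup of the finite group G that is isomorphic to the quaternion group of order 8, and suppose S has no normal complement in G. Then any two subgroups of order 4 of S are conjugate by an element of the normalizer of S. -/
theorem result {G : Type*} [Group G] [Finite G] (S : Sylow 2 G) (e : (S : Subgroup G) ≃* QuaternionGroup 2) (hnc : ∀ N : Subgroup G, N.Normal → ¬ Subgroup.IsComplement' N (S : Subgroup G)) (A B : Subgroup G) (hA : A ≤ S) (hB : B ≤ S) (hA4 : Nat.card A = 4) (hB4 : Nat.card B = 4) : ∃ n ∈ Subgroup.normalizer ((S : Subgroup G) : Set G), B = A.map (MulAut.conj n).toMonoidHom := by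
  obtain ⟨g, hg, ho, hC⟩ := q8_exists_odd S e fun h =>
    let ⟨N, h1, h2⟩ := (H3.hasNPC_iff_exists S).1 h
    hnc N h1 h2
  have key : ∀ A : Subgroup G, A ≤ S → Nat.card A = 4 → ∃ c ∈ (S : Subgroup G), c ^ 2 ≠ 1 ∧
      A = Subgroup.zpowers c := by
    intro A hA hA4
    by_cases h2 : ∀ c ∈ A, c ^ 2 = 1
    · obtain ⟨a, ha, b, hb, ha1, hb1, hab⟩ := H10.kf_exists (H4.isKleinFour_subgroup_iff.2 ⟨hA4, h2⟩)
      exact absurd (q8_eq_of_invol S e (hA ha) (hA hb) (orderOf_eq_prime (h2 a ha) ha1)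
        (orderOf_eq_prime (h2 b hb) hb1)) hab
    push Not at h2
    obtain ⟨c, hc, hc2⟩ := h2
    exact ⟨c, hA hc, hc2, (eq_of_le_of_card_le (Subgroup.zpowers_le.2 hc)
      (by rw [hA4, Nat.card_zpowers, H10.q8_orderOf e (hA hc) hc2])).symm⟩
  obtain ⟨a, ha, ha2, rfl⟩ := key A hA hA4
  obtain ⟨b, hb, hb2, rfl⟩ := key B hB hB4
  obtain ⟨n, hn, rfl⟩ := q8_trans e hg ho hC ha hb ha2 hb2
  exact ⟨n, hn, (cj_zpowers n a).symm⟩

end Cfsg.Agent.S0950
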