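import Cfsg.Statements.S0957
import Cfsg.Agent.H8.Count

set_option autoImplicit false
open Cfsg

open H28 H8 H7

namespace Cfsg.Agent.S0957

/-- Let P be a Sylow p-subgroup of the finite group G, let g, h ∈ G and let p ^ d be the order of a Sylow p-subgroup of the centralizer of g. Then the number of pairs (y, z) with y conjugate to g, z conjugate to h and z * y⁻¹ ∈ P is divisible by the order of P divided by p ^ d. -/
theorem result {G : Type*} [Group G] [Finite G] (p : ℕ) [Fact p.Prime] (P : Sylow p G) (g h : G) (S : Sylow p (Subgroup.centralizer ({g} : Set G))) : Nat.card P / Nat.card S ∣ Nat.card {yz : G × G // IsConj g yz.1 ∧ IsConj h yz.2 ∧ yz.2 * yz.1⁻¹ ∈ (P : Subgroup G)} := by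
  classical
  obtain ⟨M, hM⟩ := exists_isPModular (Fact.out : p.Prime)
  obtain ⟨u, hu⟩ := exists_isPPart (p := p) g
  have h1 := (robN_spec hM P hu h).1
  change _ ∣ robN (P : Subgroup G) g h
  rw [mem_V_iff, map_div₀, div_le_one₀ (val_index_pos _),
    val_natCast hM (Subgroup.FiniteIndex.index_ne_zero), val_natCast_le_iff hM] at h1
  rw [P.card_eq_multiplicity, S.card_eq_multiplicity,
    ← factorization_index_add (Subgroup.centralizer ({g} : Set G)), pow_add,
    Nat.mul_div_cancel _ (pow_pos (Fact.out : p.Prime).pos _)]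
  exact h1

end Cfsg.Agent.S0957
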