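import Cfsg.Statements.S0967
import Cfsg.Agent.H8.Clif

set_option autoImplicit false
open Cfsg

namespace Cfsg.Agent.S0967

open H8 H28 H5 MonoidAlgebra
open H7 (eB fB VG redG ev fB_mem_VG isPBlock_principalBlock isPBlock_nonempty)

/-- Let N be a normal subgroup of the finite group G of order prime to p and fix a maximal ideal M of the algebraic integers containing p. If χ is an irreducible character of G ⧸ N and ψ lies in the block of its inflation χ ∘ (quotient map), then ψ is itself inflated from an irreducible character ψ' of G ⧸ N lying in the block of χ. (Over a normal p'-subgroup, blocks of the quotient are whole blocks of G.) -/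
theorem result {G : Type*} [Group G] [Finite G] (p : ℕ) [Fact p.Prime] (M : Ideal Cfsg.AlgInt) (hM : Cfsg.IsPModular p M) (N : Subgroup G) [N.Normal] (hN : ¬ p ∣ Nat.card N) (χ : Cfsg.IrrCharacter (G ⧸ N)) (ψ : Cfsg.IrrCharacter G) (hψ : ψ ∈ Cfsg.blockOf M ((χ : G ⧸ N → ℂ) ∘ QuotientGroup.mk)) : ∃ ψ' : Cfsg.IrrCharacter (G ⧸ N), (ψ : G → ℂ) = (ψ' : G ⧸ N → ℂ) ∘ QuotientGroup.mk ∧ Cfsg.SameBlock M (χ : G ⧸ N → ℂ) (ψ' : G ⧸ N → ℂ) := by
  have h1 : SameBlock M (H7.infl _ (QuotientGroup.mk'_surjective N) χ).1 ψ.1 := hψ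
  obtain ⟨ψ', rfl⟩ := H7.exists_infl_eq (hf := QuotientGroup.mk'_surjective N) (χ := ψ) (by
    rw [QuotientGroup.ker_mk']
    refine H7.le_charKer_of_sameBlock hM hN h1 ?_
    simpa using H7.ker_le_charKer_infl (hf := QuotientGroup.mk'_surjective N) χ)
  exact ⟨ψ', rfl, (H7.sameBlock_infl_iff_of_not_dvd hM (by rwa [QuotientGroup.ker_mk'])).1 h1⟩

end Cfsg.Agent.S0967
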