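import Cfsg.Statements.S0969
import Cfsg.Agent.H8.Ht

set_option autoImplicit false
open Cfsg

namespace Cfsg.Agent.S0969

open H8 H28 H5 MonoidAlgebra
open H7 (eB fB VG redG ev fB_mem_VG isPBlock_principalBlock isPBlock_nonempty)

/-- Let D be a central p-subgroup of the finite group G and χ an irreducible character with the exponent of p in χ(1) equal to the exponent of p in the index of D; fix a maximal ideal M of the algebraic integers containing p. Then D is a defect group of the block of χ, and χ g = 0 whenever the p-part of g does not lie in D. -/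
theorem result {G : Type*} [Group G] [Finite G] (p : ℕ) [Fact p.Prime] (M : Ideal Cfsg.AlgInt) (hM : Cfsg.IsPModular p M) (D : Subgroup G) (hD : IsPGroup p D) (hDZ : D ≤ Subgroup.center G) (χ : Cfsg.IrrCharacter G) (hdeg : (Cfsg.charDegree (χ : G → ℂ)).factorization p = D.index.factorization p) : Cfsg.IsDefectGroup p M (Cfsg.blockOf M (χ : G → ℂ)) D ∧ ∀ g x : G, Cfsg.IsPPart p g x → x ∉ D → (χ : G → ℂ) g = 0 := by
  classical
  have := Fintype.ofFinite G
  have := Fintype.ofFinite D
  haveI : D.Normal := H6.normal_of_le_center hDZ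
  have hB := H7.isPBlock_blockOf (M := M) χ
  have hχ := H7.mem_blockOf_self hM χ
  obtain ⟨P, hP⟩ := H8.exists_isDefectGroup hM hB
  have h1 := H7.normal_le_of_isDefectGroup hM hB hP hD
  obtain ⟨d, hd⟩ := hD.exists_card_eq
  have h2 := H21.factorization_degree (p := p) hχ
  have h3 := H7.factorization_index_add (p := p) D
  rw [hd, hM.1.factorization_pow, Finsupp.single_eq_same] at h3
  have hc : ∀ s : G, ¬ p ∣ orderOf s → s ∈ 𝐂 D := fun s _ =>
    mem_centralizer'.2 fun u hu => (Subgroup.mem_center_iff.1 (hDZ hu) s).symm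
  have h4 : (Nat.card D : ℝ) * ∑ s with ¬ p ∣ orderOf s, ‖χ.1 s‖ ^ 2 ≤ Nat.card G := by
    rw [← χ.2.sum_norm_sq]
    refine le_trans (le_of_eq ?_) (Finset.sum_le_sum_of_subset_of_nonneg
      (Finset.filter_subset (fun g => ∃ x ∈ D, IsPPart p g x) _) fun _ _ _ => by positivity)
    rw [sum_filter_ppart_mem hD hc, Nat.card_eq_fintype_card, ← nsmul_eq_mul, ← Finset.card_univ,
      ← Finset.sum_const]
    refine Finset.sum_congr rfl fun u _ => Finset.sum_congr rfl fun s _ => ?_
    have := H7.irr_central_mul_conj χ (hDZ u.2) s s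
    rw [Complex.mul_conj', Complex.mul_conj'] at this
    exact_mod_cast this.symm
  have h5 : (H21.ctr p (blockOf M χ.1) χ χ : ℝ) ≤ (p : ℝ) ^ blockHeight p (blockOf M χ.1) χ.1 := by
    have h6 := H21.ctr_cast hM hχ χ
    rw [← H21.inner_rp_rp, classInner_self_eq_norm_sq, show blockDefect p (blockOf M χ.1) =
      blockHeight p (blockOf M χ.1) χ.1 + d by omega] at h6
    have h7 : ∑ g : G, ‖pRegularPart p χ.1 g‖ ^ 2 = ∑ s with ¬ p ∣ orderOf s, ‖χ.1 s‖ ^ 2 := by
      rw [Finset.sum_filter]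
      refine Finset.sum_congr rfl fun g _ => ?_
      rw [H21.rp_apply]
      split_ifs <;> simp
    rw [h7] at h6
    have h8 : (H21.ctr p (blockOf M χ.1) χ χ : ℝ) = (p : ℝ) ^ (blockHeight p (blockOf M χ.1) χ.1 + d)
        * ((Nat.card G : ℝ)⁻¹ * ∑ s with ¬ p ∣ orderOf s, ‖χ.1 s‖ ^ 2) := by exact_mod_cast h6
    rw [h8, pow_add, mul_assoc]
    refine mul_le_of_le_one_right (by positivity) ?_
    rw [mul_left_comm, inv_mul_le_iff₀ (card_pos_real G), mul_one]
    rw [hd] at h4
    exact_mod_cast h4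
  have h0 : blockHeight p (blockOf M χ.1) χ.1 = 0 := by
    by_contra h0
    have h6 := Int.le_of_dvd (H21.ctr_self_nonneg_le hM hB hχ).1
      ((H21.pow_succ_dvd_ctr_iff hM hB hχ hχ).2 h0)
    have h7 : H21.ctr p (blockOf M χ.1) χ χ ≤ (p : ℤ) ^ blockHeight p (blockOf M χ.1) χ.1 := by
      exact_mod_cast h5
    exact absurd (h6.trans h7) (not_le.2 (pow_lt_pow_right₀ (by exact_mod_cast hM.1.one_lt)
      (Nat.lt_succ_self _)))
  obtain rfl : D = P := eq_of_le_of_card_le h1 (by
    rw [H7.card_isDefectGroup hM hB hP, hd, show blockDefect p (blockOf M χ.1) = d by omega])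
  exact ⟨hP, fun g x h5 h6 => by_contra fun h7 =>
    h6 (H7.mem_of_apply_ne_zero_of_normal hM hB hP hχ h5 h7)⟩

end Cfsg.Agent.S0969
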