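import Cfsg.Statements.S0970
import Cfsg.Agent.H8.Ht

set_option autoImplicit false
open Cfsg

namespace Cfsg.Agent.S0970

open H8 H28 H5 MonoidAlgebra
open H7 (eB fB VG redG ev fB_mem_VG isPBlock_principalBlock isPBlock_nonempty)

/-- Let N be a normal subgroup of the finite group G and fix a maximal ideal M of the algebraic integers containing the prime p. Let b be a block of N that is invariant under conjugation by G, and B a block of G covering b (some χ ∈ B has a constituent in b) whose defect is at least that of every block covering b. If P is a defect group of B, then p does not divide the index of P ⊔ N, the subgroup P ∩ N of N is a defect group of b, and the defect of B equals the defect of b plus the exponent of p in the index of N. -/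
theorem result {G : Type*} [Group G] [Fintype G] (p : ℕ) [Fact p.Prime] (M : Ideal Cfsg.AlgInt) (hM : Cfsg.IsPModular p M) (N : Subgroup G) [hN : N.Normal] [Fintype N] (b : Set (Cfsg.IrrCharacter N)) (hb : Cfsg.IsPBlock M b) (hinv : ∀ g : G, ∀ θ ∈ b, ∀ θ' : Cfsg.IrrCharacter N, (∀ n : N, (θ' : N → ℂ) n = (θ : N → ℂ) ⟨g * n * g⁻¹, hN.conj_mem n n.2 g⟩) → θ' ∈ b) (B : Set (Cfsg.IrrCharacter G)) (hB : Cfsg.IsPBlock M B) (hcov : ∃ χ ∈ B, ∃ θ ∈ b, Cfsg.classInner (fun n : N => (χ : G → ℂ) n) (θ : N → ℂ) ≠ 0) (hmax : ∀ B' : Set (Cfsg.IrrCharacter G), Cfsg.IsPBlock M B' → (∃ χ ∈ B', ∃ θ ∈ b, Cfsg.classInner (fun n : N => (χ : G → ℂ) n) (θ : N → ℂ) ≠ 0) → Cfsg.blockDefect p B' ≤ Cfsg.blockDefect p B) (P : Subgroup G) (hP : Cfsg.IsDefectGroup p M B P) : ¬ p ∣ (P ⊔ N).index ∧ Cfsg.IsDefectGroup p M b ((P ⊓ N).subgroupOf N) ∧ Cfsg.blockDefect p B = Cfsg.blockDefect p b + N.index.factorization p := by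
  haveI := charP_kk hM
  have h1 : eb M N b ∈ Fix (kk M) ⊤ := mem_Fix.2 fun g _ => (stab_normal_iff_eb hM hb).1 (hinv g)
  have h2 := isPrim_eb hM hb
  obtain ⟨D, hD⟩ := exists_isDef p le_top (top_le_norm N) (h2.of_fix le_top h1)
  obtain ⟨f, h3, h4, h5⟩ := exists_cover_Br hD.isP le_top (Fix_anti le_top h1) hD.ne
  obtain ⟨B', hB', rfl⟩ := exists_block_of_isPrim hM h3
  obtain ⟨D', hD'⟩ := H8.exists_isDefectGroup hM hB'
  have h6 := ((isDefectGroup_iff hM hB').1 hD').card_le le_top hD.isP h5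
  have h7 := hmax B' hB' ((cover_sub_iff hM hB' hb).2 h4)
  have h8 := mul_eq_of_cover_stable le_top (isPrim_eB hM hB) h2 h1 ((cover_sub_iff hM hB hb).1 hcov)
  have h9 := (isDefectGroup_iff hM hB).1 hP
  have h10 : IsDef p ⊤ (eb M N b) P := hD.of_card_le h1 le_top h9.isP
    (Br_ne_zero_of_mul_eq h9.isP (Fix_anti le_top h1) (eB_mem_Fix B P)
      (by rw [(commute_of_Supp_Fix (mem_Supp_top _) (eB_mem_Fix B ⊤)).eq, h8]) h9.ne)
    (h6.trans (by
      rw [H7.card_isDefectGroup hM hB' hD', H7.card_isDefectGroup hM hB hP]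
      exact Nat.pow_le_pow_right hM.1.pos h7))
  obtain ⟨h11, h12⟩ := h10.stable le_top (top_le_norm N) h2 h1
  rw [Subgroup.relIndex_top_right] at h12
  have h13 := (isDefectGroup_subgroupOf_iff' hM hb inf_le_right).2 h11
  refine ⟨by rwa [sup_comm], h13, ?_⟩
  rw [← factorization_card_defect hM hB hP, ← factorization_card_defect hM hb h13,
    card_subgroupOf_of_le inf_le_right, factorization_card_eq (inf_le_left : P ⊓ N ≤ P),
    factorization_index_eq (le_sup_left : N ≤ N ⊔ P), relIndex_sup_eq (le_top.trans (top_le_norm N)),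
    Nat.factorization_eq_zero_of_not_dvd h12, add_zero, add_comm]

end Cfsg.Agent.S0970
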