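import Cfsg.Statements.S0971
import Cfsg.Agent.H8.Clif

set_option autoImplicit false
open Cfsg

namespace Cfsg.Agent.S0971

open H8 H28 H5 MonoidAlgebra
open H7 (eB fB VG redG ev fB_mem_VG isPBlock_principalBlock isPBlock_nonempty)

/-- Let Q be a normal p-subgroup of the finite group G, let N = Q ⊔ C_G(Q) (a normal subgroup) and let b be a block of N relative to a maximal ideal M of the algebraic integers containing p. Then b induces some block of G, and every block B of G containing a character whose restriction to N has a constituent in b is induced by b. -/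
theorem result {G : Type*} [Group G] [Fintype G] (p : ℕ) [Fact p.Prime] (M : Ideal Cfsg.AlgInt) (hM : Cfsg.IsPModular p M) (Q : Subgroup G) [Q.Normal] (hQ : IsPGroup p Q) [Fintype ↥(Q ⊔ Subgroup.centralizer (Q : Set G))] (b : Set (Cfsg.IrrCharacter ↥(Q ⊔ Subgroup.centralizer (Q : Set G)))) (hb : Cfsg.IsPBlock M b) : Cfsg.InducedBlockDefined M (Q ⊔ Subgroup.centralizer (Q : Set G)) b ∧ ∀ B : Set (Cfsg.IrrCharacter G), Cfsg.IsPBlock M B → (∃ χ ∈ B, ∃ θ ∈ b, Cfsg.classInner (fun n : ↥(Q ⊔ Subgroup.centralizer (Q : Set G)) => (χ : G → ℂ) n) (θ : ↥(Q ⊔ Subgroup.centralizer (Q : Set G)) → ℂ) ≠ 0) → Cfsg.IsInducedBlock M (Q ⊔ Subgroup.centralizer (Q : Set G)) b B := by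
  haveI := charP_kk hM
  have h1 : Q ⊔ 𝐂 Q ≤ 𝐍 Q := le_top.trans (top_le_norm Q)
  refine ⟨H7.inducedBlockDefined_of_le hM hQ le_sup_left le_sup_right h1 hb, fun B hB h => ?_⟩
  rw [isInducedBlock_iff_ind' hM hb hB, ind_norm_iff hQ le_sup_left
    (inf_le_right.trans le_sup_right) le_top h1 (isPrim_eb hM hb) (isPrim_eB hM hB),
    Br_eq_self_of_normal le_rfl hQ le_top (top_le_norm Q) (eB_mem_ZA B)
      (eB_idem (fB_mem_VG hM hB))]
  refine (isPrim_eb hM hb).mul_eq_self_of_ne_zero ⟨Supp_mono le_sup_right ?_, eB_mem_Fix B _⟩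
    (eB_idem (fB_mem_VG hM hB)) ((cover_sub_iff hM hB hb).1 h)
  exact mem_Supp_centralizer_of_normal le_rfl hQ le_top (top_le_norm Q) (eB_mem_ZA B)
    (eB_idem (fB_mem_VG hM hB))

end Cfsg.Agent.S0971
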