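import Cfsg.Statements.S0972
import Cfsg.Agent.H8.Ht

set_option autoImplicit false
open Cfsg

namespace Cfsg.Agent.S0972

open H8 H28 H5 MonoidAlgebra
open H7 (eB fB VG redG ev fB_mem_VG isPBlock_principalBlock isPBlock_nonempty)

/-- Let B be a block of the finite group G (relative to a maximal ideal M of the algebraic integers containing the prime p) with a defect group P that is normal in G. Then P is commutative if and only if every member of B has height zero. -/
theorem result {G : Type*} [Group G] [Finite G] (p : ℕ) [Fact p.Prime] (M : Ideal Cfsg.AlgInt) (hM : Cfsg.IsPModular p M) (B : Set (Cfsg.IrrCharacter G)) (hB : Cfsg.IsPBlock M B) (P : Subgroup G) [P.Normal] (hP : Cfsg.IsDefectGroup p M B P) : (∀ a ∈ P, ∀ c ∈ P, a * c = c * a) ↔ ∀ χ ∈ B, Cfsg.blockHeight p B (χ : G → ℂ) = 0 := by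
  haveI := charP_kk hM
  refine ⟨fun h χ hχ => ?_, fun h => ?_⟩
  · have h1 := (Nat.factorization_le_iff_dvd (H7.charDegree_ne_zero χ)
      Subgroup.index_ne_zero_of_finite).2 (H6.ito χ.2 h (H7.irr_apply_one χ)) p
    have h2 := H8.factorization_degree hM hB hP hχ
    omega
  have hPp := H8.isPGroup_of_isDefectGroup hP
  obtain ⟨b, hb, hbP⟩ := exists_induced_isDef hM hB hP (K := P ⊔ 𝐂 P) le_sup_left le_sup_right
  have m := maxP_of_induced_sup_cent hM hP hb
  haveI : (P ⊔ 𝐂 P).Normal := normal_iff_top_le.2 ((top_le_norm P).trans (norm_le_norm_sup_cent P))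
  have := Fintype.ofFinite (P ⊔ 𝐂 P : Subgroup G)
  have := Fintype.ofFinite (P.subgroupOf (P ⊔ 𝐂 P))
  have h1 : eB M B * eb M _ b ≠ 0 := by
    have := m.br
    rw [Br_eq_self_of_normal le_rfl hPp le_top (top_le_norm P) (eB_mem_ZA B) m.prim.idem] at this
    exact this.trans_ne m.bp.prim.ne
  have hG : P.subgroupOf (P ⊔ 𝐂 P) ⊔ 𝐂 (P.subgroupOf (P ⊔ 𝐂 P)) = ⊤ := by
    refine eq_top_iff.2 fun x _ => ?_
    obtain ⟨u, hu, c, hc, e⟩ := (mem_sup_of_le_normalizer
      (le_normalizer_centralizer Subgroup.le_normalizer)).1 x.2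
    rw [show x = ⟨u, Subgroup.mem_sup_left hu⟩ * ⟨c, Subgroup.mem_sup_right hc⟩ from
      Subtype.ext e.symm]
    exact Subgroup.mul_mem_sup hu
      (mem_centralizer'.2 fun y hy => Subtype.ext (mem_centralizer'.1 hc y hy))
  have hP' := H8.isPGroup_of_isDefectGroup hbP
  have key : ∀ ζ : IrrCharacter (P.subgroupOf (P ⊔ 𝐂 P)), ζ.1 1 = 1 := fun ζ => by
    obtain ⟨η, h2, h3⟩ := exists_over_of_normal_pgroup hM hP' hb.1 ζ
    obtain ⟨χ, h4, h5⟩ := exists_above_of_cover hM hB hb.1 h1 h2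
    have e1 := factorization_degree_ge (p := p) h5
    have e2 := pc_degree hM hG hb.1 hbP h2 h3
    have e3 := H8.factorization_degree hM hB hP h4
    have e4 := factorization_index_eq (p := p) (H6.le_inertia η.2.isClassFunction)
    have e5 := factorization_index_eq (p := p) (le_sup_left : P ≤ P ⊔ 𝐂 P)
    have e6 : ((P ⊔ 𝐂 P).relIndex (H6.inertia η.1)).factorization p = 0 :=
      Nat.factorization_eq_zero_of_not_dvd fun h6 => m.not_dvd_relIndex (h6.trans
        (Dvd.intro _ (Subgroup.relIndex_mul_relIndex _ _ _ (H6.le_inertia η.2.isClassFunction)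
          (le_inf (le_inf le_top (le_top.trans (top_le_norm P))) (inertia_le_stab hM hb.1 h2)))))
    have e7 := h χ h4
    obtain ⟨n, hn⟩ := hP'.exists_card_eq
    obtain ⟨i, -, hi⟩ := (Nat.dvd_prime_pow hM.1).1 (hn ▸ ζ.2.dvd_card (H7.irr_apply_one ζ))
    rw [hi, hM.1.factorization_pow, Finsupp.single_eq_same] at e2
    rw [H7.irr_apply_one, hi, show i = 0 by unfold Subgroup.relIndex at e5; omega]
    simp
  have h2 : commutator (P.subgroupOf (P ⊔ 𝐂 P)) ≤ ⊥ := fun x hx =>
    eq_one_of_forall_irr fun ζ hζ =>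
      apply_eq_of_mem_charKer (hζ.apply_one_eq_one_iff.1 (key ⟨ζ, hζ⟩) hx)
  intro a ha c hc
  exact congrArg (fun x => (x.1.1 : G)) (H6.comm_of_commutator_le_bot h2
    ⟨⟨a, Subgroup.mem_sup_left ha⟩, ha⟩ ⟨⟨c, Subgroup.mem_sup_left hc⟩, hc⟩)

end Cfsg.Agent.S0972
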