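import Cfsg.Statements.S0973
import Cfsg.Agent.H8.Ht

set_option autoImplicit false
open Cfsg

namespace Cfsg.Agent.S0973

open H8 H28 H5 MonoidAlgebra
open H7 (eB fB VG redG ev fB_mem_VG isPBlock_principalBlock isPBlock_nonempty)

/-- Let B be a block of the finite group G with defect group P (relative to a maximal ideal M of the algebraic integers containing p), and let L = P ⊔ C_G(P). Then (i) some block b of L with defect group P (viewed in L) induces B, and (ii) if b and b' are blocks of L both inducing B, there is n ∈ N_G(P) carrying b to b': for every θ ∈ b there is θ' ∈ b' with θ' x = θ (n x n⁻¹) for all x ∈ L. -/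
theorem result {G : Type*} [Group G] [Finite G] (p : ℕ) [Fact p.Prime] (M : Ideal Cfsg.AlgInt) (hM : Cfsg.IsPModular p M) (B : Set (Cfsg.IrrCharacter G)) (hB : Cfsg.IsPBlock M B) (P : Subgroup G) (hP : Cfsg.IsDefectGroup p M B P) : (∃ b : Set (Cfsg.IrrCharacter ↥(P ⊔ Subgroup.centralizer (P : Set G))), Cfsg.IsDefectGroup p M b (P.subgroupOf (P ⊔ Subgroup.centralizer (P : Set G))) ∧ Cfsg.IsInducedBlock M (P ⊔ Subgroup.centralizer (P : Set G)) b B) ∧ ∀ b b' : Set (Cfsg.IrrCharacter ↥(P ⊔ Subgroup.centralizer (P : Set G))), Cfsg.IsInducedBlock M (P ⊔ Subgroup.centralizer (P : Set G)) b B → Cfsg.IsInducedBlock M (P ⊔ Subgroup.centralizer (P : Set G)) b' B → ∃ n ∈ Subgroup.normalizer (P : Set G), ∀ θ ∈ b, ∃ θ' ∈ b', ∀ x : ↥(P ⊔ Subgroup.centralizer (P : Set G)), ∀ hx : n * (x : G) * n⁻¹ ∈ P ⊔ Subgroup.centralizer (P : Set G), (θ' : ↥(P ⊔ Subgroup.centralizer (P : Set G)) → ℂ) x = (θ : ↥(P ⊔ Subgroup.centralizer (P : Set G)) → ℂ) ⟨n * (x : G)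 * n⁻¹, hx⟩ := by
  haveI := charP_kk hM
  refine ⟨(exists_induced_isDef hM hB hP le_sup_left le_sup_right).imp fun _ h => h.symm,
    fun b b' hb hb' => ?_⟩
  have m := maxP_of_induced_sup_cent hM hP hb
  have m' := maxP_of_induced_sup_cent hM hP hb'
  obtain ⟨x, -, h1, h2⟩ := exists_conj_max le_rfl top_le_norm_top m.prim m'.isDef m'.bp m'.br
    m.isDef m.bp m.br
  have h3 := mem_normalizer_iff_cj.2 h1
  have h4 := cj_eq_self (norm_le_norm_sup_cent P h3)
  rw [← eb_blkMap_cjE h4] at h2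
  have h5 := eb_inj hM ((isPBlock_blkMap_iff hM _).2 hb'.1) hb.1 h2
  refine ⟨x, h3, fun θ hθ => ⟨irrComp (cjE h4) θ, mem_blkMap.1 (h5 ▸ hθ), fun y hy => ?_⟩⟩
  rw [irrComp_apply]
  exact congrArg θ.1 (Subtype.ext (coe_cjE h4 y))

end Cfsg.Agent.S0973
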