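import Cfsg.Statements.S0986
import Cfsg.Agent.H21.SmallAut

set_option autoImplicit false
open Cfsg

namespace Cfsg.Agent.S0986

/-- Let P and Q be distinct Sylow p-subgroups of a finite group G chosen so that the order of P ∩ Q is as large as possible among intersections of two distinct Sylow p-subgroups, and let N be the normalizer of P ∩ Q. Then N has more than one Sylow p-subgroup, any two distinct Sylow p-subgroups of N intersect exactly in P ∩ Q, and each Sylow p-subgroup of N lies in exactly one Sylow p-subgroup of G. -/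
theorem result {G : Type*} [Group G] [Finite G] (p : ℕ) [Fact p.Prime] (P Q : Sylow p G) (hPQ : P ≠ Q) (hmax : ∀ P' Q' : Sylow p G, P' ≠ Q' → Nat.card ↥((P' : Subgroup G) ⊓ (Q' : Subgroup G)) ≤ Nat.card ↥((P : Subgroup G) ⊓ (Q : Subgroup G))) : 1 < Nat.card (Sylow p ↥(Subgroup.normalizer (((P : Subgroup G) ⊓ (Q : Subgroup G) : Subgroup G) : Set G))) ∧ (∀ S T : Sylow p ↥(Subgroup.normalizer (((P : Subgroup G) ⊓ (Q : Subgroup G) : Subgroup G) : Set G)), S ≠ T → (S : Subgroup _) ⊓ (T : Subgroup _) = ((P : Subgroup G) ⊓ (Q : Subgroup G)).subgroupOf (Subgroup.normalizer (((P : Subgroup G) ⊓ (Q : Subgroup G) : Subgroup G) : Set G))) ∧ ∀ S : Sylow p ↥(Subgroup.normalizer (((P : Subgroup G) ⊓ (Q : Subgroup G) : Subgroup G) : Set G)), ∃! T : Sylow p G, (S : Subgroup _).map (Subgroup.normalizer (((P : Subgroup G) ⊓ (Q : Subgroup G) : Subgroup G) : Set G)).subtype ≤ (T : Subgroup G) := by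
  classical
  set D : Subgroup G := (P : Subgroup G) ⊓ (Q : Subgroup G) with hD
  set N := Subgroup.normalizer (D : Set G) with hN
  have hDp : IsPGroup p D := P.2.to_le inf_le_left
  have hDN : D ≤ N := Subgroup.le_normalizer
  -- a Sylow subgroup meeting `R` in more than `D` is `R`
  have huniq : ∀ (R R' : Sylow p G) (X : Subgroup G), X ≤ R → X ≤ R' → Nat.card D < Nat.card X →
      R = R' := by
    intro R R' X h1 h2 h3
    by_contra hne
    have := hmax R R' hne
    have := Subgroup.card_le_of_le (le_inf h1 h2)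
    omega
  have hgrow : ∀ R : Sylow p G, D ≤ R → D ≠ R → Nat.card D < Nat.card ↥((R : Subgroup G) ⊓ N) := by
    intro R hR hne
    have : Group.IsNilpotent R := R.2.isNilpotent
    have h1 : D.subgroupOf R < ⊤ := by
      rw [lt_top_iff_ne_top, Ne, Subgroup.subgroupOf_eq_top]
      exact fun h => hne (le_antisymm hR h)
    have h2 := Group.normalizerCondition_of_isNilpotent (G := R) _ h1
    rw [← Subgroup.subgroupOf_normalizer_eq hR] at h2
    obtain ⟨x, hx1, hx2⟩ := SetLike.exists_of_lt h2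
    refine lt_of_le_of_ne (Subgroup.card_le_of_le (le_inf hR hDN)) fun h => hx2 ?_
    have h3 := Subgroup.eq_of_le_of_card_ge (le_inf hR hDN) h.ge
    rw [Subgroup.mem_subgroupOf, h3]
    exact ⟨x.2, hx1⟩
  have hDP : D ≠ P := fun h => hPQ (Sylow.ext (P.3 Q.2 (h ▸ inf_le_right)).symm)
  have hDQ : D ≠ Q := fun h => hPQ (Sylow.ext (Q.3 P.2 (h ▸ inf_le_left)))
  have hP := hgrow P inf_le_left hDP
  have hQ := hgrow Q inf_le_right hDQ
  have hcardS : ∀ S : Sylow p N, Nat.card D < Nat.card ((S : Subgroup N).map N.subtype) := by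
    intro S
    obtain ⟨V, hV⟩ := (P.2.comap_subtype (K := N)).exists_le_sylow
    rw [Subgroup.card_map_of_injective N.subtype_injective, H21.card_sylow_eq_of V S]
    refine hP.trans_le ?_
    rw [← Nat.card_congr (Subgroup.subgroupOfEquivOfLe (inf_le_right : (P : Subgroup G) ⊓ N ≤ N)).toEquiv,
      Subgroup.inf_subgroupOf_right]
    exact Subgroup.card_le_of_le hV
  have h3 : ∀ S : Sylow p N, ∃! T : Sylow p G, (S : Subgroup N).map N.subtype ≤ (T : Subgroup G) := by
    intro S
    obtain ⟨T, hT⟩ := (S.2.map N.subtype).exists_le_sylow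
    exact ⟨T, hT, fun T' hT' => huniq _ _ _ hT' hT (hcardS S)⟩
  refine ⟨?_, fun S T hST => ?_, h3⟩
  · by_contra hc
    have h0 : 0 < Nat.card (Sylow p N) := Nat.card_pos
    have h1 : Nat.card (Sylow p N) = 1 := by omega
    have := (Nat.card_eq_one_iff_unique.1 h1).1
    obtain ⟨V, hV⟩ := (P.2.comap_subtype (K := N)).exists_le_sylow
    obtain ⟨W, hW⟩ := (Q.2.comap_subtype (K := N)).exists_le_sylow
    obtain rfl : V = W := Subsingleton.elim _ _
    obtain ⟨T, hT, -⟩ := h3 V
    have hPT : P = T := huniq _ _ _ inf_le_left (fun x hx => hT ⟨⟨x, hx.2⟩, hV hx.1, rfl⟩) hP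
    have hQT : Q = T := huniq _ _ _ inf_le_left (fun x hx => hT ⟨⟨x, hx.2⟩, hW hx.1, rfl⟩) hQ
    exact hPQ (hPT.trans hQT.symm)
  · have hDn : (D.subgroupOf N).Normal := Subgroup.normal_in_normalizer
    have hle : ∀ S : Sylow p N, D.subgroupOf N ≤ S := fun S =>
      IsPGroup.le_sylow_of_normal (N := D.subgroupOf N) hDp.comap_subtype S
    symm
    apply Subgroup.eq_of_le_of_card_ge (le_inf (hle S) (hle T))
    obtain ⟨S', hS', -⟩ := h3 S
    obtain ⟨T', hT', -⟩ := h3 T
    have hne : S' ≠ T' := by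
      rintro rfl
      apply hST
      have h1 : (S : Subgroup N) ≤ (S' : Subgroup G).subgroupOf N := fun x hx => hS' ⟨x, hx, rfl⟩
      have h2 : (T : Subgroup N) ≤ (S' : Subgroup G).subgroupOf N := fun x hx => hT' ⟨x, hx, rfl⟩
      exact Sylow.ext ((S.3 S'.2.comap_subtype h1).symm.trans (T.3 S'.2.comap_subtype h2))
    rw [Nat.card_congr (Subgroup.subgroupOfEquivOfLe hDN).toEquiv,
      ← Subgroup.card_map_of_injective N.subtype_injective]
    refine le_trans (Subgroup.card_le_of_le ?_) (hmax S' T' hne)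
    rintro _ ⟨x, hx, rfl⟩
    exact ⟨hS' ⟨x, hx.1, rfl⟩, hT' ⟨x, hx.2, rfl⟩⟩

end Cfsg.Agent.S0986
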