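import Cfsg.Statements.S0990
import Cfsg.Agent.H21.SylowPrime

set_option autoImplicit false
open Cfsg

namespace Cfsg.Agent.S0990

/-- Let p be an odd prime and P a Sylow p-subgroup of the symmetric group on a finite set with at least two elements. Then P is contained in the alternating group, and twice the order of the normalizer of P inside the alternating group equals the order of the normalizer of P in the symmetric group. -/
theorem result {α : Type*} [Fintype α] [DecidableEq α] (hα : 2 ≤ Fintype.card α) (p : ℕ) [Fact p.Prime] (hp : p ≠ 2) (P : Sylow p (Equiv.Perm α)) : (P : Subgroup (Equiv.Perm α)) ≤ alternatingGroup α ∧ 2 * Nat.card ↥(Subgroup.normalizer ((((P : Subgroup (Equiv.Perm α)).subgroupOf (alternatingGroup α) : Subgroup ↥(alternatingGroup α)) : Set ↥(alternatingGroup α)))) = Nat.card ↥(Subgroup.normalizer ((P : Subgroup (Equiv.Perm α)) : Set (Equiv.Perm α))) := by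
  classical
  have hpp : p.Prime := Fact.out
  have hle : (P : Subgroup (Equiv.Perm α)) ≤ alternatingGroup α := by
    intro g hg
    rw [Equiv.Perm.mem_alternatingGroup]
    obtain ⟨k, hk⟩ := P.2 ⟨g, hg⟩
    have h1 : g ^ (p ^ k) = 1 := congrArg Subtype.val hk
    have h2 : Equiv.Perm.sign g ^ (p ^ k) = 1 := by rw [← map_pow, h1, map_one]
    rcases Int.units_eq_one_or (Equiv.Perm.sign g) with h | h
    · exact h
    · rw [h, ((hpp.odd_of_ne_two hp).pow).neg_one_pow] at h2
      exact absurd h2 (by decide)
  refine ⟨hle, ?_⟩
  rw [← Subgroup.subgroupOf_normalizer_eq hle]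
  have : Nontrivial α := Fintype.one_lt_card_iff_nontrivial.1 hα
  have h1 := Sylow.normalizer_sup_eq_top' P hle
  set N := Subgroup.normalizer ((P : Subgroup (Equiv.Perm α)) : Set (Equiv.Perm α)) with hN
  have h1' : N ⊔ alternatingGroup α = ⊤ := h1
  have h2 : (alternatingGroup α).relIndex N = 2 := by
    rw [← Subgroup.relIndex_sup_right, h1', Subgroup.relIndex_top_right, alternatingGroup.index_eq_two]
  have h3 := Subgroup.card_mul_index ((alternatingGroup α).subgroupOf N)
  rw [← h3, mul_comm]
  congr 1
  swap
  · exact h2.symm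
  rw [← Subgroup.inf_subgroupOf_right, ← Subgroup.inf_subgroupOf_right (alternatingGroup α) N,
    Nat.card_congr (Subgroup.subgroupOfEquivOfLe inf_le_right).toEquiv,
    Nat.card_congr (Subgroup.subgroupOfEquivOfLe inf_le_right).toEquiv, inf_comm]

end Cfsg.Agent.S0990
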