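import Cfsg.Statements.S0995
import Cfsg.Agent.H21.SmallAut

set_option autoImplicit false
open Cfsg

namespace Cfsg.Agent.S0995

/-- Let G be a finite perfect group containing an element z of prime order p whose centralizer is the cyclic group it generates. Let t be the number of conjugacy classes of elements of order p. Then t divides p - 1, the number of Sylow p-subgroups has the form 1 + n * p, and |G| * t = (p - 1) * p * (1 + n * p). -/
theorem result {G : Type*} [Group G] [Finite G] (hperf : commutator G = ⊤) (p : ℕ) [Fact p.Prime] (z : G) (hz : orderOf z = p) (hC : Subgroup.centralizer ({z} : Set G) = Subgroup.zpowers z) : ∃ n t : ℕ, t = Nat.card {c : ConjClasses G // ∃ g : G, ConjClasses.mk g = c ∧ orderOf g = p} ∧ t ∣ p - 1 ∧ Nat.card (Sylow p G) = 1 + n * p ∧ Nat.card G * t = (p - 1) * p * (1 + n * p) := by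
  classical
  have hp : p.Prime := Fact.out
  obtain ⟨P, hzP⟩ := (H21.isPGroup_zpowers_of_orderOf hz).exists_le_sylow
  have hz1 := H21.ne_one_of_orderOf_prime hp hz
  have hzc : Nat.card (Subgroup.zpowers z) = p := by rw [Nat.card_zpowers, hz]
  have hPz : (P : Subgroup G) = Subgroup.zpowers z := by
    have : Nontrivial P := ⟨⟨⟨z, hzP (Subgroup.mem_zpowers z)⟩, 1, fun h => hz1 (congrArg Subtype.val h)⟩⟩
    have := P.2.center_nontrivial
    obtain ⟨⟨⟨c, hcP⟩, hc⟩, hc1⟩ := exists_ne (1 : Subgroup.center P)
    have hc1' : c ≠ 1 := fun h => hc1 (Subtype.ext (Subtype.ext h))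
    have hcz : c ∈ Subgroup.zpowers z := by
      rw [← hC, Subgroup.mem_centralizer_singleton_iff]
      exact (congrArg Subtype.val (Subgroup.mem_center_iff.1 hc ⟨z, hzP (Subgroup.mem_zpowers z)⟩)).symm
    refine le_antisymm (fun g hg => ?_) hzP
    rw [← hC, Subgroup.mem_centralizer_singleton_iff]
    have h1 : z ∈ Subgroup.zpowers c := by
      rw [H21.zpowers_eq_of_card_prime hp hzc hcz hc1']; exact Subgroup.mem_zpowers z
    obtain ⟨k, rfl⟩ := h1
    have h2 : Commute g c := congrArg Subtype.val (Subgroup.mem_center_iff.1 hc ⟨g, hg⟩)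
    exact (h2.zpow_right k).eq
  have hP : Nat.card P = p := by rw [hPz, hzc]
  have hCP : Subgroup.centralizer (P : Set G) = P := by
    rw [← Sylow.coe_coe, hPz, Subgroup.zpowers_eq_closure, Subgroup.centralizer_closure, hC,
      Subgroup.zpowers_eq_closure]
  -- every element of order `p` has centralizer of order `p`
  have hcent : ∀ x : G, orderOf x = p → Nat.card (Subgroup.centralizer ({x} : Set G)) = p := by
    intro x hx
    obtain ⟨Q, hQ, -⟩ := H21.existsUnique_sylow_mem P hP hx
    obtain ⟨g, rfl⟩ := MulAction.exists_smul_eq G P Q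
    have h1 : Subgroup.zpowers x = (g • P : Sylow p G) :=
      H21.zpowers_eq_of_card_prime hp ((H21.card_sylow_eq_of P _).trans hP) hQ
        (H21.ne_one_of_orderOf_prime hp hx)
    rw [← Subgroup.centralizer_closure, ← Subgroup.zpowers_eq_closure, h1]
    have h2 : Subgroup.centralizer (((g • P : Sylow p G) : Subgroup G) : Set G) =
        (Subgroup.centralizer (P : Set G)).map (MulAut.conj g).toMonoidHom := by
      ext y
      rw [Subgroup.mem_map_equiv, Subgroup.mem_centralizer_iff, Subgroup.mem_centralizer_iff]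
      constructor
      · intro h u hu
        have := h (g * u * g⁻¹) (by
          show g * u * g⁻¹ ∈ (g • P : Sylow p G)
          rw [Sylow.smul_def]
          exact Subgroup.smul_mem_pointwise_smul u (MulAut.conj g) P hu)
        simp only [MulAut.conj_symm_apply]
        calc u * (g⁻¹ * y * g) = g⁻¹ * (g * u * g⁻¹ * y) * g := by group
          _ = _ := by rw [this]; group
      · intro h u hu
        obtain ⟨v, hv, rfl⟩ := hu
        have := h v hv
        simp only [MulAut.conj_symm_apply] at this
        show g * v * g⁻¹ * y = y * (g * v * g⁻¹)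
        calc g * v * g⁻¹ * y = g * (v * (g⁻¹ * y * g)) * g⁻¹ := by group
          _ = _ := by rw [this]; group
    rw [h2, Subgroup.card_map_of_injective (MulAut.conj g).injective, hCP, hP]
  set t := Nat.card {c : ConjClasses G // ∃ g : G, ConjClasses.mk g = c ∧ orderOf g = p} with ht
  have hcount : Nat.card {x : G // orderOf x = p} * p = Nat.card G * t := by
    have := Fintype.ofFinite {c : ConjClasses G // ∃ g : G, ConjClasses.mk g = c ∧ orderOf g = p}
    let f : {x : G // orderOf x = p} →
        {c : ConjClasses G // ∃ g : G, ConjClasses.mk g = c ∧ orderOf g = p} :=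
      fun x => ⟨ConjClasses.mk x.1, x.1, rfl, x.2⟩
    rw [Nat.card_congr (Equiv.sigmaFiberEquiv f).symm, Nat.card_sigma, Finset.sum_mul,
      Finset.sum_congr rfl (g := fun _ => Nat.card G), Finset.sum_const, Finset.card_univ,
      smul_eq_mul, ← Nat.card_eq_fintype_card, mul_comm]
    rintro ⟨c, g, rfl, hg⟩ -
    rw [← H21.card_conj_mul_card_centralizer g, hcent g hg]
    congr 1
    refine Nat.card_congr
      { toFun := fun x => ⟨x.1.1, (ConjClasses.mk_eq_mk_iff_isConj.1 (congrArg Subtype.val x.2)).symm⟩
        invFun := fun y => ⟨⟨y.1, ?_⟩, Subtype.ext (ConjClasses.mk_eq_mk_iff_isConj.2 y.2.symm)⟩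
        left_inv := fun _ => rfl
        right_inv := fun _ => rfl }
    obtain ⟨u, hu⟩ := isConj_iff.1 y.2
    rw [← hu, ← hg]
    exact MulEquiv.orderOf_eq (MulAut.conj u) g
  rw [H21.card_orderOf_eq_prime P hP] at hcount
  have h1 := card_sylow_modEq_one p G
  have hs : 0 < Nat.card (Sylow p G) := Nat.card_pos
  have h2 : Nat.card (Sylow p G) = 1 + Nat.card (Sylow p G) / p * p := by
    have := Nat.mod_add_div (Nat.card (Sylow p G)) p
    rw [h1, Nat.mod_eq_of_lt hp.one_lt] at this
    rw [mul_comm]; exact this.symm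
  refine ⟨Nat.card (Sylow p G) / p, t, rfl, ?_, h2, ?_⟩
  · have h3 := H21.card_normalizer_mul_card_sylow P
    have h4 := H21.card_centralizer_mul_relIndex (P : Subgroup G)
    rw [Sylow.coe_coe, hCP, hP] at h4
    refine ⟨(P : Subgroup G).relIndex (Subgroup.normalizer (P : Set G)), ?_⟩
    apply Nat.eq_of_mul_eq_mul_left (Nat.mul_pos hs hp.pos)
    calc _ = Nat.card (Sylow p G) * (p - 1) * p := by ring
      _ = _ := by rw [hcount, ← h3, ← h4]; ring
  · rw [← h2, ← hcount]; ring

end Cfsg.Agent.S0995
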