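import Cfsg.Statements.S0996
import Cfsg.Agent.H21.BR3

set_option autoImplicit false
open Cfsg

namespace Cfsg.Agent.S0996

open H21 Subgroup
open scoped commutatorElement

/-- Let G be a finite perfect group containing an element z of prime order p whose centralizer is the cyclic group it generates, and suppose the number 1 + n * p of Sylow p-subgroups satisfies n < (p + 3) / 2. Then p > 3 and G is isomorphic to the projective special linear group of dimension 2 over the field with p elements, or p - 1 is a power of 2 and G is isomorphic to that group over the field with p - 1 elements. -/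
theorem result {G : Type*} [Group G] [Finite G] (hperf : commutator G = ⊤) (p : ℕ) [Fact p.Prime] (z : G) (hz : orderOf z = p) (hC : Subgroup.centralizer ({z} : Set G) = Subgroup.zpowers z) (hn : 2 * Nat.card (Sylow p G) < (p + 1) * (p + 2)) : (∃ (F : Type) (_ : Field F) (_ : Fintype F), Fintype.card F = p ∧ 3 < p ∧ Nonempty (G ≃* Matrix.ProjectiveSpecialLinearGroup (Fin 2) F)) ∨ (∃ (m : ℕ) (F : Type) (_ : Field F) (_ : Fintype F), Fintype.card F = 2 ^ m ∧ p = 2 ^ m + 1 ∧ 3 < p ∧ Nonempty (G ≃* Matrix.ProjectiveSpecialLinearGroup (Fin 2) F)) := by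
  have hp : p.Prime := Fact.out
  have S : SCent p z := ⟨hp, hz, hC⟩
  obtain ⟨n, hN⟩ := exists_index_eq hp hz S.not_dvd_index
  rw [card_sylow_eq_index hz S.not_dvd_index, hN] at hn
  have hu : NoU p n := noU_of_not hp.pos fun ⟨h, u, h1, h3, h4⟩ => by
    have : 2 * n < p + 3 := lt_of_mul_lt_mul_right (a := p) (by nlinarith) (Nat.zero_le p)
    have : 1 * u * p ≤ h * u * p := by gcongr; exact h1
    have : 1 * p ≤ u * p := by gcongr; exact h3
    nlinarith
  rcases S.br hperf hN hu with e | ⟨m, F, _, _, _, k1, k2, k3, ⟨f⟩⟩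
  · exact .inl e
  · obtain ⟨g⟩ := H19.psl2_sl2 F
    exact .inr ⟨m, F, _, _, k1, k2, k3, ⟨f.trans g.symm⟩⟩

end Cfsg.Agent.S0996
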