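import Cfsg.Statements.S1002
import Cfsg.Agent.H13.Sm1

set_option autoImplicit false
open Cfsg

namespace Cfsg.Agent.S1002

/-- No finite simple group has order 1004913 = 3^3 * 7 * 13 * 409. -/
theorem result {G : Type*} [Group G] [Finite G] [IsSimpleGroup G] : Nat.card G ≠ 1004913 := by
  intro h
  rcases H13.Sm.br_card (H13.Sm.ncyc_of_nprime (G := G) (by rw [h]; norm_num)) (p := 409) (by norm_num)
    (by rw [h]; norm_num) (by rw [h]; norm_num) with e | e
  · exact absurd e (by rw [h]; norm_num)
  · exact absurd e.1 (by rw [h]; norm_num)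

end Cfsg.Agent.S1002
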