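import Cfsg.Statements.S1009
import Cfsg.Agent.H21.SmallAut

set_option autoImplicit false
open Cfsg

namespace Cfsg.Agent.S1009

/-- Brodkey's Theorem: if a finite group has abelian Sylow p-subgroups, then there are two Sylow p-subgroups whose intersection equals the intersection of all Sylow p-subgroups. -/
theorem result {G : Type*} [Group G] [Finite G] (p : ℕ) [Fact p.Prime] (hab : ∀ P : Sylow p G, IsMulCommutative ↥(P : Subgroup G)) : ∃ P Q : Sylow p G, (P : Subgroup G) ⊓ (Q : Subgroup G) = ⨅ R : Sylow p G, (R : Subgroup G) := by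
  classical
  obtain ⟨⟨S, T⟩, hmin⟩ := Finite.exists_min
    (fun a : Sylow p G × Sylow p G => Nat.card ↥((a.1 : Subgroup G) ⊓ (a.2 : Subgroup G)))
  refine ⟨S, T, le_antisymm (le_iInf fun U => ?_) (le_inf (iInf_le _ S) (iInf_le _ T))⟩
  set D : Subgroup G := (S : Subgroup G) ⊓ (T : Subgroup G) with hD
  have hN : ∀ R : Sylow p G, D ≤ R → (R : Subgroup G) ≤ Subgroup.normalizer (D : Set G) := by
    intro R hR g hg
    apply Subgroup.centralizer_le_normalizer
    intro d hd
    exact congrArg Subtype.val ((hab R).1.1 ⟨d, hR hd⟩ ⟨g, hg⟩)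
  set N := Subgroup.normalizer (D : Set G) with hNdef
  have hS : (S : Subgroup G) ≤ N := hN S inf_le_left
  have hT : (T : Subgroup G) ≤ N := hN T inf_le_right
  obtain ⟨V, hV⟩ := (U.2.comap_subtype (K := N)).exists_le_sylow
  obtain ⟨n, hn⟩ := MulAction.exists_smul_eq N (S.subtype hS) V
  have hle : (U : Subgroup G) ⊓ ((n : G) • T : Sylow p G) ≤ D := by
    rintro g ⟨hgU, t, ht, rfl⟩
    have htN : (n : G) * t * (n : G)⁻¹ ∈ N := mul_mem (mul_mem n.2 (hT ht)) (inv_mem n.2)
    have h1 : (⟨_, htN⟩ : N) ∈ (V : Subgroup N) := hV hgU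
    rw [← hn] at h1
    obtain ⟨s, hs, hs2⟩ := h1
    have h2 : (n : G) * s * (n : G)⁻¹ = n * t * (n : G)⁻¹ := congrArg Subtype.val hs2
    have h3 : (s : G) = t := by simpa using h2
    have h4 : t ∈ D := ⟨h3 ▸ hs, ht⟩
    exact (Subgroup.mem_normalizer_iff.1 n.2 t).1 h4
  have := Subgroup.eq_of_le_of_card_ge hle (hmin (U, (n : G) • T))
  rw [← this]
  exact inf_le_left

end Cfsg.Agent.S1009
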