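import Cfsg.Statements.S1016
import Cfsg.Agent.H13.Sm1
import Cfsg.Agent.H13.Sm2

set_option autoImplicit false
open Cfsg

namespace Cfsg.Agent.S1016

/-- No finite simple group has order 1440 = 2^5 * 3^2 * 5. -/
theorem result {G : Type*} [Group G] [Finite G] [IsSimpleGroup G] : Nat.card G ≠ 1440 := by
  intro h
  exact H13.Sm.no_of_blk (H13.Sm.nab_of_nprime (G := G) (by rw [h]; norm_num)) (p := 5) (B := 38)
    (qs := []) h (by norm_num) (by norm_num) (by norm_num) (by norm_num)
    (H13.Sm.three_of (r := 2) (s := 3) (a := 5) (b := 2) h (by norm_num) (by norm_num) (by norm_num)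
      (by norm_num) (by norm_num) (by norm_num)) (by decide +kernel) (by decide +kernel)

end Cfsg.Agent.S1016
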