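import Cfsg.Statements.S1018
import Cfsg.Agent.H21.SylowPrime

set_option autoImplicit false
open Cfsg

namespace Cfsg.Agent.S1018

/-- Let P be a Sylow p-subgroup of order p of a finite group G, and consider the action of G on the left cosets of the normalizer N of P. Then every element of order p fixes exactly one coset, and an element of N that does not centralize P fixes at most as many cosets as there are orbits of P. -/
theorem result {G : Type*} [Group G] [Finite G] (p : ℕ) [Fact p.Prime] (P : Sylow p G) (hP : Nat.card ↥(P : Subgroup G) = p) : (∀ y : G, orderOf y = p → Nat.card (MulAction.fixedBy (G ⧸ Subgroup.normalizer ((P : Subgroup G) : Set G)) y) = 1) ∧ ∀ x : G, x ∈ Subgroup.normalizer ((P : Subgroup G) : Set G) → x ∉ Subgroup.centralizer ((P : Subgroup G) : Set G) → Nat.card (MulAction.fixedBy (G ⧸ Subgroup.normalizer ((P : Subgroup G) : Set G)) x) ≤ Nat.card (MulAction.orbitRel.Quotient ↥(P : Subgroup G) (G ⧸ Subgroup.normalizer ((P : Subgroup G) : Set G))) := by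
  classical
  have hp : p.Prime := Fact.out
  refine ⟨fun y hy => ?_, fun x hxN hxC => ?_⟩
  · obtain ⟨Q, hQ, hu⟩ := H21.existsUnique_sylow_mem P hP hy
    have key : ∀ g : G, (g : G ⧸ Subgroup.normalizer ((P : Subgroup G) : Set G)) ∈
        MulAction.fixedBy (G ⧸ Subgroup.normalizer ((P : Subgroup G) : Set G)) y ↔ g • P = Q := by
      intro g
      rw [MulAction.mem_fixedBy, MulAction.Quotient.smul_coe, smul_eq_mul, eq_comm, QuotientGroup.eq]
      have h1 : g⁻¹ * (y * g) ∈ Subgroup.normalizer ((P : Subgroup G) : Set G) ↔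
          y • (g • P) = g • P := by
        rw [Sylow.coe_coe, ← Sylow.smul_eq_iff_mem_normalizer, mul_smul, mul_smul, inv_smul_eq_iff]
      rw [h1, Sylow.smul_eq_iff_mem_normalizer]
      constructor
      · intro h
        apply hu
        have h2 := (H21.isPGroup_zpowers_of_orderOf hy).inf_normalizer_sylow (g • P)
        have h3 : y ∈ Subgroup.zpowers y ⊓ Subgroup.normalizer ((g • P : Sylow p G) : Set G) :=
          ⟨Subgroup.mem_zpowers y, h⟩
        rw [h2] at h3
        exact h3.2
      · intro h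
        rw [h]
        exact Subgroup.le_normalizer hQ
    obtain ⟨g₀, hg₀⟩ := MulAction.exists_smul_eq G P Q
    rw [Nat.card_eq_one_iff_exists]
    refine ⟨⟨_, (key g₀).2 hg₀⟩, ?_⟩
    rintro ⟨ω, hω⟩
    obtain ⟨g, rfl⟩ := QuotientGroup.mk_surjective ω
    have h4 := (key g).1 hω
    apply Subtype.ext
    show QuotientGroup.mk g = QuotientGroup.mk g₀
    rw [QuotientGroup.eq, Sylow.coe_coe, ← Sylow.smul_eq_iff_mem_normalizer, mul_smul,
      inv_smul_eq_iff, hg₀, h4]
  · refine Nat.card_le_card_of_injective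
      (fun ω => (Quotient.mk (MulAction.orbitRel (P : Subgroup G) _) ω.1)) ?_
    rintro ⟨ω, hω⟩ ⟨ω', hω'⟩ h
    have h1 : ω ∈ MulAction.orbit (P : Subgroup G) ω' := Quotient.exact h
    obtain ⟨⟨u, hu⟩, rfl⟩ := h1
    apply Subtype.ext
    show u • ω' = ω'
    have h2 : x • u • ω' = u • ω' := hω
    have h3 : x • ω' = ω' := hω'
    by_cases hu1 : u = 1
    · rw [hu1, one_smul]
    have hc : u⁻¹ * (x * u * x⁻¹) ∈ (P : Subgroup G) :=
      mul_mem (inv_mem hu) ((Subgroup.mem_normalizer_iff.1 hxN u).1 hu)
    have hc2 : (u⁻¹ * (x * u * x⁻¹)) • ω' = ω' := by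
      rw [mul_smul, mul_smul, mul_smul, inv_smul_eq_iff, ← h2]
      congr 2
      rw [inv_smul_eq_iff, h3]
    by_cases hc1 : u⁻¹ * (x * u * x⁻¹) = 1
    · exfalso
      apply hxC
      rw [← H21.zpowers_eq_of_card_prime hp hP hu hu1, Subgroup.mem_centralizer_iff]
      rintro _ ⟨k, rfl⟩
      have h5 : Commute u x := by
        have : x * u * x⁻¹ = u := (inv_mul_eq_one.1 hc1).symm
        show u * x = x * u
        rw [← this]
        rw [this]
        calc u * x = (x * u * x⁻¹) * x := by rw [this]
          _ = x * u := by group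
      exact (h5.zpow_left k).eq
    · rw [← H21.zpowers_eq_of_card_prime hp hP hc hc1] at hu
      have : Subgroup.zpowers (u⁻¹ * (x * u * x⁻¹)) ≤ MulAction.stabilizer G ω' :=
        Subgroup.zpowers_le.2 hc2
      exact this hu

end Cfsg.Agent.S1018
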