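import Cfsg.Statements.S1022
import Cfsg.Agent.H13.Sm1
import Cfsg.Agent.H13.Sm2

set_option autoImplicit false
open Cfsg

namespace Cfsg.Agent.S1022

/-- No finite simple group has order 459648 = 2^7 * 3^3 * 7 * 19. -/
theorem result {G : Type*} [Group G] [Finite G] [IsSimpleGroup G] : Nat.card G ≠ 459648 := by
  intro h
  exact H13.Sm.no_of_blk (H13.Sm.nab_of_nprime (G := G) (by rw [h]; norm_num)) (p := 19) (B := 678)
    (three := false) (qs := [(7,1)]) h (by norm_num) (by norm_num) (by norm_num) (by norm_num)
    (fun e => absurd e (by decide)) (by decide +kernel) (by decide +kernel)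

end Cfsg.Agent.S1022
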