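import Cfsg.Statements.S1026
import Cfsg.Agent.H14.GoodSt

set_option autoImplicit false
open Cfsg

namespace Cfsg.Agent.S1026

/-- Every element of `U` has a unique expression `∏_{r ∈ Φ⁺} x_r(t_r)`, the product over the positive roots in increasing index order (the coefficient family `t`, supported on the positive roots, exists and is unique); and conversely every such ordered product is the matrix of an element of `U`. -/
theorem result {F : Type*} [Field F] (D : Cfsg.Lie.ChevalleyDatum) (hD : D ∈ [Cfsg.Lie.chevG2, Cfsg.Lie.chevB2, Cfsg.Lie.chevD4, Cfsg.Lie.chevF4, Cfsg.Lie.chevE6, Cfsg.Lie.chevE7, Cfsg.Lie.chevE8]) :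
    (∀ g : GL D.Idx F, g ∈ D.posUnipotent F →
      ∃! t : ℕ → F, (∀ r, ¬ D.IsPosRoot r → t r = 0) ∧
        (g : Matrix D.Idx D.Idx F) = D.wordMat F (D.posRoots.map fun r => (r, t r))) ∧
    (∀ t : ℕ → F, ∃ g : GL D.Idx F, g ∈ D.posUnipotent F ∧
      (g : Matrix D.Idx D.Idx F) = D.wordMat F (D.posRoots.map fun r => (r, t r))) := by
  obtain ⟨G⟩ := H14.good_of_mem hD
  have e : ∀ t : ℕ → F, D.wordMat F (D.posRoots.map fun r => (r, t r)) =
      ((G.posL.map fun r => (G.S F).x r (t r)).prod : GL D.Idx F) := fun t => by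
    rw [G.posRoots_eq, List.map_map, ← G.wordMat_map]; rfl
  simp only [e, G.posUnipotent_eq, Units.val_inj]
  refine ⟨fun g hg => ?_, fun t => ⟨_, H14.PreSt.prod_mem_U (fun r => G.mem_posL.1) _, rfl⟩⟩
  obtain ⟨t, rfl⟩ := H14.PreSt.exists_prod H14.RootSys.closed_pos _ (fun _ => H14.RootSys.htf_pos) G.posL_nodup
    (fun _ => G.mem_posL) hg
  refine ⟨fun r => if h : D.IsPosRoot r then t ⟨r, h.1⟩ else 0, ⟨fun r h => dif_neg h, ?_⟩, ?_⟩
  · exact congrArg _ (List.map_congr_left fun r hr => by simp [G.isPosRoot_iff, G.mem_posL.1 hr])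
  · rintro t' ⟨h1, h2⟩
    funext r
    split_ifs with h
    · exact ((G.sep F).uniq _ _ G.posL_nodup (fun _ hr => H14.RootSys.htf_pos (G.mem_posL.1 hr)) _ _ h2 ⟨r, h.1⟩
        (G.mem_posL.2 ((G.isPosRoot_iff _).1 h))).symm
    · exact h1 r h

end Cfsg.Agent.S1026
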