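import Cfsg.Statements.S1028
import Cfsg.Agent.H14.GoodSt

set_option autoImplicit false
open Cfsg

namespace Cfsg.Agent.S1028

/-- Elements of `U` (the subgroup generated by the root elements of the positive roots) are unipotent linear maps: `(u - 1)^n = 0` with `n = rank + nroots` the dimension of the module. -/
theorem result {F : Type*} [Field F] (D : Cfsg.Lie.ChevalleyDatum) (hD : D ∈ [Cfsg.Lie.chevG2, Cfsg.Lie.chevB2, Cfsg.Lie.chevD4, Cfsg.Lie.chevF4, Cfsg.Lie.chevE6, Cfsg.Lie.chevE7, Cfsg.Lie.chevE8]) (g : GL D.Idx F) (hg : g ∈ D.posUnipotent F) :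
    ((g : Matrix D.Idx D.Idx F) - 1) ^ (D.rank + D.nroots) = 0 := by
  obtain ⟨G⟩ := H14.good_of_mem hD
  rw [G.posUnipotent_eq] at hg
  have h1 : G.C.adRep.Lev (H14.RootSys.htf _) 1 ((g : Matrix D.Idx D.Idx F) - 1) :=
    (G.C.adRep.model F (G.C.adRep_nondeg F)).lev_U one_pos (fun _ => H14.RootSys.htf_pos) hg
  have h2 : ∀ m : ℕ, G.C.adRep.Lev (H14.RootSys.htf _) m (((g : Matrix D.Idx D.Idx F) - 1) ^ m) := fun m => by
    induction m with
    | zero => simpa using H14.Rep.lev_one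
    | succ m ih => simpa [pow_succ] using ih.mul h1
  have h3 : IsNilpotent ((g : Matrix D.Idx D.Idx F) - 1) := by
    let c : D.Idx → Fin D.rank → ℤ := Sum.elim (fun _ => 0) G.R.cf
    have hc : ∀ a, G.C.adRep.wt a = G.R.A.mulVec (c a) := by
      rintro (a | a)
      · simp [c, H14.Chev.adRep, H14.PreChev.adWt]
      · rfl
    obtain ⟨m, hm⟩ := Finite.exists_le fun p : D.Idx × D.Idx => (H14.RootSys.htf _ (c p.1 - c p.2)).toNat
    refine ⟨m + 1, ?_⟩
    ext a b
    by_contra h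
    obtain ⟨μ, e1, e2⟩ := h2 (m + 1) a b h
    rw [hc, hc, ← Matrix.mulVec_add] at e1
    have := hm (a, b)
    rw [G.R.A_mulVec_inj e1] at this
    simp at this e2
    omega
  have h4 := Matrix.isNilpotent_charpoly_sub_pow_of_isNilpotent h3
  have h5 := Matrix.aeval_self_charpoly ((g : Matrix D.Idx D.Idx F) - 1)
  rw [isNilpotent_iff_eq_zero, sub_eq_zero] at h4
  simpa [h4] using h5

end Cfsg.Agent.S1028
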