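import Cfsg.Statements.S1040
import Cfsg.Agent.H14.GoodSt

set_option autoImplicit false
open Cfsg

namespace Cfsg.Agent.S1040

/-- `U ∩ N = 1` and `B ∩ N = UH ∩ N = H`. -/
theorem result {F : Type*} [Field F] (D : Cfsg.Lie.ChevalleyDatum) (hD : D ∈ [Cfsg.Lie.chevG2, Cfsg.Lie.chevB2, Cfsg.Lie.chevD4, Cfsg.Lie.chevF4, Cfsg.Lie.chevE6, Cfsg.Lie.chevE7, Cfsg.Lie.chevE8]) :
    D.posUnipotent F ⊓ D.monomialSubgroup F = ⊥ ∧ D.borelSubgroup F ⊓ D.monomialSubgroup F = D.diagonalSubgroup F := by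
  obtain ⟨G⟩ := H14.good_of_mem hD
  rw [G.borelSubgroup_eq, G.posUnipotent_eq, G.diagonalSubgroup_eq, G.monomialSubgroup_eq]
  exact ⟨eq_bot_iff.2 fun _ h => (G.sep F).eq_one_of_mem_H h.1
    ((H14.St.B_inf_N (G.sep F)).le ⟨H14.PreSt.U_le_B h.1, h.2⟩), H14.St.B_inf_N (G.sep F)⟩

end Cfsg.Agent.S1040
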