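import Cfsg.Statements.S1044
import Cfsg.Agent.H14.GoodSt

set_option autoImplicit false
open Cfsg

namespace Cfsg.Agent.S1044

/-- For a fundamental root `p` the set `B ∪ B n_p B` is (the carrier of) a subgroup of the general linear group. -/
theorem result {F : Type*} [Field F] (D : Cfsg.Lie.ChevalleyDatum) (hD : D ∈ [Cfsg.Lie.chevG2, Cfsg.Lie.chevB2, Cfsg.Lie.chevD4, Cfsg.Lie.chevF4, Cfsg.Lie.chevE6, Cfsg.Lie.chevE7, Cfsg.Lie.chevE8]) (i : ℕ) (hi : i < D.rank) (n : GL D.Idx F)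
    (hn : (n : Matrix D.Idx D.Idx F) = D.nMat F (D.simple i) 1) :
    ∃ P : Subgroup (GL D.Idx F), (P : Set (GL D.Idx F)) =
      (D.borelSubgroup F : Set (GL D.Idx F)) ∪ DoubleCoset.doubleCoset n (D.borelSubgroup F : Set (GL D.Idx F)) (D.borelSubgroup F) := by
  obtain ⟨G⟩ := H14.good_of_mem hD
  lift i to Fin D.rank using hi
  rw [← G.simple, G.eq_n] at hn
  subst hn
  have hs := H14.PreSt.n_mem_NW (S := (G.S F).toPreSt) (G.R.simple i) one_ne_zero
  have hW : ∀ w ∈ G.R.WJ {i}, w = 1 ∨ w = G.R.sr i := fun w hw => by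
    obtain ⟨L, h, rfl⟩ := G.R.mem_WJ_iff.1 hw
    clear hw
    induction L with
    | nil => simp
    | cons a L ih =>
      obtain rfl : a = i := h a (by simp)
      rcases ih (fun j hj => h j (by simp [hj])) with e | e <;> simp [e]
  refine ⟨(G.S F).P {i}, Set.ext fun g => ?_⟩
  rw [G.borelSubgroup_eq, SetLike.mem_coe, H14.St.mem_P_iff]
  constructor
  · rintro ⟨w, hw, h⟩
    rcases hW w hw with rfl | rfl
    · exact Or.inl (H14.St.cell_one_iff.1 h)
    · exact Or.inr (h.mem_doubleCoset hs)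
  · rintro (h | h)
    · exact ⟨1, one_mem _, H14.St.cell_one_iff.2 h⟩
    · exact ⟨_, G.R.sr_mem_WJ rfl, H14.St.cell_of_mem_doubleCoset hs h⟩

end Cfsg.Agent.S1044
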