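import Cfsg.Statements.S1045
import Cfsg.Agent.H14.GoodSt

set_option autoImplicit false
open Cfsg

namespace Cfsg.Agent.S1045

/-- For a fundamental root `p`, the subgroup `U_p` generated by the `X_s`, `s` positive and `s ≠ p`, is normalised by `X_p` and `X_{-p}`, and `U = U_p ⊔ X_p`. -/
theorem result {F : Type*} [Field F] (D : Cfsg.Lie.ChevalleyDatum) (hD : D ∈ [Cfsg.Lie.chevG2, Cfsg.Lie.chevB2, Cfsg.Lie.chevD4, Cfsg.Lie.chevF4, Cfsg.Lie.chevE6, Cfsg.Lie.chevE7, Cfsg.Lie.chevE8]) (i : ℕ) (hi : i < D.rank) :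
    D.rootSubgroup F (D.simple i) ⊔ D.rootSubgroup F (D.neg (D.simple i)) ≤
        Subgroup.normalizer (Subgroup.closure {g : GL D.Idx F | ∃ (s : ℕ) (t : F), D.IsPosRoot s ∧ s ≠ D.simple i ∧
          (g : Matrix D.Idx D.Idx F) = D.x F s t} : Set (GL D.Idx F)) ∧
      Subgroup.closure {g : GL D.Idx F | ∃ (s : ℕ) (t : F), D.IsPosRoot s ∧ s ≠ D.simple i ∧
          (g : Matrix D.Idx D.Idx F) = D.x F s t} ⊔ D.rootSubgroup F (D.simple i) = D.posUnipotent F := by
  obtain ⟨G⟩ := H14.good_of_mem hD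
  lift i to Fin D.rank using hi
  have h0 : ∀ r, G.R.pos r → (G.R.InJ {i} r ↔ r = G.R.simple i) := fun r hr =>
    ⟨G.R.eq_simple_of_support hr, by rintro rfl; exact G.R.inJ_simple.2 rfl⟩
  have := G.closure_eq F (p := fun s => D.IsPosRoot s ∧ s ≠ D.simple i) (fun _ h => h.1.1)
    (A := {r | G.R.pos r ∧ ¬ G.R.InJ {i} r}) fun r => by
      rw [G.isPosRoot_iff, ← G.simple, Ne, Fin.val_inj]
      exact and_congr_right fun h => (h0 r h).not
  simp only [and_assoc] at this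
  rw [this, ← G.simple, ← G.neg, G.rootSubgroup_eq, G.rootSubgroup_eq, G.posUnipotent_eq, ← H14.PreSt.U_union,
    ← H14.PreSt.U_union]
  refine ⟨((H14.PreSt.U_mono ?_).trans (H14.St.U_inJ_le_P {i})).trans (H14.St.P_le_normalizer _), ?_⟩
  · rintro _ (rfl | rfl)
    · exact G.R.inJ_simple.2 rfl
    · exact G.R.inJ_neg.2 (G.R.inJ_simple.2 rfl)
  · congr 1
    ext r
    constructor
    · rintro (h | rfl)
      exacts [h.1, G.R.pos_simple i]
    · intro h
      by_cases e : r = G.R.simple i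
      exacts [Or.inr e, Or.inl ⟨h, (h0 r h).not.2 e⟩]

end Cfsg.Agent.S1045
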