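import Cfsg.Statements.S1080
import Cfsg.Agent.H14.GoodSt

set_option autoImplicit false
open Cfsg

namespace Cfsg.Agent.S1080

/-- Field automorphisms: for every field automorphism `f` there is a group automorphism sending each `x_r(t)` to `x_r(f t)`. -/
theorem result {F : Type*} [Field F] (D : Cfsg.Lie.ChevalleyDatum) (hD : D ∈ [Cfsg.Lie.chevG2, Cfsg.Lie.chevB2, Cfsg.Lie.chevD4, Cfsg.Lie.chevF4, Cfsg.Lie.chevE6, Cfsg.Lie.chevE7, Cfsg.Lie.chevE8]) (f : F ≃+* F) :
    ∃ α : ↥(D.group F) ≃* ↥(D.group F), ∀ (g : ↥(D.group F)) (r : ℕ) (t : F), r < D.nroots →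
      ((g : GL D.Idx F) : Matrix D.Idx D.Idx F) = D.x F r t → ((α g : GL D.Idx F) : Matrix D.Idx D.Idx F) = D.x F r (f t) := by
  obtain ⟨G⟩ := H14.good_of_mem hD
  let S' : (F ≃+* F) → H14.St G.C F (D.group F) := fun f =>
    { x := fun r t => (G.SG F).x r (f t)
      x_add := fun r t u => by rw [map_add, H14.PreSt.x_add]
      comm := fun r s h1 h2 t u => by simpa [H14.PreChev.tval] using (G.SG F).comm r s h1 h2 (f t) (f u)
      nconj := fun r s t ht u => by simpa [H14.PreSt.n] using (G.SG F).nconj r s (f t) (by simpa using ht) (f u) }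
  have key : ∀ f : F ≃+* F, ∃ φ : D.group F →* D.group F, ∀ r t, φ ((G.SG F).x r t) = (G.SG F).x r (f t) := fun f => by
    refine H14.St.exists_isHom_of_center (S' := S' f) (G.SG_sep F) (G.SG_top F) fun z _ h => G.SG_center F z
      (G.SG_top F ▸ Subgroup.mem_top _) fun g hg => h g (H14.PreSt.U_le.2 (fun r _ t => ?_) hg)
    simpa [S'] using H14.PreSt.x_mem_U (S := (S' f).toPreSt) (Set.mem_univ r) (f.symm t)
  obtain ⟨φ, h1⟩ := key f
  obtain ⟨ψ, h2⟩ := key f.symm
  have ext : ∀ α : D.group F →* D.group F, (∀ r t, α ((G.SG F).x r t) = (G.SG F).x r t) → α = MonoidHom.id _ :=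
    fun α h => MonoidHom.eq_of_eqOn_dense (G.SG_top F) (by rintro _ ⟨r, -, t, rfl⟩; exact h r t)
  refine ⟨φ.toMulEquiv ψ (ext _ (by simp [h1, h2])) (ext _ (by simp [h1, h2])), fun g r t hr h => ?_⟩
  lift r to Fin D.nroots using hr
  rw [G.eq_SG_x] at h ⊢
  simp [h, h1]

end Cfsg.Agent.S1080
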