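import Cfsg.Statements.S1084
import Cfsg.Agent.H14.Cub2

set_option autoImplicit false
open Cfsg

namespace Cfsg.Agent.S1084

/-- E₆ via the 27-dimensional cubic form: for a finite field with at least three elements, (isometries of the cubic form) / centre ≅ the Chevalley group E₆(F). -/
theorem result {F : Type*} [Field F] [Fintype F] (hF : 3 ≤ Fintype.card F) : Nonempty (Cfsg.Lie.E6 F ≃* ↥(Cfsg.Lie.chevE6.group F)) := by
  refine H14.Cub.main ?_
  classical
  by_contra! c
  have := Finset.card_le_card (show (Finset.univ : Finset F) ⊆ {0, 1} from fun a _ => by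
    by_cases h : a = 0 <;> simp [h, c a])
  have := Finset.card_le_two (a := (0 : F)) (b := 1)
  rw [Finset.card_univ] at *
  omega

end Cfsg.Agent.S1084
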