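import Cfsg.Statements.S1097
import Cfsg.Agent.H14.Stein

set_option autoImplicit false
open Cfsg

namespace Cfsg.Agent.S1097

/-- Any homomorphism from the presented group to the Chevalley group with `x̄_r(t) ↦ x_r(t)` has kernel contained in `H̄ = ⟨h̄_p(t) : p fundamental, t ≠ 0⟩`. -/
theorem result {K : Type*} [Field K] (D : Cfsg.Lie.ChevalleyDatum) (hD : D ∈ [Cfsg.Lie.chevG2, Cfsg.Lie.chevB2, Cfsg.Lie.chevD4, Cfsg.Lie.chevF4, Cfsg.Lie.chevE6, Cfsg.Lie.chevE7, Cfsg.Lie.chevE8]) (θ : D.SteinbergGroup K →* ↥(D.group K))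
    (hθ : ∀ (r : ℕ) (t : K), r < D.nroots → ((θ (D.stGen K r t) : GL D.Idx K) : Matrix D.Idx D.Idx K) = D.x K r t) :
    θ.ker ≤ Subgroup.closure {h | ∃ (i : ℕ) (t : K), i < D.rank ∧ t ≠ 0 ∧ h = PresentedGroup.mk (D.steinbergRels K) (D.stH (D.simple i) t)} := by
  obtain ⟨G⟩ := H14.good_of_mem hD
  have h : (G.stb K).toPreSt.IsHom (G.SG K).toPreSt θ := fun r t => G.eq_SG_x.1 (hθ r t r.2)
  refine le_trans (fun g hg => H14.St.mem_H_of_map_eq_one (G.SG_sep K) h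
    (G.pres_top (H14.Good.relsAB_subset D K) ▸ Subgroup.mem_top g) hg)
    (H14.St.H_le_of_simple fun i t ht => Subgroup.subset_closure ⟨i, t, i.2, ht, ?_⟩)
  rw [G.pres_h, G.simple]

end Cfsg.Agent.S1097
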