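import Cfsg.Statements.S1100
import Cfsg.Agent.H14.GoodSt

set_option autoImplicit false
open Cfsg

namespace Cfsg.Agent.S1100

/-- Canonical form `g = b n_w u` (`b ∈ B`, `u ∈ U_w⁻ = ⟨X_r : r > 0, n_w X_r n_w⁻¹ ≤ V⟩`): such a decomposition exists for every element of the group; the coset `n_w H` is determined by `g`; and for a fixed representative `n_w` the factors `b`, `u` are unique. -/
theorem result {F : Type*} [Field F] (D : Cfsg.Lie.ChevalleyDatum) (hD : D ∈ [Cfsg.Lie.chevG2, Cfsg.Lie.chevB2, Cfsg.Lie.chevD4, Cfsg.Lie.chevF4, Cfsg.Lie.chevE6, Cfsg.Lie.chevE7, Cfsg.Lie.chevE8]) :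
    (∀ g ∈ D.group F, ∃ b ∈ D.borelSubgroup F, ∃ n ∈ D.monomialSubgroup F,
      ∃ u ∈ Subgroup.closure {x : GL D.Idx F | ∃ (r : ℕ) (t : F), D.IsPosRoot r ∧
            (D.rootSubgroup F r).map (MulAut.conj n).toMonoidHom ≤ D.negUnipotent F ∧ (x : Matrix D.Idx D.Idx F) = D.x F r t},
        g = b * n * u) ∧
    (∀ (b b' n n' u u' : GL D.Idx F), b ∈ D.borelSubgroup F → b' ∈ D.borelSubgroup F →
      n ∈ D.monomialSubgroup F → n' ∈ D.monomialSubgroup F →
      u ∈ Subgroup.closure {x : GL D.Idx F | ∃ (r : ℕ) (t : F), D.IsPosRoot r ∧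
            (D.rootSubgroup F r).map (MulAut.conj n).toMonoidHom ≤ D.negUnipotent F ∧ (x : Matrix D.Idx D.Idx F) = D.x F r t} →
      u' ∈ Subgroup.closure {x : GL D.Idx F | ∃ (r : ℕ) (t : F), D.IsPosRoot r ∧
            (D.rootSubgroup F r).map (MulAut.conj n').toMonoidHom ≤ D.negUnipotent F ∧ (x : Matrix D.Idx D.Idx F) = D.x F r t} →
      b * n * u = b' * n' * u' → n⁻¹ * n' ∈ D.diagonalSubgroup F ∧ (n = n' → b = b' ∧ u = u')) := by
  obtain ⟨G⟩ := H14.good_of_mem hD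
  have key : ∀ {n w}, (n, w) ∈ (G.S F).NW →
      Subgroup.closure {x : GL D.Idx F | ∃ (r : ℕ) (t : F), D.IsPosRoot r ∧
        (D.rootSubgroup F r).map (MulAut.conj n).toMonoidHom ≤ D.negUnipotent F ∧
          (x : Matrix D.Idx D.Idx F) = D.x F r t} = (G.S F).U {r | G.R.pos r ∧ ¬ G.R.pos (w r)} := fun {n w} h => by
    rw [← G.closure_eq F (p := fun r => D.IsPosRoot r ∧
      (D.rootSubgroup F r).map (MulAut.conj n).toMonoidHom ≤ D.negUnipotent F) (fun _ h => h.1.1) fun r => ?_]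
    · simp only [and_assoc]
    · rw [G.isPosRoot_iff, G.rootSubgroup_eq, G.negUnipotent_eq, H14.St.NW.map_U h, Set.image_singleton]
      have : (G.S F).U {w r} ≤ (G.S F).U {r | ¬ G.R.pos r} ↔ ¬ G.R.pos (w r) :=
        ⟨fun h => (G.sep F).neg_of_x_mem one_ne_zero (H14.PreSt.U_le.1 h _ rfl 1),
          fun h => H14.PreSt.U_mono (Set.singleton_subset_iff.2 h)⟩
      rw [this]
      rfl
  rw [G.group_eq, G.borelSubgroup_eq, G.monomialSubgroup_eq, G.diagonalSubgroup_eq]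
  refine ⟨fun g hg => ?_, fun b b' n n' u u' hb hb' hn hn' hu hu' e => ?_⟩
  · obtain ⟨w, hw⟩ := H14.St.exists_cell hg
    obtain ⟨n, hn⟩ := H14.PreSt.exists_NW_of_W (S := (G.S F).toPreSt) hw.mem_W
    obtain ⟨b, hb, u, hu, e⟩ := hw.canonical hn
    exact ⟨b, hb, n, H14.PreSt.NW.mem_N hn, u, key hn ▸ hu, e⟩
  · obtain ⟨w, hw⟩ := H14.PreSt.exists_NW_of_N hn
    obtain ⟨w', hw'⟩ := H14.PreSt.exists_NW_of_N hn'
    rw [key hw] at hu
    rw [key hw'] at hu'
    have c1 : (G.S F).Cell w (b * n * u) := ⟨b, hb, n, hw, u, H14.PreSt.U_mono (fun _ h => And.left h) hu, rfl⟩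
    have c2 : (G.S F).Cell w' (b * n * u) := ⟨b', hb', n', hw', u', H14.PreSt.U_mono (fun _ h => And.left h) hu', e⟩
    obtain rfl : w = w' := c1.unique (G.sep F) c2
    refine ⟨H14.St.NW.inv_mul_mem_H hw hw', ?_⟩
    rintro rfl
    exact H14.St.canonical_unique (G.sep F) hw hb hb' hu hu' e

end Cfsg.Agent.S1100
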