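import Cfsg.Statements.S1108
import Cfsg.Agent.H14.TwD4

set_option autoImplicit false
open Cfsg

namespace Cfsg.Agent.S1108

/-- ³D₄(q) equals its derived subgroup. -/
theorem result {K : Type*} [Field K] [Fintype K] {q : ℕ} (hq : IsPrimePow q) (hK : Fintype.card K = q ^ 3) : commutator ↥(Cfsg.Lie.twistedD4 K q) = ⊤ := by
  obtain ⟨φ, h2, hφ⟩ := H14.D4.exists_hom hq hK
  obtain ⟨s, hs⟩ := exists_pow_ne_one_of_isCyclic (G := Kˣ) two_ne_zero (by
    rw [Nat.card_units, Nat.card_eq_fintype_card, hK]; have := Nat.pow_le_pow_left hq.two_le 3; omega)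
  exact H14.D4.perfect (H14.D4.isTw (h3 := h2) hφ).emb hs

end Cfsg.Agent.S1108
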