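import Cfsg.Statements.S1110
import Cfsg.Agent.H14.TwF4

set_option autoImplicit false
open Cfsg

namespace Cfsg.Agent.S1110

/-- `|H¹| = |G¹ ∩ H|`: `|H¹| = (2 ^ (2 * m + 1) - 1) ^ 2` for ²F₄(2^(2m+1)). -/
theorem result {K : Type*} [Field K] [Fintype K] {m : ℕ} (hK : Fintype.card K = 2 ^ (2 * m + 1)) :
    Nat.card ↥(Cfsg.Lie.chevF4.diagonalSubgroup K ⊓ Cfsg.Lie.twistedF4 K (2 ^ m)) = (2 ^ (2 * m + 1) - 1) ^ 2 := by
  obtain ⟨_, φ, h2, hφ⟩ := H14.exists_tits Nat.prime_two hK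
  rw [(H14.F4.isTw (h2 := h2) hφ).card_H', H14.F4.card_H, Nat.card_units, Nat.card_eq_fintype_card, hK]

end Cfsg.Agent.S1110
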