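import Cfsg.Statements.S1112
import Cfsg.Agent.H14.TwF4

set_option autoImplicit false
open Cfsg

namespace Cfsg.Agent.S1112

/-- ²F₄(2^(2m+1)) (m ≥ 1) equals its derived subgroup. -/
theorem result {K : Type*} [Field K] [Fintype K] {m : ℕ} (hK : Fintype.card K = 2 ^ (2 * m + 1)) (hm : 1 ≤ m) : commutator ↥(Cfsg.Lie.twistedF4 K (2 ^ m)) = ⊤ := by
  obtain ⟨_, φ, h2, hφ⟩ := H14.exists_tits Nat.prime_two hK
  obtain ⟨s, hs⟩ := exists_pow_ne_one_of_isCyclic (G := Kˣ) one_ne_zero (by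
    rw [Nat.card_units, Nat.card_eq_fintype_card, hK]
    have := Nat.pow_le_pow_right two_pos (show 3 ≤ 2 * m + 1 by omega); omega)
  exact H14.F4.perfect (H14.F4.isTw (h2 := h2) hφ).emb (by simpa using hs)

end Cfsg.Agent.S1112
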