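import Cfsg.Statements.S1118
import Cfsg.Agent.H13.RankOne2

set_option autoImplicit false
open Cfsg

namespace Cfsg.Agent.S1118

/-- In the rank-one set-up (`G` finite and doubly transitive on `Ω`, `t` an involution moving `a`, `Q` normal in `G_a` with `G_a = Q D`, `Q ⊓ D = 1` for the two-point stabiliser `D = G_a ⊓ G_{t • a}`, `|Q|` even, `|D|` odd), the normaliser of a subset of `Q` containing a non-identity element lies in `G_a`; consequently `N_G(Q) = N_G(G_a) = G_a`. -/
theorem result {G Ω : Type*} [Group G] [Finite G] [MulAction G Ω] {a : Ω} {t : G} {Q : Subgroup G}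
    (hS : Cfsg.IsRankOneSetup G Ω a t Q) :
    (∀ X : Set G, X ⊆ (Q : Set G) → (∃ x ∈ X, x ≠ 1) → Subgroup.normalizer X ≤ MulAction.stabilizer G a) ∧
      Subgroup.normalizer (Q : Set G) = MulAction.stabilizer G a ∧
      Subgroup.normalizer (MulAction.stabilizer G a : Set G) = MulAction.stabilizer G a := by
  have h1 : ∀ X : Set G, X ⊆ (Q : Set G) → (∃ x ∈ X, x ≠ 1) →
      Subgroup.normalizer X ≤ MulAction.stabilizer G a := by
    rintro X hX ⟨x, hx, hx1⟩ g hg
    have h2 : g⁻¹ * x * g⁻¹⁻¹ ∈ X := (Subgroup.mem_set_normalizer_iff.1 (inv_mem hg) x).1 hx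
    have h3 : x • g • a = g • a := by
      have := H13.RankOne.fix hS (hX h2)
      rwa [inv_inv, mul_smul, mul_smul, inv_smul_eq_iff] at this
    by_contra hne
    exact hx1 (H13.RankOne.eq_one_of_fix hS (hX hx) hne h3)
  obtain ⟨s, hs⟩ := H13.RankOne.I0_nonempty hS
  have hsQ := H13.RankOne.I0_subset_Q hS hs
  refine ⟨h1, le_antisymm (h1 _ le_rfl ⟨s, hsQ, hs.2.1⟩) (H13.RankOne.le_normalizer hS),
    le_antisymm (fun g hg => ?_) Subgroup.le_normalizer⟩
  have h2 : g⁻¹ * s * g⁻¹⁻¹ ∈ MulAction.stabilizer G a :=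
    (Subgroup.mem_normalizer_iff.1 (inv_mem hg) s).1 hs.1
  rw [MulAction.mem_stabilizer_iff, inv_inv, mul_smul, mul_smul, inv_smul_eq_iff] at h2
  exact H13.RankOne.fix_unique hS hs.2.1 hs.2.2 h2 hs.1

end Cfsg.Agent.S1118
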