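import Cfsg.Statements.S1119
import Cfsg.Agent.H13.RankOne2

set_option autoImplicit false
open Cfsg

namespace Cfsg.Agent.S1119

/-- In the rank-one set-up (`G` finite and doubly transitive on `Ω`, `t` an involution moving `a`, `Q` normal in `G_a` with `G_a = Q D`, `Q ⊓ D = 1` for the two-point stabiliser `D = G_a ⊓ G_{t • a}`, `|Q|` even, `|D|` odd): `Q` acts regularly on `Ω` minus `a`; hence `|Ω| = |Q| + 1`, `|G| = |Q| |D| (|Q| + 1)`, some Sylow 2-subgroup of `G` lies in `Q`, and each `g ∉ G_a` is uniquely `x t y` with `x ∈ G_a`, `y ∈ Q` (canonical form). -/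
theorem result {G Ω : Type*} [Group G] [Finite G] [MulAction G Ω] {a : Ω} {t : G} {Q : Subgroup G}
    (hS : Cfsg.IsRankOneSetup G Ω a t Q) :
    (∀ b c : Ω, b ≠ a → c ≠ a → ∃! x : Q, (x : G) • b = c) ∧
      Nat.card Ω = Nat.card Q + 1 ∧
      Nat.card G = Nat.card Q * Nat.card ↥(MulAction.stabilizer G a ⊓ MulAction.stabilizer G (t • a)) * (Nat.card Q + 1) ∧
      (∃ P : Sylow 2 G, (P : Subgroup G) ≤ Q) ∧
      ∀ g : G, g ∉ MulAction.stabilizer G a → ∃! p : G × G, p.1 ∈ MulAction.stabilizer G a ∧ p.2 ∈ Q ∧ g = p.1 * t * p.2 := by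
  refine ⟨fun b c hb hc => ?_, H13.RankOne.card_Ω hS, H13.RankOne.card_G hS, ?_, fun g hg => ?_⟩
  · obtain ⟨q, hq, e⟩ := H13.RankOne.reg_exists hS hb hc
    exact ⟨⟨q, hq⟩, e, fun y hy => Subtype.ext (H13.RankOne.reg_unique hS y.2 hq hb (hy.trans e.symm))⟩
  · have : Fact (Nat.Prime 2) := ⟨Nat.prime_two⟩
    obtain ⟨P⟩ := (inferInstance : Nonempty (Sylow 2 Q))
    have hind : ¬ 2 ∣ Q.index := by
      have h1 := H13.RankOne.card_G hS
      rw [← Q.card_mul_index, mul_assoc, Nat.mul_right_inj Nat.card_pos.ne'] at h1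
      rw [h1, ← even_iff_two_dvd, Nat.not_even_iff_odd]
      exact hS.odd_card.mul hS.even_card.add_one
    have hP : IsPGroup 2 ((P : Subgroup Q).map Q.subtype) := P.2.map _
    refine ⟨hP.toSylow ?_, Subgroup.map_subtype_le _⟩
    rw [Subgroup.index_map_subtype]
    exact Nat.prime_two.not_dvd_mul P.not_dvd_index hind
  · obtain ⟨x, y, hx, hy, e⟩ := H13.RankOne.canon_exists hS hg
    refine ⟨(x, y), ⟨hx, hy, e⟩, ?_⟩
    rintro ⟨x', y'⟩ ⟨hx', hy', e'⟩
    obtain ⟨h1, h2⟩ := H13.RankOne.canon_unique hS hx' hy' hx hy (e'.symm.trans e)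
    exact Prod.ext h1 h2

end Cfsg.Agent.S1119
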