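import Cfsg.Statements.S1120
import Cfsg.Agent.H13.RankOne2
import Cfsg.Agent.H1.Core

set_option autoImplicit false
open Cfsg

namespace Cfsg.Agent.S1120

/-- In the rank-one set-up (`G` finite and doubly transitive on `Ω`, `t` an involution moving `a`, `Q` normal in `G_a` with `G_a = Q D`, `Q ⊓ D = 1` for the two-point stabiliser `D = G_a ⊓ G_{t • a}`, `|Q|` even, `|D|` odd), if `G` has 2-rank at least 2 then `O_{2'}(G)` equals the normal core of `G_a`. -/
theorem result {G Ω : Type*} [Group G] [Finite G] [MulAction G Ω] {a : Ω} {t : G} {Q : Subgroup G}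
    (hS : Cfsg.IsRankOneSetup G Ω a t Q)
    (h2 : ∃ x y : G, x ≠ 1 ∧ y ≠ 1 ∧ x ≠ y ∧ x * x = 1 ∧ y * y = 1 ∧ x * y = y * x) :
    Cfsg.pPrimeCore 2 G = (MulAction.stabilizer G a).normalCore := by
  have hodd : Odd (Nat.card (Cfsg.pPrimeCore 2 G)) := Nat.coprime_two_right.1 H1.pPrimeCore_coprime
  apply le_antisymm
  · rw [Subgroup.normal_le_normalCore]
    obtain ⟨x, hx, y, hy, hxy, hc⟩ := H13.RankOne.exists_two_I0 hS h2
    set O := Cfsg.pPrimeCore 2 G
    have hO : O.Normal := inferInstance
    have hx' : x⁻¹ = x := inv_eq_of_mul_eq_one_right hx.2.2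
    have hy' : y⁻¹ = y := inv_eq_of_mul_eq_one_right hy.2.2
    have key : ∀ u : G, u * u = 1 → u * x ∈ O → u • a = a := by
      intro u hu2 hu
      have hu' : u⁻¹ = u := inv_eq_of_mul_eq_one_right hu2
      obtain ⟨v, hv⟩ : ∃ v, v = y * u * y⁻¹ := ⟨_, rfl⟩
      have hv2 : v * v = 1 := by
        rw [hv]
        calc _ = y * (u * u) * y⁻¹ := by group
          _ = 1 := by rw [hu2]; group
      have hv' : v⁻¹ = v := inv_eq_of_mul_eq_one_right hv2
      have huv : u * v ∈ O := by
        have e : u * v = (u * x) * (y * (u * x)⁻¹ * y⁻¹) := by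
          rw [hv, mul_inv_rev, hu', hx', mul_assoc u x, ← mul_assoc x, ← mul_assoc x, hc, ← mul_assoc (y * x),
            mul_assoc y x x, hx.2.2, mul_one]
        rw [e]
        exact mul_mem hu (hO.conj_mem _ (inv_mem hu) y)
      have ho := H13.odd_orderOf_of_mem hodd huv
      obtain ⟨m, hm⟩ := ho
      have h1 := H13.conj_pow_mul_inv hu2 hv2 m
      have h3 : (u * v) ^ m * (u * v) * (u * v) ^ m = 1 := by
        rw [← pow_succ, ← pow_add, show m + 1 + m = 2 * m + 1 by ring, ← hm, pow_orderOf_eq_one]
      have hmO : (u * v) ^ m ∈ O := pow_mem huv m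
      have h4 : y * (u * v) ^ m * y⁻¹ = ((u * v) ^ m)⁻¹ := by
        rw [← conj_pow, ← inv_pow, mul_inv_rev, hu', hv']
        congr 1
        have : y * v * y⁻¹ = u := by
          rw [hv, hy']
          calc _ = (y * y) * u * (y * y) := by group
            _ = u := by rw [hy.2.2]; group
        rw [← this]
        conv_rhs => enter [1]; rw [hv]
        conv_lhs => rw [this]
        group
      set z := (u * v) ^ m
      have h5 : y * (z * u) = (z * u) * y := by
        have e1 : y * (z * u) * y⁻¹ = z⁻¹ * v := by rw [← h4, hv]; group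
        have e2 : z⁻¹ = z * (u * v) := by
          rw [eq_comm, ← mul_eq_one_iff_eq_inv, h3]
        rw [e2, mul_assoc z (u * v) v, mul_assoc u v v, hv2, mul_one] at e1
        exact mul_inv_eq_iff_eq_mul.1 e1
      have h6 : (z * u) * (z * u) = 1 := by
        rw [mul_assoc, ← mul_assoc u, h1, mul_inv_cancel]
      have h7 : (z * u * y) * (z * u * y) = 1 := by
        rw [mul_assoc (z * u) y, ← mul_assoc y, h5, mul_assoc _ y y, hy.2.2, mul_one, h6]
      have h8 : z * u * y ≠ 1 := by
        intro h
        have h9 : x * y ∈ O := by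
          have : x * y = (z * (u * x))⁻¹ * (z * u * y) := by
            rw [← mul_assoc z u x, mul_inv_rev, hx']; group
          rw [this, h, mul_one]
          exact inv_mem (mul_mem hmO hu)
        have := H13.eq_one_of_sq_of_odd (by
          rw [mul_assoc, ← mul_assoc y, ← hc, mul_assoc x y y, hy.2.2, mul_one, hx.2.2])
          (H13.odd_orderOf_of_mem hodd h9)
        rw [mul_eq_one_iff_eq_inv, hy'] at this
        exact hxy this
      have h9 : (z * u) • a = a := H13.RankOne.fix_of_commute hS hy.2.1 hy.2.2 hy.1 h5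
      refine H13.RankOne.fix_of_commute hS h8 h7 (by rw [mul_smul, show y • a = a from hy.1, h9]) ?_
      have e1 : y * u = v * y := by rw [hv]; group
      have e2 : z * u * v = u * (z * u) := by
        have : u * (z * u) = z⁻¹ := by rw [← h1]; group
        rw [this, eq_comm, eq_comm, ← mul_eq_one_iff_eq_inv, mul_assoc z u v, h3]
      rw [Commute, SemiconjBy, mul_assoc, e1, ← mul_assoc, e2, mul_assoc]
    intro g hg
    have := key (g * x * g⁻¹) (by
      calc _ = g * (x * x) * g⁻¹ := by group
        _ = 1 := by rw [hx.2.2]; group) (by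
      have : g * x * g⁻¹ * x = g * (x * g⁻¹ * x⁻¹) := by rw [hx']; group
      rw [this]
      exact mul_mem hg (hO.conj_mem _ (inv_mem hg) x))
    have h3 : (g * x * g⁻¹) • g • a = g • a := by
      rw [mul_smul, mul_smul, inv_smul_smul, show x • a = a from hx.1]
    exact H13.RankOne.fix_unique hS (u := g * x * g⁻¹) (by simpa using hx.2.1) (by
      calc _ = g * (x * x) * g⁻¹ := by group
        _ = 1 := by rw [hx.2.2]; group) h3 this
  · refine H1.le_pPrimeCore inferInstance (Nat.coprime_two_right.2 (hS.odd_card.of_dvd_nat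
      (Subgroup.card_dvd_of_le fun g hg => ⟨Subgroup.normalCore_le _ hg, ?_⟩)))
    have := hg t
    rw [MulAction.mem_stabilizer_iff, H13.RankOne.t_inv hS, mul_smul, mul_smul,
      smul_eq_iff_eq_inv_smul, H13.RankOne.t_inv hS] at this
    exact this

end Cfsg.Agent.S1120
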