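import Cfsg.Statements.S1132
import Cfsg.Agent.H3.SzL

set_option autoImplicit false
open Cfsg

namespace Cfsg.Agent.S1132

/-- In the rank-one set-up (`G` finite and doubly transitive on `Ω`, `t` an involution moving `a`, `Q` normal in `G_a` with `G_a = Q D`, `Q ⊓ D = 1` for the two-point stabiliser `D = G_a ⊓ G_{t • a}`, `|Q|` even, `|D|` odd), with the action faithful and `G` containing two distinct commuting involutions: a Sylow 2-subgroup of `Q` is abelian or a Suzuki 2-group. -/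
theorem result {G Ω : Type*} [Group G] [Finite G] [MulAction G Ω] [FaithfulSMul G Ω] {a : Ω} {t : G} {Q : Subgroup G}
    (hS : Cfsg.IsRankOneSetup G Ω a t Q)
    (h2 : ∃ x y : G, x ≠ 1 ∧ y ≠ 1 ∧ x ≠ y ∧ x * x = 1 ∧ y * y = 1 ∧ x * y = y * x)
    (S : Sylow 2 ↥Q) : IsMulCommutative (S : Subgroup ↥Q) ∨ Cfsg.IsSuzukiTwoGroup ↥(S : Subgroup ↥Q) := by
  obtain ⟨s, r, h⟩ := H3.Sz.exists_R1 hS h2
  by_cases hc : IsMulCommutative (S : Subgroup ↥Q)
  · exact Or.inl hc
  right
  obtain ⟨k₀, hk₀, hK⟩ := h.exists_gen'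
  have hT := H28.isSylowIn_map_subtype S
  haveI := h.nil
  have hn : Q ≤ Subgroup.normalizer ((S : Subgroup Q).map Q.subtype : Set G) :=
    H28.le_normalizer_map_subtype _
  have hT0 : H3.Sz.Q0 G a ≤ (S : Subgroup Q).map Q.subtype :=
    hT.le_of_le_normalizer h.isPGroup_Q0 h.Q0_le (h.Q0_le.trans hn)
  have hkn : k₀ ∈ Subgroup.normalizer ((S : Subgroup Q).map Q.subtype : Set G) := by
    rw [hT.eq_pCoreOf hn]
    exact H28.normalizer_le_normalizer_pCoreOf 2 Q (H3.Sz.D_norm hS hk₀.1)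
  have hz := h.suz hK hT.isPGroup hT0 hT.le hkn
  let e := Subgroup.equivMapOfInjective (S : Subgroup Q) _ Q.subtype_injective
  set k := ((S : Subgroup Q).map Q.subtype).normalizerMonoidHom ⟨k₀, hkn⟩
  have hinv : ∀ x : (S : Subgroup Q), x ≠ 1 → x * x = 1 → e x ≠ 1 ∧ e x * e x = 1 :=
    fun x h1 h2 => ⟨by simpa using h1, by rw [← map_mul, h2, map_one]⟩
  have hpow : ∀ (j : ℕ) x, e (((MulAut.congr e).symm k ^ j) x) = (k ^ j) (e x) := fun j x => by
    rw [← map_pow]; simp [MulAut.congr]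
  refine ⟨inferInstance, S.isPGroup', ?_, ?_, Subgroup.zpowers ((MulAut.congr e).symm k),
    inferInstance, fun x y x1 x2 y1 y2 => ?_⟩
  · by_contra hn
    push Not at hn
    exact hc ⟨⟨hn⟩⟩
  · obtain ⟨x, y, h1, h3, h4, h5, h6⟩ := hz.two
    exact ⟨e.symm x, e.symm y, by simpa using h1, by simpa using h3, by rw [← map_mul, h4, map_one],
      by simpa using h5, by rw [← map_mul, h6, map_one]⟩
  · obtain ⟨j, hj⟩ := hz.trans _ _ (hinv x x1 x2).1 (hinv x x1 x2).2 (hinv y y1 y2).1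
      (hinv y y1 y2).2
    have key : ∀ u : Subgroup.zpowers ((MulAut.congr e).symm k),
        (u : MulAut (S : Subgroup Q)) x = x → u = 1 := fun u hu => by
      obtain ⟨i, hi⟩ := mem_powers_iff_mem_zpowers.2 u.2
      have := hz.free i _ (hinv x x1 x2).1 (hinv x x1 x2).2 (by
        rw [← hpow, show (MulAut.congr e).symm k ^ i = u from hi, hu])
      exact Subtype.ext (by rw [← hi]; show _ ^ i = 1; rw [← map_pow, this, map_one])
    refine ⟨⟨_, Subgroup.npow_mem_zpowers _ j⟩, e.injective (by rw [← hj]; exact hpow j x),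
      fun u hu => ?_⟩
    refine (inv_mul_eq_one.1 (key _ ?_)).symm
    have : ((MulAut.congr e).symm k ^ j) x = y := e.injective (by rw [← hj]; exact hpow j x)
    simp only [Subgroup.coe_mul, InvMemClass.coe_inv, MulAut.mul_apply]
    rw [show (u : MulAut (S : Subgroup Q)) x = y from hu, ← this]; simp

end Cfsg.Agent.S1132
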