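import Cfsg.Statements.S1133
import Cfsg.Agent.H3.SzL

set_option autoImplicit false
open Cfsg

namespace Cfsg.Agent.S1133

/-- In the rank-one set-up (`G` finite and doubly transitive on `Ω`, `t` an involution moving `a`, `Q` normal in `G_a` with `G_a = Q D`, `Q ⊓ D = 1` for the two-point stabiliser `D = G_a ⊓ G_{t • a}`, `|Q|` even, `|D|` odd), with the action faithful and `G` containing two distinct commuting involutions, with `V = C_D(t)`, `K` the elements of `D` inverted by `t` and `W = C_V(K)`: `V/W` is cyclic, i.e. `V = W ⟨v⟩` for some `v ∈ V`. -/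
theorem result {G Ω : Type*} [Group G] [Finite G] [MulAction G Ω] [FaithfulSMul G Ω] {a : Ω} {t : G} {Q : Subgroup G}
    (hS : Cfsg.IsRankOneSetup G Ω a t Q)
    (h2 : ∃ x y : G, x ≠ 1 ∧ y ≠ 1 ∧ x ≠ y ∧ x * x = 1 ∧ y * y = 1 ∧ x * y = y * x) :
    ∃ v ∈ (MulAction.stabilizer G a ⊓ MulAction.stabilizer G (t • a)) ⊓ Subgroup.centralizer {t},
      ((MulAction.stabilizer G a ⊓ MulAction.stabilizer G (t • a)) ⊓ Subgroup.centralizer {t} ⊓ Subgroup.centralizer (Cfsg.invertedBy (MulAction.stabilizer G a ⊓ MulAction.stabilizer G (t • a)) t)) ⊔ Subgroup.closure {v} =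
        (MulAction.stabilizer G a ⊓ MulAction.stabilizer G (t • a)) ⊓ Subgroup.centralizer {t} := by
  obtain ⟨s, r, h⟩ := H3.Sz.exists_R1 hS h2
  obtain ⟨v, hv, e⟩ := h.exists_V_gen
  refine ⟨v, hv, le_antisymm (sup_le inf_le_left ((Subgroup.closure_le _).2
    (Set.singleton_subset_iff.2 hv))) fun u hu => ?_⟩
  obtain ⟨n, hn⟩ := e u hu
  have h1 : u * (v ^ n)⁻¹ ∈ H3.Sz.V a t ⊓ Subgroup.centralizer (H13.RankOne.K a t) :=
    Subgroup.mem_inf.2 ⟨H3.Sz.W_le_V hS hn, fun k hk => H3.Sz.W_comm_K hS hn hk⟩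
  have h3 : v ^ n ∈ Subgroup.closure {v} := pow_mem (Subgroup.subset_closure (Set.mem_singleton v)) n
  have := mul_mem (Subgroup.mem_sup_left h1) (Subgroup.mem_sup_right h3)
  rwa [inv_mul_cancel_right] at this

end Cfsg.Agent.S1133
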