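import Cfsg.Statements.S1134
import Cfsg.Agent.H13.RankOne2

set_option autoImplicit false
open Cfsg

namespace Cfsg.Agent.S1134

/-- In the rank-one set-up (`G` finite and doubly transitive on `Ω`, `t` an involution moving `a`, `Q` normal in `G_a` with `G_a = Q D`, `Q ⊓ D = 1` for the two-point stabiliser `D = G_a ⊓ G_{t • a}`, `|Q|` even, `|D|` odd), with the action faithful and `G` containing two distinct commuting involutions, with `V = C_D(t)`: subsets of `V` conjugate in `G` are conjugate in `V`. -/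
theorem result {G Ω : Type*} [Group G] [Finite G] [MulAction G Ω] [FaithfulSMul G Ω] {a : Ω} {t : G} {Q : Subgroup G}
    (hS : Cfsg.IsRankOneSetup G Ω a t Q)
    (h2 : ∃ x y : G, x ≠ 1 ∧ y ≠ 1 ∧ x ≠ y ∧ x * x = 1 ∧ y * y = 1 ∧ x * y = y * x)
    (X : Set G) (hX : X ⊆ (((MulAction.stabilizer G a ⊓ MulAction.stabilizer G (t • a)) ⊓ Subgroup.centralizer {t} : Subgroup G) : Set G)) (g : G)
    (hY : (fun x => g * x * g⁻¹) '' X ⊆ (((MulAction.stabilizer G a ⊓ MulAction.stabilizer G (t • a)) ⊓ Subgroup.centralizer {t} : Subgroup G) : Set G)) :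
    ∃ v ∈ (MulAction.stabilizer G a ⊓ MulAction.stabilizer G (t • a)) ⊓ Subgroup.centralizer {t}, (fun x => v * x * v⁻¹) '' X = (fun x => g * x * g⁻¹) '' X := by
  obtain ⟨b, c, d, h1, h2, h3, h4⟩ := H13.RankOne.V_three hS
  have hc : ∀ y : G, y ∈ Subgroup.centralizer {t} ↔ t * y = y * t := fun y =>
    Subgroup.mem_centralizer_singleton_iff.trans eq_comm
  have hfix : ∀ p : Ω, (∀ y ∈ H13.RankOne.D a t, y • p = p) → ∀ x ∈ X, x • g⁻¹ • p = g⁻¹ • p := by
    intro p hp x hx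
    have := hp _ (hY ⟨x, hx, rfl⟩).1
    rwa [mul_smul, mul_smul, smul_eq_iff_eq_inv_smul] at this
  obtain ⟨c, hc1, e1, e2⟩ := H13.RankOne.cent_two_trans hS (X := X)
    ⟨b, c, d, h1, h2, h3, fun x hx => h4 x (hX hx).1 ((hc x).1 (hX hx).2)⟩
    (b₁ := a) (b₂ := t • a) (c₁ := g⁻¹ • a) (c₂ := g⁻¹ • t • a)
    (fun x hx => ⟨(hX hx).1.1, (hX hx).1.2, hfix a (fun y hy => hy.1) x hx,
      hfix (t • a) (fun y hy => hy.2) x hx⟩) (H13.RankOne.ta_ne hS).symm
    (by rw [Ne, smul_left_cancel_iff]; exact (H13.RankOne.ta_ne hS).symm)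
  have hd : g * c ∈ H13.RankOne.D a t :=
    ⟨by change (g * c) • a = a; rw [mul_smul, e1, smul_inv_smul],
      by change (g * c) • t • a = t • a; rw [mul_smul, e2, smul_inv_smul]⟩
  obtain ⟨k, v, hv, hvt, hk, e⟩ := H13.RankOne.exists_K_mul_V hS hd
  refine ⟨v, ⟨hv, (hc v).2 hvt⟩, Set.image_congr fun x hx => ?_⟩
  have e3 : g * x * g⁻¹ = k * (v * x * v⁻¹) * k⁻¹ := by
    calc g * x * g⁻¹ = g * (x * c) * c⁻¹ * g⁻¹ := by group
      _ = (g * c) * x * (g * c)⁻¹ := by rw [hc1 x hx]; group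
      _ = _ := by rw [e]; group
  have h5 : t * (g * x * g⁻¹) = (g * x * g⁻¹) * t := (hc _).1 (hY ⟨x, hx, rfl⟩).2
  have h6 : t * (v * x * v⁻¹) = (v * x * v⁻¹) * t :=
    (hc _).1 (mul_mem (mul_mem ((hc v).2 hvt) (hX hx).2) (inv_mem ((hc v).2 hvt)))
  rw [e3] at h5 ⊢
  set y := v * x * v⁻¹
  have h7 : t * (k * y * k⁻¹) = k⁻¹ * y * k * t := by
    rw [← mul_assoc, ← mul_assoc, H13.RankOne.K_mul_t hS hk, mul_assoc _ t, h6, mul_assoc, mul_assoc,
      ← H13.RankOne.t_mul_K hS hk]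
    group
  rw [h7, mul_left_inj] at h5
  have h8 : Commute (k * k) y := by
    rw [Commute, SemiconjBy]
    calc k * k * y = k * (k * y * k⁻¹) * k := by group
      _ = _ := by rw [← h5]; group
  rw [(H13.commute_of_commute_sq (H13.RankOne.odd_of_mem_D hS hk.1) h8).eq, mul_inv_cancel_right]

end Cfsg.Agent.S1134
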