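import Cfsg.Statements.S1136
import Cfsg.Agent.H3.SzU4

set_option autoImplicit false
open Cfsg

namespace Cfsg.Agent.S1136

/-- In the rank-one set-up (`G` finite and doubly transitive on `Ω`, `t` an involution moving `a`, `Q` normal in `G_a` with `G_a = Q D`, `Q ⊓ D = 1` for the two-point stabiliser `D = G_a ⊓ G_{t • a}`, `|Q|` even, `|D|` odd), with the action faithful and `G` containing two distinct commuting involutions: `G` has a normal subgroup `L` of odd index which is isomorphic to `PSL₂(q)`, to a Suzuki group `Sz(q)`, or to `PSU₃(q)` (realised over the field with `q²` elements), for some power `q` of 2 with `q > 2`. -/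
theorem result {G Ω : Type*} [Group G] [Finite G] [MulAction G Ω] [FaithfulSMul G Ω] {a : Ω} {t : G} {Q : Subgroup G}
    (hS : Cfsg.IsRankOneSetup G Ω a t Q)
    (h2 : ∃ x y : G, x ≠ 1 ∧ y ≠ 1 ∧ x ≠ y ∧ x * x = 1 ∧ y * y = 1 ∧ x * y = y * x) :
    ∃ L : Subgroup G, L.Normal ∧ Odd L.index ∧
      ((∃ (F : Type) (_ : Field F) (_ : Fintype F), (∃ n : ℕ, 2 ≤ n ∧ Fintype.card F = 2 ^ n) ∧
          Nonempty (L ≃* Matrix.ProjectiveSpecialLinearGroup (Fin 2) F)) ∨
        Cfsg.Lie.IsoSuzuki L ∨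
        (∃ (F : Type) (_ : Field F) (_ : Fintype F) (n : ℕ), 2 ≤ n ∧ Fintype.card F = (2 ^ n) ^ 2 ∧
          Nonempty (L ≃* Cfsg.PSU 3 F (2 ^ n)))) := by
  exact H3.SuzukiThm.out hS h2

end Cfsg.Agent.S1136
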