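import Cfsg.Statements.S1138
import Cfsg.Agent.H4.SuzA

set_option autoImplicit false
open Cfsg

namespace Cfsg.Agent.S1138

/-- Let `P` be a Suzuki 2-group with `|Z(P)| = q`. Then every square lies in `Z(P)` and `P/Z(P)` is abelian (so elementary abelian), `|P| = q²` or `|P| = q³`, and `P` has exponent 4. -/
theorem result {P : Type*} [Group P] (hP : Cfsg.IsSuzukiTwoGroup P) :
    (∀ x : P, x * x ∈ Subgroup.center P) ∧ (∀ x y : P, x⁻¹ * y⁻¹ * x * y ∈ Subgroup.center P) ∧
      (Nat.card P = Nat.card (Subgroup.center P) ^ 2 ∨ Nat.card P = Nat.card (Subgroup.center P) ^ 3) ∧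
      Monoid.exponent P = 4 := by
  obtain ⟨_, hna, k, h⟩ := H4.suz_of_isSuzuki hP
  rw [h.center_eq hna]
  exact ⟨h.sq_mem_Om hna, fun x y => by
    simpa [commutatorElement_def] using h.comm_mem_Om hna x⁻¹ y⁻¹, h.card_eq hna, h.exponent_eq hna⟩

end Cfsg.Agent.S1138
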