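import Cfsg.Statements.S1142
import Cfsg.Agent.H13.FH2
import Cfsg.Agent.S0206

set_option autoImplicit false
open Cfsg

namespace Cfsg.Agent.S1142

/-- Feit–Higman: if a finite group has a (B,N)-pair of rank 2, its Weyl group `N/(B ⊓ N)` has order 4, 6, 8, 12 or 16. -/
theorem result {G : Type*} [Group G] [Finite G] (P : Cfsg.BNPair G)
    (h2 : P.rank = 2) :
    ((P.B ⊓ P.N).subgroupOf P.N).index ∈ ({4, 6, 8, 12, 16} : Set ℕ) := by
  obtain ⟨u, v, hne, h⟩ := Nat.card_eq_two_iff.1 h2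
  have huv : ∀ s, s = u ∨ s = v := fun s => by simpa using h.ge (Set.mem_univ s)
  have ho : ∀ s, orderOf ((H13.BN.I P).σ s) = 2 := fun s =>
    orderOf_eq_prime (by rw [pow_two, (H13.BN.I P).sq]) (H13.BN.σ_ne_one P s)
  obtain ⟨e⟩ := S0206.result _ _ (ho u) (ho v) fun e => hne (H13.BN.σ_injective P e)
  have ht : Subgroup.closure {(H13.BN.I P).σ u, (H13.BN.I P).σ v} = ⊤ := by
    refine eq_top_iff.2 fun w _ => ?_
    obtain ⟨l, rfl⟩ := (H13.BN.I P).gen w
    refine Subgroup.list_prod_mem _ fun x hx => Subgroup.subset_closure ?_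
    obtain ⟨s, -, rfl⟩ := List.mem_map.1 hx
    rcases huv s with rfl | rfl <;> simp
  have := H13.FH.feit_higman huv hne
  have hc := Nat.card_congr e.toEquiv
  rw [ht, Subgroup.card_top, DihedralGroup.nat_card] at hc
  rw [Subgroup.index, hc]
  simp only [Set.mem_insert_iff, Set.mem_singleton_iff] at *
  omega

end Cfsg.Agent.S1142
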