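import Cfsg.Statements.S1148
import Cfsg.Agent.H18.U3g

set_option autoImplicit false
open Cfsg

namespace Cfsg.Agent.S1148

/-- Let `G` be finite simple with a (B,N)-pair of rank 1, `B = U H` with `U` nilpotent normal in `B`, `H = B ⊓ N`, `U ⊓ H = 1`, where `[G : B] = p^(3n) + 1` for an odd prime `p`, `|U| = p^(3n)` and `H` is cyclic of order `(p^(2n) - 1)/gcd(3, p^n + 1)`. Then `G ≅ PSU₃(p^n)`. -/
theorem result {G : Type*} [Group G] [Finite G] [IsSimpleGroup G]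
    (P : Cfsg.BNPair G) (h1 : P.rank = 1) {p n : ℕ} (hp : p.Prime) (hp2 : p ≠ 2) (hn : 1 ≤ n)
    (U : Subgroup G) (hUB : U ≤ P.B) (hUn : ∀ b ∈ P.B, ∀ u ∈ U, b * u * b⁻¹ ∈ U)
    (hUnil : Group.IsNilpotent U) (hsplit : U ⊔ (P.B ⊓ P.N) = P.B) (hdisj : U ⊓ (P.B ⊓ P.N) = ⊥)
    (hind : P.B.index = p ^ (3 * n) + 1) (hU : Nat.card U = p ^ (3 * n))
    (hHc : IsCyclic ↥(P.B ⊓ P.N))
    (hH : Nat.gcd 3 (p ^ n + 1) * Nat.card ↥(P.B ⊓ P.N) = p ^ (2 * n) - 1) :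
    ∃ (F : Type) (_ : Field F) (_ : Fintype F), Fintype.card F = (p ^ n) ^ 2 ∧
      Nonempty (G ≃* Cfsg.PSU 3 F (p ^ n)) := by
  open H18.U3 H18.Be H19 Subgroup in
  obtain ⟨s, h2, h3, h4⟩ := Mo_of_BN P h1 hUB hUn hsplit (hU ▸ hind)
  haveI : FaithfulSMul G (G ⧸ P.B) := ⟨fun e => (MonoidHom.ker_eq_bot_iff
    (MulAction.toPermHom G (G ⧸ P.B))).1 ((MonoidHom.normal_ker _).eq_bot_or_eq_top.resolve_right
      fun e => h2.ne (congrFun (congrArg (⇑) (e.ge (Subgroup.mem_top s))) (H18.Be.pt P.B))) (Equiv.ext e)⟩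
  exact H18.U3.ON.psu ⟨h2, rfl, h3, hp, hp2, ⟨n, hn, rfl⟩, by rw [hU, mul_comm, pow_mul], h4 ▸ hHc,
    by rw [h4, hH, mul_comm 2, pow_mul]⟩

end Cfsg.Agent.S1148
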