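import Cfsg.Statements.S1151
import Cfsg.Agent.H14.Ree8

set_option autoImplicit false
open Cfsg

namespace Cfsg.Agent.S1151

/-- In the small Ree group ²G₂(q), q = 3^(2m+1), realised as G¹ inside the Chevalley group G₂ over the field with q elements (θ the 3^m-th power map), with H¹ = G¹ ∩ H and U¹ = G¹ ∩ U the intersections with the ambient diagonal and positive unipotent subgroups: `H¹` has exactly `(q - 1)/2` elements of odd order, and each non-identity one centralises no non-identity element of `U¹`. -/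
theorem result {K : Type*} [Field K] [Fintype K] {m : ℕ} (hK : Fintype.card K = 3 ^ (2 * m + 1)) :
    2 * Nat.card {h : ↥(Cfsg.Lie.chevG2.diagonalSubgroup K ⊓ Cfsg.Lie.twistedG2 K (3 ^ m)) // Odd (orderOf h)} = 3 ^ (2 * m + 1) - 1 ∧
      ∀ h ∈ (Cfsg.Lie.chevG2.diagonalSubgroup K ⊓ Cfsg.Lie.twistedG2 K (3 ^ m)), h ≠ 1 → Odd (orderOf h) →
        (Cfsg.Lie.chevG2.posUnipotent K ⊓ Cfsg.Lie.twistedG2 K (3 ^ m)) ⊓ Subgroup.centralizer {h} = ⊥ := by
  obtain ⟨R, e, hq, -, hU, hH, -⟩ := H14.G2.ree hK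
  have hm : ∀ {h} (h1 : h ∈ Cfsg.Lie.chevG2.diagonalSubgroup K ⊓ Cfsg.Lie.twistedG2 K (3 ^ m)), ⟨h, h1.2⟩ ∈ R.H :=
    fun h1 => hH ▸ Subgroup.mem_subgroupOf.2 h1
  have h0 := R.card_H0 hq
  refine ⟨?_, fun h h1 h2 h3 => eq_bot_iff.2 fun u hu => ?_⟩
  · rw [← e, show Nat.card K - 1 = 2 * Nat.card R.H0 by omega]
    refine congrArg _ (Nat.card_congr ⟨fun h => ⟨⟨h.1.1, h.1.2.2⟩, (R.trH hq).mem_of_pow (hm h.1.2) ?_⟩,
      fun h => ⟨⟨h.1.1, Subgroup.mem_subgroupOf.1 (hH ▸ (R.trH hq).le h.2)⟩, ?_⟩, fun _ => rfl, fun _ => rfl⟩)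
    · have h1 := Subgroup.orderOf_dvd_natCard _ (hm h.1.2)
      rw [R.card_H, show Nat.card K - 1 = 2 * Nat.card R.H0 by omega] at h1
      refine Nat.Coprime.dvd_of_dvd_mul_left (Odd.coprime_two_right ?_) h1
      simpa using h.2
    · simpa using (Nat.odd_iff.2 (by omega) : Odd _).of_dvd_nat (Subgroup.orderOf_dvd_natCard _ h.2)
  · obtain ⟨k, hk⟩ := hm h1
    have h4 : (R.M k).1 = h := congrArg Subtype.val hk
    exact congrArg Subtype.val (R.eq_one_of_comm (k := k) (u := ⟨u, hu.1.2⟩) (fun e => H14.Ree.Tor.sq_ne h3 h2 (by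
      rw [← h4, ← Subgroup.coe_mul, ← map_mul, ← sq, e, map_one, Subgroup.coe_one]))
      (hU ▸ Subgroup.mem_subgroupOf.2 hu.1) (Subtype.ext (h4 ▸ (H24.mem_cent.1 hu.2).symm)))

end Cfsg.Agent.S1151
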