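import Cfsg.Statements.S1165
import Cfsg.Agent.H13.RankOne2

set_option autoImplicit false
open Cfsg

namespace Cfsg.Agent.S1165

/-- In the rank-one set-up (`G` finite and doubly transitive on `Ω`, `t` an involution moving `a`, `Q` normal in `G_a` with `G_a = Q D`, `Q ⊓ D = 1` for the two-point stabiliser `D = G_a ⊓ G_{t • a}`, `|Q|` even, `|D|` odd): every `x ∈ Q`, `x ≠ 1`, determines unique `g, f ∈ Q`, `h ∈ D` with `t x t = g h t f` (a consequence of the canonical form). For these: (H1) the `f`-part of `x⁻¹` is `g⁻¹`; (H2) the `f`-part of `f` is `x`; (H3) for `a ∈ D` the `f`-part of `a⁻¹ x a` is `(t a t)⁻¹ f (t a t)`; (H4) the `h`-part of `a⁻¹ x a` is `(t a t)⁻¹ h a`, that of `x⁻¹` is `t h⁻¹ t`, and that of `f` is `h⁻¹`. -/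
theorem result {G Ω : Type*} [Group G] [Finite G] [MulAction G Ω] {a : Ω} {t : G} {Q : Subgroup G}
    (hS : Cfsg.IsRankOneSetup G Ω a t Q)
    (x g h f : G) (hx : x ∈ Q) (hx1 : x ≠ 1) (hg : g ∈ Q) (hh : h ∈ (MulAction.stabilizer G a ⊓ MulAction.stabilizer G (t • a))) (hf : f ∈ Q)
    (heq : t * x * t = g * h * t * f) :
    (∀ g₁ h₁ f₁ : G, g₁ ∈ Q → h₁ ∈ (MulAction.stabilizer G a ⊓ MulAction.stabilizer G (t • a)) → f₁ ∈ Q → t * x⁻¹ * t = g₁ * h₁ * t * f₁ →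
        f₁ = g⁻¹ ∧ h₁ = t * h⁻¹ * t) ∧
      (∀ g₂ h₂ f₂ : G, g₂ ∈ Q → h₂ ∈ (MulAction.stabilizer G a ⊓ MulAction.stabilizer G (t • a)) → f₂ ∈ Q → t * f * t = g₂ * h₂ * t * f₂ →
        f₂ = x ∧ h₂ = h⁻¹) ∧
      ∀ c ∈ (MulAction.stabilizer G a ⊓ MulAction.stabilizer G (t • a)), ∀ g₃ h₃ f₃ : G, g₃ ∈ Q → h₃ ∈ (MulAction.stabilizer G a ⊓ MulAction.stabilizer G (t • a)) → f₃ ∈ Q →
        t * (c⁻¹ * x * c) * t = g₃ * h₃ * t * f₃ →
          f₃ = (t * c * t)⁻¹ * f * (t * c * t) ∧ h₃ = (t * c * t)⁻¹ * h * c := by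
  have ht := hS.mul_self
  have ht' := H13.RankOne.t_inv hS
  have uniq : ∀ {g h f g' h' f' : G}, g ∈ Q → h ∈ H13.RankOne.D a t → f ∈ Q → g' ∈ Q →
      h' ∈ H13.RankOne.D a t → f' ∈ Q → g * h * t * f = g' * h' * t * f' → f = f' ∧ h = h' := by
    intro g h f g' h' f' hg hh hf hg' hh' hf' e
    obtain ⟨e1, e2⟩ := H13.RankOne.canon_unique hS
      (show g * h ∈ MulAction.stabilizer G a from mul_mem (hS.le hg) hh.1) hf
      (show g' * h' ∈ MulAction.stabilizer G a from mul_mem (hS.le hg') hh'.1) hf' e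
    have e3 : g = g' := H13.RankOne.reg_unique hS hg hg' (H13.RankOne.ta_ne hS) (by
      rw [← show h • t • a = t • a from hh.2, ← mul_smul, e1, mul_smul,
        show h' • t • a = t • a from hh'.2, show h • t • a = t • a from hh.2])
    rw [e3, mul_right_inj] at e1
    exact ⟨e2, e1⟩
  have hD : ∀ {d : G}, d ∈ H13.RankOne.D a t → t * d * t ∈ H13.RankOne.D a t := fun hd => by
    have := H13.RankOne.conj_t_mem_D hS hd
    rwa [ht'] at this
  refine ⟨fun g₁ h₁ f₁ hg₁ hh₁ hf₁ e => ?_, fun g₂ h₂ f₂ hg₂ hh₂ hf₂ e => ?_,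
    fun c hc g₃ h₃ f₃ hg₃ hh₃ hf₃ e => ?_⟩
  · refine uniq hg₁ hh₁ hf₁ (inv_mem hf) (hD (inv_mem hh)) (inv_mem hg) ?_
    rw [← e]
    calc t * x⁻¹ * t = (t⁻¹ * x * t⁻¹)⁻¹ := by group
      _ = (g * h * t * f)⁻¹ := by rw [ht', heq]
      _ = f⁻¹ * t⁻¹ * h⁻¹ * (t * t) * g⁻¹ := by rw [ht]; group
      _ = _ := by rw [ht']; group
  · refine uniq hg₂ hh₂ hf₂ (H13.RankOne.conj_mem' hS hh.1 (inv_mem hg)) (inv_mem hh) hx ?_
    rw [← e]
    calc t * f * t = (g * h)⁻¹ * (g * h * t * f) * t := by group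
      _ = (g * h)⁻¹ * t * x * (t * t) := by rw [← heq]; group
      _ = _ := by rw [ht]; group
  · have hc' := hD hc
    refine uniq hg₃ hh₃ hf₃ (H13.RankOne.conj_mem' hS hc'.1 hg) (mul_mem (mul_mem (inv_mem hc') hh) hc)
      (H13.RankOne.conj_mem' hS hc'.1 hf) ?_
    rw [← e]
    calc t * (c⁻¹ * x * c) * t = (t⁻¹ * c * t⁻¹)⁻¹ * (t⁻¹ * x * t) * (t⁻¹ * c * t) := by group
      _ = (t * c * t)⁻¹ * (g * h * t * f) * (t * c * t) := by rw [ht', heq]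
      _ = _ := by
        have tt : ∀ y, t * (t * y) = y := fun y => by rw [← mul_assoc, ht, one_mul]
        simp [mul_assoc, ht', tt]

end Cfsg.Agent.S1165
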