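import Cfsg.Statements.S1166
import Cfsg.Agent.H13.RankOne2

set_option autoImplicit false
open Cfsg

namespace Cfsg.Agent.S1166

/-- In the rank-one set-up (`G` finite and doubly transitive on `Ω`, `t` an involution moving `a`, `Q` normal in `G_a` with `G_a = Q D`, `Q ⊓ D = 1` for the two-point stabiliser `D = G_a ⊓ G_{t • a}`, `|Q|` even, `|D|` odd), with `t x t = g_x h_x t f_x` and `t y t = g_y h_y t f_y` (`g, f ∈ Q`, `h ∈ D`) for `x, y ∈ Q ∖ 1` with `x y ≠ 1`: then `z = f_x g_y ≠ 1`, and if `t z t = g_z h_z t f_z` and `t (x y) t = g' h' t f'` then `f' = (t h_y t)⁻¹ f_z (t h_y t) f_y` and `h' = h_x h_z h_y` (H6). -/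
theorem result {G Ω : Type*} [Group G] [Finite G] [MulAction G Ω] {a : Ω} {t : G} {Q : Subgroup G}
    (hS : Cfsg.IsRankOneSetup G Ω a t Q)
    (x y gx hx fx gy hy fy : G) (hxQ : x ∈ Q) (hx1 : x ≠ 1) (hyQ : y ∈ Q) (hy1 : y ≠ 1) (hxy : x * y ≠ 1)
    (hgx : gx ∈ Q) (hhx : hx ∈ (MulAction.stabilizer G a ⊓ MulAction.stabilizer G (t • a))) (hfx : fx ∈ Q) (ex : t * x * t = gx * hx * t * fx)
    (hgy : gy ∈ Q) (hhy : hy ∈ (MulAction.stabilizer G a ⊓ MulAction.stabilizer G (t • a))) (hfy : fy ∈ Q) (ey : t * y * t = gy * hy * t * fy) :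
    fx * gy ≠ 1 ∧
      ∀ gz hz fz g' h' f' : G, gz ∈ Q → hz ∈ (MulAction.stabilizer G a ⊓ MulAction.stabilizer G (t • a)) → fz ∈ Q → t * (fx * gy) * t = gz * hz * t * fz →
        g' ∈ Q → h' ∈ (MulAction.stabilizer G a ⊓ MulAction.stabilizer G (t • a)) → f' ∈ Q → t * (x * y) * t = g' * h' * t * f' →
          f' = (t * hy * t)⁻¹ * fz * (t * hy * t) * fy ∧ h' = hx * hz * hy := by
  have ht := hS.mul_self
  have ht' := H13.RankOne.t_inv hS
  have tt : ∀ y, t * (t * y) = y := fun y => by rw [← mul_assoc, ht, one_mul]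
  have uniq : ∀ {g h f g' h' f' : G}, g ∈ Q → h ∈ H13.RankOne.D a t → f ∈ Q → g' ∈ Q →
      h' ∈ H13.RankOne.D a t → f' ∈ Q → g * h * t * f = g' * h' * t * f' → f = f' ∧ h = h' := by
    intro g h f g' h' f' hg hh hf hg' hh' hf' e
    obtain ⟨e1, e2⟩ := H13.RankOne.canon_unique hS
      (show g * h ∈ MulAction.stabilizer G a from mul_mem (hS.le hg) hh.1) hf
      (show g' * h' ∈ MulAction.stabilizer G a from mul_mem (hS.le hg') hh'.1) hf' e
    have e3 : g = g' := H13.RankOne.reg_unique hS hg hg' (H13.RankOne.ta_ne hS) (by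
      rw [← show h • t • a = t • a from hh.2, ← mul_smul, e1, mul_smul,
        show h' • t • a = t • a from hh'.2, show h • t • a = t • a from hh.2])
    rw [e3, mul_right_inj] at e1
    exact ⟨e2, e1⟩
  have hD : ∀ {d : G}, d ∈ H13.RankOne.D a t → t * d * t ∈ H13.RankOne.D a t := fun hd => by
    have := H13.RankOne.conj_t_mem_D hS hd
    rwa [ht'] at this
  have e0 : t * (x * y) * t = gx * hx * t * (fx * gy) * hy * t * fy := by
    calc t * (x * y) * t = (t * x * t) * (t * y * t) := by simp [mul_assoc, tt]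
      _ = _ := by rw [ex, ey]; group
  constructor
  · intro h
    rw [h] at e0
    have h1 : (t * (x * y) * t) • a = a := by
      have : gx * hx * t * 1 * hy * t * fy = gx * hx * (t * hy * t) * fy := by group
      rw [e0, this]
      exact mul_mem (mul_mem (mul_mem (hS.le hgx) hhx.1) (hD hhy).1) (hS.le hfy)
    rw [mul_smul, mul_smul, smul_eq_iff_eq_inv_smul, ht'] at h1
    exact hxy (H13.RankOne.eq_one_of_fix_ta hS (mul_mem hxQ hyQ) h1)
  · intro gz hz fz g' h' f' hgz hhz hfz ez hg' hh' hf' e'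
    refine uniq hg' hh' hf' (mul_mem hgx (hS.conj_mem hx hhx.1 gz hgz)) (mul_mem (mul_mem hhx hhz) hhy)
      (mul_mem (H13.RankOne.conj_mem' hS (hD hhy).1 hfz) hfy) ?_
    have e1 : fx * gy = t * (gz * hz * t * fz) * t := by rw [← ez]; simp [mul_assoc, tt, ht]
    rw [← e', e0, e1]
    simp [mul_assoc, ht', tt]

end Cfsg.Agent.S1166
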