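import Cfsg.Statements.S1167
import Cfsg.Agent.H5.Zs7
-- import your own Cfsg.Agent.* helpers here

set_option autoImplicit false
open Cfsg

namespace Cfsg.Agent.S1167
open H5


/-- Let `G` be a finite simple Zassenhaus group on `Ω`, `U` a normal subgroup of `G_a` regular on `Ω` minus `a` which is an abelian 2-group, and `v` an involution with `v • a ≠ a`. Then there is a unique `u₀ ∈ U`, `u₀ ≠ 1`, with `v u₀ v = u₀ v u₀`. -/
theorem result {G Ω : Type*} [Group G] [Finite G] [MulAction G Ω] [Finite Ω]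
    (hZ : Cfsg.IsZassenhausGroup G Ω) [IsSimpleGroup G] {a : Ω}
    (U : Subgroup G) (hUle : U ≤ MulAction.stabilizer G a)
    (hUn : ∀ h ∈ MulAction.stabilizer G a, ∀ u ∈ U, h * u * h⁻¹ ∈ U)
    (hreg : ∀ c d : Ω, c ≠ a → d ≠ a → ∃! u : U, (u : G) • c = d)
    (hU2 : IsPGroup 2 U) (hUab : ∀ u ∈ U, ∀ u' ∈ U, u * u' = u' * u)
    (v : G) (hv1 : v ≠ 1) (hv2 : v * v = 1) (hva : v • a ≠ a) :
    ∃! u₀ : G, u₀ ∈ U ∧ u₀ ≠ 1 ∧ v * u₀ * v = u₀ * v * u₀ := by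
  obtain rfl := (zs_of hZ).eq_Fk_of_reg hUle hreg
  have hz := zo_of_two hZ hva.symm hU2
  have he := (hz.suz hva.symm hU2).1
  have hS := hz.setup hva.symm he hv2
  obtain ⟨s, r, hs, hr, e⟩ := H13.RankOne.exists_distinguished hS
  have hc : Nat.card (D2 G a (v • a)) = Nat.card (Fk G a) - 1 := by
    rcases zs_cases hZ hva.symm with e | ⟨-, e⟩ | ⟨m, -, e, -⟩
    · exact e
    · obtain ⟨k, hk⟩ := he
      have := hz.D_lt_F hva.symm
      omega
    · exact absurd (Subgroup.commutator_eq_bot_iff_le_centralizer.2 fun x hx y hy => hUab y hy x hx) e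
  have hsq : ∀ u ∈ Fk G a, u * u = 1 := fun u hu => ((hz.mem_Z2 hva.symm).1
    ((Subgroup.eq_of_le_of_card_ge (Z2_le a) (by rw [hz.card_Z2 hva.symm he]; omega)).ge hu)).2
  have key : ∀ u ∈ Fk G a, u⁻¹ = u := fun u hu => inv_eq_of_mul_eq_one_left (hsq u hu)
  have hsF := H13.RankOne.invol_mem_Q hS hs.1 hs.2.2
  obtain rfl := hz.eq_of_struct hva.symm hv2 ((hz.mem_Z2 hva.symm).2 ⟨hsF, hs.2.2⟩) hr (hsq r hr) e
  refine ⟨r, ⟨hr, hs.2.1, by rw [e, key r hr]⟩, fun u ⟨h1, h2, h3⟩ => ?_⟩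
  exact (H13.RankOne.distinguished_unique hS ⟨hUle h1, h2, hsq u h1⟩ h1 (by rw [h3, key u h1])
    hs hr e).1

end Cfsg.Agent.S1167
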