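import Cfsg.Statements.S1168
import Cfsg.Agent.H4.SuzF

set_option autoImplicit false
open Cfsg

namespace Cfsg.Agent.S1168

/-- For a finite field `F` of characteristic 2: if `q : F → F` is quadratic over the prime field, i.e. `(x, y) ↦ q (x + y) + q x + q y` is additive in each variable, then `q x = Σ c_{σ,τ} σ(x) τ(x)` for some coefficients indexed by pairs of field automorphisms. -/
theorem result {F : Type*} [Field F] [Fintype F] [CharP F 2]
    (q : F → F)
    (hq : ∀ x y z : F, q (x + y + z) + q (x + y) + q (x + z) + q (y + z) + q x + q y + q z = 0) :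
    ∃ (s : Finset ((F ≃+* F) × (F ≃+* F))) (c : (F ≃+* F) × (F ≃+* F) → F),
      ∀ x : F, q x = ∑ p ∈ s, c p * (p.1 x * p.2 x) := by
  letI : Algebra (ZMod 2) F := ZMod.algebra F 2
  have h0 : q 0 = 0 := by simpa [CharTwo.add_self_eq_zero] using hq 0 0 0
  have h1 : ∀ a : ZMod 2, a = 0 ∨ a = 1 := by decide
  let Q : QuadraticMap (ZMod 2) F F := .ofPolar q (fun a x => by rcases h1 a with rfl | rfl <;> simp [h0])
    (fun x x' y => by
      simp only [QuadraticMap.polar, CharTwo.sub_eq_add]
      linear_combination hq x x' y - (q x + q (x + y) + q x' + q (x' + y) + q y) * (CharTwo.two_eq_zero (R := F)))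
    fun a x y => by rcases h1 a with rfl | rfl <;> simp [QuadraticMap.polar, h0]
  let b := Module.finBasis (ZMod 2) F
  obtain ⟨S, c, -, h⟩ := H4.biadd_expand ((LinearMap.toAddMonoidHom'.comp (Q.toBilin b).toAddMonoidHom))
    (l := 1) (m := 1) (r := 1) (by simp)
  exact ⟨S, c, fun x => ((DFunLike.congr_fun (Q.toQuadraticMap_toBilin b) x).symm.trans (h x x)).trans
    (by simp only [mul_assoc])⟩

end Cfsg.Agent.S1168
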