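import Cfsg.Statements.S1173
import Cfsg.Agent.H25.PF7

set_option autoImplicit false
open Cfsg

namespace Cfsg.Agent.S1173
open _root_.H25 Subgroup

/-- Let G be a finite group with no nontrivial normal subgroup of odd order, S a Sylow 2-subgroup and T a subgroup of S strongly closed in S. Then the intersection of the derived series of C_G(T) (its perfect core), viewed in G, is a normal subgroup of G. -/
theorem result {G : Type*} [Group G] [Finite G] (hO : Cfsg.oddCore G = ⊥) (S : Sylow 2 G) (T : Subgroup G) (hT : Cfsg.IsStronglyClosed T (S : Subgroup G)) : ((⨅ n : ℕ, derivedSeries ↥(Subgroup.centralizer (T : Set G)) n).map (Subgroup.centralizer (T : Set G)).subtype).Normal := by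
  rw [PF.Pc_eq]
  exact (PF.scl_Pc_normal (H18.Be.O_top.trans hO) (PF.scl_of S hT)).normal

end Cfsg.Agent.S1173
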