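import Cfsg.Statements.S1174
import Cfsg.Agent.H3.ZE0

set_option autoImplicit false
open Cfsg

namespace Cfsg.Agent.S1174

open Subgroup H19 H18.Be H3.ZD in

/-- Let X be a finite simple group, S a Sylow 2-subgroup and T ≠ 1 a subgroup strongly closed in S. If the subgroup generated by the centralizers C_X(t) of the involutions t of T is proper in X, then X has a strongly embedded subgroup. -/
theorem result {X : Type*} [Group X] [Finite X] [IsSimpleGroup X] (S : Sylow 2 X) (T : Subgroup X) (hT1 : T ≠ ⊥) (hT : Cfsg.IsStronglyClosed T (S : Subgroup X)) (hprop : (⨆ t : {t : X // t ∈ T ∧ orderOf t = 2}, Subgroup.centralizer ({(t : X)} : Set X)) ≠ ⊤) : ∃ H : Subgroup X, Cfsg.IsStronglyEmbedded H := by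
  set J := ⨆ t : {t : X // t ∈ T ∧ orderOf t = 2}, centralizer ({(t : X)} : Set X)
  have h1 : ∀ t ∈ T, orderOf t = 2 → centralizer {t} ≤ J := fun t e e' =>
    le_iSup (fun t : {t : X // t ∈ T ∧ orderOf t = 2} => centralizer ({(t : X)} : Set X)) ⟨t, e, e'⟩
  have h : SC T S (normalizer (J : Set X)) := ⟨syl_sylow_top S, hT.1, hT.2, fun g hg => mem_norm_of_cj_le (cj_le_iff.2
    (iSup_le fun t => cj_le_iff.1 (cj_cent1 g t ▸ h1 _ (conj_mem_of_norm hg t.2.1) ((orderOf_conj' _ _).trans t.2.2)))),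
    fun t e e' => (h1 t e e').trans le_normalizer⟩
  obtain ⟨s, s1, s2⟩ := ex_inv h.pg hT1
  refine ⟨_, h.zs.se_simple (fun e => ?_) (mem_Zs s1 s2)⟩
  exact (IsSimpleGroup.eq_bot_or_eq_top_of_normal J (normalizer_eq_top_iff.1 e)).elim
    (fun e => (of_ord2 s2).1 (mem_bot.1 (e.le (h1 s s1 s2 (mem_cent1_self s))))) hprop

end Cfsg.Agent.S1174
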