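import Cfsg.Statements.S1177
import Cfsg.Agent.H10.Isolated

set_option autoImplicit false
open Cfsg

namespace Cfsg.Agent.S1177

open Subgroup
open scoped Pointwise

/-- Let A be a nontrivial elementary abelian 2-subgroup of a finite group G which is a T.I. set (each conjugate of A meets A trivially or equals A) and which does not commute elementwise with any conjugate of A other than A itself. Then for every a ∈ A, a ≠ 1, every conjugate of A contained in C_G(a) is equal to A (A is weakly closed in C_G(a)). -/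
theorem result {G : Type*} [Group G] [Finite G] (A : Subgroup G) (hA : Cfsg.IsElementaryAbelian 2 A) (hA1 : A ≠ ⊥) (hTI : ∀ g : G, A.map (MulAut.conj g).toMonoidHom ⊓ A = ⊥ ∨ A.map (MulAut.conj g).toMonoidHom = A) (hb : ∀ g : G, (∀ a ∈ A, ∀ b ∈ A.map (MulAut.conj g).toMonoidHom, a * b = b * a) → A.map (MulAut.conj g).toMonoidHom = A) (a : G) (ha : a ∈ A) (ha1 : a ≠ 1) (g : G) (hg : A.map (MulAut.conj g).toMonoidHom ≤ Subgroup.centralizer ({a} : Set G)) : A.map (MulAut.conj g).toMonoidHom = A := by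
  have hcomm := H1.isMulCommutative_iff.1 hA.1
  have TI : ∀ (u : G) (x : G), x ∈ MulAut.conj u • A → x ≠ 1 → ∀ c : G, c * x * c⁻¹ = x →
      ∀ y ∈ MulAut.conj u • A, c * y * c⁻¹ ∈ MulAut.conj u • A := by
    intro u x hx hx1 c hc y hy
    rw [H1.mem_conj_smul_iff] at hx hy ⊢
    rcases hTI (u⁻¹ * c * u) with h | h
    · exfalso
      have : u⁻¹ * x * u ∈ (⊥ : Subgroup G) := h ▸ ⟨⟨_, hx, by
        show u⁻¹ * c * u * (u⁻¹ * x * u) * (u⁻¹ * c * u)⁻¹ = u⁻¹ * x * u
        nth_rewrite 2 [← hc]; group⟩, hx⟩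
      rw [mem_bot] at this
      exact hx1 (by
        calc x = u * (u⁻¹ * x * u) * u⁻¹ := by group
          _ = 1 := by rw [this]; group)
    · rw [← h]
      exact ⟨_, hy, by simp [mul_assoc]⟩
  by_contra hne
  have hdisj := (hTI g).resolve_right hne
  change MulAut.conj g • A ⊓ A = ⊥ at hdisj
  change MulAut.conj g • A ≤ _ at hg
  set B := MulAut.conj g • A with hB
  have hBA : ∀ b ∈ B, ∀ x ∈ A, b * x * b⁻¹ ∈ A := by
    intro b hb' x hx
    have := TI 1 a (by rwa [H1.conj_one_smul]) ha1 b (H10.mem_centralizer_singleton'.1 (hg hb')) x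
      (by rwa [H1.conj_one_smul])
    rwa [H1.conj_one_smul] at this
  -- an element of `A` centralizing some nontrivial element of `B` centralizes `B`
  have key : ∀ x ∈ A, ∀ b ∈ B, b ≠ 1 → x * b * x⁻¹ = b → ∀ b' ∈ B, x * b' = b' * x := by
    intro x hx b hb' hb1 hxb b' hb''
    have h1 : x * b' * x⁻¹ * b'⁻¹ ∈ B ⊓ A :=
      ⟨B.mul_mem (TI g b hb' hb1 x hxb b' hb'') (B.inv_mem hb''), by
        have := A.mul_mem hx (hBA b' hb'' _ (A.inv_mem hx))
        simpa [mul_assoc] using this⟩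
    rw [hdisj, mem_bot, mul_inv_eq_one, mul_inv_eq_iff_eq_mul] at h1
    exact h1
  have hex : ∃ x ∈ A, ∃ b ∈ B, x * b ≠ b * x := by
    by_contra h
    push Not at h
    exact hne (hb g h)
  obtain ⟨x, hx, b₀, hb₀, hxb⟩ := hex
  have hx2 : x * x = 1 := by rw [← sq]; exact hA.2 x hx
  have hlt : A ⊓ centralizer (B : Set G) < A :=
    lt_of_le_of_ne inf_le_left fun h => hxb ((h.ge hx).2 b₀ hb₀).symm
  have hmem : ∀ b ∈ B, x * (b * x * b⁻¹) ∈ A ⊓ centralizer (B : Set G) := by
    intro b hb'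
    have h1 := A.mul_mem hx (hBA b hb' x hx)
    refine ⟨h1, ?_⟩
    by_cases hb1 : b = 1
    · subst hb1; simp [hx2]
    · intro b' hb''
      refine (key _ h1 b hb' hb1 ?_ b' hb'').symm
      have hb2 : b * b = 1 := by
        have h5 := hA.2 _ (H1.mem_conj_smul_iff.1 hb')
        calc b * b = g * (g⁻¹ * b * g) ^ 2 * g⁻¹ := by rw [sq]; group
          _ = 1 := by rw [h5]; group
      have h2 := hcomm x hx _ (hBA b hb' x hx)
      rw [mul_inv_eq_iff_eq_mul]
      calc x * (b * x * b⁻¹) * b = x * b * x := by group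
        _ = b * (b⁻¹ * x * b * x) := by
          have h3 : b⁻¹ = b := inv_eq_of_mul_eq_one_right hb2
          rw [h3]; simp only [← mul_assoc, hb2, one_mul]
        _ = b * (x * (b * x * b⁻¹)) := by
          rw [h2, inv_eq_of_mul_eq_one_right hb2]
  have hinj : Function.Injective (fun b : B =>
      (⟨x * (b * x * (b : G)⁻¹), hmem b b.2⟩ : (A ⊓ centralizer (B : Set G) : Subgroup G))) := by
    intro b b' h
    have h1 : (b : G) * x * (b : G)⁻¹ = b' * x * (b' : G)⁻¹ :=
      mul_left_cancel (congrArg Subtype.val h :)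
    by_contra hne'
    have h2 : (b' : G)⁻¹ * b ≠ 1 := fun h3 => hne' (Subtype.ext (inv_mul_eq_one.1 h3).symm)
    refine hxb (key x hx _ (B.mul_mem (B.inv_mem b'.2) b.2) h2 ?_ b₀ hb₀)
    rw [mul_inv_eq_iff_eq_mul]
    calc x * ((b' : G)⁻¹ * b) = (b' : G)⁻¹ * ((b' : G) * x * (b' : G)⁻¹) * b := by group
      _ = _ := by rw [← h1]; group
  have h1 := Nat.card_le_card_of_injective _ hinj
  rw [hB, H1.card_conj_smul] at h1
  exact absurd (H1.card_lt_of_lt hlt) (not_lt.2 h1)

end Cfsg.Agent.S1177
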