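import Cfsg.Statements.S1178
import Cfsg.Agent.H10.Isolated

set_option autoImplicit false
open Cfsg

namespace Cfsg.Agent.S1178

open Subgroup
open scoped Pointwise

/-- Let A be a subgroup of a Sylow 2-subgroup S of the finite group G which is weakly closed in S. If a conjugate g A g⁻¹ commutes elementwise with A, then g A g⁻¹ = A. -/
theorem result {G : Type*} [Group G] [Finite G] (S : Sylow 2 G) (A : Subgroup G) (hW : Cfsg.IsWeaklyClosed A (S : Subgroup G)) (g : G) (hc : ∀ a ∈ A, ∀ b ∈ A.map (MulAut.conj g).toMonoidHom, a * b = b * a) : A.map (MulAut.conj g).toMonoidHom = A := by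
  have hA : IsPGroup 2 A := S.isPGroup'.to_le hW.1
  have h1 : IsPGroup 2 (A ⊔ A.map (MulAut.conj g).toMonoidHom : Subgroup G) :=
    IsPGroup.to_sup_of_normal_right' hA (hA.map _) (by
      refine le_trans ?_ (centralizer_le_normalizer _)
      exact fun a ha b hb => (hc a ha b hb).symm)
  obtain ⟨h, hh⟩ := H10.exists_conj_le_sylow S h1
  have h2 : MulAut.conj h • A = A :=
    hW.2 h ((pointwise_smul_le_pointwise_smul_iff.2 le_sup_left).trans hh)
  have h3 : MulAut.conj (h * g) • A = A := hW.2 (h * g) (by
    change MulAut.conj (h * g) • A ≤ _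
    rw [← H1.conj_smul_conj_smul]
    exact (pointwise_smul_le_pointwise_smul_iff.2 le_sup_right).trans hh)
  change MulAut.conj g • A = A
  rw [← H1.mem_normalizer_iff_conj_smul_eq] at h2 h3 ⊢
  simpa using mul_mem (inv_mem h2) h3

end Cfsg.Agent.S1178
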