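import Cfsg.Statements.S1183
import Cfsg.Agent.H10.Isolated
import Cfsg.Agent.H3.Focal

set_option autoImplicit false
open Cfsg

namespace Cfsg.Agent.S1183

open Subgroup
open scoped Pointwise

theorem aux {G : Type*} [Group G] [Finite G] (S : Sylow 2 G) :
    pResidual 2 G = ⊤ ↔ (S : Subgroup G) ≤ commutator G := by
  constructor
  · intro h
    have := H3.pResidual_inf_le_commutator S.isPGroup' (H3.sylow_index_coprime S)
    rwa [h, top_inf_eq] at this
  · intro h
    have hp := H3.isPGroup_quotient_pResidual (G := G) (n := 2) (by norm_num)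
    have h1 : (S : Subgroup G).map (QuotientGroup.mk' (pResidual 2 G)) = ⊤ := by
      rw [eq_top_iff, ← map_top_of_surjective _ (QuotientGroup.mk'_surjective (pResidual 2 G)),
        H1.map_mk'_le_map_mk'_iff, H3.sylow_sup_pResidual]
    have h2 : commutator (G ⧸ pResidual 2 G) = ⊤ := by
      rw [eq_top_iff, ← h1]
      refine (map_mono h).trans ?_
      rw [_root_.commutator_def, map_commutator]
      exact commutator_mono le_top le_top
    have h3 := H3.eq_bot_of_le_commutator (L := (⊤ : Subgroup (G ⧸ pResidual 2 G))) (H := ⊤)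
      (hp.to_subgroup ⊤).isNilpotent le_rfl h2.ge
    rw [← QuotientGroup.ker_mk' (pResidual 2 G), eq_top_iff]
    intro g _
    have : QuotientGroup.mk' (pResidual 2 G) g ∈ (⊥ : Subgroup _) := h3 ▸ mem_top _
    exact this

/-- Let z be an isolated involution of the finite group G and C = C_G(z). Then the subgroup of G generated by its elements of odd order is all of G if and only if the subgroup of C generated by its elements of odd order is all of C. -/
theorem result {G : Type*} [Group G] [Finite G] (z : G) (hz : Cfsg.IsIsolatedInvolution z) : Cfsg.pResidual 2 G = ⊤ ↔ Cfsg.pResidual 2 ↥(Subgroup.centralizer ({z} : Set G)) = ⊤ := by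
  obtain ⟨S, hS⟩ := H10.exists_sylow_mem_two hz.1
  have hle : (S : Subgroup G) ≤ centralizer ({z} : Set G) := fun s hs =>
    H10.mem_centralizer_iff_commute.2 (H10.Iso.commute_of_mem hz S.isPGroup' hS hs)
  have h1 := H3.commutator_inf_eq_of_control S (H := centralizer ({z} : Set G)) (fun x hx g hg => by
    obtain ⟨c, -, h2, h3⟩ := H10.Iso.control hz (H := ⊤) (le_normalizer (mem_top z)) (mem_top g)
    exact ⟨c, H10.mem_centralizer_iff_commute.2 h2, h3 x (H10.mem_centralizer_iff_commute.1 (hle hx))
      (H10.mem_centralizer_iff_commute.1 (hle hg))⟩) hle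
  rw [aux S, aux (S.subtype hle), Sylow.coe_subtype, ← inf_eq_right, h1, inf_eq_right,
    ← map_le_map_iff_of_injective (centralizer ({z} : Set G)).subtype_injective,
    map_subgroupOf_eq_of_le hle, map_subtype_commutator]

end Cfsg.Agent.S1183
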