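import Cfsg.Statements.S1184
import Cfsg.Agent.H10.Isolated

set_option autoImplicit false
open Cfsg

namespace Cfsg.Agent.S1184

/-- Let z be an isolated involution of the finite group G. If s and t are distinct conjugates of z, then st does not commute with z. -/
theorem result {G : Type*} [Group G] [Finite G] (z : G) (hz : Cfsg.IsIsolatedInvolution z) (g h : G) (hne : g * z * g⁻¹ ≠ h * z * h⁻¹) : ¬ Commute (g * z * g⁻¹ * (h * z * h⁻¹)) z := by
  intro hc
  have hs : IsConj z (g * z * g⁻¹) := isConj_iff.2 ⟨g, rfl⟩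
  have ht : IsConj z (h * z * h⁻¹) := isConj_iff.2 ⟨h, rfl⟩
  set s := g * z * g⁻¹
  set t := h * z * h⁻¹
  have hs2 := (H10.Iso.of_isConj hz hs).1
  have ht2 := (H10.Iso.of_isConj hz ht).1
  have h1 := H10.inverts_left (H10.mul_self_of_orderOf_two hs2) (H10.mul_self_of_orderOf_two ht2)
  have h2 := H10.mul_self_eq_one_of_odd_inverts (H10.Iso.odd_mul hz hs) (k := s * t) (by
    calc z * s * (s * t) * (z * s)⁻¹ = z * (s * (s * t) * s⁻¹) * z⁻¹ := by group
      _ = _ := by rw [h1, ← hc.inv_left.eq]; group)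
  have h3 := H10.eq_one_of_odd_of_mul_self (H10.Iso.odd_mul' hz hs ht) h2
  rw [← H10.inv_eq_of_orderOf_two hs2, inv_mul_eq_one] at h3
  exact hne h3

end Cfsg.Agent.S1184
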