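import Cfsg.Statements.S1185
import Cfsg.Agent.H10.Isolated

set_option autoImplicit false
open Cfsg

namespace Cfsg.Agent.S1185

/-- Let z be an isolated involution of the finite group G with centralizer C. Then for every g ∈ G there is exactly one element k in the coset gC that has odd order and is inverted by z. -/
theorem result {G : Type*} [Group G] [Finite G] (z : G) (hz : Cfsg.IsIsolatedInvolution z) (g : G) : ∃! k : G, (Odd (orderOf k) ∧ z * k * z⁻¹ = k⁻¹) ∧ g⁻¹ * k ∈ Subgroup.centralizer ({z} : Set G) := by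
  have hz2 := H10.mul_self_of_orderOf_two hz.1
  have hzi := H10.inv_eq_of_orderOf_two hz.1
  have key : ∀ k : G, z * k * z⁻¹ = k⁻¹ →
      (g⁻¹ * k ∈ Subgroup.centralizer ({z} : Set G) ↔ k * k = g * z * g⁻¹ * z) := by
    intro k hk
    have e : k * z * k⁻¹ = k * k * z := by
      calc k * z * k⁻¹ = k * (z * k * z⁻¹)⁻¹ * z := by group
        _ = _ := by rw [hk, inv_inv]
    rw [H10.mem_centralizer_singleton']
    constructor
    · intro h
      have : k * z * k⁻¹ = g * z * g⁻¹ := by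
        calc k * z * k⁻¹ = g * (g⁻¹ * k * z * (g⁻¹ * k)⁻¹) * g⁻¹ := by group
          _ = _ := by rw [h]
      rw [← this, e, mul_assoc, hz2, mul_one]
    · intro h
      calc g⁻¹ * k * z * (g⁻¹ * k)⁻¹ = g⁻¹ * (k * z * k⁻¹) * g := by group
        _ = g⁻¹ * (g * z * g⁻¹ * (z * z)) * g := by rw [e, h]; group
        _ = z := by rw [hz2]; group
  have hs : IsConj z (g * z * g⁻¹) := isConj_iff.2 ⟨g, rfl⟩
  have hw := H10.Iso.odd_mul' hz hs (IsConj.refl z)
  obtain ⟨j, hj⟩ := H10.exists_sqrt_of_odd hw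
  have hi : z * (g * z * g⁻¹ * z) ^ j * z⁻¹ = ((g * z * g⁻¹ * z) ^ j)⁻¹ := by
    have := H10.conj_zpow_of_inverts (H10.inverts_right
      (H10.mul_self_of_orderOf_two (H10.Iso.of_isConj hz hs).1) hz2) j
    simpa using this
  refine ⟨_, ⟨⟨H10.odd_orderOf_pow hw j, hi⟩, (key _ hi).2 hj⟩, ?_⟩
  rintro k ⟨⟨h1, h2⟩, h3⟩
  exact H10.eq_of_odd_of_sq_eq h1 (H10.odd_orderOf_pow hw j) (((key k h2).1 h3).trans hj.symm)

end Cfsg.Agent.S1185
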