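import Cfsg.Statements.S1186
import Cfsg.Agent.H10.Isolated

set_option autoImplicit false
open Cfsg

namespace Cfsg.Agent.S1186

/-- Let z be an isolated involution of the finite group G, C = C_G(z), K the set of elements of odd order inverted by z, and s an involution of C. Then |G| = |C| · |C_K(sz)| · |C_K(s)|. -/
theorem result {G : Type*} [Group G] [Finite G] (z : G) (hz : Cfsg.IsIsolatedInvolution z) (s : G) (hs : orderOf s = 2) (hsz : Commute s z) : Nat.card G = Nat.card (Subgroup.centralizer ({z} : Set G)) * Nat.card {k : G // Odd (orderOf k) ∧ z * k * z⁻¹ = k⁻¹ ∧ Commute k (s * z)} * Nat.card {k : G // Odd (orderOf k) ∧ z * k * z⁻¹ = k⁻¹ ∧ Commute k s} := by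
  classical
  have hz2 := H10.mul_self_of_orderOf_two hz.1
  have hs2 := H10.mul_self_of_orderOf_two hs
  -- counting conjugates of `y` satisfying a predicate
  have cnt : ∀ y : G, IsConj z y → ∀ p : G → Prop,
      Nat.card {k : G // Odd (orderOf k) ∧ y * k * y⁻¹ = k⁻¹ ∧ p (y * k)}
        = Nat.card {t : G // IsConj z t ∧ p t} := by
    intro y hy p
    have hy' := H10.Iso.of_isConj hz hy
    refine Nat.card_congr (Equiv.subtypeEquiv (Equiv.mulLeft y) fun k => ?_)
    rw [← and_assoc, ← H10.Iso.isConj_mul_iff hy']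
    exact and_congr ⟨fun h => hy.trans h, fun h => hy.symm.trans h⟩ Iff.rfl
  have c1 : Nat.card {k : G // Odd (orderOf k) ∧ z * k * z⁻¹ = k⁻¹ ∧ Commute k (s * z)}
      = Nat.card {t : G // IsConj z t ∧ Commute t (s * z)} := by
    rw [← cnt z (IsConj.refl z)]
    refine Nat.card_congr (Equiv.subtypeEquivRight fun k => and_congr Iff.rfl (and_congr Iff.rfl ?_))
    have : Commute z (s * z) := hsz.symm.mul_right (Commute.refl z)
    exact ⟨fun h => this.mul_left h, fun h => by simpa using this.inv_left.mul_left h⟩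
  have c2 : Nat.card {k : G // Odd (orderOf k) ∧ z * k * z⁻¹ = k⁻¹ ∧ Commute k s}
      = Nat.card {t : G // IsConj z t ∧ Commute t s} := by
    rw [← cnt z (IsConj.refl z)]
    refine Nat.card_congr (Equiv.subtypeEquivRight fun k => and_congr Iff.rfl (and_congr Iff.rfl ?_))
    exact ⟨fun h => hsz.symm.mul_left h, fun h => by simpa using hsz.symm.inv_left.mul_left h⟩
  rw [c1, c2, mul_assoc, ← H10.card_isConj_mul_card_centralizer z, mul_comm]
  congr 1
  by_cases hsz' : IsConj z s
  · have := H10.Iso.eq_of_commute hz hsz' hsz.symm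
    subst this
    have h1 : Nat.card {t : G // IsConj s t ∧ Commute t s} = 1 := by
      rw [Nat.card_eq_one_iff_exists]
      exact ⟨⟨s, IsConj.refl s, Commute.refl s⟩, fun t =>
        Subtype.ext (H10.Iso.eq_of_commute hz t.2.1 t.2.2.symm)⟩
    rw [h1, mul_one, hs2]
    simp
  have := Fintype.ofFinite G
  let f : G → G := fun t => s * (s * t) ^ (orderOf (s * t) / 2)
  have hf : ∀ t, IsConj z t → orderOf ((s * t) ^ (orderOf (s * t) / 2)) = 2 ∧ IsConj z (f t) ∧
      Commute (f t) s ∧ Commute t (s * f t) := by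
    intro t ht
    have ht' := H10.Iso.of_isConj hz ht
    have ht2 := H10.mul_self_of_orderOf_two ht'.1
    have hev : Even (orderOf (s * t)) := by
      rw [← Nat.not_odd_iff_even]
      exact fun h => hsz' (ht.trans (H10.isConj_of_odd hs2 ht2 h).symm)
    obtain ⟨h1, h2, h3⟩ := H10.exists_central_invol_of_even hs2 ht2 (orderOf_pos _).ne' hev
    have h4 := H10.Iso.dvd_four_false ht' hs2
    have h5 : orderOf (t * s) = orderOf (s * t) := by
      rw [← H10.orderOf_conj s (t * s)]; congr 1; group
    refine ⟨h1, ?_, (Commute.refl s).mul_left h2, ?_⟩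
    · rcases H10.exists_conj_mul_pow hs2 ht2 (orderOf (s * t) / 2) with ⟨⟨j, hj⟩, -⟩ | ⟨-, k, hk⟩
      · obtain ⟨a, ha⟩ := hev
        exact absurd (h5 ▸ (show 4 ∣ orderOf (s * t) by omega)) h4
      · exact ht.trans (isConj_iff.2 ⟨_, hk⟩)
    · simp only [f, ← mul_assoc, hs2, one_mul]
      exact h3.symm
  have hfib : ∀ y, IsConj z y → Commute y s → ∀ t, IsConj z t → Commute t (s * y) → f t = y := by
    intro y hy hys t ht htc
    have hy' := H10.Iso.of_isConj hz hy
    have hy2 := H10.mul_self_of_orderOf_two hy'.1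
    have hc2 : orderOf (s * y) = 2 := by
      refine H10.orderOf_two_of ?_ ?_
      · rw [mul_assoc, ← mul_assoc y, hys.eq, mul_assoc, hy2, mul_one, hs2]
      · intro h
        rw [← H10.inv_eq_of_orderOf_two hs, inv_mul_eq_one] at h
        exact hsz' (h ▸ hy)
    obtain ⟨m, hm⟩ := H10.Iso.odd_mul' hz hy ht
    have h1 : Commute (s * y) (y * t) := (hys.symm.mul_left (Commute.refl y)).mul_right htc.symm
    have h2 : (s * t) ^ (2 * m + 1) = s * y := by
      have : s * t = (s * y) * (y * t) := by rw [mul_assoc, ← mul_assoc y, hy2, one_mul]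
      rw [this, h1.mul_pow, ← hm, pow_orderOf_eq_one, mul_one, hm, pow_succ, pow_mul, sq,
        H10.mul_self_of_orderOf_two hc2, one_pow, one_mul]
    have h3 := H10.invol_unique_of_isCyclic (H := Subgroup.zpowers (s * t)) inferInstance
      (Subgroup.pow_mem _ (Subgroup.mem_zpowers _) _)
      (h2 ▸ Subgroup.pow_mem _ (Subgroup.mem_zpowers _) _) (hf t ht).1 hc2
    simp only [f]
    rw [h3, ← mul_assoc, hs2, one_mul]
  rw [Nat.card_eq_fintype_card, Fintype.card_subtype,
    Finset.card_eq_sum_card_fiberwise (f := f)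
      (t := Finset.univ.filter fun y => IsConj z y ∧ Commute y s) (by
        intro t ht
        have := hf t (by simpa [-isConj_iff] using ht)
        simpa [-isConj_iff] using ⟨this.2.1, this.2.2.1⟩),
    Finset.sum_const_nat (m := Nat.card {t : G // IsConj z t ∧ Commute t (s * z)}), mul_comm,
    Nat.card_eq_fintype_card (α := {t : G // IsConj z t ∧ Commute t s}), Fintype.card_subtype]
  intro y hy
  simp only [Finset.mem_filter, Finset.mem_univ, true_and] at hy
  have e1 : ((Finset.univ.filter fun t => IsConj z t).filter fun t => f t = y).card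
      = Nat.card {t : G // IsConj z t ∧ Commute t (s * y)} := by
    rw [Nat.card_eq_fintype_card, Fintype.card_subtype]
    congr 1; ext t
    simp only [Finset.mem_filter, Finset.mem_univ, true_and]
    exact ⟨fun h => ⟨h.1, h.2 ▸ (hf t h.1).2.2.2⟩, fun h => ⟨h.1, hfib y hy.1 hy.2 t h.1 h.2⟩⟩
  rw [e1]
  obtain ⟨c, hc, hcz⟩ := H10.Iso.exists_conj_mem hz (H := Subgroup.centralizer {s}) hy.1
    (H10.mem_centralizer_iff_commute.2 (hsz.symm.mul_left hy.2))
  symm
  refine Nat.card_congr (Equiv.subtypeEquiv (MulAut.conj c).toEquiv fun t => ?_)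
  have e2 : s * y = MulAut.conj c (s * z) := by
    rw [map_mul, MulAut.conj_apply, MulAut.conj_apply, hcz, H10.mem_centralizer_singleton'.1 hc]
  rw [e2]
  refine and_congr ⟨fun h => h.trans (isConj_iff.2 ⟨c, rfl⟩),
    fun h => h.trans (isConj_iff.2 ⟨c, rfl⟩).symm⟩ ?_
  exact (commute_map_iff (MulAut.conj c).injective).symm

end Cfsg.Agent.S1186
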