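import Cfsg.Statements.S1187
import Cfsg.Agent.H7.ZStar
import Cfsg.Agent.H10.Inverted
import Cfsg.Agent.H1.Core

set_option autoImplicit false
open Cfsg

namespace Cfsg.Agent.S1187

open Subgroup H28 H10

theorem exists_sylow {G : Type*} [Group G] [Finite G] {z : G} (hz : Cfsg.IsIsolatedInvolution z)
    (p : ℕ) [hp : Fact p.Prime] : ∃ P : Sylow p G, z ∈ 𝐍 (P : Subgroup G) := by
  have hz2 := mul_self_of_orderOf_two hz.1
  by_cases h2 : p = 2
  · subst h2
    obtain ⟨P, hP⟩ := (H28.isPGroup_zpowers_of_orderOf (p := 2) (k := 1)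
      (by simpa using hz.1)).exists_le_sylow
    exact ⟨P, le_normalizer (hP (mem_zpowers z))⟩
  obtain ⟨P⟩ : Nonempty (Sylow p G) := inferInstance
  have hodd : Odd (Nat.card (oddCore G ⊔ P : Subgroup G)) := by
    have h1 := H2.card_sup_mul_card_inf (N := oddCore G) (H := P)
      fun g _ => mem_normalizer_of_normal _ g
    refine Odd.of_dvd_nat (Odd.mul H1.odd_card_oddCore ?_) (Dvd.intro _ h1)
    obtain ⟨k, hk⟩ := IsPGroup.iff_card.1 P.isPGroup'
    rw [hk]
    exact (hp.out.odd_of_ne_two h2).pow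
  have hn : z ∈ 𝐍 (oddCore G ⊔ P : Subgroup G) := by
    refine mem_normalizer_of_cj_le ?_
    rw [cj_sup, cj_eq_self_of_normal]
    refine sup_le le_sup_left ?_
    rintro _ ⟨g, hg, rfl⟩
    simpa using mul_mem_sup (H7.zstar hz g) hg
  obtain ⟨Q, hQ, hzQ⟩ := exists_isSylowIn_invariant hodd hz2 hn p
  obtain ⟨R, rfl⟩ := ((H28.isSylowIn_top P).of_sylow_le le_sup_right le_top hQ).exists_sylow_top
  exact ⟨R, hzQ⟩

/-- Let z be an isolated involution of the finite group G and p a prime. If Q is a p-subgroup normalized by z that is maximal among p-subgroups normalized by z, then Q is a Sylow p-subgroup of G. -/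
theorem result {G : Type*} [Group G] [Finite G] (z : G) (hz : Cfsg.IsIsolatedInvolution z) {p : ℕ} [Fact p.Prime] (Q : Subgroup G) (hQ : IsPGroup p Q) (hzQ : z ∈ Subgroup.normalizer (Q : Set G)) (hmax : ∀ R : Subgroup G, IsPGroup p R → z ∈ Subgroup.normalizer (R : Set G) → Q ≤ R → R = Q) : ∃ P : Sylow p G, (P : Subgroup G) = Q := by
  refine H28.IsSylowIn.exists_sylow_top (H28.IsSylowIn.of_inf_normalizer ?_)
  rw [top_inf_eq]
  obtain ⟨P, hP⟩ := exists_sylow (Iso.subgroup hz hzQ) p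
  have h1 := H28.isSylowIn_map_subtype P
  have h2 : Q ≤ _ := h1.le_of_le_normalizer' hQ le_normalizer (map_subtype_le _)
  have h3 : z ∈ 𝐍 ((P : Subgroup (𝐍 Q)).map (𝐍 Q).subtype) :=
    ((map_subtype_normalizer _).le ⟨_, hP, rfl⟩).2
  rwa [hmax _ h1.isPGroup h3 h2] at h1

end Cfsg.Agent.S1187
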