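import Cfsg.Statements.S1223
import Cfsg.Agent.H18.Be12

set_option autoImplicit false
open Cfsg

namespace Cfsg.Agent.S1223

/-- Let H be a strongly embedded subgroup of the finite group G containing no nontrivial normal subgroup of G (so G acts faithfully on the cosets of H), u an involution of G outside H, and j ≠ 1 an element of H ∩ uHu⁻¹ with u j u⁻¹ = j⁻¹. Then C_G(j) has odd order. -/
theorem result {G : Type*} [Group G] [Finite G] (H : Subgroup G) (hH : Cfsg.IsStronglyEmbedded H) (hcore : H.normalCore = ⊥) (u : G) (hu : orderOf u = 2) (huH : u ∉ H) (j : G) (hj : j ∈ (H ⊓ H.map (MulAut.conj u).toMonoidHom)) (hj1 : j ≠ 1) (hinv : u * j * u⁻¹ = j⁻¹) : Odd (Nat.card (Subgroup.centralizer ({j} : Set G))) := by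
  open H18.Be H19 H13 H13.RankOne in
  obtain ⟨u1, u2⟩ := of_ord2 hu
  have j2 : j * j ≠ 1 := fun e => hj1 (eq_one_of_sq_of_odd e (odd_elt (hH.2.2 u huH) hj))
  have e1 : u * (u * j) = j := by rw [← mul_assoc, u2, one_mul]
  have e2 : u * j * (u * j) = 1 := by
    rw [← mul_assoc, show u * j * u = j⁻¹ by rw [← hinv, inv_sq u2], inv_mul_cancel]
  by_cases hr : H3.Rk2 G
  · obtain ⟨Q, s, r, h⟩ := r1_coset hH hr hcore huH u2
    simpa [e1] using h.odd_cent u2 e2 (by rwa [e1])
  refine odd_of_no_inv fun w hw w2 => by_contra fun w1 => ?_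
  have key : ∀ g ∈ N(Subgroup.zpowers j), g * w * g⁻¹ ≠ u := fun g hg e => j2 (by
    have := conj_mem_of_norm (norm_le_norm_cent _ hg) (cent_zpowers j ▸ hw)
    rw [e, cent_zpowers, mem_cent1] at this
    rw [this, mul_inv_cancel_right] at hinv
    exact mul_eq_one_iff_eq_inv.2 hinv)
  by_cases ho : Odd (orderOf (w * u))
  · obtain ⟨n, hn⟩ := exists_conj_of_odd w2 u2 ho
    refine key _ (pow_mem (mul_mem (cent_le_norm _ (cent_zpowers j ▸ hw)) ?_) n) hn
    refine mem_norm_of_cj_le ?_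
    rw [cj_zpowers, hinv, Subgroup.zpowers_inv]
  · obtain ⟨n, z1, z2, c1, c2⟩ := exists_invol_of_even w2 u2 ho
    have : ∀ v : G, v ≠ 1 → v * v = 1 → Commute v ((w * u) ^ n) → v = (w * u) ^ n :=
      fun v a b c => by_contra fun ne => hr ⟨_, _, a, z1, ne, b, z2, c⟩
    exact key 1 (one_mem _) (by simpa using (this w w1 w2 c1).trans (this u u1 u2 c2).symm)

end Cfsg.Agent.S1223
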