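import Cfsg.Statements.S1231
import Cfsg.Agent.H10.Syl

set_option autoImplicit false
open Cfsg

namespace Cfsg.Agent.S1231

open Subgroup
open scoped Pointwise

theorem rank_of_le {G : Type*} [Group G] {p k : ℕ} {X Y : Subgroup G} (h : X ≤ Y)
    (hY : PRankLE p k Y) : PRankLE p k X := by
  intro A hA hp
  have := hY (A.map (inclusion h)) (by infer_instance) (by
    rintro _ ⟨a, ha, rfl⟩; rw [← map_pow, hp a ha, map_one])
  rwa [card_map_of_injective (inclusion_injective h)] at this

theorem rank_equiv {G G' : Type*} [Group G] [Group G'] {p k : ℕ} (e : G ≃* G')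
    (hY : PRankLE p k G') : PRankLE p k G := by
  intro A hA hp
  have := hY (A.map e.toMonoidHom) (by infer_instance) (by
    rintro _ ⟨a, ha, rfl⟩; rw [← map_pow, hp a ha, map_one])
  rwa [card_map_of_injective e.injective] at this

theorem rank_conj {G : Type*} [Group G] {p k : ℕ} {X : Subgroup G} (g : G)
    (hY : PRankLE p k (MulAut.conj g • X : Subgroup G)) : PRankLE p k X :=
  rank_equiv (X.equivMapOfInjective (MulAut.conj g).toMonoidHom (MulAut.conj g).injective) hY

theorem rank_sylow {G : Type*} [Group G] [Finite G] {p k : ℕ} [Fact p.Prime] {Q Y : Subgroup G}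
    (h : H10.IsSylowIn p Q Y) (hQ : PRankLE p k Q) : PRankLE p k Y := by
  intro A hA hp
  have h1 : IsPGroup p (A.map Y.subtype) := by
    refine IsPGroup.map ?_ _
    intro a; exact ⟨1, Subtype.ext (by simpa using hp a a.2)⟩
  obtain ⟨g, -, hg⟩ := h.exists_conj_le h1 (map_subtype_le _)
  have h2 := rank_conj g (rank_of_le hg hQ)
  have h3 := rank_equiv (A.equivMapOfInjective _ Y.subtype_injective) h2
  have := h3 ⊤ (by
    rw [H1.isMulCommutative_iff]; intro a _ b _; exact hA.is_comm.comm a b)
    (fun a _ => Subtype.ext (hp a a.2))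
  rwa [card_top] at this

/-- Let H be a subgroup of the finite group G, p a prime, k ≥ 1, and P a Sylow p-subgroup of H whose p-rank is at least k. Then N_G(X) ≤ H for every subgroup X of P of p-rank at least k if and only if H ∩ gHg⁻¹ has p-rank less than k for every g ∉ H. -/
theorem result {G : Type*} [Group G] [Finite G] {p : ℕ} [Fact p.Prime] (k : ℕ) (hk : 1 ≤ k) (H : Subgroup G) (P : Sylow p ↥H) (hP : ¬ Cfsg.PRankLE p (k - 1) ↥(P : Subgroup ↥H)) : (∀ X : Subgroup G, X ≤ (P : Subgroup ↥H).map H.subtype → ¬ Cfsg.PRankLE p (k - 1) ↥X → Subgroup.normalizer (X : Set G) ≤ H) ↔ (∀ g : G, g ∉ H → Cfsg.PRankLE p (k - 1) ↥(H ⊓ H.map (MulAut.conj g).toMonoidHom)) := by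
  have hPs := H10.isSylowIn_map_subtype P
  have hP' : ¬ PRankLE p (k - 1) ((P : Subgroup H).map H.subtype) := fun h =>
    hP (rank_equiv ((P : Subgroup H).equivMapOfInjective _ H.subtype_injective) h)
  set P₀ := (P : Subgroup H).map H.subtype
  constructor
  · intro h
    have h' : ∀ X : Subgroup G, X ≤ H → IsPGroup p X → ¬ PRankLE p (k - 1) X →
        normalizer (X : Set G) ≤ H := by
      intro X hX hp hr
      obtain ⟨a, ha, hle⟩ := hPs.exists_conj_le hp hX
      have := h _ hle (fun h2 => hr (rank_conj a h2))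
      rw [← H1.conj_smul_normalizer] at this
      intro n hn
      have h3 := this (H1.conj_mem_conj_smul (g := a) hn)
      simpa [mul_assoc] using H.mul_mem (H.mul_mem (H.inv_mem ha) h3) ha
    intro g hg
    by_contra hr
    change ¬ PRankLE p (k - 1) (H ⊓ MulAut.conj g • H : Subgroup G) at hr
    obtain ⟨Q, hQ⟩ := H10.exists_isSylowIn p (H ⊓ MulAut.conj g • H)
    have hQr : ¬ PRankLE p (k - 1) Q := fun h2 => hr (rank_sylow hQ h2)
    have n1 := h' Q (hQ.le.trans inf_le_left) hQ.isPGroup hQr
    have hle : MulAut.conj g⁻¹ • Q ≤ H := by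
      rw [← H1.conj_inv_smul_conj_smul g H]
      exact pointwise_smul_le_pointwise_smul_iff.2 (hQ.le.trans inf_le_right)
    have n2 : normalizer (Q : Set G) ≤ MulAut.conj g • H := by
      have := h' _ hle (hQ.isPGroup.map _) (fun h2 => hQr (rank_conj _ h2))
      rw [← H1.conj_smul_normalizer] at this
      rw [← H1.conj_smul_conj_inv_smul g (normalizer (Q : Set G))]
      exact pointwise_smul_le_pointwise_smul_iff.2 this
    have hQtop : H10.IsSylowIn p Q ⊤ := H10.isSylowIn_of_normalizer le_top
      (hQ.of_le (le_inf le_top le_normalizer) (inf_le_right.trans (le_inf n1 n2)))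
    have s1 : H10.IsSylowIn p Q H := hQtop.of_le (hQ.le.trans inf_le_left) le_top
    have s2 : H10.IsSylowIn p (MulAut.conj g⁻¹ • Q) H :=
      (hQtop.conj_of_mem (g := g⁻¹) (le_normalizer (mem_top _))).of_le hle le_top
    obtain ⟨a, ha, he⟩ := s1.exists_conj_eq s2
    rw [H1.conj_smul_conj_smul, ← H1.mem_normalizer_iff_conj_smul_eq] at he
    exact hg (by simpa using H.mul_mem (H.inv_mem (n1 he)) ha)
  · intro h X hX hr n hn
    by_contra hnH
    refine hr (rank_of_le (le_inf (hX.trans hPs.le) ?_) (h n hnH))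
    change X ≤ MulAut.conj n • H
    rw [← H1.conj_smul_eq_of_mem_normalizer hn]
    exact pointwise_smul_le_pointwise_smul_iff.2 (hX.trans hPs.le)

end Cfsg.Agent.S1231
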