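import Cfsg.Statements.S1236
import Cfsg.Agent.S0221
import Cfsg.Agent.H10.QD

set_option autoImplicit false
open Cfsg

namespace Cfsg.Agent.S1236

open Subgroup H28

theorem key {Q : Type*} [Group Q] [Finite Q] {a : Q} (hi : (zpowers a).index = 2)
    (h : ∀ w, w ∉ zpowers a → ∀ c ∈ zpowers a, w * c = c * w → c ^ 2 = 1) {V : Subgroup Q}
    (hV : Nat.card V = 4) (h2 : ∀ v ∈ V, v ^ 2 = 1) : 𝐂 V ≤ V := by
  have h1 := H4.card_mul_relIndex (inf_le_right : zpowers a ⊓ V ≤ V)
  rw [inf_relIndex_right, hV] at h1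
  have h3 : (zpowers a).relIndex V ≤ 2 := by
    rw [← hi, ← relIndex_top_right]
    exact relIndex_le_of_le_right le_top (by rw [relIndex_top_right]; exact index_ne_zero_of_finite)
  have h4 := S0221.card_le_two_of_cyc (inf_le_left : zpowers a ⊓ V ≤ _) fun e he => h2 e he.2
  have h5 : 2 ≤ Nat.card (zpowers a ⊓ V : Subgroup Q) := by
    have := Nat.mul_le_mul_left (Nat.card (zpowers a ⊓ V : Subgroup Q)) h3
    omega
  have h6 : ¬ V ≤ zpowers a := by
    intro h7
    rw [inf_eq_right.2 h7] at h4; omega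
  obtain ⟨w, hw, hwa⟩ := SetLike.not_le_iff_exists.1 h6
  have h8 : ∀ c ∈ 𝐂 V, c ∈ zpowers a → c ∈ V := by
    intro c hc hca
    have hc2 := h w hwa c hca (mem_centralizer'.1 hc w hw)
    let W : Subgroup Q :=
      { carrier := {x | x ∈ zpowers a ∧ x ^ 2 = 1}
        one_mem' := ⟨one_mem _, one_pow _⟩
        mul_mem' := fun {x y} hx hy => ⟨mul_mem hx.1 hy.1, by
          obtain ⟨⟨i, rfl⟩, hx⟩ := hx
          obtain ⟨⟨j, rfl⟩, hy⟩ := hy
          rw [(Commute.zpow_zpow_self a i j).mul_pow, hx, hy, one_mul]⟩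
        inv_mem' := fun {x} hx => ⟨inv_mem hx.1, by rw [inv_pow, hx.2, inv_one]⟩ }
    have h9 := S0221.card_le_two_of_cyc (A := W) (fun x hx => hx.1) fun e he => he.2
    have h10 : zpowers a ⊓ V = W :=
      eq_of_le_of_card_le (fun x hx => ⟨hx.1, h2 x hx.2⟩) (h9.trans h5)
    exact (h10.ge (show c ∈ W from ⟨hca, hc2⟩)).2
  intro c hc
  by_cases hca : c ∈ zpowers a
  · exact h8 c hc hca
  · have h11 : c * w⁻¹ ∈ zpowers a :=
      H10.mul_inv_mem_of_relIndex_two (S := ⊤) (by rw [relIndex_top_right, hi]) trivial trivial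
        hca hwa
    have h12 := h8 _ (mul_mem hc (inv_mem (mem_centralizer'.2 fun v hv =>
      S0221.comm_of_sq h2 hv hw))) h11
    simpa using V.mul_mem h12 hw

/-- Let R be a finite group, t a central involution of R such that R ⧸ ⟨t⟩ is dihedral (of order ≥ 4) or quasi-dihedral, and A ≤ R an elementary abelian subgroup of order 8 containing t. Then C_R(A) = A. -/
theorem result {R : Type*} [Group R] [Finite R] (t : R) (ht : orderOf t = 2) (htz : t ∈ Subgroup.center R) [(Subgroup.zpowers t).Normal] (hq : (∃ m : ℕ, 2 ≤ m ∧ Nonempty (R ⧸ Subgroup.zpowers t ≃* DihedralGroup m)) ∨ Cfsg.IsQuasiDihedral (R ⧸ Subgroup.zpowers t)) (A : Subgroup R) (hA : Cfsg.IsElementaryAbelian 2 A) (hA8 : Nat.card A = 8) (htA : t ∈ A) : Subgroup.centralizer (A : Set R) = A := by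
  have hex : ∃ a : R ⧸ zpowers t, (zpowers a).index = 2 ∧
      ∀ w, w ∉ zpowers a → ∀ c ∈ zpowers a, w * c = c * w → c ^ 2 = 1 := by
    rcases hq with ⟨m, hm, ⟨e⟩⟩ | hq
    · obtain ⟨a, b, ha, hb, hab, hba, htop⟩ := H4.exists_gens_of_dihedral e
      refine ⟨a, ?_, ?_⟩
      · have h1 := (zpowers a).card_mul_index
        rw [Nat.card_zpowers, ha, Nat.card_congr e.toEquiv, DihedralGroup.nat_card] at h1
        have : m * (zpowers a).index = m * 2 := by omega
        exact Nat.eq_of_mul_eq_mul_left (by omega) this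
      · rintro w hw _ ⟨i, rfl⟩ hc
        rcases H4.mem_sup_cases (k := -1) (by simpa using hab) (hb ▸ one_mem _)
          (htop.ge (mem_top w)) with ⟨j, rfl⟩ | ⟨j, rfl⟩
        · exact absurd ⟨j, rfl⟩ hw
        · have h1 : b * a ^ i * b⁻¹ = (a ^ i)⁻¹ := by rw [← conj_zpow, hab, inv_zpow]
          have h2 : b * a ^ i = a ^ i * b := by
            apply mul_left_cancel (a := a ^ j)
            simp only at hc
            rw [← mul_assoc, hc, ← mul_assoc, ← mul_assoc, (Commute.zpow_zpow_self a i j).eq]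
          rw [h2, mul_inv_cancel_right] at h1
          simp only
          rw [sq]; nth_rewrite 1 [h1]; simp
    · obtain ⟨n, x, y, h⟩ := H10.exists_QD_top hq
      refine ⟨x, by simpa using h.mc.idx, ?_⟩
      rintro w hw _ ⟨i, rfl⟩ hc
      exact h.mc.zpow_sq_eq_one_iff.2 ((h.mc.comm_iff trivial hw).1 hc)
  obtain ⟨a, hi, h⟩ := hex
  have hker : (QuotientGroup.mk' (zpowers t)).ker ≤ A := by
    rw [QuotientGroup.ker_mk']; exact zpowers_le.2 htA
  have hV : Nat.card (A.map (QuotientGroup.mk' (zpowers t))) = 4 := by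
    have h1 := H4.card_mul_relIndex hker
    rw [relIndex_ker] at h1
    rw [QuotientGroup.ker_mk', Nat.card_zpowers, ht, hA8] at h1
    omega
  have hC := key hi h hV (by
    rintro _ ⟨v, hv, rfl⟩
    rw [← map_pow, hA.2 v hv, map_one])
  apply le_antisymm
  · intro c hc
    rw [← comap_map_eq_self hker]
    refine hC (mem_centralizer'.2 ?_)
    rintro _ ⟨v, hv, rfl⟩
    rw [← map_mul, ← map_mul, mem_centralizer'.1 hc v hv]
  · exact le_centralizer_self_iff.2 hA.1

end Cfsg.Agent.S1236
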