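import Cfsg.Statements.S1237
import Cfsg.Agent.H4.R2d

set_option autoImplicit false
open Cfsg

namespace Cfsg.Agent.S1237

/-- Let T be a finite 2-group of 2-rank exactly 2 (it has a Klein four-subgroup but no elementary abelian subgroup of order 8) admitting an automorphism φ such that any two involutions of T are carried to one another by a power of φ. Then T ≅ Z_{2^n} × Z_{2^n} for some n ≥ 1, or T is isomorphic to a Sylow 2-subgroup of PSU(3) over the field with 16 elements. -/
theorem result {T : Type*} [Group T] [Finite T] (hT : IsPGroup 2 T) (h2 : Cfsg.PRankLE 2 2 T) (h1 : ¬ Cfsg.PRankLE 2 1 T) (φ : MulAut T) (htrans : ∀ s t : T, orderOf s = 2 → orderOf t = 2 → ∃ k : ℕ, (φ ^ k) s = t) {F : Type*} [Field F] [Fintype F] (hF : Fintype.card F = 16) (P : Sylow 2 (Cfsg.PSU 3 F 4)) : (∃ n : ℕ, 1 ≤ n ∧ Nonempty (T ≃* Multiplicative (ZMod (2 ^ n) × ZMod (2 ^ n)))) ∨ Nonempty (T ≃* (P : Subgroup (Cfsg.PSU 3 F 4))) := by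
  simp only [Cfsg.PRankLE, not_forall, not_le] at h1
  obtain ⟨A, hA, h3, h4⟩ := h1
  have : Nontrivial T := Finite.one_lt_card_iff_nontrivial.1
    (by have := Subgroup.card_le_card_group A; omega)
  obtain ⟨z, -, z1, z2⟩ := H4.exists_mem_center_orderOf_eq hT (N := ⊤) top_ne_bot
  have key : φ (φ z) ≠ z := fun e => by
    have h5 : ∀ k : ℕ, (φ ^ k) z = z ∨ (φ ^ k) z = φ z := fun k => by
      induction k with
      | zero => exact .inl rfl
      | succ k ih => rcases ih with h | h <;> simp [pow_succ', h, e]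
    have h6 := Set.ncard_le_ncard (s := (A : Set T)) (t := {1, z, φ z}) fun a ha => by
      by_cases e : a = 1
      · exact .inl e
      obtain ⟨k, rfl⟩ := htrans z a z2 (orderOf_eq_prime (h3 a ha) e)
      exact .inr (h5 k)
    have h7 := h6.trans ((Set.ncard_insert_le _ _).trans (Nat.succ_le_succ
      ((Set.ncard_insert_le _ _).trans (Nat.succ_le_succ (Set.ncard_singleton _).le))))
    obtain ⟨n, hn⟩ := H4.exists_card_eq_pow hT A
    rw [← Nat.card_coe_set_eq, SetLike.coe_sort_coe, hn] at h7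
    rw [hn, Nat.pow_lt_pow_iff_right one_lt_two] at h4
    have := Nat.pow_le_pow_right two_pos (show 2 ≤ n from h4)
    omega
  obtain ⟨j, h, h5⟩ := H4.exists_suz_four hT h2 (sq z ▸ (orderOf_eq_prime_iff.1 z2).1) z1
    (fun e => key (by rw [e, e])) key
  by_cases hc : H4.Cm (⊤ : Subgroup T)
  · exact .inl (h.equiv_homocyclic hc h5)
  · exact .inr (h.equiv64 hc h5 hF P)

end Cfsg.Agent.S1237
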