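import Cfsg.Statements.S1242
import Cfsg.Agent.H3.Transfer

set_option autoImplicit false
open Cfsg

namespace Cfsg.Agent.S1242

open Subgroup

/-- Let G be a finite group, p a prime and H a subgroup of index prime to p such that any two elements of H of p-power order that are conjugate in G are conjugate in H. Then (O^p(G)·G') ∩ H = O^p(H)·H', where O^p denotes the subgroup generated by the elements of order prime to p. -/
theorem result {G : Type*} [Group G] [Finite G] {p : ℕ} [Fact p.Prime] (H : Subgroup G) (hidx : Nat.Coprime p H.index) (hfus : ∀ g ∈ H, (∃ k : ℕ, orderOf g = p ^ k) → ∀ a : G, a * g * a⁻¹ ∈ H → ∃ h ∈ H, h * g * h⁻¹ = a * g * a⁻¹) : (Cfsg.pResidual p G ⊔ commutator G) ⊓ H = (Cfsg.pResidual p ↥H ⊔ commutator ↥H).map H.subtype := by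
  have hp : p.Prime := Fact.out
  apply le_antisymm
  · rintro x ⟨hx, hxH⟩
    let N : Subgroup H := Cfsg.pResidual p H ⊔ commutator H
    haveI : N.Normal := inferInstance
    have hcomm : ∀ a b : H ⧸ N, a * b = b * a := by
      intro a b
      induction a using QuotientGroup.induction_on with | H a => ?_
      induction b using QuotientGroup.induction_on with | H b => ?_
      rw [← QuotientGroup.mk_mul, ← QuotientGroup.mk_mul, QuotientGroup.eq]
      refine (le_sup_right : commutator H ≤ N) ?_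
      have := commutator_mem_commutator (mem_top b⁻¹) (mem_top a⁻¹)
      rw [commutatorElement_def] at this
      simpa [mul_assoc, commutator_def] using this
    letI : CommGroup (H ⧸ N) := { (inferInstance : Group (H ⧸ N)) with mul_comm := hcomm }
    have hP : IsPGroup p (H ⧸ N) := H3.isPGroup_quotient_of_pResidual_le hp.ne_zero le_sup_left
    let ϕ : H →* H ⧸ N := QuotientGroup.mk' N
    obtain ⟨a, b, ha, hb, ⟨k, hk⟩, hbc, hab, -⟩ := H3.exists_decomp (n := p) hp.ne_zero x
    have haH : a ∈ H := (zpowers_le.2 hxH) ha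
    have hbH : b ∈ H := (zpowers_le.2 hxH) hb
    have hker : Cfsg.pResidual p G ⊔ commutator G ≤ (MonoidHom.transfer ϕ).ker :=
      sup_le (H3.pResidual_le_ker hP _) fun g hg => H3.map_eq_one_of_mem_commutator _ hg
    have key : MonoidHom.transfer ϕ a = (ϕ ⟨a, haH⟩) ^ H.index := by
      apply H3.transfer_eq_pow_of
      intro j t h
      have hj : ∃ i : ℕ, orderOf (a ^ j) = p ^ i := by
        have : orderOf (a ^ j) ∣ p ^ k := by
          apply orderOf_dvd_of_pow_eq_one
          rw [← pow_mul, mul_comm, pow_mul, hk, one_pow]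
        obtain ⟨i, -, hi⟩ := (Nat.dvd_prime_pow hp).1 this
        exact ⟨i, hi⟩
      obtain ⟨y, hy, hyt⟩ := hfus _ (H.pow_mem haH j) hj t⁻¹ (by simpa using h)
      have : (⟨_, h⟩ : H) = ⟨y, hy⟩ * ⟨a, haH⟩ ^ j * ⟨y, hy⟩⁻¹ := by
        ext; simpa using hyt.symm
      rw [this, map_mul, map_mul, map_inv, map_pow, mul_inv_cancel_comm]
    have h0 : MonoidHom.transfer ϕ a = 1 := hker ((zpowers_le.2 hx) ha)
    rw [h0] at key
    have h1 : orderOf (ϕ ⟨a, haH⟩) ∣ H.index := orderOf_dvd_of_pow_eq_one key.symm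
    obtain ⟨j, hj⟩ := hP (ϕ ⟨a, haH⟩)
    have h3 : orderOf (ϕ ⟨a, haH⟩) = 1 :=
      Nat.eq_one_of_dvd_coprimes (Nat.Coprime.pow_left j hidx) (orderOf_dvd_of_pow_eq_one hj) h1
    rw [orderOf_eq_one_iff] at h3
    have h4 : (⟨a, haH⟩ : H) ∈ N := (QuotientGroup.eq_one_iff _).1 h3
    have h5 : (⟨b, hbH⟩ : H) ∈ N :=
      (le_sup_left : _ ≤ N) (H3.mem_pResidual (by rwa [Subgroup.orderOf_mk]))
    exact ⟨_, N.mul_mem h4 h5, hab.symm⟩
  · refine le_inf ?_ (map_subtype_le _)
    rw [Subgroup.map_sup]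
    refine sup_le_sup (H3.map_pResidual_le _) ?_
    rw [commutator_def, map_commutator, commutator_def]
    exact commutator_mono le_top le_top

end Cfsg.Agent.S1242
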