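import Cfsg.Statements.S1244
import Cfsg.Agent.S1241
import Cfsg.Agent.H10.MaxClass
import Cfsg.Agent.H4.Basic

set_option autoImplicit false
open Cfsg

namespace Cfsg.Agent.S1244

open Subgroup

/-- Let G be a finite group with no subgroup of index 2 whose Sylow 2-subgroup S is commutative, and let R ≤ S be a subgroup whose 2-rank is exactly one less than the 2-rank r of S. Then every involution of S is conjugate, by an element of N_G(S), to an element of R. -/
theorem result {G : Type*} [Group G] [Finite G] (hG : ∀ H : Subgroup G, H.index ≠ 2) (S : Sylow 2 G) (hS : IsMulCommutative (S : Subgroup G)) (r : ℕ) (hr1 : 1 ≤ r) (hSr : Cfsg.PRankLE 2 r (S : Subgroup G) ∧ ¬ Cfsg.PRankLE 2 (r - 1) (S : Subgroup G)) (R : Subgroup G) (hRS : R ≤ S) (hRr : Cfsg.PRankLE 2 (r - 1) R ∧ (r = 1 ∨ ¬ Cfsg.PRankLE 2 (r - 2) R)) (t : G) (ht : orderOf t = 2) (htS : t ∈ S) : ∃ n ∈ Subgroup.normalizer ((S : Subgroup G) : Set G), n * t * n⁻¹ ∈ R := by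
  by_contra hcon
  push Not at hcon
  have hc := H4.isMulCommutative_iff.1 hS
  have hSC : (S : Subgroup G) ≤ centralizer ((S : Subgroup G) : Set G) := fun a ha =>
    mem_centralizer_iff.2 fun b hb => hc b hb a ha
  have ht2 : t ^ 2 = 1 := ht ▸ pow_orderOf_eq_one t
  let W : Subgroup G :=
    { carrier := {x | x ∈ (S : Subgroup G) ∧ x ^ 2 = 1}
      one_mem' := ⟨one_mem _, one_pow _⟩
      mul_mem' := fun {a b} ha hb => ⟨mul_mem ha.1 hb.1, by
        rw [(show Commute a b from hc a ha.1 b hb.1).mul_pow, ha.2, hb.2, one_mul]⟩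
      inv_mem' := fun {a} ha => ⟨inv_mem ha.1, by rw [inv_pow, ha.2, inv_one]⟩ }
  have hWS : W ≤ S := fun x hx => hx.1
  have hW : Nat.card W ≤ 2 ^ r := by
    have := hSr.1 (W.subgroupOf S) inferInstance fun a ha => Subtype.ext ha.2
    rwa [Nat.card_congr (subgroupOfEquivOfLe hWS).toEquiv] at this
  have hWR : 2 ^ (r - 1) ≤ Nat.card (R ⊓ W : Subgroup G) := by
    rcases hRr.2 with h | h
    · subst h; exact Nat.card_pos
    · simp only [Cfsg.PRankLE, not_forall, not_le] at h
      obtain ⟨A, -, hA2, hA⟩ := h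
      have hAp : IsPGroup 2 A := fun a => ⟨1, Subtype.ext (by simpa using hA2 a a.2)⟩
      obtain ⟨k, hk⟩ := IsPGroup.iff_card.1 hAp
      have h1 : r - 1 ≤ k := by
        rw [hk] at hA
        have := (Nat.pow_lt_pow_iff_right (by norm_num)).1 hA
        omega
      have h2 : A.map R.subtype ≤ R ⊓ W := by
        rintro _ ⟨a, ha, rfl⟩
        exact ⟨a.2, hRS a.2, by simpa using congrArg Subtype.val (hA2 a ha)⟩
      calc 2 ^ (r - 1) ≤ 2 ^ k := Nat.pow_le_pow_right (by norm_num) h1
        _ = Nat.card (A.map R.subtype) := by rw [card_map_of_injective R.subtype_injective, hk]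
        _ ≤ _ := card_le_of_le h2
  have htR : t ∉ R := by simpa using hcon 1 (one_mem _)
  have hidx : (R ⊓ W).relIndex W = 2 := by
    have h1 := H4.card_mul_relIndex (inf_le_right : R ⊓ W ≤ W)
    have h2 : (R ⊓ W).relIndex W ≠ 1 := by
      intro h
      exact htR (relIndex_eq_one.1 h (show t ∈ W from ⟨htS, ht2⟩)).1
    have h3 : (R ⊓ W).relIndex W ≠ 0 := index_ne_zero_of_finite
    by_contra h4
    have h5 : 3 ≤ (R ⊓ W).relIndex W := by omega
    have h6 : 2 ^ r = 2 ^ (r - 1) * 2 := by rw [← pow_succ]; congr 1; omega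
    have h7 := Nat.mul_le_mul hWR h5
    have : 0 < 2 ^ (r - 1) := by positivity
    omega
  have hnot : t ∉ commutator G := by
    refine S1241.result (p := 2) S R hRS ?_ ?_ ?_ t htS htR ⟨1, by simpa using ht⟩ ?_
    · infer_instance
    · intro x hx y hy
      rw [hc x hx y hy]; simp [R.one_mem]
    · exact (Nat.Prime.coprime_iff_not_dvd Nat.prime_two).2 S.not_dvd_index
    · intro m a ha
      rcases Int.even_or_odd' m with ⟨j, rfl | rfl⟩
      · have : t ^ (2 * j) = 1 := by rw [zpow_mul, zpow_ofNat, ht2, one_zpow]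
        simp [this, R.one_mem]
      · have : t ^ (2 * j + 1) = t := by rw [zpow_add, zpow_mul, zpow_ofNat, ht2]; simp
        rw [this] at ha ⊢
        obtain ⟨n, hn, hnt⟩ := H3.burnside_fusion_elt S (hSC htS) (hSC ha)
        refine (H10.mul_inv_mem_of_relIndex_two hidx ⟨ha, by rw [conj_pow, ht2]; simp⟩
          ⟨htS, ht2⟩ (fun h => hcon n hn (hnt ▸ h.1)) (fun h => htR h.1)).1
  apply hnot
  refine H3.pResidual_inf_le_commutator S.isPGroup'
    ((Nat.Prime.coprime_iff_not_dvd Nat.prime_two).2 S.not_dvd_index).symm ⟨?_, htS⟩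
  rw [H10.pResidual_eq_top_of_index hG]; trivial

end Cfsg.Agent.S1244
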