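import Cfsg.Statements.S1247
import Cfsg.Agent.H17.Inf

set_option autoImplicit false
open Cfsg

namespace Cfsg.Agent.S1247

/-- Let G be a non-abelian finite simple group, A a maximal subgroup, F = F*(A) its generalized Fitting subgroup (viewed in G), and S ≤ F a subgroup subnormal in F with C_F(S) ≤ S. Let B be any subgroup of G containing S. Then (a) for every prime q not dividing |F(A)|, O_q(B) ∩ A = 1; and (b) for every prime p dividing |F(A)|, O_p(B) commutes elementwise with the subgroup of F generated by its elements of order prime to p. -/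
theorem result {G : Type*} [Group G] [Finite G] [IsSimpleGroup G] (hna : ¬ IsMulCommutative G) (A : Subgroup G) (hA : IsCoatom A) (S : Subgroup G) (hSF : S ≤ (Cfsg.generalizedFittingSubgroup ↥A).map A.subtype) (hSsn : (S.subgroupOf ((Cfsg.generalizedFittingSubgroup ↥A).map A.subtype)).IsSubnormal) (hSC : (Cfsg.generalizedFittingSubgroup ↥A).map A.subtype ⊓ Subgroup.centralizer (S : Set G) ≤ S) (B : Subgroup G) (hSB : S ≤ B) : (∀ q : ℕ, q.Prime → ¬ q ∣ Nat.card (Cfsg.fittingSubgroup ↥A) → (Cfsg.pCore q ↥B).map B.subtype ⊓ A = ⊥) ∧ (∀ p : ℕ, p.Prime → p ∣ Nat.card (Cfsg.fittingSubgroup ↥A) → ∀ x ∈ (Cfsg.pCore p ↥B).map B.subtype, ∀ y ∈ (Cfsg.pResidual p ↥(Cfsg.generalizedFittingSubgroup ↥A)).map ((Cfsg.generalizedFittingSubgroup ↥A).subtype) , x * (A.subtype y) = (A.subtype y) * x) := by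
  rw [H17.GS.gf_eq] at hSF hSsn hSC
  have h := H17.GS.inf_of_subn ⟨hSF, hSsn⟩ hSC hSB
  refine ⟨fun q hq hd => ?_, fun p hp hd x hx y hy => ?_⟩
  · rw [H19.pCore_map_eq hq]
    exact h.inf_eq_bot (by_contra fun e => hd ((H17.GS.dvd_Fit_iff hq).2 e))
  · rw [H19.pCore_map_eq hp] at hx
    obtain ⟨y, hy, rfl⟩ := hy
    have k : pResidual p (generalizedFittingSubgroup A) ≤ ((Subgroup.centralizer
        (H19.Oc {p} B : Set G)).comap A.subtype).comap (generalizedFittingSubgroup A).subtype :=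
      (Subgroup.closure_le _).2 fun z hz => h.cent_res (H17.GS.sim_top hna) hA
        ((H17.GS.dvd_Fit_iff hp).1 hd) (H17.GS.gf_eq A ▸ Subgroup.mem_map_of_mem _ z.2)
        (by simpa [Subgroup.orderOf_coe] using hz)
    exact k hy x hx

end Cfsg.Agent.S1247
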