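import Cfsg.Statements.S1253
import Cfsg.Agent.S1187
import Cfsg.Agent.H4.Basic

set_option autoImplicit false
open Cfsg

namespace Cfsg.Agent.S1253

open Subgroup H28 H10

/-- Let z be an isolated involution of the finite group G with centralizer C, p an odd prime and P a Sylow p-subgroup of G normalized by z. Then P ∩ C has p-power-free index in C (it is a Sylow p-subgroup of C), and |P : C_P(z)| equals the number of elements x ∈ P with z x z⁻¹ = x⁻¹. -/
theorem result {G : Type*} [Group G] [Finite G] (z : G) (hz : Cfsg.IsIsolatedInvolution z) {p : ℕ} [Fact p.Prime] (hp : p ≠ 2) (P : Sylow p G) (hzP : z ∈ Subgroup.normalizer ((P : Subgroup G) : Set G)) : ¬ p ∣ ((P : Subgroup G) ⊓ Subgroup.centralizer ({z} : Set G)).relIndex (Subgroup.centralizer ({z} : Set G)) ∧ ((P : Subgroup G) ⊓ Subgroup.centralizer ({z} : Set G)).relIndex (P : Subgroup G) = Nat.card {x : G // x ∈ P ∧ z * x * z⁻¹ = x⁻¹} := by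
  have hz2 := mul_self_of_orderOf_two hz.1
  have hodd : Odd (Nat.card (P : Subgroup G)) := by
    obtain ⟨k, hk⟩ := IsPGroup.iff_card.1 P.isPGroup'
    rw [hk]
    exact ((Fact.out : p.Prime).odd_of_ne_two hp).pow
  refine ⟨?_, by rw [inf_relIndex_left]; exact relIndex_centralizer_eq_card_inverted hodd hz2 hzP⟩
  obtain ⟨R, hR⟩ := H28.exists_isSylowIn p (centralizer ({z} : Set G))
  obtain ⟨Q, ⟨hQ, hzQ⟩, hRQ, hm⟩ := H4.exists_maximal_ge
    (fun Q : Subgroup G => IsPGroup p Q ∧ z ∈ 𝐍 Q) (A := R) ⟨hR.isPGroup,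
      centralizer_le_normalizer _ (mem_centralizer'.2 fun r hr =>
        mem_centralizer_singleton_iff.1 (hR.le hr))⟩
  obtain ⟨P₁, rfl⟩ := S1187.result z hz Q hQ hzQ fun R h1 h2 h3 => hm R ⟨h1, h2⟩ h3
  obtain ⟨g, -, hg⟩ := (H28.isSylowIn_top P).exists_conj (H28.isSylowIn_top P₁)
  have h1 : g * z * g⁻¹ ∈ 𝐍 (P₁ : Subgroup G) := by
    rw [← hg, ← cj_normalizer]; exact conj_mem_cj hzP
  obtain ⟨n, hn, h2⟩ := Iso.exists_conj_mem hz (isConj_iff.2 ⟨g, rfl⟩) (mul_mem hzQ h1)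
  have h3 : g⁻¹ * n ∈ centralizer ({z} : Set G) := by
    rw [mem_centralizer_singleton_iff]
    calc g⁻¹ * n * z = g⁻¹ * (n * z * n⁻¹) * n := by group
      _ = _ := by rw [h2]; group
  have h4 : cj (g⁻¹ * n) R ≤ (P : Subgroup G) ⊓ centralizer {z} := by
    refine le_inf ?_ (cj_le_of_mem hR.le h3)
    rw [← cj_cj, cj_le_iff, inv_inv, hg]
    exact cj_le_of_mem_normalizer hRQ hn
  exact (hR.of_card_le P.isPGroup'.to_inf_left inf_le_right
    (by rw [← card_cj (g⁻¹ * n) R]; exact card_le_of_le h4)).not_dvd_relIndex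

end Cfsg.Agent.S1253
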