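import Cfsg.Statements.S1254
import Cfsg.Agent.H10.DihFusion

set_option autoImplicit false
open Cfsg

namespace Cfsg.Agent.S1254

open H10 H28 Subgroup

/-- Let X be a finite group whose Sylow 2-subgroup S is dihedral (of order at least 4). Then X has a normal 2-complement if and only if, for every Klein four-subgroup U ≤ S, the normalizer N_X(U) is generated by C_X(U) and N_S(U). -/
theorem result {X : Type*} [Group X] [Finite X] (S : Sylow 2 X) (m : ℕ) (hm : 2 ≤ m) (eS : (S : Subgroup X) ≃* DihedralGroup m) : Cfsg.HasNormalPComplement 2 X ↔ ∀ U : Subgroup X, U ≤ S → IsKleinFour U → Subgroup.normalizer (U : Set X) = Subgroup.centralizer (U : Set X) ⊔ ((S : Subgroup X) ⊓ Subgroup.normalizer (U : Set X)) := by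
  constructor
  · intro h U hUS hU
    obtain ⟨K, hK, hc⟩ := (H3.hasNPC_iff_exists S).1 h
    refine le_antisymm (fun g hg => ?_) (sup_le (centralizer_le_normalizer _) inf_le_right)
    obtain ⟨s, hs, e⟩ := exists_eq_on_of_isComplement' hc hUS (g := g)
      (by rw [cj_eq_self hg]; exact hUS)
    have hsn : s ∈ 𝐍 U := mem_normalizer_of_cj_le (by
      rintro _ ⟨u, hu, rfl⟩
      show s * u * s⁻¹ ∈ U
      rw [e u hu]; exact conj_mem_of_mem_normalizer hg hu)
    have hc : s⁻¹ * g ∈ 𝐂 U := mem_centralizer'.2 fun u hu => by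
      calc u * (s⁻¹ * g) = s⁻¹ * (s * u * s⁻¹) * g := by group
        _ = _ := by rw [e u hu]; group
    rw [sup_comm]
    simpa using mul_mem_sup (mem_inf.2 ⟨hs, hsn⟩ : s ∈ (S : Subgroup X) ⊓ 𝐍 U) hc
  · intro h
    have hA : ¬ FourAut (S : Subgroup X) := fun ⟨T, hTS, hT, g, hg, hC, hc⟩ =>
      hC (mem_centralizer_of_mem_sup S.isPGroup'.to_inf_left inf_le_right (h T hTS hT ▸ hg) hc)
    rcases dihedral_cases' S.isPGroup' hm eS with h1 | ⟨n, x, h1⟩
    · exact kf_hasNPC S h1 hA
    · exact h1.hasNPC hA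

end Cfsg.Agent.S1254
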