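import Cfsg.Statements.S1255
import Cfsg.Agent.H10.DihFusion

set_option autoImplicit false
open Cfsg

namespace Cfsg.Agent.S1255

open H10 H28 Subgroup

/-- Let X be a finite group whose Sylow 2-subgroup S is dihedral of order 2m ≥ 4. Then X has no subgroup of index 2 and no isolated involution if and only if either all involutions of X are conjugate, or for every Klein four-subgroup U ≤ S the index |N_X(U) : C_X(U)| equals 3 when |S| = 4 and equals 6 when |S| > 4. -/
theorem result {X : Type*} [Group X] [Finite X] (S : Sylow 2 X) (m : ℕ) (hm : 2 ≤ m) (eS : (S : Subgroup X) ≃* DihedralGroup m) : ((∀ H : Subgroup X, H.index ≠ 2) ∧ (∀ z : X, ¬ Cfsg.IsIsolatedInvolution z)) ↔ ((∀ a b : X, orderOf a = 2 → orderOf b = 2 → IsConj a b) ∨ (∀ U : Subgroup X, U ≤ S → IsKleinFour U → (Subgroup.centralizer (U : Set X)).relIndex (Subgroup.normalizer (U : Set X)) = (if Nat.card S = 4 then 3 else 6))) := by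
  constructor
  · rintro ⟨h1, -⟩
    exact Or.inl fun a b => dihedral_isConj S hm eS (pResidual_eq_top_of_index h1)
  · intro h
    have hall : ∀ a b : X, orderOf a = 2 → orderOf b = 2 → IsConj a b := by
      rcases h with h | h
      · exact h
      · intro a b
        rcases dihedral_cases' S.isPGroup' hm eS with h1 | ⟨n, x, h1⟩
        · refine kf_isConj S h1 ⟨S, le_rfl, h1, (kf_three_dvd_iff h1).1 ?_⟩
          rw [h S le_rfl h1, if_pos h1.card_four]
        · refine h1.isConj_of_relIndex fun T hTS hT => ?_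
          rw [h T hTS hT, if_neg h1.card_gt.ne']
    obtain ⟨T, hTS, hT, hgen⟩ : ∃ T ≤ (S : Subgroup X), IsKleinFour T ∧
        ∀ H : Subgroup X, (∀ t, orderOf t = 2 → t ∈ H) → (S : Subgroup X) ≤ H := by
      rcases dihedral_cases' S.isPGroup' hm eS with h1 | ⟨n, x, h1⟩
      · refine ⟨S, le_rfl, h1, fun H hH s hs => ?_⟩
        by_cases hs1 : s = 1
        · rw [hs1]; exact one_mem _
        · exact hH s (kf_orderOf h1 hs hs1)
      · obtain ⟨w, hw, hw'⟩ := h1.mc.exists_out
        refine ⟨_, h1.mc.sub_le hw _, h1.kleinFour hw hw', fun H hH => ?_⟩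
        have h2 := hH w (h1.orderOf_out hw hw')
        have h3 := hH _ (h1.orderOf_out (mul_mem h1.mc.mem hw) (by simpa using MC.mul_out hw' 1))
        rw [← h1.mc.eq_sup hw hw']
        exact sup_le (zpowers_le.2 ((mul_mem_cancel_right h2).1 h3)) (zpowers_le.2 h2)
    obtain ⟨a, ha, b, hb, ha1, hb1, hab⟩ := kf_exists hT
    refine ⟨fun H hH => ?_, not_isolated_of_isConj hab (kf_comm hT ha hb) (kf_orderOf hT ha ha1)
      (kf_orderOf hT hb hb1) hall⟩
    have hn := normal_of_index_eq_two hH
    obtain ⟨t, ht, htH⟩ : ∃ t, orderOf t = 2 ∧ t ∈ H := by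
      by_cases h1 : a ∈ H
      · exact ⟨a, kf_orderOf hT ha ha1, h1⟩
      by_cases h2 : b ∈ H
      · exact ⟨b, kf_orderOf hT hb hb1, h2⟩
      exact ⟨a * b, kf_orderOf hT (mul_mem ha hb) (kf_mul_ne_one hT hb hab),
        (mul_mem_iff_of_index_two hH).2 (by tauto)⟩
    have := hgen H fun u hu => by
      obtain ⟨g, rfl⟩ := isConj_iff.1 (hall t u ht hu)
      exact hn.conj_mem _ htH g
    exact S.not_dvd_index (hH.symm.dvd.trans (index_dvd_of_le this))

end Cfsg.Agent.S1255
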