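import Cfsg.Statements.S1256
import Cfsg.Agent.H10.DihFusion

set_option autoImplicit false
open Cfsg

namespace Cfsg.Agent.S1256

open H10 H28 Subgroup

/-- Let X be a finite group whose Sylow 2-subgroup S is dihedral of order 2m ≥ 4. If |S| = 4, any two Klein four-subgroups of X are conjugate; if |S| > 4, there are Klein four-subgroups U₁, U₂ of X that are not conjugate, and every Klein four-subgroup of X is conjugate to U₁ or to U₂. -/
theorem result {X : Type*} [Group X] [Finite X] (S : Sylow 2 X) (m : ℕ) (hm : 2 ≤ m) (eS : (S : Subgroup X) ≃* DihedralGroup m) : (Nat.card S = 4 → ∀ U V : Subgroup X, IsKleinFour U → IsKleinFour V → (∃ x : X, U.map (MulAut.conj x).toMonoidHom = V)) ∧ (4 < Nat.card S → ∃ U₁ U₂ : Subgroup X, IsKleinFour U₁ ∧ IsKleinFour U₂ ∧ ¬ (∃ x : X, U₁.map (MulAut.conj x).toMonoidHom = U₂) ∧ ∀ V : Subgroup X, IsKleinFour V → (∃ x : X, V.map (MulAut.conj x).toMonoidHom = U₁) ∨ (∃ x : X, V.map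 (MulAut.conj x).toMonoidHom = U₂)) := by
  have hsyl : ∀ V : Subgroup X, IsKleinFour V → ∃ g, cj g V ≤ S := fun V hV => by
    obtain ⟨g, -, hg⟩ := (H28.isSylowIn_top S).exists_conj_le (kf_isPGroup hV) le_top
    exact ⟨g, hg⟩
  rcases dihedral_cases' S.isPGroup' hm eS with h | ⟨n, x, h⟩
  · refine ⟨fun _ U V hU hV => ?_, fun h1 => absurd h.card_four h1.ne'⟩
    obtain ⟨g, hg⟩ := hsyl U hU
    obtain ⟨k, hk⟩ := hsyl V hV
    refine ⟨k⁻¹ * g, ?_⟩
    rw [← cj_cj, kf_eq_of_le h (kf_cj hU g) hg, ← kf_eq_of_le h (kf_cj hV k) hk, cj_inv_cj]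
  · refine ⟨fun h1 => absurd h1 h.card_gt.ne', fun _ => ?_⟩
    obtain ⟨w, hw, hw'⟩ := h.mc.exists_out
    have hxw : x * w ∈ (S : Subgroup X) := mul_mem h.mc.mem hw
    have hxw' : x * w ∉ zpowers x := by simpa using MC.mul_out hw' 1
    have hn := h.mc.two_le
    refine ⟨_, _, h.kleinFour hw hw', h.kleinFour hxw hxw', ?_, fun V hV => ?_⟩
    · rintro ⟨g, hg⟩
      obtain ⟨s, hs, e⟩ := h.kleinFour_fusion (h.kleinFour hw hw') (h.mc.sub_le hw _) (g := g)
        (hg ▸ h.mc.sub_le hxw _)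
      have h1 : cj s (mcSub x w (n - 1)) ≤ mcSub x w 1 :=
        cj_le_of_mem_normalizer (MC.sub_anti (by omega)) (h.mc.le_normalizer_sub_one hw hw' hs)
      rw [← e, hg] at h1
      have h2 : x ^ (1 : ℤ) * w ∈ mcSub x w 1 := by rw [zpow_one]; exact h1 (MC.out_mem_sub _)
      rw [h.mc.zpow_mul_mem_sub_iff hw hw' (by omega)] at h2
      omega
    · obtain ⟨g, hg⟩ := hsyl V hV
      obtain ⟨j, e | e⟩ := h.kleinFour_cases hw hw' (kf_cj hV g) hg
      · exact Or.inl ⟨(x ^ j)⁻¹ * g, by rw [← cj_cj, ← e, cj_inv_cj]⟩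
      · exact Or.inr ⟨(x ^ j)⁻¹ * g, by rw [← cj_cj, ← e, cj_inv_cj]⟩

end Cfsg.Agent.S1256
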