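import Cfsg.Statements.S1258
import Cfsg.Agent.H1.GFitting

set_option autoImplicit false
open Cfsg

namespace Cfsg.Agent.S1258

/-- If the central quotient of a finite group X is non-abelian simple, then X = X' Z(X) and the commutator subgroup X' is quasisimple. -/
theorem result {X : Type*} [Group X] [Finite X] (hs : IsSimpleGroup (X ⧸ Subgroup.center X)) (hna : ¬ IsMulCommutative (X ⧸ Subgroup.center X)) : commutator X ⊔ Subgroup.center X = ⊤ ∧ Cfsg.IsQuasisimple ↥(commutator X) := by
  have h1 : commutator X ⊔ Subgroup.center X = ⊤ := by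
    have h := (H1.isQuasisimple_iff.1 (H1.isQuasisimple_of_isSimpleGroup hna)).1.commutator_eq_top
    rw [← H1.comap_map_mk', commutator_def, Subgroup.map_commutator,
      Subgroup.map_top_of_surjective _ (QuotientGroup.mk'_surjective _), ← commutator_def, h,
      Subgroup.comap_top]
  have hc : Subgroup.center X ≤ Subgroup.centralizer ((⊤ : Subgroup X) : Set X) :=
    Subgroup.center_le_centralizer _
  have h2 : ⁅commutator X, commutator X⁆ = commutator X := by
    refine le_antisymm (Subgroup.commutator_le_self _) ?_
    have h3 : ⁅(⊤ : Subgroup X), commutator X⁆ ≤ ⁅commutator X, commutator X⁆ := by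
      rw [← h1]
      refine H1.commutator_sup_le Subgroup.le_normalizer_of_normal
        Subgroup.le_normalizer_of_normal le_rfl ?_
      rw [Subgroup.commutator_eq_bot_iff_le_centralizer.2 (Subgroup.center_le_centralizer _)]
      exact bot_le
    refine le_trans ?_ h3
    conv_lhs => rw [commutator_def]; rhs; rw [← h1]
    refine H1.commutator_sup_le' Subgroup.le_normalizer_of_normal
        Subgroup.le_normalizer_of_normal le_rfl ?_
    rw [Subgroup.commutator_comm,
      Subgroup.commutator_eq_bot_iff_le_centralizer.2 (Subgroup.center_le_centralizer _)]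
    exact bot_le
  refine ⟨h1, H1.isQuasisimple_subgroup_iff.2 ⟨h2, fun h => hna ?_, fun N h3 h4 => ?_⟩⟩
  · rw [h, bot_sup_eq] at h1
    have := QuotientGroup.subsingleton_iff.2 h1
    exact ⟨⟨fun a b => Subsingleton.elim _ _⟩⟩
  · have hN : N.Normal := H1.normal_of_top_le_normalizer (h1.ge.trans (sup_le h4
      (Subgroup.center_le_normalizer _)))
    rcases (H1.isSimpleGroup_quotient_iff.1 hs).2 (N ⊔ Subgroup.center X) inferInstance le_sup_right
      with h5 | h5
    · exact Or.inr ((le_sup_left.trans h5.le).trans (Subgroup.center_le_centralizer _))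
    · exact Or.inl (le_antisymm h3 (h2.ge.trans (H1.commutator_le_of_sup_centralizer h4 h3
        (Subgroup.center_le_centralizer _) (le_top.trans h5.ge))))

end Cfsg.Agent.S1258
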