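import Cfsg.Statements.S1271
import Cfsg.Agent.H1.CompAct

set_option autoImplicit false
open Cfsg

namespace Cfsg.Agent.S1271

/-- Let G be finite with O_{p'}(G) = 1. Suppose that for every component L of G and every subgroup H ≥ L in which L is normal, the quotient H / C_H(L) is balanced for the prime p. Then G is balanced for p. -/
theorem result {G : Type*} [Group G] [Finite G] (p : ℕ) [Fact p.Prime] (hO : Cfsg.pPrimeCore p G = ⊥) (h : ∀ L : Subgroup G, Cfsg.IsComponent L → ∀ H : Subgroup G, L ≤ H → (L.subgroupOf H).Normal → ∀ [((Subgroup.centralizer (L : Set G)).subgroupOf H).Normal], Cfsg.IsBalancedFor p (↥H ⧸ (Subgroup.centralizer (L : Set G)).subgroupOf H)) : Cfsg.IsBalancedFor p G := by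
  intro x hx
  rw [hO, le_bot_iff]
  by_contra hne
  obtain ⟨L, hL, h1, h2, h3⟩ := H1.exists_component_of_le_centralizerPPrimeCore hO hx hne le_rfl
  set Y := Cfsg.centralizerPPrimeCore p x
  have hx' := H1.isPGroup_zpowers_of_orderOf_eq hx
  have hxL := H1.le_normalizer_of_commutator_eq h1
  have hxY : Subgroup.zpowers x ≤ Subgroup.normalizer (Y : Set G) :=
    (Subgroup.zpowers_le.2 (Subgroup.mem_centralizer_singleton_iff.2 rfl)).trans
      (H1.le_normalizer_pPrimeCoreOf _)
  set H := (Subgroup.zpowers x ⊔ Y) ⊔ L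
  have hH : H ≤ Subgroup.normalizer (L : Set G) := sup_le (sup_le hxL h2) Subgroup.le_normalizer
  have hxH : x ∈ H := Subgroup.mem_sup_left (Subgroup.mem_sup_left (Subgroup.mem_zpowers x))
  have hYH : Y ≤ H := le_sup_of_le_left le_sup_right
  have hLH : L ≤ H := le_sup_right
  have hN : ((Subgroup.centralizer (L : Set G)).subgroupOf H).Normal :=
    Subgroup.normal_subgroupOf_of_le_normalizer (H1.le_normalizer_centralizer hH)
  set f := QuotientGroup.mk' ((Subgroup.centralizer (L : Set G)).subgroupOf H)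
  have hf : Function.Surjective f := QuotientGroup.mk'_surjective _
  have hk : Cfsg.IsPSolvable p f.ker := by
    rw [QuotientGroup.ker_mk', ← Subgroup.inf_subgroupOf_left,
      H1.isPSolvable_subgroupOf_iff inf_le_left]
    exact H1.isPSolvable_inf_centralizer (sup_le hxL h2) (H1.isPSolvable_sup hxY
      (H1.isPSolvable_of_isPGroup hx') (H1.isPSolvable_of_coprime (H1.pPrimeCoreOf_coprime _)))
  have hxo : orderOf (⟨x, hxH⟩ : H) = p := by rwa [Subgroup.orderOf_mk]
  have h4 : orderOf (f ⟨x, hxH⟩) = p := by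
    refine orderOf_eq_prime (by rw [← map_pow, ← hxo, pow_orderOf_eq_one, map_one]) fun h => ?_
    rw [← MonoidHom.mem_ker, QuotientGroup.ker_mk', Subgroup.mem_subgroupOf] at h
    apply H1.Quasisimple.ne_bot hL.2
    rw [← h1, Subgroup.commutator_comm, Subgroup.commutator_eq_bot_iff_le_centralizer]
    exact Subgroup.zpowers_le.2 h
  have h5 := h L hL H hLH (Subgroup.normal_subgroupOf_of_le_normalizer hH) _ h4
  have h6 := (Subgroup.map_mono (H1.centralizerPPrimeCore_subgroupOf_le (p := p) (⟨x, hxH⟩ : H))).trans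
    ((H1.map_centralizerPPrimeCore_le hf hk (H1.isPGroup_zpowers_of_orderOf_eq hxo)).trans h5)
  have h7 : (L.subgroupOf H).map f ≤ Cfsg.pPrimeCore p _ := by
    have h3' : L.subgroupOf H = ⁅L.subgroupOf H, Y.subgroupOf H⁆ := by
      rw [H1.commutator_subgroupOf hLH hYH, h3]
    rw [h3', Subgroup.map_commutator]
    exact (Subgroup.commutator_mono le_rfl h6).trans (Subgroup.commutator_le_right _ _)
  have h8 := (H1.pQuasi_subgroupOf_iff hLH).2
    (H1.pQuasi_of_isQuasisimple hL.2 (H1.dvd_card_component hO hL))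
  refine (h8.map f fun h9 => ?_).not_le_of_coprime H1.pPrimeCore_coprime h7
  rw [H1.map_mk'_eq_bot_iff] at h9
  exact H1.Quasisimple.not_le_centralizer hL.2 fun y hy => h9 (x := ⟨y, hLH hy⟩) hy

end Cfsg.Agent.S1271
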