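import Cfsg.Statements.S1281
import Cfsg.Agent.H1.SF1

set_option autoImplicit false
open Cfsg

namespace Cfsg.Agent.S1281

/-- Let θ be a solvable A-signalizer functor on the finite group G (A a noncyclic elementary abelian p-subgroup) and N a normal subgroup of order prime to p. Then for all non-identity a, b ∈ A, the image of θ a in G / N meets the centralizer of the image of b inside the image of θ b. -/
theorem result {G : Type*} [Group G] [Finite G] (p : ℕ) [Fact p.Prime] (A : Subgroup G) (hA : Cfsg.IsElementaryAbelian p A) (hA2 : p ^ 2 ≤ Nat.card ↥A) (θ : G → Subgroup G) (hθ : Cfsg.IsSolvableSignalizerFunctor p A θ) (N : Subgroup G) [N.Normal] (hN : ¬ p ∣ Nat.card ↥N) (a b : G) (ha : a ∈ A) (ha1 : a ≠ 1) (hb : b ∈ A) (hb1 : b ≠ 1) : (θ a).map (QuotientGroup.mk' N) ⊓ Subgroup.centralizer {QuotientGroup.mk' N b} ≤ (θ b).map (QuotientGroup.mk' N) := by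
  open H19 in
  have h := H1.sf_of hA hA2 hθ
  rintro _ ⟨⟨x, hx, rfl⟩, hc⟩
  have hz : Subgroup.zpowers b ≤ A := Subgroup.zpowers_le.2 hb
  have hn := hz.trans (h.inv a ha ha1)
  have hc' : QuotientGroup.mk' N x ∈ C(Subgroup.zpowers (QuotientGroup.mk' N b)) := by
    rw [cent_zpowers]; exact hc
  obtain ⟨n, hn', e⟩ := exists_mul_mem_cent (A := Subgroup.zpowers b) (H := θ a ⊓ N) (k := x)
    (norms_inf hn (normalIn_top.norms le_top))
    (H1.cop_of_pg ((h.pi a ha ha1).infl _) (h.pg.of_le hz)) (Or.inl (sol_zpowers b))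
    fun c hcb => ⟨mul_mem (conj_mem_of_norm (hn hcb) hx) ((θ a).inv_mem hx), by
      have := mem_cent.1 hc' (QuotientGroup.mk' N c) (by
        rw [← MonoidHom.map_zpowers]; exact Subgroup.mem_map_of_mem _ hcb)
      change _ ∈ N
      rw [← QuotientGroup.eq_one_iff, ← QuotientGroup.mk'_apply]
      simp only [map_mul, map_inv, this]
      group⟩
  rw [cent_zpowers] at e
  refine ⟨n * x, h.bal a ha ha1 b hb hb1 ⟨mul_mem hn'.1 hx, e⟩, ?_⟩
  rw [map_mul, show QuotientGroup.mk' N n = 1 from (QuotientGroup.eq_one_iff n).2 hn'.2, one_mul]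

end Cfsg.Agent.S1281
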