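import Cfsg.Statements.S1285
import Cfsg.Agent.H1.SF1

set_option autoImplicit false
open Cfsg

namespace Cfsg.Agent.S1285

/-- Let θ be a solvable A-signalizer functor on the finite group G with A elementary abelian of rank at least 3, and suppose that for some prime q every θ a (a ∈ A non-identity) is a q-group. Then θ is complete. -/
theorem result {G : Type*} [Group G] [Finite G] (p : ℕ) [Fact p.Prime] (A : Subgroup G) (hA : Cfsg.IsElementaryAbelian p A) (hA3 : p ^ 3 ≤ Nat.card ↥A) (θ : G → Subgroup G) (hθ : Cfsg.IsSolvableSignalizerFunctor p A θ) (q : ℕ) [Fact q.Prime] (hq : ∀ a ∈ A, a ≠ 1 → IsPGroup q ↥(θ a)) : Cfsg.IsCompleteSignalizerFunctor p A θ := by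
  open H19 in
  have hp : p.Prime := Fact.out
  have h := H1.sf_of hA ((Nat.pow_le_pow_right hp.pos (by norm_num)).trans hA3) hθ
  exact h.complete (h.cpl_of_pg hA3 fun a ha a1 => PiN.of_isPGroup Fact.out (hq a ha a1))

end Cfsg.Agent.S1285
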