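import Cfsg.Statements.S1286
import Cfsg.Agent.H1.SF10

set_option autoImplicit false
open Cfsg

namespace Cfsg.Agent.S1286

/-- There exist a finite group X, an elementary abelian subgroup A of order 4 and a solvable A-signalizer functor θ on X for the prime 2 which is not complete. -/
theorem result : ∃ (X : Type) (_ : Group X) (_ : Finite X) (A : Subgroup X) (θ : X → Subgroup X), Cfsg.IsElementaryAbelian 2 A ∧ Nat.card ↥A = 4 ∧ Cfsg.IsSolvableSignalizerFunctor 2 A θ ∧ ¬ Cfsg.IsCompleteSignalizerFunctor 2 A θ := by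
  open H19 in
  let a : Equiv.Perm (Fin 5) := Equiv.swap 0 1
  let b : Equiv.Perm (Fin 5) := Equiv.swap 2 3
  let x : Equiv.Perm (Fin 5) := Equiv.swap 2 3 * Equiv.swap 3 4
  let y : Equiv.Perm (Fin 5) := Equiv.swap 0 1 * Equiv.swap 1 4
  let A : Subgroup (Equiv.Perm (Fin 5)) :=
    { carrier := {g | g = 1 ∨ g = a ∨ g = b ∨ g = a * b}, one_mem' := .inl rfl
      mul_mem' := by rintro _ _ (rfl | rfl | rfl | rfl) (rfl | rfl | rfl | rfl) <;> (show _ ∨ _; decide)
      inv_mem' := by rintro _ (rfl | rfl | rfl | rfl) <;> (show _ ∨ _; decide) }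
  let Z : Equiv.Perm (Fin 5) → Equiv.Perm (Fin 5) := fun g => if g = a then x else if g = b then y else 1
  have hZ : ∀ g, Z g ^ 3 = 1 := fun g => by simp only [Z]; split_ifs <;> decide
  have mZ : ∀ g u, u ∈ Subgroup.zpowers (Z g) → u = 1 ∨ u = Z g ∨ u = Z g ^ 2 := fun g u hu => by
    obtain ⟨n, rfl⟩ := (mem_powers_iff_mem_zpowers.2 hu : u ∈ Submonoid.powers (Z g))
    show Z g ^ n = 1 ∨ Z g ^ n = _ ∨ Z g ^ n = _
    rw [pow_eq_pow_mod n (hZ g)]
    have : n % 3 < 3 := Nat.mod_lt _ (by norm_num)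
    interval_cases n % 3 <;> simp
  refine ⟨Equiv.Perm (Fin 5), inferInstance, inferInstance, A, fun g => Subgroup.zpowers (Z g),
    ⟨H4.isMulCommutative_iff'.2 ?_, ?_⟩, ?_, ⟨⟨?_, fun g _ _ h => ?_, ?_, ?_⟩,
    fun g _ _ => sol_of_ab (comm_zpowers _)⟩, ?_⟩
  · rintro ⟨_, (rfl | rfl | rfl | rfl)⟩ ⟨_, (rfl | rfl | rfl | rfl)⟩ <;> exact Subtype.ext (by decide)
  · rintro _ (rfl | rfl | rfl | rfl) <;> decide
  · have : (A : Set (Equiv.Perm (Fin 5))) = ({1, a, b, a * b} : Finset _) := by ext g; simp; rfl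
    rw [← SetLike.coe_sort_coe, this, Nat.card_coe_set_eq, Set.ncard_coe_finset]; decide
  · rintro _ (rfl | rfl | rfl | rfl) _ <;> exact Subgroup.zpowers_le.2 (mem_cent1.2 (by decide))
  · rw [Nat.card_zpowers] at h
    exact absurd (h.trans (orderOf_dvd_of_pow_eq_one (hZ g))) (by decide)
  · intro g hg _ c hc u hu
    have : c * Z g * c⁻¹ = Z g ∨ c * Z g * c⁻¹ = (Z g)⁻¹ := by
      rcases hg with rfl | rfl | rfl | rfl <;> rcases hc with rfl | rfl | rfl | rfl <;> decide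
    refine conj_mem_of_norm (mem_norm_of_cj_le ?_) hu
    rw [cj_zpowers, Subgroup.zpowers_le]
    rcases this with e | e <;> rw [e] <;> simp
  · intro g hg g1 c hc c1 u hu
    have h2 := mem_cent1.1 hu.2
    have : u = 1 ∨ c = g := by
      rcases mZ g u hu.1 with rfl | rfl | rfl <;> rcases hg with rfl | rfl | rfl | rfl <;>
        rcases hc with rfl | rfl | rfl | rfl <;> revert h2 c1 <;> decide
    rcases this with rfl | rfl
    exacts [Subgroup.one_mem _, hu.1]
  rintro ⟨-, X, -, h1, h2⟩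
  have hx : x ∈ X := ((h2 a (.inr (.inl rfl)) (by decide)).ge (Subgroup.mem_zpowers _)).1
  have hy : y ∈ X := ((h2 b (.inr (.inr (.inl rfl))) (by decide)).ge (Subgroup.mem_zpowers _)).1
  have := X.mul_mem hx (X.mul_mem (X.mul_mem hy hx) (X.inv_mem hy))
  have o : orderOf (x * (y * x * y⁻¹)) = 2 := orderOf_eq_prime (by decide) (by decide)
  exact h1 (o ▸ Subgroup.orderOf_dvd_natCard X this)

end Cfsg.Agent.S1286
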