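import Cfsg.Statements.S1288
import Cfsg.Agent.H1.SF1

set_option autoImplicit false
open Cfsg

namespace Cfsg.Agent.S1288

/-- Let A be a noncyclic elementary abelian p-subgroup of a finite group H normalizing a solvable subgroup K of order prime to p, q a prime dividing |K|, and U ≤ K a subgroup of order prime to q such that ⁅U, C_K(B)⁆ has order prime to q for every subgroup B of index p in A. Then U ≤ O_{q'}(K). -/
theorem result {H : Type*} [Group H] [Finite H] (p : ℕ) [Fact p.Prime] (A K : Subgroup H) (hA : Cfsg.IsElementaryAbelian p A) (hA2 : p ^ 2 ≤ Nat.card ↥A) (hK : ¬ p ∣ Nat.card ↥K) (hKs : Group.IsSolvable ↥K) (hAK : A ≤ Subgroup.normalizer (K : Set H)) (q : ℕ) [Fact q.Prime] (hqK : q ∣ Nat.card ↥K) (U : Subgroup H) (hU : U ≤ K) (hUq : ¬ q ∣ Nat.card ↥U) (hcomm : ∀ B : Subgroup H, B ≤ A → B.relIndex A = p → ¬ q ∣ Nat.card ↥⁅U, K ⊓ Subgroup.centralizer (B : Set H)⁆) : U ≤ (Cfsg.pPrimeCore q ↥K).map K.subtype := by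
  open H19 in
  have hp : p.Prime := Fact.out
  have hq : q.Prime := Fact.out
  rw [pPrimeCore_map_eq hq]
  refine H1.le_Oc'_of_hyp hp hA (ne_bot_iff_one_lt_card.2 (lt_of_lt_of_le (by nlinarith [hp.one_lt]) hA2))
    hAK (PiN.of_not_dvd hK) hKs hq (PiN.of_not_dvd hUq) hU fun B hB => PiN.of_not_dvd (hcomm B hB.1 ?_)
  have := card_mul_relIndex hB.1
  rw [← hB.2] at this
  exact Nat.eq_of_mul_eq_mul_left (card_pos _) this

end Cfsg.Agent.S1288
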