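import Cfsg.Statements.S1289
import Cfsg.Agent.H1.PLayer

set_option autoImplicit false
open Cfsg

namespace Cfsg.Agent.S1289

/-- A p-component K of the finite group X is subnormal, perfect, of order divisible by p, and minimal among the subnormal perfect subgroups of X of order divisible by p. -/
theorem result {X : Type*} [Group X] [Finite X] (p : ℕ) [Fact p.Prime] (K : Subgroup X) (hK : Cfsg.IsPComponent p K) : K.IsSubnormal ∧ ⁅K, K⁆ = K ∧ p ∣ Nat.card ↥K ∧ ∀ H : Subgroup X, H ≤ K → H.IsSubnormal → ⁅H, H⁆ = H → p ∣ Nat.card ↥H → H = K := by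
  have hq := H1.pComponent_pQuasi hK
  refine ⟨hK.1, hq.perfect, hq.dvd_card, fun H h1 h2 h3 h4 => ?_⟩
  refine (hq.eq_or_commutator_le (H1.SubnIn.of_isSubnormal h2 h1)).resolve_right fun h5 => ?_
  refine H1.not_dvd_card_pPrimeCoreOf K (h4.trans (Subgroup.card_dvd_of_le ?_))
  exact h3.ge.trans ((Subgroup.commutator_mono le_rfl h1).trans h5)

end Cfsg.Agent.S1289
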