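import Cfsg.Statements.S1303
import Cfsg.Agent.H1.SF10

set_option autoImplicit false
open Cfsg

namespace Cfsg.Agent.S1303

/-- The group X = SL(2, 3): it is 2-constrained, O_{2'}(X) = 1, its centre A = Z(X) contains every involution of X = C_X(A), and X has a subgroup of order 3 (normalized by A) not contained in O_{2'}(X). -/
theorem result : Cfsg.IsPConstrained 2 (Matrix.SpecialLinearGroup (Fin 2) (ZMod 3)) ∧ Cfsg.pPrimeCore 2 (Matrix.SpecialLinearGroup (Fin 2) (ZMod 3)) = ⊥ ∧ (∀ t : Matrix.SpecialLinearGroup (Fin 2) (ZMod 3), orderOf t = 2 → t ∈ Subgroup.center (Matrix.SpecialLinearGroup (Fin 2) (ZMod 3))) ∧ ∃ Q : Subgroup (Matrix.SpecialLinearGroup (Fin 2) (ZMod 3)), Nat.card ↥Q = 3 ∧ ¬ (Q ≤ Cfsg.pPrimeCore 2 (Matrix.SpecialLinearGroup (Fin 2) (ZMod 3))) := by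
  open H19 in
  let i : Matrix.SpecialLinearGroup (Fin 2) (ZMod 3) := ⟨!![0, 1; 2, 0], by decide⟩
  let w : Matrix.SpecialLinearGroup (Fin 2) (ZMod 3) := ⟨!![1, 1; 0, 1], by decide⟩
  let Q : Subgroup (Matrix.SpecialLinearGroup (Fin 2) (ZMod 3)) :=
    { carrier := {x | x ^ 4 = 1}, one_mem' := by decide
      mul_mem' := by simp only [Set.mem_ofPred_eq]; decide
      inv_mem' := by simp only [Set.mem_ofPred_eq]; decide }
  have hQ : Q.Normal := ⟨fun x hx g => by
    have : x ^ 4 = 1 := hx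
    show _ ^ 4 = 1
    rw [conj_pow, this]; simp⟩
  have pQ : IsPGroup 2 Q := fun x => ⟨2, Subtype.ext x.2⟩
  have cQ : C(Q) ≤ Q := fun x hx => by
    have h1 := mem_cent.1 hx i (show i ^ 4 = 1 by decide)
    have h2 := mem_cent.1 hx (w * i * w⁻¹) (show _ ^ 4 = 1 by decide)
    show x ^ 4 = 1
    clear hx; revert x; decide
  have h0 : Cfsg.pPrimeCore 2 (Matrix.SpecialLinearGroup (Fin 2) (ZMod 3)) = ⊥ := by
    have h1 := (H1.le_pCore hQ pQ)
    have h2 := commg_eq_bot.1 (H1.commutator_pCore_pPrimeCore (p := 2)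
      (G := Matrix.SpecialLinearGroup (Fin 2) (ZMod 3)))
    exact (inf_eq_right.2 ((cents_symm (h1.trans h2)).trans (cQ.trans h1))).symm.trans
      H1.pCore_inf_pPrimeCore
  have w1 : w ≠ 1 := fun e => absurd (congrArg (fun x => x.1 0 1) e) (by decide)
  have ow : orderOf w = 3 := orderOf_eq_prime (by decide) w1
  refine ⟨(H1.isPConstrained_iff_of_pPrimeCore_eq_bot h0).2 ?_, h0, fun t ht => ?_,
    Subgroup.zpowers w, by rw [Nat.card_zpowers, ow], fun h => ?_⟩
  · exact H1.gf_eq_pCore_iff.2 ((cent_mono (H1.le_pCore hQ pQ)).trans (cQ.trans (H1.le_pCore hQ pQ)))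
  · have : t ^ 2 = 1 := orderOf_dvd_iff_pow_eq_one.1 ht.dvd
    clear ht
    rw [Subgroup.mem_center_iff]
    revert t; decide
  · rw [h0, le_bot_iff, Subgroup.zpowers_eq_bot] at h
    exact w1 h

end Cfsg.Agent.S1303
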