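import Cfsg.Statements.S1304
import Cfsg.Agent.H1.Basic

set_option autoImplicit false
open Cfsg

namespace Cfsg.Agent.S1304

/-- Let X be a perfect group and α an automorphism of X with α(x) x⁻¹ central for every x. Then α is the identity. -/
theorem result {X : Type*} [Group X] (hperf : commutator X = ⊤) (α : X ≃* X) (h : ∀ x : X, α x * x⁻¹ ∈ Subgroup.center X) : ∀ x : X, α x = x := by
  intro x
  let f : X →* Subgroup.center X := MonoidHom.mk' (fun x => ⟨α x * x⁻¹, h x⟩) (fun a b => by
    apply Subtype.ext
    have h1 := Subgroup.mem_center_iff.1 (h b) a⁻¹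
    simp only [map_mul, mul_inv_rev, Subgroup.coe_mul]
    rw [mul_assoc (α a) a⁻¹, h1]
    group)
  have h1 : commutator X ≤ f.ker := by
    rw [commutator_def, Subgroup.commutator_le]
    intro a _ b _
    rw [MonoidHom.mem_ker, map_commutatorElement, commutatorElement_eq_one_iff_mul_comm]
    exact Subtype.ext (Subgroup.mem_center_iff.1 (f b).2 _)
  have h2 := congrArg Subtype.val (MonoidHom.mem_ker.1 (h1 (hperf ▸ Subgroup.mem_top x)))
  exact mul_inv_eq_one.1 h2

end Cfsg.Agent.S1304
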