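import Cfsg.Statements.S1307
import Cfsg.Agent.H1.LB7
import Cfsg.Agent.H24.OrbTwo
import Cfsg.Agent.S0016

set_option autoImplicit false
open Cfsg

namespace Cfsg.Agent.S1307

/-- Let G be finite, x an involution and L ≤ C_G(x) a component of C_G(x) of even order and 2-rank 1, such that L is a component of C_G(y) for every involution y ∈ C_G(L). Then some involution of L is a classical involution of G. -/
theorem result {G : Type*} [Group G] [Finite G] (x : G) (hx : orderOf x = 2) (L : Subgroup G) (hLx : L ≤ Subgroup.centralizer ({x} : Set G)) (hL : Cfsg.IsComponent (L.subgroupOf (Subgroup.centralizer ({x} : Set G)))) (heven : Even (Nat.card ↥L)) (hrk : Cfsg.PRankLE 2 1 ↥L) (hne : ∀ y : G, orderOf y = 2 → y ∈ Subgroup.centralizer (L : Set G) → L ≤ Subgroup.centralizer ({y} : Set G) ∧ Cfsg.IsComponent (L.subgroupOf (Subgroup.centralizer ({y} : Set G)))) : ∃ t ∈ L, Cfsg.IsClassicalInvolution t := by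
    open H19 in
    have q := ((H1.isComponent_subgroupOf_iff hLx).1 hL).2
    obtain ⟨S⟩ : Nonempty (Sylow 2 L) := inferInstance
    have hS := syl_sylow_top S
    have h0 := hS.sne_bot Nat.prime_two (by rw [Subgroup.card_top]; exact even_iff_two_dvd.1 heven)
    obtain ⟨t, tS, t2⟩ := H1.exists_ord_of_ne_bot hS.pi h0
    have u : ∀ a b : L, orderOf a = 2 → orderOf b = 2 → a ∈ C[b] → a = b := fun a b a2 b2 hc => by
      by_contra e
      have hV := H1.el_sup_elt (el1_zpowers Nat.prime_two (Subgroup.mem_top b) b2) (Subgroup.mem_top a)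
        (a2 ▸ pow_orderOf_eq_one a) (by rwa [cent_zpowers]) fun h =>
          (H1.mem_zp2 (b2 ▸ pow_orderOf_eq_one b) h).elim (fun e => by simp [e] at a2) e
      exact (H1.not_pRankLE_top Nat.prime_two).2 ⟨_, hV.ab, hV.card.ge⟩ hrk
    obtain ⟨z, zS, z2⟩ := H1.exists_ord_of_ne_bot (hS.pi.infl _) (hS.pi.center_ne_bot h0)
    have u' : ∀ a ∈ (S : Subgroup L), orderOf a = 2 → a = z := fun a ha a2 =>
      u a z a2 z2 (le_cent1_iff.2 zS.2 ha)
    have z2' : orderOf (z : G) = 2 := by rw [Subgroup.orderOf_coe, z2]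
    have hz : (z : G) ∈ C(L) := by
      by_contra e
      refine H1.Quasisimple.not_le_centralizer q (H1.quasi_le_of_commg q (norm_le_norm_cent L |>.trans'
        Subgroup.le_normalizer) (Subgroup.le_normalizer z.2) e
        (H1.commg_zp2 (z2' ▸ pow_orderOf_eq_one _) fun y hy => ?_))
      refine H1.quasi_cents_odd q (H1.SubnIn.refl L) (Oc_normal {2}ᶜ L) (Oc_pi _ _) ?_
      rw [← pPrimeCore_map_eq Nat.prime_two]
      exact ⟨_, H10.zstar_weak S zS.1 (fun g hg => u' _ hg (by rw [orderOf_conj', z2])) ⟨y, hy⟩, rfl⟩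
    obtain ⟨h1, h2⟩ := hne z z2' hz
    refine ⟨z, z.2, z2', L, h1, z.2, h2.1, S, ?_⟩
    have nc := H24.not_isCyclic_sylow_two_of_perfect q.1.commutator_eq_top S h0
    rcases Cfsg.Agent.S0016.result 2 S.isPGroup' (fun H K hH hK => by
      obtain ⟨a, -, a2, rfl⟩ := (el1_mk Nat.prime_two le_top hH).exists_gen
      obtain ⟨b, -, b2, rfl⟩ := (el1_mk Nat.prime_two le_top hK).exists_gen
      rw [Subtype.ext ((u' a a.2 (by rw [Subgroup.orderOf_coe, a2])).trans
        (u' b b.2 (by rw [Subgroup.orderOf_coe, b2])).symm)]) with h | ⟨-, n, ⟨e⟩⟩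
    · exact absurd h nc
    cases n with
    | zero => exact absurd (e.isCyclic.2 QuaternionGroup.quaternionGroup_one_isCyclic) nc
    | succ n => exact ⟨n, ⟨e⟩⟩

end Cfsg.Agent.S1307
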