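import Cfsg.Statements.S1315
import Cfsg.Prelude.Def_Local
import Cfsg.Prelude.Def_SporadicB
import Cfsg.Agent.H1.LB4
import Cfsg.Agent.H7.ZStar
import Cfsg.Agent.H10.QuatLift
import Cfsg.Agent.H10.MaxClass
import Cfsg.Agent.H10.OneClass
import Cfsg.Agent.H3.Transfer
import Cfsg.Agent.H29.CMod
import Cfsg.Agent.S1314
import Cfsg.Agent.H1.Wielandt

set_option autoImplicit false
open Cfsg

namespace Cfsg.Agent.S1315

section
set_option linter.unusedVariables false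
set_option linter.unusedSectionVars false
open Cfsg Subgroup H19
open H1 (PC pm cm Lp SubnIn PQuasi)
open scoped commutatorElement

universe u
variable {G : Type u} [Group G] [Finite G] {A H J J' K K' L M Q S T : Subgroup G} {a b c d g j k r s t u v w x y z : G}
set_option quotPrecheck false in
local notation:max "O'" H:max => Oc ({2} : Set ℕ)ᶜ H

/-- `J` is a `2`-component of the centralizer of its unique involution `z` -/
structure FS (z : G) (J : Subgroup G) : Prop where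
  pc : PC 2 J C[z]
  mem : z ∈ J
  o2 : orderOf z = 2
  uq : ∀ t ∈ J, orderOf t = 2 → t = z

theorem o2_of (h : t * t = 1) (h1 : t ≠ 1) : orderOf t = 2 := orderOf_eq_prime (by rwa [sq]) h1

theorem pg2 (h : t * t = 1) : PG 2 (zpowers t) := pg_of_pow Nat.prime_two (abelem_zpowers (by rwa [sq])).2

theorem cm_comm (hJ : J ≤ H) (hS : PG 2 S) (hu : u ∈ cm 2 H J) (h1 : u ∈ S) (hb : b ∈ J) (h2 : b ∈ S) : b * u = u * b :=
  commutatorElement_eq_one_iff_mul_comm.1 (mem_bot.1 (hS.inf_eq_bot (Oc_pi _ H) ▸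
    (⟨commg_le_of_le le_rfl le_rfl (commutator_mem_commutator h2 h1), H1.commg_cm hJ (commutator_mem_commutator hb hu)⟩ :
      ⁅b, u⁆ ∈ S ⊓ O' H)))

theorem syl_inf (h : PC 2 J H) (hS : Syl 2 S H) : Syl 2 (S ⊓ J) J := by
  have := (hS.inf_normal (H1.Lp_normal (p := 2) H)).inf_normal ⟨h.le_Lp, h.Lp_norms⟩
  rwa [inf_assoc, inf_eq_right.2 h.le_Lp] at this

theorem tt (hJ : ⁅J, J⁆ = J) (hQ : Syl 2 Q J) (i : M.relIndex Q = 2) (hu : u ∈ J) (e : PG 2 (zpowers u))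
    (h2 : ∀ k : ℕ, ∀ g ∈ J, g⁻¹ * u ^ (2 * k) * g ∈ M) : ∃ g ∈ J, g⁻¹ * u * g ∈ M := by
  by_contra n
  push Not at n
  obtain ⟨m, hm⟩ := e.isPGroup ⟨u, mem_zpowers u⟩
  obtain ⟨N, nN, iN, -⟩ := H3.thompson_transfer (G := J) (H := Q.subgroupOf J) (Q := M.subgroupOf J) (u := ⟨u, hu⟩)
    (Nat.odd_iff.2 (Nat.two_dvd_ne_zero.1 (hQ.not_dvd Nat.prime_two))) (by rw [relIndex_subgroupOf hQ.le, i])
    (fun g => n g g.2) (fun k g _ => h2 k g g.2) ⟨m, Subtype.ext (congrArg Subtype.val hm :)⟩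
  have h1 : commutator J ≤ N := H4.commutator_le_of_index_prime (p := 2) iN
  have h2 : commutator J = ⊤ := map_injective J.subtype_injective (by rw [map_subtype_commutator, hJ, H28.map_subtype_top])
  rw [h2, top_le_iff] at h1
  rw [h1, index_top] at iN
  omega

theorem odd_two (hr : r ∈ H) (hs : s ∈ S) (hS : PG 2 S) (l : S ≤ H) (e : r * s⁻¹ ∈ O' H) (o : PiE {2}ᶜ r) : s = 1 := by
  have h1 : pm 2 H ⟨r, hr⟩ = pm 2 H ⟨s, l hs⟩ := mul_inv_eq_one.1 (by rw [← map_inv, ← map_mul]; exact H1.pm_eq_one.2 e)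
  have h2 : pm 2 H ⟨s, l hs⟩ = 1 := PiN.e_eq_one (π := {2}) ((hS.elt hs).dvd ((orderOf_map_dvd _ _).trans (by simp)))
    (h1 ▸ o.dvd ((orderOf_map_dvd _ _).trans (by simp)))
  exact mem_bot.1 (hS.inf_eq_bot (Oc_pi _ H) ▸ (⟨hs, H1.pm_eq_one.1 h2⟩ : s ∈ S ⊓ O' H))

theorem conj_inv (ht : t * t = 1) (o : PiE {2}ᶜ k) (hk : t * k * t⁻¹ = k⁻¹) : ∃ g ∈ zpowers k, k * t = g * t * g⁻¹ := by
  obtain ⟨n, hn⟩ : Odd (orderOf k) := Nat.odd_iff.2 (Nat.two_dvd_ne_zero.1 (o.not_dvd Nat.prime_two rfl))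
  have h : k ^ (n + 1) * k ^ (n + 1) = k := by
    rw [← pow_add, show n + 1 + (n + 1) = orderOf k + 1 by omega, pow_succ, pow_orderOf_eq_one, one_mul]
  have e : t * k ^ (n + 1) * t⁻¹ = (k ^ (n + 1))⁻¹ := by rw [← conj_pow, hk, inv_pow]
  refine ⟨k ^ (n + 1), npow_mem_zpowers _ _, ?_⟩
  rw [← e, inv_eq_of_mul_eq_one_right ht]
  conv_lhs => rw [← h]
  calc _ = k ^ (n + 1) * (t * t) * k ^ (n + 1) * t := by rw [ht, mul_one]
    _ = _ := by group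

theorem diag (h : PC 2 J H) (ht : t ∈ H) (o : orderOf t = 2) (n : t ∉ N(J)) : ∃ L, PC 2 L (H ⊓ C[t]) ∧
    (∀ x ∈ J, ∃ l ∈ L, l * (x * (t * x * t⁻¹))⁻¹ ∈ O' H) ∧
    ∀ x ∈ J, x * (t * x * t⁻¹) ∈ C[t] → PG 2 (zpowers (x * (t * x * t⁻¹))) → x * (t * x * t⁻¹) ∈ L := by
  set f := pm 2 H
  have ne : cj t J ≠ J := fun e => n (mem_norm_iff_cj.2 e)
  have c := H1.le_cm_iff_im (h.Jm ht).le |>.1 (h.le_cm_of_ne (h.Jm ht) ne.symm)
  rw [show cj t J = cj ((⟨t, ht⟩ : H) : G) J from rfl, im_cj] at c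
  have q : PQuasi 2 (im f J) := h.q.im h.le fun e => h.not_le_Oc H ((H1.im_pm_eq_bot h.le).1 e)
  obtain ⟨π, h1, h2, h3, h4⟩ := S1314.result (f ⟨t, ht⟩) (H1.orderOf_pm o) (im f J) q.perfect
    (commg_eq_bot.2 (cents_symm c))
  have s1 : SubnIn π.range C[f ⟨t, ht⟩] := by
    have := (SubnIn.inf_of_isSubnormal (H1.SubnIn.top_iff.1 ((H1.SubnIn.of_isSubnormal h.comp.1 le_top).sup
      (H1.SubnIn.of_isSubnormal (H1.comp_cj h.comp (f ⟨t, ht⟩)).1 le_top))) C[f ⟨t, ht⟩])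
    exact h4 ▸ (H1.NormalIn.subn (der_normal _)).trans this
  have q1 : PQuasi 2 π.range := by
    rw [MonoidHom.range_eq_map]
    refine (H1.pComponent_pQuasi q.isPComponent_top).map π fun e => q.ne_bot ?_
    rw [Subgroup.map_eq_bot_iff] at e
    rw [← q.perfect, commg_eq_bot]
    exact fun a ha b hb => congrArg Subtype.val (mem_center_iff.1 (h2 (e (mem_top ⟨a, ha⟩))) ⟨b, hb⟩)
  set Y := pre f π.range ⊓ C[t] with hY
  have hYH : Y ≤ H := inf_le_left.trans (pre_le _ _)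
  have ct := H1.im_pm_cent (p := 2) (zpowers_le.2 ht) (H1.pg_zpowers o)
  rw [cent_zpowers, show zpowers t = zpowers ((⟨t, ht⟩ : H) : G) from rfl, im_zpowers, cent_zpowers] at ct
  have e2 : im f Y = π.range := le_antisymm ((im_mono inf_le_left).trans im_pre_le) fun d hd => by
    obtain ⟨y, a, b⟩ := mem_im.1 (ct.ge (h3 hd))
    exact mem_im.2 ⟨y, ⟨coe_mem_pre.2 (b ▸ hd), a⟩, b⟩
  have h5 : PQuasi 2 (H1.pPrimeRes 2 (Y.subgroupOf H)) := H1.pQuasi_pPrimeRes_of_map (f := f)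
    ((H1.pm_ker_cop H).coprime_dvd_left (card_dvd_of_le inf_le_left)) (e2 ▸ q1 :)
  have h6 : (H1.pPrimeRes 2 (Y.subgroupOf H)).map H.subtype = H1.pPrimeRes 2 Y := by
    rw [H1.map_pPrimeRes, map_subgroupOf_eq_of_le hYH]
  rw [← H1.pQuasi_map_iff H.subtype_injective, h6] at h5
  have s2 : SubnIn Y (H ⊓ C[t]) := by
    have := ((s1.comap f).map H.subtype).inf_right C[t]
    refine this.mono (le_inf hYH inf_le_right) ?_
    exact fun x hx => ⟨⟨⟨x, hx.1⟩, ct.le (mem_im_of hx.2), rfl⟩, hx.2⟩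
  have m : ∀ x (hx : x ∈ J), f ⟨x * (t * x * t⁻¹), mul_mem (h.le hx) (conj_mem_of_norm (le_normalizer ht) (h.le hx))⟩ ∈ π.range :=
    fun x hx => ⟨⟨f ⟨x, h.le hx⟩, mem_im_of hx⟩, by rw [h1, ← map_inv, ← map_mul, ← map_mul, ← map_mul]; rfl⟩
  refine ⟨_, ⟨(H1.pPrimeRes_subnIn Y).trans s2, h5⟩, fun x hx => ?_, fun x hx a b =>
    H1.le_pPrimeRes (zpowers_le.2 (mem_inf.2 ⟨mem_pre.2 ⟨_, m x hx⟩, a⟩)) b.isPGroup (mem_zpowers _)⟩
  have h7 : im f (H1.pPrimeRes 2 Y) = π.range := by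
    rw [← h6, H19.im, H1.map_subtype_subgroupOf, H1.map_pPrimeRes]
    change H1.pPrimeRes 2 (im f Y) = _
    rw [e2]
    exact q1.2
  obtain ⟨l, a, b⟩ := mem_im.1 (h7.ge (m x hx))
  rw [← mul_inv_eq_one, ← map_inv, ← map_mul] at b
  exact ⟨l, a, H1.pm_eq_one.1 b⟩

theorem pump (hL : PC 2 L (C[t] ⊓ C[z])) (hK : PC 2 K C[t]) (c : z ∈ C[t]) (o : orderOf z = 2) (n : z ∈ N(K)) :
    L ≤ K ∨ L ≤ cm 2 C[t] K :=
  (em _).symm.imp_left (H1.pumpA_vert hL ((H1.lbal_two _).le1 c o hL) hK c o n)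

namespace FS
variable (f : FS z J)
include f

theorem zz : z * z = 1 := by rw [← sq, ← f.o2, pow_orderOf_eq_one]
theorem ne : z ≠ 1 := fun h => by simpa [h] using f.o2
theorem zc (h : g ∈ J) : g * z = z * g := mem_cent1.1 (f.pc.le h)
theorem inv (h : t ∈ J) (e : t * t = 1) : t = 1 ∨ t = z := (em _).imp_right fun n => f.uq t h (o2_of e n)

theorem cnj (g : G) : FS (g * z * g⁻¹) (cj g J) :=
  ⟨cj_cent1 g z ▸ f.pc.cnj g, conj_mem_cj.2 f.mem, (orderOf_conj' g z).trans f.o2, fun t ht o => by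
    rw [← f.uq _ (mem_cj.1 ht) (by simpa using (orderOf_conj' g⁻¹ t).trans o)]; group⟩

theorem cnj' (h : g * z * g⁻¹ = t) : FS t (cj g J) := h ▸ f.cnj g

theorem cnj'' (h : g ∈ C[z]) : FS z (cj g J) := f.cnj' (by rw [mem_cent1.1 h]; group)

theorem zpw (h : y ∈ J) (p : PG 2 (zpowers y)) (n : y ≠ 1) : ∃ k : ℕ, y ^ 2 ^ k = z := by
  obtain ⟨k, a, b⟩ := H4.exists_pow_notMem_pow_mem (p := 2) (M := ⊥) (x := y)
    ((p.isPGroup ⟨y, mem_zpowers y⟩).imp fun k e => mem_bot.2 (congrArg Subtype.val e :)) n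
  exact ⟨k, (f.inv (pow_mem h _) (by rw [← sq]; exact b)).resolve_left a⟩

theorem zS (hS : Syl 2 S C[z]) : z ∈ S :=
  hS.mem_of_norm (mem_cent1_self z) (by rw [PiE, f.o2]; exact (piN_prime Nat.prime_two).2 rfl)
    (cent_le_norm S (le_cent1_iff.1 hS.le))

theorem mc (hS : Syl 2 S C[z]) : ∃ n x, H10.MC (S ⊓ J) n x (-1) ∧ H10.mcZ x n = z := by
  have q := syl_inf f.pc hS
  have hz : z ∈ S ⊓ J := ⟨f.zS hS, f.mem⟩
  have u : ∃! x : ↥(S ⊓ J), orderOf x = 2 := ⟨⟨z, hz⟩, by simpa using f.o2, fun x h => Subtype.ext (f.uq _ x.2.2 (by simpa using h))⟩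
  obtain ⟨m, a, b, hm, ha, hc, hb, -, -, e⟩ := H10.exists_quat_gens q.pi.isPGroup (fun ab => by
    obtain ⟨P, hP⟩ := q.exists_sylow
    have cy := H4.isCyclic_of_unique q.pi.isPGroup (fun x y a b => by rw [u.unique a b]) ⊤ inferInstance
    have cy : IsCyclic ↥(S ⊓ J) := isCyclic_of_surjective topEquiv topEquiv.surjective
    rw [← hP] at cy hz
    have pf : ⁅(⊤ : Subgroup J), (⊤ : Subgroup J)⁆ = ⊤ :=
      map_injective J.subtype_injective (by rw [map_commutator, H28.map_subtype_top, f.pc.perfect])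
    have := H10.sylow_eq_bot_of_cyclic (top_le_iff.1 (H1.perfect_le_of_le_sup pf le_normalizer_of_normal
      (PiN.of_isPGroup Nat.prime_two P.isPGroup').sol (H28.pResidual_sup_sylow P).ge)) P
      (isCyclic_of_injective ((P : Subgroup J).equivMapOfInjective _ J.subtype_injective).toMonoidHom (MulEquiv.injective _))
    rw [this, Subgroup.map_bot] at hz
    exact f.ne hz) u
  have o : orderOf (a : G) = 2 ^ m := by simpa using ha
  have k := H10.MC.of_gen (e := -1) a.2 o hm (H10.relIndex_zpowers_of_card a.2 o hc) (by decide) b.2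
    (fun ⟨i, h⟩ => hb ⟨i, Subtype.ext (by simpa using h)⟩) (by simpa using congrArg Subtype.val e)
  exact ⟨m, a, k, f.uq _ k.z_mem.2 k.z_orderOf⟩

theorem cen (hS : Syl 2 S C[z]) (h : u ∈ S ⊓ J) (c : u ∈ C(S ⊓ J)) : u = 1 ∨ u = z := by
  obtain ⟨n, x, k, e⟩ := f.mc hS
  exact e ▸ (k.mem_center_iff h).1 c

theorem q3 (h : u ∈ J) (p : PG 2 (zpowers u)) (c : u ∈ cm 2 C[z] J) : u = 1 ∨ u = z := by
  obtain ⟨S, hS, l⟩ := p.exists_syl (zpowers_le.2 (f.pc.le h))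
  exact f.cen hS ⟨l (mem_zpowers u), h⟩ fun b hb => cm_comm f.pc.le hS.pi c (l (mem_zpowers u)) hb.2 hb.1

theorem exj (hS : Syl 2 S C[z]) (h : t ∈ S) (n : t ∈ N(J)) (e : t * t ∈ C(S ⊓ J)) (c : t ∉ C(S ⊓ J)) :
    ∃ j ∈ S ⊓ J, j * t * j⁻¹ = z * t := by
  have l : zpowers t ≤ N(S ⊓ J) := norms_inf (norms_of_le (zpowers_le.2 h)) (zpowers_le.2 n)
  obtain ⟨j, hj, a, b⟩ := H29.exists_fixed_mod (W := C[t]) (hS.pi.infl J).isPGroup (hS.pi.of_le (zpowers_le.2 h)).isPGroup l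
    fun l => c (le_cent1_iff.1 l)
  have k := H29.comm_mul_right j t t
  rw [commutatorElement_eq_one_iff_mul_comm.2 (e j hj), ← mem_cent1.1 (b t (mem_zpowers t)), mul_inv_cancel_right] at k
  refine ⟨j, hj, ?_⟩
  rw [← (f.inv (commg_le_left l (commutator_mem_commutator hj (mem_zpowers t))).2 k.symm).resolve_left
    fun h => a (mem_cent1.2 (commutatorElement_eq_one_iff_mul_comm.1 h)), commutatorElement_def]
  group

theorem exj' (hS : Syl 2 S C[z]) (h : u ∈ S ⊓ J) (e : u * u = z) : ∃ j ∈ S ⊓ J, j * u * j⁻¹ = z * u :=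
  f.exj hS h.1 (le_normalizer h.2) (e ▸ fun b hb => f.zc hb.2) fun c => by
    rcases f.cen hS h c with r | r <;> rw [r] at e
    exacts [f.ne (by simpa using e.symm), f.ne (by simpa using e)]

theorem ab (hS : Syl 2 S C[z]) : ∃ a ∈ S ⊓ J, ∃ b ∈ S ⊓ J, a * a = z ∧ b * a * b⁻¹ = z * a := by
  obtain ⟨n, x, k, e⟩ := f.mc hS
  have h := k.zpow_mem ((2 : ℤ) ^ (n - 2))
  have e' : x ^ (2 : ℤ) ^ (n - 2) * x ^ (2 : ℤ) ^ (n - 2) = z := by rw [← zpow_add, ← two_mul, ← k.pow_n', ← e]; rfl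
  obtain ⟨b, hb, r⟩ := f.exj' hS h e'
  exact ⟨_, h, b, hb, e', r⟩

theorem sqz (hj : j ∈ J) (p : PG 2 (zpowers j)) (hv : v ∈ J) (e : v * v = z) (c : j * v * j⁻¹ = z * v) : j * j = z := by
  have n : j * v ≠ v * j := fun h => f.ne (by rw [h, mul_inv_cancel_right] at c; simpa using c.symm)
  by_contra m
  have m1 : j * j ≠ 1 := fun h => by
    rcases f.inv hj h with r | r <;> rw [r] at n
    exacts [n (by simp), n (f.zc hv).symm]
  obtain ⟨k, hk⟩ := f.zpw (mul_mem hj hj) (p.of_le (zpowers_le.2 (mul_mem (mem_zpowers j) (mem_zpowers j)))) m1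
  obtain _ | k := k
  · exact m (by simpa using hk)
  have c2 : Commute (j * j) v := by
    rw [Commute, SemiconjBy, ← mul_inv_eq_iff_eq_mul, show j * j * v * (j * j)⁻¹ = j * (j * v * j⁻¹) * j⁻¹ by group, c,
      ← mul_assoc, f.zc hj, show z * j * v * j⁻¹ = z * (j * v * j⁻¹) by group, c, ← mul_assoc, f.zz, one_mul]
  have c3 := c2.pow_left (2 ^ k)
  have c4 : Commute j ((j * j) ^ 2 ^ k) := ((Commute.refl j).mul_right (Commute.refl j)).pow_right _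
  rw [pow_succ, pow_mul, sq] at hk
  set i := (j * j) ^ 2 ^ k
  rcases f.inv (mul_mem (pow_mem (mul_mem hj hj) _) hv : i * v ∈ J) (by
    rw [mul_assoc, ← mul_assoc v, ← c3.eq, mul_assoc, e, ← mul_assoc, hk, f.zz]) with r | r
  · exact n (by rw [eq_inv_of_mul_eq_one_right r]; exact c4.inv_right.eq)
  · exact n (by rw [eq_inv_mul_of_mul_eq r]; exact (c4.inv_right.mul_right (f.zc hj)).eq)

theorem q4 (hu : u ∈ J) (e : u * u = z) (hv : v ∈ J) (e' : v * v = z) : ∃ g ∈ J, g * u * g⁻¹ = v := by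
  obtain ⟨S, hS⟩ := exists_syl 2 C[z]
  obtain ⟨n, x, k, ez⟩ := f.mc hS
  have h := k.zpow_mem ((2 : ℤ) ^ (n - 2))
  have e0 : x ^ (2 : ℤ) ^ (n - 2) * x ^ (2 : ℤ) ^ (n - 2) = z := by rw [← zpow_add, ← two_mul, ← k.pow_n', ← ez]; rfl
  obtain ⟨b, hb, r⟩ := f.exj' hS h e0
  have key : ∀ u ∈ J, u * u = z → ∃ g ∈ J, g * u * g⁻¹ = x ^ (2 : ℤ) ^ (n - 2) := fun u hu e => by
    have o : orderOf u = 4 := H10.orderOf_four_of (by rw [show u ^ 4 = u * u * (u * u) by simp only [pow_succ, pow_zero, one_mul, mul_assoc], e, f.zz]) (by rw [sq, e]; exact f.ne)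
    obtain ⟨g, hg, m⟩ := tt f.pc.perfect (syl_inf f.pc hS) k.idx hu (piG_zpowers.2 (by rw [PiE, o]; exact PiN.prime_pow Nat.prime_two 2))
      fun i g hg => by
        rw [pow_mul, sq, e, mul_assoc, ← (Commute.pow_right (f.zc hg) i).eq, inv_mul_cancel_left, ← ez]
        exact pow_mem H10.MC.z_mem_zpowers i
    rcases k.four_in m (by simpa using (orderOf_conj' g⁻¹ u).trans o) with s | s
    · exact ⟨g⁻¹, inv_mem hg, by rw [inv_inv, s]⟩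
    · refine ⟨b * g⁻¹, mul_mem hb.2 (inv_mem hg), ?_⟩
      rw [show b * g⁻¹ * u * (b * g⁻¹)⁻¹ = b * (g⁻¹ * u * g) * b⁻¹ by group, s, ← _root_.conj_inv, r, inv_eq_iff_mul_eq_one,
        mul_assoc, e0, f.zz]
  obtain ⟨g, hg, a⟩ := key u hu e
  obtain ⟨d, hd, c⟩ := key v hv e'
  exact ⟨d⁻¹ * g, mul_mem (inv_mem hd) hg, by rw [show d⁻¹ * g * u * (d⁻¹ * g)⁻¹ = d⁻¹ * (g * u * g⁻¹) * d by group, a, ← c]; group⟩

theorem zs (hS : Syl 2 S C[z]) (h : t ∈ S) (o : orderOf t = 2) (n : t ∈ N(J)) (c : t ∈ C(S ⊓ J)) : t ∈ cm 2 C[z] J := by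
  have t2 : t * t = 1 := by rw [← sq, ← o, pow_orderOf_eq_one]
  have hn : zpowers t ≤ N(J) := zpowers_le.2 n
  have hs : t ∈ J ⊔ zpowers t := mem_sup_right (mem_zpowers t)
  have key : ∀ y ∈ J, t * (y * t * y⁻¹) = y * t * y⁻¹ * t → y * t * y⁻¹ = t := fun y hy e => by
    have m : y * t * y⁻¹ * t ∈ J := by
      have := mul_mem hy (conj_mem_of_norm n (inv_mem hy))
      rwa [inv_eq_of_mul_eq_one_right t2, ← mul_assoc, ← mul_assoc] at this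
    rcases f.inv m (by
      rw [mul_assoc, ← mul_assoc t, e, mul_assoc _ t t, t2, mul_one, show y * t * y⁻¹ * (y * t * y⁻¹) = y * (t * t) * y⁻¹ by group, t2]
      group) with r | r
    · rw [eq_inv_of_mul_eq_one_left r, inv_eq_of_mul_eq_one_right t2]
    have r : y * t * y⁻¹ = z * t := by rw [← r, mul_assoc _ t t, t2, mul_one]
    have y2 : y * y ∈ C[t] := mem_cent1.2 (by
      rw [← mul_inv_eq_iff_eq_mul, show y * y * t * (y * y)⁻¹ = y * (y * t * y⁻¹) * y⁻¹ by group, r, ← mul_assoc, f.zc hy,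
        show z * y * t * y⁻¹ = z * (y * t * y⁻¹) by group, r, ← mul_assoc, f.zz, one_mul])
    obtain ⟨m, k, cp, hk⟩ := H28.exists_coprime_pow_pPow (p := 2) (isOfFinOrder_of_finite y)
    have yn : y ∈ N(J ⊓ C[t]) := mem_norm_of_cj_le fun x hx => by
      obtain ⟨w, ⟨a, b⟩, rfl⟩ := mem_cj'.1 hx
      refine ⟨conj_mem_of_norm (le_normalizer hy) a, mem_cent1.2 ?_⟩
      rw [show t = y * (z * t) * y⁻¹ by
        rw [← mul_assoc, f.zc hy, mul_assoc z, mul_assoc z, r, ← mul_assoc, f.zz, one_mul]]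
      rw [show y * w * y⁻¹ * (y * (z * t) * y⁻¹) = y * (w * z * t) * y⁻¹ by group, f.zc a, mul_assoc z, mem_cent1.1 b]; group
    have := le_of_pi_of_relIndex (π := {2}) (K := zpowers (y ^ m)) (zpowers_le.2 (pow_mem yn m)) inf_le_left
      (zpowers_le.2 (pow_mem hy m)) (PiN.of_isPGroup Nat.prime_two (H28.isPGroup_zpowers hk))
      (PiN.of_not_dvd ((syl_inf f.pc hS).not_dvd_relIndex Nat.prime_two (le_inf inf_le_right (le_cent1_iff.2 c))))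
    rw [mem_cent1.1 (H28.mem_of_pow_mem_of_pow_mem cp (this (mem_zpowers _)).2 (by rwa [sq])), mul_inv_cancel_right]
  have iso : IsIsolatedInvolution (⟨t, hs⟩ : ↥(J ⊔ zpowers t)) := by
    refine ⟨by simpa using o, fun g hg => ?_⟩
    obtain ⟨v, hv, w, hw, e⟩ := (mem_sup_of_norm hn).1 g.2
    have e2 : (g : G) * t * (g : G)⁻¹ = v * t * v⁻¹ := by
      rw [e, mul_assoc v, mem_cent1.1 (zpowers_le.2 (mem_cent1_self t) hw)]; group
    exact Subtype.ext (e2.trans (key v hv (by rw [← e2]; exact congrArg Subtype.val hg.eq)))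
  have m : ∀ y ∈ J, ⁅y, t⁆ ∈ O' C[z] := fun y hy => f.pc.Oc_le (Oc_inf_le le_sup_left ⟨by
    rw [← pPrimeCore_map_eq Nat.prime_two]
    exact ⟨_, inv_mem (H7.zstar iso ⟨y, mem_sup_left hy⟩), by simp [mul_assoc, commutatorElement_def]⟩,
    commg_le_left hn (commutator_mem_commutator hy (mem_zpowers t))⟩)
  exact H1.le_cm f.pc.le (zpowers_le.2 (hS.le h)) (H29.commutator_zpowers_le (Oc_norm _ _ (hS.le h)) m) (mem_zpowers t)

theorem nz (h : y ∈ J) (p : PG 2 (zpowers y)) (e : y * y ≠ 1) (hg : g ∈ C[z]) (c : g ∈ C[y]) : g ∈ N(J) := by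
  by_contra n
  rcases f.q3 h p (f.pc.le_cm_of_ne (f.pc.Jm hg) (fun e => n (mem_norm_iff_cj.2 e.symm))
    (mem_cj'.2 ⟨y, h, by rw [mem_cent1.1 c]; group⟩)) with r | r <;> rw [r] at e
  exacts [e (mul_one _), e f.zz]

theorem split (f' : FS z J') (hS : Syl 2 S C[z]) (h : t ∈ S) (m : t ∈ J ⊔ J') : ∃ v ∈ S ⊓ J, ∃ v' ∈ S ⊓ J', t = v * v' := by
  have n1 : J ⊔ J' ≤ N(J) := sup_le le_normalizer (f.pc.norms f'.pc)
  have n2 : J ⊔ J' ≤ N(J') := sup_le (f'.pc.norms f.pc) le_normalizer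
  have l : J ⊔ S ⊓ J' ≤ J ⊔ J' := sup_le_sup_left inf_le_right J
  have := le_of_pi_of_relIndex (π := {2}) (K := zpowers t) (H := J ⊔ S ⊓ J')
    (norms_sup (zpowers_le.2 (n1 m)) (norms_inf (norms_of_le (zpowers_le.2 h)) (zpowers_le.2 (n2 m)))) l (zpowers_le.2 m)
    (hS.pi.of_le (zpowers_le.2 h)) (by
      rw [show J ⊔ J' = J' ⊔ (J ⊔ S ⊓ J') from le_antisymm (sup_le (le_sup_of_le_right le_sup_left) le_sup_left)
        (sup_le le_sup_right l), relIndex_sup_right_of_norm (l.trans n2)]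
      exact (syl_inf f'.pc hS).idx.dvd (relIndex_dvd_left le_sup_right _))
  obtain ⟨v, hv, w, hw, e⟩ := (mem_sup_of_norm ((inf_le_right.trans le_sup_right).trans n1)).1 (this (mem_zpowers t))
  exact ⟨v, ⟨(S.mul_mem_cancel_right hw.1).1 (e ▸ h), hv⟩, w, hw, e⟩

end FS

theorem cmJ (f : FS z J) (hg : g ∈ C[z]) (n : g ∉ N(J)) (h : a ∈ J) : g * a * g⁻¹ ∈ cm 2 C[z] J :=
  f.pc.le_cm_of_ne (f.pc.Jm hg) (fun e => n (mem_norm_iff_cj.2 e.symm)) (conj_mem_cj.2 h)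

theorem ncm (f : FS z J) (hS : PG 2 S) (hb : b ∈ S ⊓ J) (hs : s ∈ S) (e : b * s * b⁻¹ = z * s) : s ∉ cm 2 C[z] J := fun h => by
  rw [cm_comm f.pc.le hS h hs hb.2 hb.1, mul_inv_cancel_right] at e
  exact f.ne (by simpa using e.symm)

theorem dg (f : FS z J) (f' : FS t K) (nz : z ∈ N(K)) (hS : Syl 2 S C[z]) (ht : t ∈ S) (n : t ∉ N(J)) (ha : a ∈ S ⊓ J)
    (hb : b ∈ S ⊓ J) (e1 : a * a = z) (e2 : b * a * b⁻¹ = z * a) (hs : s = a * (t * a * t⁻¹)) :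
    s ∈ S ∧ s ∈ C[t] ∧ s * s = 1 ∧ b * s * b⁻¹ = z * s ∧ s ∈ N(J) ∧ s ∈ cm 2 C[t] K ∧ a * s = s * a ∧ a * t * a⁻¹ = s * z * t := by
  have tz := hS.le ht
  have c := cmJ f tz n ha.2
  have m : t * a * t⁻¹ ∈ S := mul_mem (mul_mem ht ha.1) (inv_mem ht)
  have c1 := cm_comm f.pc.le hS.pi c m ha.2 ha.1
  have c2 := cm_comm f.pc.le hS.pi c m hb.2 hb.1
  have e3 : t * a * t⁻¹ * (t * a * t⁻¹) = z := by
    rw [show t * a * t⁻¹ * (t * a * t⁻¹) = t * (a * a) * t⁻¹ by group, e1, mem_cent1.1 tz, mul_inv_cancel_right]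
  have e4 : t * (t * a * t⁻¹) * t⁻¹ = a := by rw [show t * (t * a * t⁻¹) * t⁻¹ = t * t * a * (t * t)⁻¹ by group, f'.zz]; group
  set a' := t * a * t⁻¹ with ha'
  have sS : s ∈ S := hs ▸ mul_mem ha.1 m
  have st : s ∈ C[t] := mem_cent1.2 (by
    rw [eq_comm, ← mul_inv_eq_iff_eq_mul, hs, show t * (a * a') * t⁻¹ = t * a * t⁻¹ * (t * a' * t⁻¹) by group, e4, ← ha', c1])
  have ss : s * s = 1 := by rw [hs, mul_assoc, ← mul_assoc a', ← c1, mul_assoc, e3, ← mul_assoc, e1, f.zz]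
  have bs : b * s * b⁻¹ = z * s := by
    rw [hs, show b * (a * a') * b⁻¹ = b * a * b⁻¹ * (b * a' * b⁻¹) by group, e2, c2, mul_inv_cancel_right, mul_assoc]
  have sn : s ∈ N(J) := hs ▸ mul_mem (le_normalizer ha.2) (f.pc.cm_norms c)
  obtain ⟨L, hL, -, k⟩ := diag f.pc tz f'.o2 n
  have sL : s ∈ L := hs ▸ k a ha.2 (hs ▸ st) (hs ▸ pg2 ss)
  refine ⟨sS, st, ss, bs, sn, ?_, by rw [hs, mul_assoc, ← c1], ?_⟩
  · refine (pump (inf_comm C[z] C[t] ▸ hL) f'.pc (mem_cent1_symm.1 tz) f.o2 nz).elim (fun l => ?_) fun l => l sL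
    rcases f'.inv (l sL) ss with r | r
    · rw [r]; exact one_mem _
    · exact absurd (r ▸ sn) n
  · rw [hs, ← e3, mul_assoc a, mul_assoc a, mul_assoc a, mul_right_inj, ← inv_mul_eq_one,
      show (t * a⁻¹)⁻¹ * (a' * (a' * a') * t) = t⁻¹ * (t * a * t⁻¹ * a' * (a' * a')) * t by group, ← ha', e3, f.zz]
    group

theorem two_sup (hS : PG 2 S) (h : y ∈ S) : PG 2 (zpowers y) := hS.of_le (zpowers_le.2 h)

theorem caseA (f : FS z J) (f' : FS t K) (hy : y ∈ K) (e : y * y ≠ 1) (hS : Syl 2 S C[z]) (yS : y ∈ S) (ne : z ≠ t)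
    (n : y ∉ N(J)) : t ∈ S ∧ z ∈ N(K) ∧ t ∈ N(J) ∧ t ∉ C(S ⊓ J) := by
  have yz := hS.le yS
  obtain ⟨m, hm⟩ := f'.zpw (mul_mem hy hy) (two_sup hS.pi (mul_mem yS yS)) e
  have tS : t ∈ S := hm ▸ pow_mem (mul_mem yS yS) _
  have zt : z ∈ C[t] := mem_cent1_symm.1 (hS.le tS)
  have nz := f'.nz hy (two_sup hS.pi yS) e zt (mem_cent1_symm.1 yz)
  obtain ⟨a, ha, b, hb, e1, e2⟩ := f.ab hS
  have tn : t ∈ N(J) := by
    by_contra tn
    obtain ⟨sS, st, ss, bs, -, sc, -⟩ := dg f f' nz hS tS tn ha hb e1 e2 rfl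
    refine ncm f hS.pi hb sS bs ?_
    rw [← mul_inv_eq_iff_eq_mul.2 (cm_comm f'.pc.le hS.pi sc sS hy yS),
      show y * (a * (t * a * t⁻¹)) * y⁻¹ = y * a * y⁻¹ * (y * t * a * (y * t)⁻¹) by group]
    refine mul_mem (cmJ f yz n ha.2) (cmJ f (mul_mem yz (hS.le tS)) (fun h => tn ?_) ha.2)
    have := mul_mem h h
    rw [mul_assoc, ← mul_assoc t, ← f'.zc hy, mul_assoc, f'.zz, mul_one] at this
    exact hm ▸ pow_mem this _
  refine ⟨tS, nz, tn, fun c => ?_⟩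
  have tc := f.zs hS tS f'.o2 tn c
  have l := f.pc.pg_le_Lp_cent (zpowers_le.2 tc) (pg2 f'.zz) (hS.pi.infl J) (le_inf inf_le_right (cents_symm (zpowers_le.2 c)))
  rw [cent_zpowers] at l
  rcases pump (inf_comm C[z] C[t] ▸ (f.pc.cent1 tc f'.o2).1) f'.pc zt f.o2 nz with r | r
  · exact ne (f'.uq z (r (l ⟨f.zS hS, f.mem⟩)) f.o2)
  · refine ncm f hS.pi hb ha.1 e2 ?_
    rw [← mul_inv_eq_iff_eq_mul.2 (cm_comm f'.pc.le hS.pi (r (l ha)) ha.1 hy yS)]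
    exact cmJ f yz n ha.2

theorem fin (f : FS t K) (hT : Syl 2 T C[t]) (wT : w ∈ T) (w2 : w * w = 1) (n : w ∉ N(K)) (hy : y ∈ T ⊓ K) (y2 : y * y = t)
    (hz : z = w * y * w⁻¹ * y⁻¹) (nz : z ∈ N(K)) (h1 : d * t * d⁻¹ = w) (h2 : d * z * d⁻¹ = z) : False := by
  have wt := hT.le wT
  have o : orderOf w = 2 := o2_of w2 fun h => n (h ▸ one_mem _)
  have tw : t ∈ C[w] := mem_cent1_symm.1 wt
  have cT : ∀ x ∈ T ⊓ K, w * x * w⁻¹ ∈ T := fun x hx => mul_mem (mul_mem wT hx.1) (inv_mem wT)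
  have cc : ∀ x ∈ T ⊓ K, ∀ u ∈ T ⊓ K, u * (w * x * w⁻¹) = w * x * w⁻¹ * u := fun x hx u hu =>
    cm_comm f.pc.le hT.pi (cmJ f wt n hx.2) (cT x hx) hu.2 hu.1
  have es : y * (w * y * w⁻¹) = z * t := by rw [hz, ← y2, cc y hy y hy]; group
  have zT : z ∈ T := hz ▸ mul_mem (cT y hy) (inv_mem hy.1)
  have sT : z * t ∈ T := mul_mem zT (f.zS hT)
  obtain ⟨L, hL, k1, k2⟩ := diag f.pc wt o n
  have sL : z * t ∈ L := es ▸ k2 y hy.2 (mem_cent1.2 (by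
    rw [eq_comm, ← mul_inv_eq_iff_eq_mul, show w * (y * (w * y * w⁻¹)) * w⁻¹ = w * y * w⁻¹ * (w * w * y * (w * w)⁻¹) by group, w2,
      cc y hy y hy]; group)) (es ▸ two_sup hT.pi sT)
  have g1 := f.cnj' h1
  have g2 := (f.cnj'' wt).cnj' h1
  have zm : ∀ X : Subgroup G, cj d K ≤ X → cj d (cj w K) ≤ X → z ∈ X := fun X a b => by
    rw [← h2, hz, show d * (w * y * w⁻¹ * y⁻¹) * d⁻¹ = d * (w * y * w⁻¹) * d⁻¹ * (d * y * d⁻¹)⁻¹ by group]
    exact mul_mem (b (conj_mem_cj.2 (conj_mem_cj.2 hy.2))) (inv_mem (a (conj_mem_cj.2 hy.2)))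
  have hL' : PC 2 L (C[w] ⊓ C[t]) := inf_comm C[t] C[w] ▸ hL
  have tL : t ∈ Lp 2 C[w] :=
    (Subgroup.mul_mem_cancel_left _ (zm _ g1.pc.le_Lp g2.pc.le_Lp)).1 ((H1.lbal_two _).le1 tw f.o2 hL' sL)
  have lw : L ≤ C[w] := hL'.le.trans inf_le_left
  have ss : z * t * (z * t) = 1 := by
    rw [← es, mul_assoc, ← mul_assoc _ y, ← cc y hy y hy, mul_assoc y, ← mul_assoc y y, y2,
      show w * y * w⁻¹ * (w * y * w⁻¹) = w * (y * y) * w⁻¹ by group, y2, mem_cent1.1 wt, mul_inv_cancel_right, f.zz]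
  obtain ⟨k, hk, ek⟩ := f.exj' hT hy y2
  have s1 : ∀ u ∈ T ⊓ K, u * (w * u * w⁻¹) = z * t → k * u = u * k → False := fun u hu e c => by
    have m : y⁻¹ * u ∈ K := mul_mem (inv_mem hy.2) hu.2
    have := f.q3 m (two_sup hT.pi (mul_mem (inv_mem hy.1) hu.1)) (by
      rw [show y⁻¹ * u = w * y * w⁻¹ * (w * u * w⁻¹)⁻¹ by
        rw [inv_mul_eq_iff_eq_mul, ← mul_assoc, es, ← e]; group]
      exact mul_mem (cmJ f wt n hy.2) (inv_mem (cmJ f wt n hu.2)))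
    have c' : k * (y⁻¹ * u) = y⁻¹ * u * k := by
      rcases this with r | r <;> rw [r]
      exacts [by simp, f.zc hk.2]
    rw [mul_assoc, ← c, ← mul_assoc, ← mul_assoc, mul_left_inj, mul_inv_eq_iff_eq_mul, mul_assoc, eq_inv_mul_iff_mul_eq] at c'
    rw [← c', mul_inv_cancel_right] at ek
    exact f.ne (by simpa using ek.symm)
  have key : ∀ X : Subgroup G, FS w X → X ≤ cm 2 C[w] L := fun X g => by
    refine H1.le_cm_symm g.pc.le ((pump hL' g.pc tw f.o2 (g.pc.Lp_norms tL)).resolve_left fun l => ?_)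
    rcases g.inv (l sL) ss with r | r
    · exact s1 1 (one_mem _) (by rw [r]; group) (by simp)
    · exact n (r ▸ mul_mem nz (le_normalizer f.mem))
  have k2 := f.sqz hk.2 (two_sup hT.pi hk.1) hy.2 y2 ek
  obtain ⟨x, hx, ex⟩ := f.q4 hy.2 y2 hk.2 k2
  obtain ⟨l, hl, el⟩ := k1 x hx
  have lt : l ∈ C[t] := (hL.le hl).1
  have od : PiE {2}ᶜ ⁅l, z⁆ := (Oc_pi _ _).elt (H1.commg_cm lw (commutator_mem_commutator hl (zm _ (key _ g1) (key _ g2))))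
  refine s1 k hk (mul_inv_eq_one.1 (odd_two (H := C[t]) (commg_le_of_le le_rfl le_rfl (commutator_mem_commutator lt (hT.le zT)))
    (mul_mem (mul_mem hk.1 (cT k hk)) (inv_mem sT)) hT.pi hT.le ?_ od)) rfl
  have nO := Oc_normal ({2} : Set ℕ)ᶜ C[t]
  have xt := f.pc.le hx
  have x't : w * x * w⁻¹ ∈ C[t] := mul_mem (mul_mem wt xt) (inv_mem wt)
  have o1 : ⁅y, w * x * w⁻¹⁆ ∈ O' C[t] := H1.commg_cm f.pc.le (commutator_mem_commutator hy.2 (cmJ f wt n hx))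
  have o2 : ⁅x, w * k * w⁻¹⁆ ∈ O' C[t] := H1.commg_cm f.pc.le (commutator_mem_commutator hx (cmJ f wt n hk.2))
  have kt := f.pc.le hk.2
  have k't : w * k * w⁻¹ ∈ C[t] := hT.le (cT k hk)
  have e5 : w * k * w⁻¹ = w * x * w⁻¹ * (w * y * w⁻¹) * (w * x * w⁻¹)⁻¹ := by rw [← ex]; group
  have e6 : ⁅l, z⁆ * (k * (w * k * w⁻¹) * (z * t)⁻¹)⁻¹ = l * (z * t) * l⁻¹ * (k * (w * k * w⁻¹))⁻¹ := by
    rw [mul_assoc l, mul_assoc z, ← (show Commute l t from mem_cent1.1 lt).inv_left.eq, commutatorElement_def]; group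
  rw [e6, ← es]
  generalize w * x * w⁻¹ = x' at *
  generalize w * y * w⁻¹ = y' at *
  generalize w * k * w⁻¹ = k' at *
  have := mul_mem (mul_mem (mul_mem el (nO.conj_mem xt (inv_mem o1))) (nO.conj_mem kt o2))
    (nO.conj_mem (mul_mem kt k't) (inv_mem el))
  convert this using 1
  rw [e5, ← ex]
  simp only [commutatorElement_def]
  group

theorem dec (f : FS z J) (f' : FS z J') (ne : J ≠ J') (hS : Syl 2 S C[z]) (hv : v ∈ S ⊓ J) (hu : u ∈ S ⊓ J') (tt : t * t = 1)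
    (e : t = v * u ∨ t = u * v) (hj : j ∈ S ⊓ J) (ej : j * t * j⁻¹ = z * t) : v * v = z ∧ j * j = z := by
  have c := f.pc.le_cm_of_ne f'.pc ne hu.2
  have c1 := cm_comm f.pc.le hS.pi c hu.1 hv.2 hv.1
  have c2 := cm_comm f.pc.le hS.pi c hu.1 hj.2 hj.1
  have e : t = v * u := e.elim id fun e => e.trans c1.symm
  have ev : j * v * j⁻¹ = z * v := by
    rw [e, show j * (v * u) * j⁻¹ = j * v * j⁻¹ * (j * u * j⁻¹) by group, c2, mul_inv_cancel_right, ← mul_assoc] at ej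
    exact mul_right_cancel ej
  have v2 : v * v = z := by
    rw [e, mul_assoc, ← mul_assoc u, ← c1, mul_assoc, ← mul_assoc] at tt
    refine (f.q3 (mul_mem hv.2 hv.2) (two_sup hS.pi (mul_mem hv.1 hv.1))
      (by rw [eq_inv_of_mul_eq_one_left tt]; exact inv_mem (mul_mem c c))).resolve_left fun h => ?_
    rcases f.inv hv.2 h with r | r <;> rw [r] at ev
    · exact f.ne (by simpa using ev.symm)
    · rw [f.zc hj.2, mul_inv_cancel_right] at ev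
      exact f.ne (by simpa using ev.symm)
  exact ⟨v2, f.sqz hj.2 (two_sup hS.pi hj.1) hv.2 v2 ev⟩

theorem caseB (f : FS z J) (f' : FS t K) (hy : y ∈ K) (e : y * y ≠ 1) (hS : Syl 2 S C[z]) (yS : y ∈ S) (ne : z ≠ t)
    (n : y ∉ N(J)) (n2 : y * y ∈ N(J)) : False := by
  obtain ⟨tS, nz, tn, tc⟩ := caseA f f' hy e hS yS ne n
  have yz := hS.le yS
  have tz : t * z = z * t := mem_cent1.1 (hS.le tS)
  have yt := f'.zc hy
  obtain ⟨j, hj, ej⟩ := f.exj hS tS tn (f'.zz ▸ one_mem _) tc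
  have g := f.cnj'' yz
  have nJ : J ≠ cj y J := fun h => n (mem_norm_iff_cj.2 h.symm)
  have hj' : y * j * y⁻¹ ∈ S ⊓ cj y J := ⟨S.mul_mem (S.mul_mem yS hj.1) (S.inv_mem yS), conj_mem_cj.2 hj.2⟩
  have ej' : y * j * y⁻¹ * t * (y * j * y⁻¹)⁻¹ = z * t := by
    rw [show y * j * y⁻¹ * t * (y * j * y⁻¹)⁻¹ = y * (j * (y⁻¹ * (t * y)) * j⁻¹) * y⁻¹ by group, ← yt, inv_mul_cancel_left, ej,
      ← mul_assoc, mem_cent1.1 yz, mul_assoc z, yt]; group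
  have jj : j * (y * j * y⁻¹) = y * j * y⁻¹ * j := cm_comm f.pc.le hS.pi (cmJ f yz n hj.2) hj'.1 hj.2 hj.1
  have hc : j⁻¹ * (y * y * j * (y * y)⁻¹) ∈ S ⊓ J := mul_mem (inv_mem hj)
    ⟨S.mul_mem (S.mul_mem (mul_mem yS yS) hj.1) (S.inv_mem (mul_mem yS yS)), conj_mem_of_norm n2 hj.2⟩
  obtain ⟨w, hw⟩ : ∃ w, w = j * (y * j * y⁻¹) := ⟨_, rfl⟩
  have wS : w ∈ S := hw ▸ mul_mem hj.1 hj'.1
  have wt : w ∈ C[t] := mem_cent1.2 (by
    rw [← mul_inv_eq_iff_eq_mul, hw, show j * (y * j * y⁻¹) * t * (j * (y * j * y⁻¹))⁻¹ = j * (y * j * y⁻¹ * t * (y * j * y⁻¹)⁻¹) * j⁻¹ by group,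
      ej', ← mul_assoc, f.zc hj.2, mul_assoc z, mul_assoc z, ej, ← mul_assoc, f.zz, one_mul])
  have ec : j⁻¹ * (y * y * j * (y * y)⁻¹) = w⁻¹ * y * w * y⁻¹ := by
    rw [hw]; nth_rewrite 1 [jj]; group
  rw [ec] at hc
  obtain ⟨m, hm⟩ := f'.zpw (mul_mem hy hy) (two_sup hS.pi (mul_mem yS yS)) e
  have wn : w ∉ N(K) := fun h => by
    by_cases c1 : w⁻¹ * y * w * y⁻¹ = 1
    · rw [← ec, inv_mul_eq_one, eq_mul_inv_iff_mul_eq] at c1
      have := (show Commute j (y * y) from c1).pow_right (2 ^ m)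
      rw [hm] at this
      rw [this.eq, mul_inv_cancel_right] at ej
      exact f.ne (by simpa using ej.symm)
    obtain ⟨i, hi⟩ := f.zpw hc.2 (two_sup hS.pi hc.1) c1
    exact ne (f'.uq z (hi ▸ pow_mem (mul_mem (conj_mem_of_norm' h hy) (inv_mem hy)) _) f.o2)
  have wn' : w⁻¹ ∉ N(K) := fun h => wn (by simpa using inv_mem h)
  obtain ⟨T, hT, lT⟩ := (hS.pi.infl C[t]).exists_syl inf_le_right
  have y1 : w⁻¹ * y * w ∈ cm 2 C[t] K := by simpa using cmJ f' (inv_mem wt) wn' hy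
  have cy : Commute (w⁻¹ * y * w) y := (cm_comm f'.pc.le hS.pi y1 (mul_mem (mul_mem (inv_mem wS) yS) wS) hy yS).symm
  obtain ⟨y₀, h0⟩ : ∃ y₀, y₀ = y ^ 2 ^ m := ⟨_, rfl⟩
  have y0 : y₀ ∈ T ⊓ K := h0 ▸ pow_mem (mem_inf.2 ⟨lT ⟨yS, f'.pc.le hy⟩, hy⟩) _
  have y2 : y₀ * y₀ = t := by rw [h0, ← hm, (Commute.refl y).mul_pow]
  have wT : w ∈ T := lT ⟨wS, wt⟩
  have y0' : w⁻¹ * y₀ * w ∈ cm 2 C[t] K := by simpa using cmJ f' (inv_mem wt) wn' y0.2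
  have y0T : w⁻¹ * y₀ * w ∈ T := mul_mem (mul_mem (inv_mem wT) y0.1) wT
  have cR : ∀ x ∈ T ⊓ K, x * (w⁻¹ * y₀ * w) = w⁻¹ * y₀ * w * x := fun x hx => cm_comm f'.pc.le hT.pi y0' y0T hx.2 hx.1
  have y2' : w⁻¹ * y₀ * w * (w⁻¹ * y₀ * w) = t := by
    rw [show w⁻¹ * y₀ * w * (w⁻¹ * y₀ * w) = w⁻¹ * (y₀ * y₀ * w) by group, y2, ← mem_cent1.1 wt]; group
  have ez : z = w⁻¹ * y₀ * w * y₀⁻¹ := by
    have p : (w⁻¹ * y * w * y⁻¹) ^ 2 ^ m = w⁻¹ * y₀ * w * y₀⁻¹ := by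
      rw [cy.inv_right.mul_pow, inv_pow, h0, show w⁻¹ * y * w = w⁻¹ * y * w⁻¹⁻¹ by simp, conj_pow, inv_inv]
    refine ((f.inv (p ▸ pow_mem hc.2 _) ?_).resolve_left fun h => ?_).symm
    · rw [mul_assoc, ← mul_assoc y₀⁻¹, cR _ (inv_mem y0), mul_assoc _ y₀⁻¹ y₀⁻¹, ← mul_assoc, y2', ← mul_inv_rev, y2, mul_inv_cancel]
    · rw [mul_inv_eq_one] at h
      rcases f'.q3 y0.2 (two_sup hT.pi y0.1) (h ▸ y0') with r | r <;> rw [r] at y2
      exacts [f'.ne (by simpa using y2.symm), f'.ne (by simpa using y2)]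
  obtain ⟨k, hk, ek⟩ := f'.exj' hT y0 y2
  have kt := f'.zc hk.2
  have kz : k * z * k⁻¹ = z * t := by
    rw [ez, ← mul_assoc k, cR k hk, show w⁻¹ * y₀ * w * k * y₀⁻¹ * k⁻¹ = w⁻¹ * y₀ * w * (k * y₀ * k⁻¹)⁻¹ by group, ek, mul_inv_rev,
      inv_eq_of_mul_eq_one_right f'.zz, mul_assoc _ y₀⁻¹]
  have jz := f.zc hj.2
  have h1 : j * k * j * t * (j * k * j)⁻¹ = z := by
    rw [show j * k * j * t * (j * k * j)⁻¹ = j * (k * (j * t * j⁻¹) * k⁻¹) * j⁻¹ by group, ej,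
      show k * (z * t) * k⁻¹ = k * z * k⁻¹ * (k * t * k⁻¹) by group, kz, kt, mul_inv_cancel_right, mul_assoc z, f'.zz, mul_one, jz]; group
  have h2 : j * k * j * z * (j * k * j)⁻¹ = t := by
    rw [show j * k * j * z * (j * k * j)⁻¹ = j * (k * (j * z * j⁻¹) * k⁻¹) * j⁻¹ by group, jz, mul_inv_cancel_right, kz, ← mul_assoc, jz,
      mul_assoc z, mul_assoc z, ej, ← mul_assoc, f.zz, one_mul]
  have g1 := f'.cnj' h1
  have g2 := (f'.cnj'' (inv_mem wt)).cnj' h1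
  have tm : ∀ X : Subgroup G, cj (j * k * j) K ≤ X → cj (j * k * j) (cj w⁻¹ K) ≤ X → t ∈ X := fun X a b => by
    rw [← h2, ez, show j * k * j * (w⁻¹ * y₀ * w * y₀⁻¹) * (j * k * j)⁻¹ =
      j * k * j * (w⁻¹ * y₀ * w⁻¹⁻¹) * (j * k * j)⁻¹ * (j * k * j * y₀ * (j * k * j)⁻¹)⁻¹ by group]
    exact mul_mem (b (conj_mem_cj.2 (conj_mem_cj.2 y0.2))) (inv_mem (a (conj_mem_cj.2 y0.2)))
  have alt : ∀ X i, FS z X → i ∈ S ⊓ X → i * t * i⁻¹ = z * t → X = cj (j * k * j) K ∨ X = cj (j * k * j) (cj w⁻¹ K) :=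
    fun X i a b c => by_contra fun h => ncm a hS.pi b tS c
      (tm _ (a.pc.le_cm_of_ne g1.pc (not_or.1 h).1) (a.pc.le_cm_of_ne g2.pc (not_or.1 h).2))
  have tJ : t ∈ J ⊔ cj y J := by
    rcases alt _ _ f hj ej with a | a <;> rcases alt _ _ g hj' ej' with b | b
    exacts [absurd (a.trans b.symm) nJ, tm _ (a ▸ le_sup_left) (b ▸ le_sup_right), tm _ (b ▸ le_sup_right) (a ▸ le_sup_left),
      absurd (a.trans b.symm) nJ]
  obtain ⟨v, hv, v', hv', ev⟩ := f.split g hS tS tJ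
  obtain ⟨a1, a2⟩ := dec f g nJ hS hv hv' f'.zz (.inl ev) hj ej
  obtain ⟨b1, b2⟩ := dec g f nJ.symm hS hv' hv f'.zz (.inr ev) hj' ej'
  obtain ⟨d₁, hd₁, e₁⟩ := f.q4 hv.2 a1 hj.2 a2
  obtain ⟨d₂, hd₂, e₂⟩ := g.q4 hv'.2 b1 hj'.2 b2
  have w2 : w * w = 1 := by rw [hw, mul_assoc, ← mul_assoc _ j, ← jj, mul_assoc, b2, ← mul_assoc, a2, f.zz]
  have wi := inv_eq_of_mul_eq_one_right w2
  have nO := Oc_normal ({2} : Set ℕ)ᶜ C[z]
  have lc := f.pc.le_cm_of_ne g.pc nJ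
  have mO : d₁ * d₂ * t * (d₁ * d₂)⁻¹ * w⁻¹ ∈ O' C[z] := by
    have := mul_mem (nO.conj_mem (f.pc.le hd₁) (inv_mem (H1.commg_cm f.pc.le (commutator_mem_commutator hv.2 (lc hd₂)))))
      (nO.conj_mem (f.pc.le hj.2) (H1.commg_cm f.pc.le (commutator_mem_commutator hd₁ (lc hj'.2))))
    convert this using 1
    rw [ev, hw]
    generalize y * j * y⁻¹ = j' at *
    rw [← e₁, ← e₂]
    simp only [commutatorElement_def]
    group
  obtain ⟨o, ho, eo⟩ := conj_inv w2 ((Oc_pi _ _).elt mO) (by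
    have : d₁ * d₂ * t * (d₁ * d₂)⁻¹ * (d₁ * d₂ * t * (d₁ * d₂)⁻¹) = 1 := by
      rw [show d₁ * d₂ * t * (d₁ * d₂)⁻¹ * (d₁ * d₂ * t * (d₁ * d₂)⁻¹) = d₁ * d₂ * (t * t) * (d₁ * d₂)⁻¹ by group, f'.zz]; group
    rw [mul_inv_rev _ w⁻¹, inv_inv, inv_eq_of_mul_eq_one_right this, mul_assoc w, mul_assoc _ w⁻¹, wi, w2, mul_one])
  have dz : o⁻¹ * (d₁ * d₂) ∈ C[z] := mul_mem (inv_mem (nO.le (zpowers_le.2 mO ho))) (mul_mem (f.pc.le hd₁) (g.pc.le hd₂))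
  refine fin f' hT wT w2 wn y0 y2 (by rw [ez, wi]) nz (d := o⁻¹ * (d₁ * d₂)) ?_
    (by rw [mem_cent1.1 dz]; group)
  rw [inv_mul_cancel_right] at eo
  rw [show o⁻¹ * (d₁ * d₂) * t * (o⁻¹ * (d₁ * d₂))⁻¹ = o⁻¹ * (d₁ * d₂ * t * (d₁ * d₂)⁻¹) * o by group, eo]; group

theorem part1 (f : FS z J) (f' : FS t K) (hy : y ∈ K) (p : PG 2 (zpowers y)) (e : y * y ≠ 1) (yz : y ∈ C[z]) : y ∈ N(J) := by
  by_contra n
  have ne : z ≠ t := fun h => n (f.pc.norms (h ▸ f'.pc) hy)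
  obtain ⟨S, hS, l⟩ := p.exists_syl (zpowers_le.2 yz)
  have tn := (caseA f f' hy e hS (l (mem_zpowers y)) ne n).2.2.1
  obtain ⟨k, a, b⟩ := H4.exists_pow_notMem_pow_mem (p := 2) (M := N(J)) (x := y)
    ((p.isPGroup ⟨y, mem_zpowers y⟩).imp fun k e => (bot_le : ⊥ ≤ N(J)) (mem_bot.2 (congrArg Subtype.val e :))) n
  refine caseB f f' (pow_mem hy _) (fun h => a ?_) hS (l (pow_mem (mem_zpowers y) _)) ne a (by rwa [← sq])
  rcases f'.inv (pow_mem hy _) h with r | r <;> rw [r]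
  exacts [one_mem _, tn]

theorem part2 (f : FS z J) (f' : FS t K) (nz : z ∈ N(K)) : t ∈ N(J) := by
  by_contra n
  have zt : z ∈ C[t] := mem_cent1.2 (mul_inv_eq_iff_eq_mul.1 (f'.uq _ (conj_mem_of_norm nz f'.mem) ((orderOf_conj' z t).trans f'.o2)))
  have tz := mem_cent1_symm.1 zt
  obtain ⟨S, hS, l⟩ := (pg2 f'.zz).exists_syl (zpowers_le.2 tz)
  obtain ⟨a, ha, b, hb, e1, e2⟩ := f.ab hS
  obtain ⟨s, hs⟩ : ∃ s, s = a * (t * a * t⁻¹) := ⟨_, rfl⟩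
  obtain ⟨sS, st, ss, bs, sn, sc, as, at'⟩ := dg f f' nz hS (l (mem_zpowers t)) n ha hb e1 e2 hs
  obtain ⟨T, hT, lT⟩ := (hS.pi.infl C[t]).exists_syl inf_le_right
  have zT : z ∈ T := lT ⟨f.zS hS, zt⟩
  obtain ⟨k, hk, ek⟩ := f'.exj hT zT nz (f.zz ▸ one_mem _) fun c => by
    obtain ⟨u, hu, -, -, e, -⟩ := f'.ab hT
    have := part1 f f' hu.2 (two_sup hT.pi hu.1) (e ▸ f'.ne) (mem_cent1.2 (c u hu))
    exact n (e ▸ mul_mem this this)
  have ks := cm_comm f'.pc.le hT.pi sc (lT ⟨sS, st⟩) hk.2 hk.1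
  have kt := f'.zc hk.2
  have sz : s * z = z * s := mem_cent1.1 (hS.le sS)
  have h1 : b * k * a * t * (b * k * a)⁻¹ = s := by
    rw [show b * k * a * t * (b * k * a)⁻¹ = b * (k * (a * t * a⁻¹) * k⁻¹) * b⁻¹ by group, at',
      show k * (s * z * t) * k⁻¹ = k * s * k⁻¹ * (k * z * k⁻¹) * (k * t * k⁻¹) by group, ks, kt, ek, mem_cent1.1 tz,
      show b * (s * k * k⁻¹ * (z * t) * (t * k * k⁻¹)) * b⁻¹ = b * s * b⁻¹ * (b * z * (t * t) * b⁻¹) by group, bs, f'.zz, mul_one,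
      f.zc hb.2, ← sz, mul_inv_cancel_right, mul_assoc, f.zz, mul_one]
  have h2 : b * k * a * (t * s) * (b * k * a)⁻¹ = z := by
    rw [show b * k * a * (t * s) * (b * k * a)⁻¹ = b * (k * (a * t * a⁻¹ * (a * s * a⁻¹)) * k⁻¹) * b⁻¹ by group, at', as,
      mul_inv_cancel_right, mul_assoc _ t s, ← mem_cent1.1 st, sz, show z * s * (s * t) = z * (s * s) * t by group, ss, mul_one,
      show k * (z * t) * k⁻¹ = k * z * k⁻¹ * (k * t * k⁻¹) by group, ek, kt, mem_cent1.1 tz, mul_inv_cancel_right, mul_assoc z, f'.zz,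
      mul_one, f.zc hb.2, mul_inv_cancel_right]
  have g := f'.cnj' h1
  have zc : z ∈ cm 2 C[s] (cj (b * k * a) K) := by
    rw [← h1, ← cj_cent1, ← H1.cj_cm f'.pc.le, ← h2]
    exact conj_mem_cj.2 (mul_mem (H1.cent_le_cm f'.pc.le ⟨mem_cent1_self t, le_cent1_iff.1 f'.pc.le⟩) sc)
  have m := g.pc.pg_le_Lp_cent (zpowers_le.2 zc) (pg2 f.zz) (pg2 ss)
    (zpowers_le.2 (mem_inf.2 ⟨g.mem, by rw [cent_zpowers]; exact hS.le sS⟩)) (mem_zpowers s)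
  rw [cent_zpowers] at m
  rcases pump (inf_comm C[s] C[z] ▸ (g.pc.cent1 zc f.o2).1) f.pc (hS.le sS) g.o2 sn with r | r
  · rw [f.uq s (r m) g.o2, f.zc hb.2, mul_inv_cancel_right] at bs
    exact f.ne (by simpa using bs.symm)
  · exact ncm f hS.pi hb sS bs (r m)

end

/-- Let G be finite and J ≠ K subgroups, each containing exactly one involution, z(J) resp. z(K), each a 2-component of the centralizer of its involution, with J / O(J) and K / O(K) both isomorphic to SL(2, F) for one finite field F of odd order, or both non-split double covers of A7. Then (i) every 2-element of K of order at least 4 centralizing z(J) normalizes J; (ii) if z(J) normalizes K then z(K) normalizes J. -/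
theorem result {G : Type*} [Group G] [Finite G] (J K : Subgroup G) (hJK : J ≠ K) (zJ zK : G) (hzJ : zJ ∈ J ∧ orderOf zJ = 2 ∧ ∀ t ∈ J, orderOf t = 2 → t = zJ) (hzK : zK ∈ K ∧ orderOf zK = 2 ∧ ∀ t ∈ K, orderOf t = 2 → t = zK) (hJ : J ≤ Subgroup.centralizer ({zJ} : Set G) ∧ Cfsg.IsPComponent 2 (J.subgroupOf (Subgroup.centralizer ({zJ} : Set G)))) (hK : K ≤ Subgroup.centralizer ({zK} : Set G) ∧ Cfsg.IsPComponent 2 (K.subgroupOf (Subgroup.centralizer ({zK} : Set G)))) (htype : (∃ (F : Type) (_ : Field F) (_ : Fintype F), Odd (Fintype.card F) ∧ Nonempty (↥J ⧸ Cfsg.oddCore ↥J ≃* Matrix.SpecialLinearGroup (Fin 2) F) ∧ Nonempty (↥K ⧸ Cfsg.oddCore ↥K ≃* Matrix.SpecialLinearGroup (Fin 2) F)) ∨ (Cfsg.IsNonsplitDoubleCover (↥J ⧸ Cfsg.oddCore ↥J) ↥(alternatingGroup (Fin 7)) ∧ Cfsg.IsNonsplitDoubleCover (↥K ⧸ Cfsg.oddCore ↥K) ↥(alternatingGroup (Fin 7)))) : (∀ y ∈ K, IsPGroup 2 ↥(Subgroup.zpowers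 y) → 4 ≤ orderOf y → y * zJ = zJ * y → y ∈ Subgroup.normalizer (J : Set G)) ∧ (zJ ∈ Subgroup.normalizer (K : Set G) → zK ∈ Subgroup.normalizer (J : Set G)) := by
  have f : FS zJ J := ⟨H1.PC.iff.2 hJ, hzJ.1, hzJ.2.1, hzJ.2.2⟩
  have g : FS zK K := ⟨H1.PC.iff.2 hK, hzK.1, hzK.2.1, hzK.2.2⟩
  exact ⟨fun y hy p o c => part1 f g hy (H19.PiN.of_isPGroup Nat.prime_two p) (fun e => by
    have := orderOf_le_of_pow_eq_one (x := y) (n := 2) two_pos (by rwa [sq])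
    omega) (H19.mem_cent1.2 c), part2 f g⟩

end Cfsg.Agent.S1315
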