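import Cfsg.Statements.S1316
import Cfsg.Agent.H1.PConstr

set_option autoImplicit false
open Cfsg

namespace Cfsg.Agent.S1316

/-- For a finite group X, E(X) equals the intersection of the derived series of F*(X) (its last term). -/
theorem result {X : Type*} [Group X] [Finite X] : (⨅ n : ℕ, (derivedSeries ↥(Cfsg.generalizedFittingSubgroup X) n).map (Cfsg.generalizedFittingSubgroup X).subtype) = Cfsg.layer X := by
  set F := Cfsg.generalizedFittingSubgroup X
  apply le_antisymm
  · have h1 : Group.IsSolvable (F.map (QuotientGroup.mk' (Cfsg.layer X))) := by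
      have := H1.fitting_isNilpotent (G := X)
      rw [show F = _ from H1.gf_def, Subgroup.map_sup, H1.map_mk'_eq_bot_iff.2 le_rfl, bot_sup_eq]
      exact H1.isSolvable_map inferInstance _
    obtain ⟨n, hn⟩ := h1.solvable
    refine (iInf_le _ n).trans ?_
    rw [← H1.map_mk'_eq_bot_iff, ← H1.map_subgroupMap_map_subtype, map_derivedSeries_eq
      (MonoidHom.subgroupMap_surjective _ _), hn, Subgroup.map_bot]
  · refine le_iInf fun n => ?_
    induction n with
    | zero => rw [derivedSeries_zero, H1.map_subtype_top]; exact H1.layer_le_gf
    | succ n ih =>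
      rw [derivedSeries_succ, Subgroup.map_commutator]
      exact H1.layer_perfect.ge.trans (Subgroup.commutator_mono ih ih)

end Cfsg.Agent.S1316
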