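import Cfsg.Statements.S1328
import Cfsg.Agent.H1.CompAct

set_option autoImplicit false
open Cfsg

namespace Cfsg.Agent.S1328

/-- Let G be finite, H ≤ G with O(H) = 1, t an involution of G normalizing H, and Y a nontrivial subgroup of O(C_H(t)). Then some component E of H is normalized by t and by Y and centralized by neither t nor Y. -/
theorem result {G : Type*} [Group G] [Finite G] (H : Subgroup G) (hO : Cfsg.oddCore ↥H = ⊥) (t : G) (ht : orderOf t = 2) (htH : t ∈ Subgroup.normalizer (H : Set G)) (Y : Subgroup G) (hY1 : Y ≠ ⊥) (hY : Y ≤ (Cfsg.oddCore ↥(H ⊓ Subgroup.centralizer ({t} : Set G))).map (H ⊓ Subgroup.centralizer ({t} : Set G)).subtype) : ∃ E : Subgroup ↥H, Cfsg.IsComponent E ∧ (E.map H.subtype).map (MulAut.conj t).toMonoidHom = E.map H.subtype ∧ Y ≤ Subgroup.normalizer ((E.map H.subtype : Subgroup G) : Set G) ∧ ¬ (t ∈ Subgroup.centralizer ((E.map H.subtype : Subgroup G) : Set G)) ∧ ¬ (Y ≤ Subgroup.centralizer ((E.map H.subtype : Subgroup G) : Set G)) := by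
  have htH' : Subgroup.zpowers t ≤ Subgroup.normalizer (H : Set G) := Subgroup.zpowers_le.2 htH
  set K := Subgroup.zpowers t ⊔ H
  have hHK : H ≤ K := le_sup_right
  have hKH : K ≤ Subgroup.normalizer (H : Set G) := sup_le htH' Subgroup.le_normalizer
  have htK : t ∈ K := Subgroup.mem_sup_left (Subgroup.mem_zpowers t)
  have hrel : H.relIndex K ∣ 2 := by
    rw [H1.relIndex_sup_of_le_normalizer htH', ← ht, ← Nat.card_zpowers]
    exact Subgroup.relIndex_dvd_card _ _
  have hN : (H.subgroupOf K).Normal := Subgroup.normal_subgroupOf_of_le_normalizer hKH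
  have hq : IsPGroup 2 (K ⧸ H.subgroupOf K) := IsPGroup.of_card_dvd_pow (n := 1) hrel
  have hO' : Cfsg.pPrimeCore 2 K = ⊥ := by
    have h1 : Cfsg.pPrimeCore 2 K ≤ H.subgroupOf K := by
      rw [← H1.map_mk'_eq_bot_iff]
      exact H1.eq_bot_of_isPGroup_of_coprime (hq.to_subgroup _)
        (H1.pPrimeCore_coprime.coprime_dvd_left (Subgroup.card_map_dvd _ _))
    have h2 := H1.pPrimeCoreOf_eq_inf (p := 2) hHK hKH
    rw [show Cfsg.pPrimeCore 2 H = ⊥ from hO, Subgroup.map_bot,
      inf_of_le_left (H1.map_subtype_le_iff.2 h1)] at h2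
    exact H1.map_subtype_eq_bot_iff.1 h2.symm
  have hYH : Y ≤ H := hY.trans ((Subgroup.map_subtype_le _).trans inf_le_left)
  have hY' : Y.subgroupOf K ≤ Cfsg.centralizerPPrimeCore 2 (⟨t, htK⟩ : K) := by
    have h1 := hY.trans (H1.pPrimeCoreOf_mono (p := 2)
      (inf_le_inf_right (Subgroup.centralizer {t}) hHK) (H1.le_normalizer_inf
        (inf_le_left.trans hKH) (inf_le_right.trans Subgroup.le_normalizer)))
    unfold Cfsg.centralizerPPrimeCore
    rw [← H1.centralizer_singleton_subgroupOf, ← Subgroup.inf_subgroupOf_left (Subgroup.centralizer _),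
      H1.pPrimeCoreOf_subgroupOf inf_le_left]
    exact Subgroup.comap_mono h1
  obtain ⟨L, hL, h1, h2, h3⟩ := H1.exists_component_of_le_centralizerPPrimeCore hO'
    (x := ⟨t, htK⟩) (by rwa [Subgroup.orderOf_mk]) (fun h => hY1 (by
      rw [← Subgroup.map_subgroupOf_eq_of_le (hYH.trans hHK), h, Subgroup.map_bot])) hY'
  have h4 : L ≤ H.subgroupOf K := by
    rw [← H1.map_mk'_eq_bot_iff]
    have := hq.isNilpotent
    refine H1.eq_bot_of_perfect_of_isSolvable ?_ inferInstance
    rw [← Subgroup.map_commutator, H1.Quasisimple.perfect hL.2]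
  have h5 := H1.isComponent_iff_map_subtype.1 hL
  set E := L.map K.subtype
  have hEH : E ≤ H := H1.map_subtype_le_iff.2 h4
  have h6 : ⁅E, Subgroup.zpowers t⁆ = E := by
    have := congrArg (Subgroup.map K.subtype) h1
    rwa [Subgroup.map_commutator, MonoidHom.map_zpowers] at this
  have h7 : ⁅E, Y⁆ = E := by
    have := congrArg (Subgroup.map K.subtype) h3
    rwa [Subgroup.map_commutator, Subgroup.map_subgroupOf_eq_of_le (hYH.trans hHK)] at this
  refine ⟨E.subgroupOf H, (H1.isComponent_subgroupOf_iff hEH).2 ⟨h5.1.mono hEH hHK, h5.2⟩, ?_⟩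
  rw [Subgroup.map_subgroupOf_eq_of_le hEH]
  refine ⟨H1.conj_smul_eq_of_mem_normalizer (H1.le_normalizer_of_commutator_eq h6
    (Subgroup.mem_zpowers t)), H1.le_normalizer_of_commutator_eq h7, fun h => ?_, fun h => ?_⟩
  · apply H1.Quasisimple.ne_bot h5.2
    rw [← h6, Subgroup.commutator_comm, Subgroup.commutator_eq_bot_iff_le_centralizer]
    exact Subgroup.zpowers_le.2 h
  · apply H1.Quasisimple.ne_bot h5.2
    rwa [← h7, Subgroup.commutator_comm, Subgroup.commutator_eq_bot_iff_le_centralizer]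

end Cfsg.Agent.S1328
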