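import Cfsg.Statements.S1329
import Cfsg.Agent.H25.GF1
import Cfsg.Agent.H20.FT

set_option autoImplicit false
open Cfsg

namespace Cfsg.Agent.S1329
open _root_.H25 Subgroup

/-- Let A be an abelian 2-subgroup of the finite group G, B ≤ A, and Y a subgroup of odd order normalized by A with ⁅Y, A⁆ = Y. Then Y ∩ C_G(B) is generated by the subgroups Y ∩ C_G(B) ∩ ⁅Y ∩ C_G(B₀), A⁆, B₀ ranging over the subgroups of B with B / B₀ cyclic. -/
theorem result {G : Type*} [Group G] [Finite G] (A B Y : Subgroup G) (hA2 : IsPGroup 2 ↥A) (hAc : IsMulCommutative ↥A) (hB : B ≤ A) (hYodd : Odd (Nat.card ↥Y)) (hAY : A ≤ Subgroup.normalizer (Y : Set G)) (hYA : ⁅Y, A⁆ = Y) : Y ⊓ Subgroup.centralizer (B : Set G) = ⨆ B₀ : {B₀ : Subgroup G // B₀ ≤ B ∧ ∀ [(B₀.subgroupOf B).Normal], IsCyclic (↥B ⧸ B₀.subgroupOf B)}, Y ⊓ Subgroup.centralizer (B : Set G) ⊓ ⁅Y ⊓ Subgroup.centralizer ((B₀ : Subgroup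 G) : Set G), A⁆ := by
  have := Fact.mk Nat.prime_two
  refine le_antisymm ?_ (iSup_le fun _ => inf_le_left)
  have hc : (Nat.card Y).Coprime (Nat.card A) := by
    obtain ⟨k, hk⟩ := IsPGroup.iff_card.1 hA2
    rw [hk]
    exact (Nat.coprime_two_right.2 hYodd).pow_right k
  conv_lhs => rw [← hYA]
  refine H25.gold_fix hAc hB hAY hc (H20.odd_solvable _ hYodd) fun B₀ h => ?_
  refine le_trans ?_ (le_iSup (fun B₀ : {B₀ : Subgroup G // B₀ ≤ B ∧ ∀ [(B₀.subgroupOf B).Normal],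
    IsCyclic (↥B ⧸ B₀.subgroupOf B)} => Y ⊓ Subgroup.centralizer (B : Set G) ⊓
      ⁅Y ⊓ Subgroup.centralizer ((B₀ : Subgroup G) : Set G), A⁆) ⟨B₀, h.1, ?_⟩)
  · refine le_inf (inf_le_inf_right _ ((H19.commg_le_left (H19.norms_inf hAY (H19.norms_cent
      (H19.norms_of_comm hAc le_rfl (h.1.trans hB))))).trans inf_le_left)) inf_le_left
  · intro _
    obtain ⟨h1, b, hb, e⟩ := h
    refine ⟨⟨((⟨b, hb⟩ : B) : B ⧸ B₀.subgroupOf B), fun x => ?_⟩⟩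
    obtain ⟨⟨x, hx⟩, rfl⟩ := QuotientGroup.mk_surjective x
    obtain ⟨y, hy, _, ⟨n, rfl⟩, rfl⟩ := (H19.mem_sup_of_norm (H19.norms_of_comm
      (H19.comm_mono hAc hB) (Subgroup.zpowers_le.2 hb) h1)).1 (e.ge hx)
    refine ⟨n, ?_⟩
    have : (⟨y * b ^ n, hx⟩ : B) = ⟨y, h1 hy⟩ * ⟨b, hb⟩ ^ n := rfl
    simp only [this, QuotientGroup.mk_mul, QuotientGroup.mk_zpow]
    rw [(QuotientGroup.eq_one_iff (⟨y, h1 hy⟩ : B)).2 hy, one_mul]

end Cfsg.Agent.S1329
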