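import Cfsg.Statements.S1331
import Cfsg.Agent.H1.SF1

set_option autoImplicit false
open Cfsg

namespace Cfsg.Agent.S1331

/-- Let θ be a solvable A-signalizer functor on the finite group G for the prime p, A elementary abelian of rank at least 3, X a member of the family of θ, and B ≤ A with |B| ≥ p². Then X is generated by the subgroups X ∩ ⋂_{d ∈ D, d ≠ 1} θ d, D ranging over the subgroups of index p in B. -/
theorem result {G : Type*} [Group G] [Finite G] (p : ℕ) [Fact p.Prime] (A : Subgroup G) (hA : Cfsg.IsElementaryAbelian p A) (hA3 : p ^ 3 ≤ Nat.card ↥A) (θ : G → Subgroup G) (hθ : Cfsg.IsSolvableSignalizerFunctor p A θ) (X : Subgroup G) (hX : X ∈ Cfsg.signalizerFamily p A θ) (B : Subgroup G) (hB : B ≤ A) (hB2 : p ^ 2 ≤ Nat.card ↥B) : X = ⨆ D : {D : Subgroup G // D ≤ B ∧ D.relIndex B = p}, X ⊓ Cfsg.signalizerInf (D : Subgroup G) θ := by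
  open H19 in
  have hp : p.Prime := Fact.out
  have hX' := (H1.fam_iff hp).1 hX
  refine le_antisymm (H1.le_of_hyp hp (abelem_mono hA hB) (ne_bot_iff_one_lt_card.2
    (lt_of_lt_of_le (by nlinarith [hp.one_lt]) hB2)) (hB.trans hX'.inv) hX'.pi fun D hD => ?_)
    (iSup_le fun _ => inf_le_left)
  have h1 : D.relIndex B = p := by
    have := card_mul_relIndex hD.1
    rw [← hD.2] at this
    exact Nat.eq_of_mul_eq_mul_left (card_pos D) this
  refine le_iSup_of_le ⟨D, hD.1, h1⟩ (le_inf inf_le_left ?_)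
  simpa [inf_eq_right.2 (hD.1.trans hB)] using hX'.cent_le (B := D)

end Cfsg.Agent.S1331
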