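import Cfsg.Statements.S1337
import Cfsg.Agent.H1.Conn

set_option autoImplicit false
open Cfsg

namespace Cfsg.Agent.S1337

/-- Let P be a finite p-group of p-rank greater than 2. Then P has a normal elementary abelian subgroup U of order p², and for every elementary abelian X ≤ P with |X| ≥ p²: X is joined to U by a chain of pairwise commuting elementary abelian subgroups of order ≥ p² if and only if C_P(X) has p-rank greater than 2. -/
theorem result {P : Type*} [Group P] [Finite P] (p : ℕ) [Fact p.Prime] (hP : IsPGroup p P) (hrk : ¬ Cfsg.PRankLE p 2 P) : ∃ U : Subgroup P, U.Normal ∧ Cfsg.IsElementaryAbelian p U ∧ Nat.card ↥U = p ^ 2 ∧ ∀ X : Subgroup P, Cfsg.IsElementaryAbelian p X → p ^ 2 ≤ Nat.card ↥X → (Relation.ReflTransGen (fun A B : Subgroup P => Cfsg.IsElementaryAbelian p A ∧ p ^ 2 ≤ Nat.card ↥A ∧ Cfsg.IsElementaryAbelian p B ∧ p ^ 2 ≤ Nat.card ↥B ∧ ∀ a ∈ A, ∀ b ∈ B, a * b = b * a) X U ↔ ¬ Cfsg.PRankLE p 2 ↥(Subgroup.centralizer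 (X : Set P))) := by
  open H19 in
  have hp : p.Prime := Fact.out
  obtain ⟨F, f1, f2⟩ := (H1.not_pRankLE_top hp).1 hrk
  obtain ⟨A, hA⟩ := H1.el_of_le_card' hp f1 f2
  obtain ⟨U, u1, u2, u3⟩ := H1.exists_normal_el2 (PiN.of_isPGroup hp (hP.to_subgroup ⊤)) hA.top
  exact ⟨U, H28.normal_iff_top_le.2 u2, u1.ab, u1.card, fun X h1 h2 =>
    (H1.cn_normal_iff hA.top u1 u2 u3 rfl h1 h2).trans (H1.not_pRankLE_iff hp).symm⟩

end Cfsg.Agent.S1337
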