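import Cfsg.Statements.S1338
import Cfsg.Agent.H4.JK
import Cfsg.Agent.H1.Conn

set_option autoImplicit false
open Cfsg

namespace Cfsg.Agent.S1338

/-- A finite 3-group of 3-rank at least 4 is 2-connected for the prime 3: its commuting graph on elementary abelian subgroups of order ≥ 9 is connected. -/
theorem result {P : Type*} [Group P] [Finite P] (hP : IsPGroup 3 P) (hrk : ¬ Cfsg.PRankLE 3 3 P) : Cfsg.IsKConnected 3 2 P := by
  open H19 Subgroup in
  have hp : (3 : ℕ).Prime := by norm_num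
  haveI : Fact (3 : ℕ).Prime := ⟨hp⟩
  obtain ⟨F, f1, f2⟩ := (H1.not_pRankLE_top hp).1 hrk
  obtain ⟨A, hA⟩ := H1.el_of_le_card' hp f1 f2
  obtain ⟨A3, hA3⟩ := H1.el_of_le_card' (n := 3) hp f1 (le_trans (by norm_num) f2)
  obtain ⟨U, u1, u2, u3⟩ := H1.exists_normal_el2 (PiN.of_isPGroup hp (hP.to_subgroup ⊤)) hA3.top
  obtain ⟨V, vn, -, hV⟩ := H4.jonah_konvisser (p := 3) (by norm_num) hP ⊤ (le_top (a := A))
    ⟨H4.isMulCommutative_iff.1 hA.ab.1, hA.ab.2, hA.card⟩
  have hVe : Cfsg.IsElementaryAbelian 3 V := ⟨H4.isMulCommutative_iff.2 hV.comm, hV.pow⟩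
  have key : ∀ X : Subgroup P, Cfsg.IsElementaryAbelian 3 X → 3 ^ 2 ≤ Nat.card X → H1.Cn 3 2 X U := by
    intro X h1 h2
    refine (H1.cn_normal_iff hA3.top u1 u2 u3 rfl h1 h2).2 ?_
    set Y := V ⊓ centralizer (X : Set P) with hY
    have ab : Abelem 3 (X ⊔ Y) := abelem_sup h1 (abelem_mono hVe inf_le_left) (cents_symm inf_le_right)
    refine ⟨X ⊔ Y, sup_le (comm_iff_le_cent.1 h1.1) inf_le_right, ab, ?_⟩
    by_contra hlt
    obtain ⟨m, hm⟩ := H4.exists_card_eq_pow hP (X ⊔ Y)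
    have hm2 : m ≤ 2 := by
      rw [hm] at hlt
      have := (Nat.pow_lt_pow_iff_right hp.one_lt).1 (not_le.1 hlt); omega
    have hc : Nat.card (X ⊔ Y : Subgroup P) ≤ 3 ^ 2 := hm ▸ Nat.pow_le_pow_right hp.pos hm2
    have e : X = X ⊔ Y := eq_of_le_of_card_ge le_sup_left (hc.trans h2)
    have hYX : Y ≤ X := e ▸ le_sup_right
    have cX : Nat.card X = 9 := le_antisymm (e ▸ hc) h2
    obtain ⟨z, z1, z2, z3⟩ := H4.exists_mem_center_orderOf_eq hP (N := V) (fun e => by
      have := hV.card; rw [e] at this; simp at this)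
    have zY : z ∈ Y := ⟨z1, fun x _ => mem_center_iff.1 z2 x⟩
    have cz : Nat.card (zpowers z) = 3 := by rw [Nat.card_zpowers, z3]
    obtain ⟨x, x1, x2⟩ := H4.exists_mem_notMem_of_card (K := zpowers z) (N := X) (by omega)
    have eX := H4.eq_sup_zpowers (p := 3) (zpowers_le.2 (hYX zY)) (by omega) x1 x2
    have eY : V ⊓ centralizer ({x} : Set P) = Y := by
      rw [hY, eX, H4.centralizer_sup_zpowers, H4.centralizer_zpowers,
        show centralizer ({z} : Set P) = ⊤ from eq_top_iff.2 fun g _ =>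
          mem_centralizer_singleton_iff.2 (mem_center_iff.1 z2 g), top_inf_eq]
    have := H4.card_le_cent_cube hV.comm hV.pow (h1.2 x x1)
    rw [eY, hV.card] at this
    by_cases eq : Y = X
    · have hXV : X ≤ V := eq ▸ inf_le_left
      have : V ≤ Y := fun v hv => ⟨hv, fun x hx => hV.comm x (hXV hx) v hv⟩
      have := card_le_of_le (this.trans hYX)
      rw [hV.card, cX] at this; omega
    · have := H4.card_mul_le_of_lt hP (lt_of_le_of_ne hYX eq)
      have h3 : Nat.card Y ≤ 3 := by omega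
      have := Nat.pow_le_pow_left h3 3
      omega
  intro E E' a b c d
  exact (key E a b).trans (key E' c d).symm

end Cfsg.Agent.S1338
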