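import Cfsg.Statements.S1343
import Cfsg.Agent.H1.LB3

set_option autoImplicit false
open Cfsg

namespace Cfsg.Agent.S1343

/-- Let X be finite. Then L*_{2'}(X) = L_{2'}(X) ⊔ F for some subgroup F of odd order normalized by a Sylow 2-subgroup of X. -/
theorem result {X : Type*} [Group X] [Finite X] : ∃ F : Subgroup X, Odd (Nat.card ↥F) ∧ (∃ S : Sylow 2 X, (S : Subgroup X) ≤ Subgroup.normalizer (F : Set X)) ∧ Cfsg.extendedTwoLayer X = Cfsg.pLayer 2 X ⊔ F := by
  open H19 in
    obtain ⟨S⟩ : Nonempty (Sylow 2 X) := inferInstance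
    have hT := (syl_sylow_top S).inf_normal
      (normalIn_top (H := Cfsg.pLayer 2 X ⊔ Cfsg.pPrimePCore 2 X))
    refine ⟨_, ?_, ⟨S, ?_⟩, by rw [H1.ext_eq_of_syl hT, sup_assoc]⟩
    · refine H1.coprime_two_iff_odd.1 (PiN.coprime_prime (PiN.sup ?_ (Oc_pi _ _)
        Subgroup.le_normalizer_of_normal) Nat.prime_two)
      exact PiN.of_coprime H1.pPrimeCore_coprime
    · exact norms_sup Subgroup.le_normalizer_of_normal (norms_Oc _ (norms_cent
        (norms_inf Subgroup.le_normalizer Subgroup.le_normalizer_of_normal)))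

end Cfsg.Agent.S1343
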