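import Cfsg.Statements.S1344
import Cfsg.Agent.H1.LB3

set_option autoImplicit false
open Cfsg

namespace Cfsg.Agent.S1344

/-- Let K be a 2-component of the finite group X. Then K ≤ L*_{2'}(X) and K is normal in L*_{2'}(X). -/
theorem result {X : Type*} [Group X] [Finite X] (K : Subgroup X) (hK : Cfsg.IsPComponent 2 K) : K ≤ Cfsg.extendedTwoLayer X ∧ (K.subgroupOf (Cfsg.extendedTwoLayer X)).Normal := by
  open H19 in
    obtain ⟨T, hT⟩ := exists_syl 2 (Cfsg.pLayer 2 X ⊔ Cfsg.pPrimePCore 2 X)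
    have h1 : K ≤ Cfsg.extendedTwoLayer X := by
      rw [H1.ext_eq_of_syl hT]
      exact (H1.le_pLayer hK).trans (le_sup_left.trans le_sup_left)
    refine ⟨h1, NormalIn.subgroupOf ⟨h1, ?_⟩⟩
    rw [H1.ext_eq_of_syl hT, ← H1.Oc_map]
    exact sup_le (sup_le (H1.pLayer_le_normalizer_pComponent hK)
      (H1.pPrimeCore_le_normalizer_pComponent hK))
      (le_sup_right.trans (H1.le_normalizer_pComponent hT.pi.isPGroup hK))

end Cfsg.Agent.S1344
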