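import Cfsg.Statements.S1346
import Cfsg.Agent.H1.LB3

set_option autoImplicit false
open Cfsg

namespace Cfsg.Agent.S1346

/-- Let G be a finite group all of whose 2-local subgroups have known non-abelian composition factors, and x, y commuting involutions. Then the extended 2-layer of L*_{2'}(C_G(x)) ∩ C_G(y) (as a group) is contained in L*_{2'}(C_G(y)). -/
theorem result {G : Type*} [Group G] [Finite G] (hK : ∀ T : Subgroup G, IsPGroup 2 ↥T → T ≠ ⊥ → Cfsg.IsCompositionKGroup ↥(Subgroup.normalizer (T : Set G))) (x y : G) (hx : orderOf x = 2) (hy : orderOf y = 2) (hxy : x * y = y * x) : (Cfsg.extendedTwoLayer ↥((Cfsg.extendedTwoLayer ↥(Subgroup.centralizer ({x} : Set G))).map (Subgroup.centralizer ({x} : Set G)).subtype ⊓ Subgroup.centralizer ({y} : Set G))).map ((Cfsg.extendedTwoLayer ↥(Subgroup.centralizer ({x} : Set G))).map (Subgroup.centralizer ({x} : Set G)).subtype ⊓ Subgroup.centralizer ({y} : Set G)).subtype ≤ (Cfsg.extendedTwoLayer ↥(Subgroup.centralizer ({y} : Set G))).map (Subgroup.centralizer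 ({y} : Set G)).subtype := by
  open H19 in
    change H1.Ls (H1.Ls C[x] ⊓ C[y]) ≤ H1.Ls C[y]
    have hX : PG 2 (Subgroup.zpowers x) := PiN.of_card Nat.prime_two (by rw [Nat.card_zpowers, hx])
    have hxy' : Subgroup.zpowers x ≤ C[y] := Subgroup.zpowers_le.2 (mem_cent1.2 hxy)
    have hn : H1.Ls C[x] ⊓ C[y] ⊴ C[y] ⊓ C(Subgroup.zpowers x) := by
      rw [cent_zpowers]
      exact ⟨le_inf inf_le_right (inf_le_left.trans (H1.Ls_normal _).le),
        norms_inf (inf_le_right.trans (H1.Ls_normal _).norm)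
          (inf_le_left.trans Subgroup.le_normalizer)⟩
    obtain ⟨T, h1, h2, h3⟩ := H1.exists_Ls_eq (H1.Ls C[x] ⊓ C[y])
    rw [h3]
    have h4 : T ≤ C(Subgroup.zpowers x) := h1.trans (hn.le.trans inf_le_right)
    refine sup_le (sup_le ?_ ?_) ?_
    · exact (H1.Lp_mono (H1.NormalIn.subn hn)).trans
        (((H1.lbal_two _).Lp_le hxy' hX).trans (H1.Lp_le_Ls _))
    · exact (Oc_le_Oc hn).trans (H1.core_balance' hX hxy')
    · refine (Oc_le_Oc ?_).trans (H1.core_balance' (R := T ⊔ Subgroup.zpowers x)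
        (h2.sup' hX (norms_of_cents h4)) (sup_le (h1.trans inf_le_right) hxy'))
      rw [cent_sup]
      refine ⟨le_inf (inf_le_left.trans inf_le_right) (le_inf inf_le_right
        (inf_le_left.trans (hn.le.trans inf_le_right))), norms_inf (le_trans ?_ hn.norm)
        ((inf_le_right.trans inf_le_left).trans Subgroup.le_normalizer)⟩
      exact inf_le_inf_left _ inf_le_right

end Cfsg.Agent.S1346
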