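import Cfsg.Statements.S1348
import Cfsg.Agent.H10.BlkSL

set_option autoImplicit false
open Cfsg

namespace Cfsg.Agent.S1348

open Subgroup H10.Blk in

/-- Let F be a finite field of odd order, n ≥ 7 odd, and t ∈ SL(n, F) the diagonal matrix with entries −1, …, −1, 1. Then E(C(t)) is a standard subgroup of SL(n, F). -/
theorem result {F : Type*} [Field F] [Fintype F] [DecidableEq F] (hF : Odd (Fintype.card F)) (n : ℕ) (hn : 7 ≤ n) (hodd : Odd n) (t : Matrix.SpecialLinearGroup (Fin n) F) (ht : (t : Matrix (Fin n) (Fin n) F) = Matrix.diagonal (fun i : Fin n => if (i : ℕ) + 1 = n then (1 : F) else -1)) : Cfsg.IsStandardSubgroup ((Cfsg.layer ↥(Subgroup.centralizer ({t} : Set (Matrix.SpecialLinearGroup (Fin n) F)))).map (Subgroup.centralizer ({t} : Set (Matrix.SpecialLinearGroup (Fin n) F))).subtype) := by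
  classical
  let l : Fin n := ⟨n - 1, by omega⟩
  have h2 : (2 : F) ≠ 0 := fun h => by
    have : CharP F 2 := (CharP.charP_iff_prime_eq_zero Nat.prime_two).2 (by exact_mod_cast h)
    have := FiniteField.even_card_iff_char_two.1 (ringChar.eq F 2)
    have := Nat.odd_iff.1 hF
    omega
  have hm : (-1 : F) ≠ 1 := fun h => h2 (by linear_combination -h)
  have htm : t.1 = tm F l := by
    rw [ht, tm]
    congr 1
    ext i
    refine if_congr ?_ rfl rfl
    rw [Fin.ext_iff]
    show _ ↔ _ = n - 1
    omega
  have hC : ∀ g : Matrix.SpecialLinearGroup (Fin n) F,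
      g ∈ centralizer {t} ↔ ∀ i, i ≠ l → g.1 i l = 0 ∧ g.1 l i = 0 := fun g => by
    rw [mem_centralizer_singleton_iff, ← comm_tm l h2, ← htm]
    exact ⟨fun h => congrArg Subtype.val h, fun h => Subtype.ext h⟩
  set C := centralizer ({t} : Set (Matrix.SpecialLinearGroup (Fin n) F)) with hCdef
  let χ : C →* F :=
    { toFun := fun g => g.1.1 l l
      map_one' := by simp
      map_mul' := fun g h => mul_ll l ((hC _).1 g.2) }
  set L := (emb (F := F) l).range with hL
  have hcard : 3 ≤ Fintype.card {i // i ≠ l} := by simp; omega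
  have : Nontrivial {i // i ≠ l} := Fintype.one_lt_card_iff_nontrivial.1 (by omega)
  have hq : IsQuasisimple L := H1.isQuasisimple_of_equiv (quasi_of (H11.sl_commutator_eq_top hcard))
    (MonoidHom.ofInjective (emb_injective l))
  have hLC : L ≤ C := fun g hg => (hC g).2 ((mem_range l).1 hg).2
  have hker : L.subgroupOf C = χ.toHomUnits.ker := by
    ext g
    rw [mem_subgroupOf, mem_range, MonoidHom.mem_ker, Units.ext_iff]
    exact ⟨fun h => h.1, fun h => ⟨h, (hC _).1 g.2⟩⟩
  have hnorm : (L.subgroupOf C).Normal := hker ▸ inferInstance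
  have hlay : (layer C).map C.subtype = L := by
    apply le_antisymm
    · rw [map_le_iff_le_comap, H1.layer_le_iff]
      intro K hK
      show K ≤ L.subgroupOf C
      rw [hker, ← H1.Quasisimple.perfect hK.2]
      exact (commutator_mono le_top le_top).trans (Abelianization.commutator_subset_ker _)
    · exact H1.le_layerOf (H1.SubnIn.of_le_normalizer hLC
        ((normal_subgroupOf_iff_le_normalizer hLC).1 hnorm)) hq
  rw [hlay]
  set D := centralizer (L : Set (Matrix.SpecialLinearGroup (Fin n) F)) with hD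
  have hdiag : ∀ g ∈ D, ∃ a c : F, g.1 = Matrix.diagonal fun i => if i = l then c else a :=
    fun g hg => diag_of_comm l (by simp; omega) fun A hA => congrArg Subtype.val (hg A hA)
  have htD : t ∈ D := fun A hA => mem_centralizer_singleton_iff.1 (hLC hA)
  have ht2 : t * t = 1 := Subtype.ext (by
    rw [Matrix.SpecialLinearGroup.coe_mul, htm, tm_mul_tm]; rfl)
  let i0 : Fin n := ⟨0, by omega⟩
  have hi0 : i0 ≠ l := fun h => by have := congrArg Fin.val h; simp [i0, l] at this; omega
  have ht1 : t ≠ 1 := fun h => by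
    have := congrFun (congrFun htm i0) i0
    simp [h, tm, hi0] at this
    exact hm this.symm
  have huniq : ∀ g ∈ D, g * g = 1 → g = 1 ∨ g = t := by
    intro g hg hgg
    obtain ⟨a, c, h⟩ := hdiag g hg
    have h1 := congrArg Subtype.val hgg
    rw [Matrix.SpecialLinearGroup.coe_mul, h, Matrix.diagonal_mul_diagonal] at h1
    have ha : a * a = 1 := by simpa [hi0] using congrFun (congrFun h1 i0) i0
    have hdet := g.2
    rw [h, Matrix.det_diagonal, ← Finset.mul_prod_erase _ _ (Finset.mem_univ l), if_pos rfl,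
      Finset.prod_congr rfl (g := fun _ => a) (fun i hi => if_neg (Finset.ne_of_mem_erase hi)),
      Finset.prod_const, Finset.card_erase_of_mem (Finset.mem_univ l), Finset.card_univ,
      Fintype.card_fin] at hdet
    obtain ⟨k, hk⟩ := hodd
    rw [hk, Nat.add_sub_cancel, pow_mul, pow_two, ha, one_pow, mul_one] at hdet
    rcases mul_self_eq_one_iff.1 ha with rfl | rfl
    · left; apply Subtype.ext; rw [h, hdet]; simp
    · right; apply Subtype.ext; rw [h, hdet, htm]; rfl
  have hND : normalizer (D : Set (Matrix.SpecialLinearGroup (Fin n) F)) ≤ C := fun g hg => by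
    rcases huniq _ ((mem_normalizer_iff.1 hg t).1 htD) (by rw [conj_mul, ht2]; simp) with h | h
    · exact absurd (by simpa using h) ht1
    · exact mem_centralizer_singleton_iff.2 (mul_inv_eq_iff_eq_mul.1 h)
  have hCN : C ≤ normalizer (L : Set (Matrix.SpecialLinearGroup (Fin n) F)) :=
    (normal_subgroupOf_iff_le_normalizer hLC).1 hnorm
  have hNN := H1.normalizer_le_normalizer_centralizer L
  refine ⟨hq, ⟨?_, fun g hg => ?_⟩, fun g _ hc => ?_, le_antisymm hNN (hND.trans hCN)⟩
  · have := orderOf_dvd_natCard (⟨t, htD⟩ : D)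
    rw [← orderOf_coe, orderOf_eq_prime (p := 2) (by rw [pow_two]; exact ht2) ht1] at this
    exact even_iff_two_dvd.2 this
  · by_contra ho
    obtain ⟨⟨x, hx1, y, hy, rfl⟩, hx⟩ := exists_prime_orderOf_dvd_card' 2
      (even_iff_two_dvd.1 (Nat.not_odd_iff_even.1 ho))
    rw [← orderOf_coe] at hx
    have hx2 : g * y * g⁻¹ * (g * y * g⁻¹) = 1 := by
      have := pow_orderOf_eq_one (g * y * g⁻¹)
      rwa [show orderOf (g * y * g⁻¹) = 2 from hx, pow_two] at this
    have hx0 : g * y * g⁻¹ ≠ 1 := fun h => by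
      have h' : orderOf (g * y * g⁻¹) = 2 := hx
      simp [h] at h'
    have e1 := (huniq _ hx1 hx2).resolve_left hx0
    have e2 := (huniq _ hy (by simpa [conj_mul] using hx2)).resolve_left
      (fun h => hx0 (by simp [h]))
    rw [e2] at e1
    exact hg (hNN (hCN (mem_centralizer_singleton_iff.2 (mul_inv_eq_iff_eq_mul.1 e1))))
  · have h1 : L.map (MulAut.conj g).toMonoidHom ≤ D := by
      rw [commutator_comm] at hc
      exact commutator_eq_bot_iff_le_centralizer.1 hc
    refine H1.Quasisimple.not_le_centralizer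
      ((H1.isQuasisimple_map_iff (f := (MulAut.conj g).toMonoidHom) (MulAut.conj g).injective).2 hq)
      fun x hx y hy => Subtype.ext ?_
    obtain ⟨a, c, h⟩ := hdiag x (h1 hx)
    obtain ⟨a', c', h'⟩ := hdiag y (h1 hy)
    rw [Matrix.SpecialLinearGroup.coe_mul, Matrix.SpecialLinearGroup.coe_mul, h, h',
      Matrix.diagonal_mul_diagonal, Matrix.diagonal_mul_diagonal]
    simp [mul_comm]

end Cfsg.Agent.S1348
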