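import Cfsg.Statements.S1386
import Cfsg.Agent.H1.Basic
import Cfsg.Agent.H23.Cyc

set_option autoImplicit false
open Cfsg

namespace Cfsg.Agent.S1386

/-- Let G be a finite group, W₁, W₂ subgroups forming a self-normalizing cyclic pair, S a subgroup with W₂ ≤ S and W₁ a complement to S' in S, and (W₁, U, W₂') type-P data for S. Then W₂' = W₂ (that is, C_{S'}(W₁) = W₂). -/
theorem result {G : Type*} [Group G] [Finite G] (W₁ W₂ S U W₂' : Subgroup G) (hW : Cfsg.IsSelfNormalizingCyclic W₁ W₂)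
    (hSW : Cfsg.IsComplIn ⁅S, S⁆ W₁ S) (hW₂S : W₂ ≤ S) (hP : Cfsg.IsTypePWith S W₁ U W₂') :
    W₂' = W₂ := by
  obtain ⟨a1, a2, a3, a4, a5, a6⟩ := hW
  obtain ⟨b1, b2, b3, b4, b5, b6⟩ := hP.selfNormalizing
  obtain ⟨⟨x, hx⟩, x1⟩ := Subgroup.ne_bot_iff_exists_ne_one.1 a1
  obtain ⟨⟨y, hy⟩, y1⟩ := Subgroup.ne_bot_iff_exists_ne_one.1 a2
  replace x1 : x ≠ 1 := fun e => x1 (Subtype.ext e)
  replace y1 : y ≠ 1 := fun e => y1 (Subtype.ext e)
  have c := fun u hu v hv => congrArg Subtype.val (b5.isMulCommutative.is_comm.comm ⟨u, hu⟩ ⟨v, hv⟩)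
  have h1 : W₁ ⊔ W₂ ≤ W₁ ⊔ W₂' := sup_le le_sup_left fun s hs => by
    obtain ⟨a, ha, w, hw, rfl⟩ := hSW.2.2.2 s (hW₂S hs)
    refine mul_mem (Subgroup.mem_sup_right (hP.W₂_centralizer x hx x1 ▸ ⟨ha,
      Subgroup.mem_centralizer_singleton_iff.2 (mul_right_cancel (b := w) ?_)⟩))
      (Subgroup.mem_sup_left hw)
    rw [mul_assoc x, a4 x hx _ hs, mul_assoc, mul_assoc]
    exact congrArg _ (c x (Subgroup.mem_sup_left hx) w (Subgroup.mem_sup_left hw))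
  have hxy : x * y ∈ W₁ ⊔ W₂ := Subgroup.mul_mem_sup hx hy
  have h2 : W₁ ⊔ W₂' ≤ W₁ ⊔ W₂ := fun g hg => by
    rw [← a6 {x * y} (Set.singleton_subset_iff.2 ⟨hxy, by
      rintro (e | e)
      · exact y1 (a3.le ⟨(mul_mem_cancel_left hx).1 e, hy⟩)
      · exact x1 (a3.le ⟨hx, (mul_mem_cancel_right hy).1 e⟩)⟩) (Set.singleton_nonempty _)]
    exact Subgroup.centralizer_le_normalizer _
      (Subgroup.mem_centralizer_singleton_iff.2 (c g hg _ (h1 hxy)))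
  refine H23.eq_of_card_eq b5 le_sup_right (le_sup_right.trans h1) ?_
  have k : ∀ {W : Subgroup G}, (∀ a ∈ W₁, ∀ b ∈ W, a * b = b * a) → W₁ ⊓ W = ⊥ →
      Nat.card (W₁ ⊔ W : Subgroup G) = Nat.card W₁ * Nat.card W := fun h h' =>
    H1.card_sup_of_disjoint (fun a ha => Subgroup.centralizer_le_normalizer _
      fun b hb => (h a ha b hb).symm) h'
  exact Nat.eq_of_mul_eq_mul_left Nat.card_pos (by rw [← k a4 a3, ← k b4 b3, h1.antisymm h2])

end Cfsg.Agent.S1386
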