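import Cfsg.Statements.S1394
import Cfsg.Agent.H18.U7b

set_option autoImplicit false
open Cfsg

namespace Cfsg.Agent.S1394

open H18 H19 Subgroup in

/-- Let G be a minimal simple group of odd order, A a subgroup satisfying the transitivity hypothesis whose centre has rank at least 2, K = O_{π(A)'}(C_G(A)), and q a prime dividing the order of C_G(A) but not that of A. Then any two maximal A-invariant q-subgroups of G are conjugate by an element of K. -/
theorem result {G : Type*} [Group G] [Finite G] (hG : Cfsg.IsMinSimpleOddOrder G)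
    (A : Subgroup G) (hA : Cfsg.TransitivityHypothesis A) (hZ : ¬ Cfsg.RankLE 1 ↥(A ⊓ Subgroup.centralizer (A : Set G)))
    (q : ℕ) (hq : q.Prime) (hqA : ¬ q ∣ Nat.card A) (hqC : q ∣ Nat.card (Subgroup.centralizer (A : Set G))) :
    ∀ Q₁ ∈ Cfsg.maxInvSubgroups ⊤ A {q}, ∀ Q₂ ∈ Cfsg.maxInvSubgroups ⊤ A {q}, ∃ k ∈ Cfsg.piCoreOf (Cfsg.primesNotDvd (Nat.card A)) (Subgroup.centralizer (A : Set G)), Q₂ = Q₁.map (MulAut.conj k).toMonoidHom := by
  haveI : MinS G := ⟨hG⟩
  refine transOn_iff.1 ?_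
  rw [show Cfsg.piCoreOf _ _ = _ from Oc_primesNotDvd _ _]
  exact normed_constrained_rank2_trans (transHyp_iff.1 hA) hqA hqC hq
    (not_le.1 fun h => hZ (rankLE_iff.2 h))

end Cfsg.Agent.S1394
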