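import Cfsg.Statements.S1396
import Cfsg.Agent.H18.U7b

set_option autoImplicit false
open Cfsg

namespace Cfsg.Agent.S1396

open H18 H19 Subgroup in

/-- Let G be a minimal simple group of odd order, p a prime dividing the order of G and A an abelian p-subgroup. Suppose either (1) A consists exactly of the elements x of C_G(A) with x^p = 1, and every proper subgroup of G has p-length at most one, or (2) A is normal and self-centralizing in some Sylow p-subgroup of G and has rank at least 2. Then A satisfies the transitivity hypothesis. -/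
theorem result {G : Type*} [Group G] [Finite G] (hG : Cfsg.IsMinSimpleOddOrder G)
    (p : ℕ) [Fact p.Prime] (hp : p ∣ Nat.card G) (A : Subgroup G) (hAp : IsPGroup p A) (hAc : IsMulCommutative A)
    (h : (∀ x ∈ Subgroup.centralizer (A : Set G), x ^ p = 1 ↔ x ∈ A) ∧ (∀ H : Subgroup G, H ≠ ⊤ → Cfsg.PLengthLE p 1 H) ∨
      ∃ P : Sylow p G, Cfsg.IsSCN (P : Subgroup G) A ∧ ¬ Cfsg.PRankLE p 1 A) :
    Cfsg.TransitivityHypothesis A := by
  haveI : MinS G := ⟨hG⟩
  have hpp : p.Prime := Fact.out
  refine transHyp_iff.2 ?_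
  rcases h with ⟨h1, h2⟩ | ⟨P, h1, h2⟩
  · have hAC := comm_iff_le_cent.1 hAc
    refine plength_1_normed_constrained hpp ?_
      (maxEl_of_mem le_top ⟨hAc, fun x hx => ?_⟩ fun x _ a b => (h1 x a).1 b) h2
    · rintro rfl
      obtain ⟨x, -, hx⟩ := exists_orderOf_eq_prime (H := (⊤ : Subgroup G)) hpp (by simpa using hp)
      have := (h1 x (by rw [cent_bot]; trivial)).1 (hx ▸ pow_orderOf_eq_one x)
      rw [mem_bot.1 this, orderOf_one] at hx
      exact hpp.one_lt.ne hx
    · exact (h1 x (hAC hx)).2 hx
  · refine SCN_normed_constrained (syl_sylow_top P) h1 ?_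
    exact (not_le.1 fun h => h2 ((prankLE_iff hpp).2 h)).trans_le (prk_le_rk p A)

end Cfsg.Agent.S1396
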