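import Cfsg.Statements.S1449
import Cfsg.Agent.H4.BGTop

set_option autoImplicit false
open Cfsg

namespace Cfsg.Agent.S1449

/-- Let G be a finite group, p an odd prime, R a p-subgroup with no elementary abelian subgroup of order p ^ 3, and A a solvable subgroup of odd order normalizing R with A ∩ C_G(R) = 1. Then the derived subgroup [A, A] is a p-group. -/
theorem result {G : Type*} [Group G] [Finite G] (p : ℕ) [Fact p.Prime] (hp : p ≠ 2) (R A : Subgroup G) (hR : IsPGroup p R) (hr : Cfsg.PRankLE p 2 R)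
    (hA : (A ≤ Subgroup.normalizer (R : Set G))) (hAs : Group.IsSolvable A) (hAodd : Odd (Nat.card A)) (hfaith : A ⊓ Subgroup.centralizer (R : Set G) = ⊥) :
    IsPGroup p ↥⁅A, A⁆ := by
  have hpp : p.Prime := Fact.out
  have h1 := H19.PiN.of_isPGroup hpp hR
  have h2 := H4.der1_Aut_rank2_pgroup h1 (H4.odd_of_pG h1 hp) ((H4.prk_le_iff hpp).2 hr) hA hAodd
  exact (H4.pG_of_relIndex_cent h1 (hfaith.le.trans bot_le) (H19.der_le A) h2).isPGroup

end Cfsg.Agent.S1449
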