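import Cfsg.Statements.S1451
import Cfsg.Agent.H4.BGTop

set_option autoImplicit false
open Cfsg

namespace Cfsg.Agent.S1451

/-- Let G be a solvable group of odd order such that G, or its Fitting subgroup, has no elementary abelian subgroup of order q ^ 3 for any prime q. Then G' is nilpotent; for every Sylow subgroup S of G, every characteristic subgroup T of S with T ≤ [S, S] is normal in G; and for every prime p, G has a characteristic subgroup that is a Hall subgroup for the set of primes greater than p. -/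
theorem result {G : Type*} [Group G] [Finite G] [Group.IsSolvable G] (hodd : Odd (Nat.card G)) (hr : Cfsg.RankLE 2 G ∨ Cfsg.RankLE 2 (Cfsg.fittingSubgroup G)) :
    Group.IsNilpotent ↥(commutator G) ∧
      (∀ (q : ℕ) [Fact q.Prime] (S : Sylow q G) (T : Subgroup ↥(S : Subgroup G)), T.Characteristic → T.map (S : Subgroup G).subtype ≤ ⁅(S : Subgroup G), (S : Subgroup G)⁆ →
        (T.map (S : Subgroup G).subtype).Normal) ∧
      ∀ p : ℕ, ∃ N : Subgroup G, N.Characteristic ∧ Cfsg.IsPiHall {q | q.Prime ∧ p < q} N := by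
  have hr' : H19.rk (H19.Fit (⊤ : Subgroup G)) ≤ 2 := by
    rcases hr with h | h
    · exact (H4.rk_mono le_top).trans (H4.rk_top_le_iff.2 h)
    · rw [H18.Fit_top]; exact H4.rk_le_iff'.2 h
  have h1 := H4.rank2_der1_sub_Fitting (H18.odd_top hodd) H18.sol_top hr'
  refine ⟨H19.nil_mono (H19.Fit_nil _) h1, fun q _ S T hT hle => ?_, fun p => ?_⟩
  · refine H1.normal_of_top_le_normalizer (H4.char_Sylow_normal_of h1 (H19.syl_sylow_top S) ?_ hle)
    exact inf_le_right.trans (H1.normalizer_le_normalizer_map_subtype T)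
  · have h2 := H4.rank2_ge_pcore_Hall (p + 1) (H18.odd_top hodd) H18.sol_top hr'
    refine ⟨_, ?_, H19.hall_top_iff.1 (h2.congr fun q hq _ => ⟨fun h => ⟨hq, h⟩, fun h => h.2⟩)⟩
    rw [H19.Oc_top]
    infer_instance

end Cfsg.Agent.S1451
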