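import Cfsg.Statements.S1452
import Cfsg.Agent.H4.BG5a

set_option autoImplicit false
open Cfsg

namespace Cfsg.Agent.S1452

/-- Let p be an odd prime and R a finite p-group containing an elementary abelian subgroup of order p ^ 3. If E is a normal elementary abelian subgroup of R of order p ^ 2, then E ≤ A for some normal subgroup A of R with C_R(A) = A that contains an elementary abelian subgroup of order p ^ 3. -/
theorem result {R : Type*} [Group R] [Finite R] (p : ℕ) [Fact p.Prime] (hp : p ≠ 2) (hR : IsPGroup p R) (hr : ¬ Cfsg.PRankLE p 2 R)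
    (E : Subgroup R) [E.Normal] (hE : Cfsg.IsElementaryAbelian p E) (hE2 : Nat.card E = p ^ 2) :
    ∃ A : Subgroup R, E ≤ A ∧ A.Normal ∧ Subgroup.centralizer (A : Set R) = A ∧ ¬ Cfsg.PRankLE p 2 A := by
  have hpp : p.Prime := Fact.out
  have h1 : H19.PG p (⊤ : Subgroup R) := H19.PiN.of_isPGroup hpp (hR.to_subgroup ⊤)
  obtain ⟨B, ⟨⟨-, b2, b3⟩, b4⟩, b5⟩ := H4.normal_p2Elem_SCN3 h1 (H4.odd_of_pG h1 hp)
    (not_le.1 (mt (H4.prk_top_le_iff hpp).1 hr)) ⟨hpp, le_top, hE, hE2⟩ H19.normalIn_top.norm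
  refine ⟨B, b5, H1.normal_of_top_le_normalizer b2, by rwa [top_inf_eq] at b3, ?_⟩
  rw [H4.rk_eq_prk (h1.of_le le_top)] at b4
  exact mt (H4.prk_le_iff hpp).2 (not_le.2 b4)

end Cfsg.Agent.S1452
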