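import Cfsg.Statements.S1453
import Cfsg.Agent.H4.BG5a

set_option autoImplicit false
open Cfsg

namespace Cfsg.Agent.S1453

/-- Let p be an odd prime and R a finite p-group with an elementary abelian subgroup of order p ^ 3 and an elementary abelian subgroup E of order p ^ 2 contained in no larger elementary abelian subgroup. Let Z₂ be the second centre of R, W the subgroup generated by the elements of Z₂ of order dividing p, and T = C_R(W). Then E is not contained in T; the elements of order dividing p of the centre of R generate a group of order p; W is elementary abelian of order p ^ 2; and T is characteristic in R of index p. -/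
theorem result {R : Type*} [Group R] [Finite R] (p : ℕ) [Fact p.Prime] (hp : p ≠ 2) (hR : IsPGroup p R) (hr : ¬ Cfsg.PRankLE p 2 R)
    (E : Subgroup R) (hE : Cfsg.IsElementaryAbelian p E) (hE2 : Nat.card E = p ^ 2)
    (hEmax : ∀ B : Subgroup R, Cfsg.IsElementaryAbelian p B → E ≤ B → B = E) :
    ¬ E ≤ Subgroup.centralizer ((Subgroup.closure {x : R | x ∈ Subgroup.upperCentralSeries R 2 ∧ x ^ p = 1} : Subgroup R) : Set R) ∧
      Nat.card ↥(Subgroup.closure {x : R | x ∈ Subgroup.center R ∧ x ^ p = 1}) = p ∧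
      (Cfsg.IsElementaryAbelian p (Subgroup.closure {x : R | x ∈ Subgroup.upperCentralSeries R 2 ∧ x ^ p = 1}) ∧
        Nat.card ↥(Subgroup.closure {x : R | x ∈ Subgroup.upperCentralSeries R 2 ∧ x ^ p = 1}) = p ^ 2) ∧
      (Subgroup.centralizer ((Subgroup.closure {x : R | x ∈ Subgroup.upperCentralSeries R 2 ∧ x ^ p = 1} : Subgroup R) : Set R)).Characteristic ∧
      (Subgroup.centralizer ((Subgroup.closure {x : R | x ∈ Subgroup.upperCentralSeries R 2 ∧ x ^ p = 1} : Subgroup R) : Set R)).index = p := by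
  have hpp : p.Prime := Fact.out
  have h1 : H19.PG p (⊤ : Subgroup R) := H19.PiN.of_isPGroup hpp (hR.to_subgroup ⊤)
  obtain ⟨a, b, c, d⟩ := H4.Ohm1_ucn_p2maxElem h1 (H4.odd_of_pG h1 hp)
    (not_le.1 (mt (H4.prk_top_le_iff hpp).1 hr)) ⟨hpp, le_top, hE, hE2⟩
    ⟨le_top, hE, fun B _ h2 h3 => hEmax B h2 h3⟩
  have e1 : ((⊤ : Subgroup R) ⊓ Subgroup.centralizer ((⊤ : Subgroup R) : Set R)) = Subgroup.center R := by
    rw [top_inf_eq, Subgroup.coe_top, Subgroup.centralizer_univ]
  have e2 : H19.ucn 2 (⊤ : Subgroup R) = Subgroup.upperCentralSeries R 2 := by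
    ext x
    rw [H4.mem_ucn_two, e1, Subgroup.mem_upperCentralSeries_succ_iff, Subgroup.upperCentralSeries_one]
    simp
  rw [e1] at b
  rw [e2] at a c d
  refine ⟨a, b, ⟨c.ab, c.card⟩, ?_, by rwa [Subgroup.relIndex_top_right] at d⟩
  haveI : (Subgroup.closure {x : R | x ∈ Subgroup.upperCentralSeries R 2 ∧ x ^ p = 1}).Characteristic :=
    H4.characteristic_closure fun φ x hx => ⟨H4.characteristic_iff_mem.1 inferInstance φ x hx.1, by
      rw [← map_pow, hx.2, map_one]⟩
  infer_instance

end Cfsg.Agent.S1453
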