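import Cfsg.Statements.S1454
import Cfsg.Agent.H4.BGTop

set_option autoImplicit false
open Cfsg

namespace Cfsg.Agent.S1454

/-- Let G be a finite group, p an odd prime, R a narrow p-subgroup and A a solvable subgroup of odd order normalizing R with A ∩ C_G(R) = 1. Then [A, A] ≤ O_p(A) and the index of O_p(A) in A is coprime to p; if R has an elementary abelian subgroup of order p ^ 3 then the order of every element of A of order coprime to p divides p − 1; and if the order of A is a prime not dividing p(p − 1), then 2·#A divides p + 1, and if in addition [R, A] = R and R is non-abelian then #R = p ^ 3. -/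
theorem result {G : Type*} [Group G] [Finite G] (p : ℕ) [Fact p.Prime] (hp : p ≠ 2) (R A : Subgroup G) (hR : IsPGroup p R) (hRn : Cfsg.IsNarrow p R)
    (hA : (A ≤ Subgroup.normalizer (R : Set G))) (hAs : Group.IsSolvable A) (hAodd : Odd (Nat.card A)) (hfaith : A ⊓ Subgroup.centralizer (R : Set G) = ⊥) :
    (commutator ↥A ≤ Cfsg.pCore p ↥A ∧ ((Cfsg.pCore p ↥A).index).Coprime p) ∧
      (¬ Cfsg.PRankLE p 2 R → ∀ a ∈ A, (orderOf a).Coprime p → orderOf a ∣ p - 1) ∧
      ((Nat.card A).Prime → ¬ Nat.card A ∣ p * (p - 1) →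
        2 * Nat.card A ∣ p + 1 ∧ (⁅R, A⁆ = R → ¬ IsMulCommutative R → Nat.card R = p ^ 3)) := by
  have hpp : p.Prime := Fact.out
  have h1 := H19.PiN.of_isPGroup hpp hR
  have ho := H4.odd_of_pG h1 hp
  have hn := (H4.narrow_iff hpp h1 ho).2 hRn
  have h2 := H4.pG_of_relIndex_cent h1 (hfaith.le.trans bot_le) (H19.der_le A)
    (H4.narrow_der1 h1 ho hn hA hAodd)
  have h3 := H19.le_Oc (H19.der_normal A) h2
  refine ⟨⟨?_, ?_⟩, fun hr a ha hc => ?_, fun hq hd => ?_⟩
  · rw [← H19.pCore_map_eq hpp, ← Subgroup.map_subtype_commutator] at h3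
    exact (Subgroup.map_le_map_iff_of_injective (Subgroup.subtype_injective _)).1 h3
  · obtain ⟨P, hP⟩ := H19.exists_syl p A
    have h4 := (hP.Oc_hall (H19.norms_of_der_le (h3.trans (H19.Oc_le_hall hP)) hP.le)).idx
    rw [← H19.pCore_map_eq hpp, Subgroup.relIndex, H1.map_subtype_subgroupOf] at h4
    exact h4.coprime_prime hpp
  · have h4 := H4.narrow_pow_mem_cent h1 ho (not_le.1 (mt (H4.prk_le_iff hpp).1 hr)) hn (hA ha)
      (H19.PiN.of_coprime hc)
    have h5 : a ^ (p - 1) ∈ A ⊓ Subgroup.centralizer (R : Set G) := ⟨pow_mem ha _, h4⟩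
    rwa [hfaith, Subgroup.mem_bot, ← orderOf_dvd_iff_pow_eq_one] at h5
  · exact (H4.Aut_narrow_prime h1 ho hn hA hq hAodd (fun h => H19.ne_bot_of_prime hq
      (by rw [← hfaith, inf_eq_left.2 h])) hd).2

end Cfsg.Agent.S1454
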