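import Cfsg.Statements.S1459
import Cfsg.Agent.H18.Top
import Cfsg.Agent.H18.G6

set_option autoImplicit false
open Cfsg

namespace Cfsg.Agent.S1459

/-- Let G be a finite solvable group. (a) If H is a normal subgroup of order coprime to its index, K is a complement to H, and H ≤ G', then H = [H, K] and H ∩ C_G(K) ≤ [H, H]. (b) If G' is nilpotent and has prime index in G, then the order of G' is coprime to its index and G' = [G, K] (the subgroup generated by commutators of elements of G with elements of K) for every complement K of G'. -/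
theorem result {G : Type*} [Group G] [Finite G] [Group.IsSolvable G] :
    (∀ (H K : Subgroup G), H.Normal → (Nat.card H).Coprime H.index → Subgroup.IsComplement' H K → H ≤ commutator G →
        H = ⁅H, K⁆ ∧ H ⊓ Subgroup.centralizer (K : Set G) ≤ ⁅H, H⁆) ∧
      (Group.IsNilpotent ↥(commutator G) → (commutator G).index.Prime →
        (Nat.card ↥(commutator G)).Coprime (commutator G).index ∧
        ∀ K : Subgroup G, Subgroup.IsComplement' (commutator G) K → commutator G = ⁅(⊤ : Subgroup G), K⁆) := by
  open H18 H19 Subgroup in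
  have ha : ∀ (H K : Subgroup G), H.Normal → (Nat.card H).Coprime H.index →
      Subgroup.IsComplement' H K → H ≤ commutator G →
        H = ⁅H, K⁆ ∧ H ⊓ Subgroup.centralizer (K : Set G) ≤ ⁅H, H⁆ := by
    intro H K _ hc hK hle
    rw [hK.symm.index_eq_card] at hc
    have := coprime_der1_sdprod (sdprod_top hK) hc (sol_sub H) hle
    exact ⟨this.1.symm, this.2⟩
  open H18 H19 Subgroup in
  refine ⟨ha, fun hnil hp => ?_⟩
  open H18 H19 Subgroup in
  have hcop : (Nat.card ↥(_root_.commutator G)).Coprime (_root_.commutator G).index := by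
    set D := _root_.commutator G with hD
    set p := D.index
    have hL : Oc {p}ᶜ D ⊴ ⊤ := (normalIn_top (H := D)).Oc _
    suffices h : D ≤ Oc {p}ᶜ D from ((Oc_pi _ D).of_le h).coprime_prime hp
    have hD1 : D ≠ ⊤ := fun h => hp.one_lt.ne' (by simp [p, h])
    obtain ⟨x, -, hx⟩ := SetLike.exists_of_lt (lt_top_iff_ne_top.2 hD1)
    have h1 : zpowers x ⊔ D = ⊤ := by
      refine (eq_of_prime_index le_sup_right le_top (by rwa [relIndex_top_right])).resolve_left ?_
      exact fun h => hx (h ▸ mem_sup_left (mem_zpowers x))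
    have h2 : PG p (quo (Oc {p}ᶜ D) ⊤) := by
      rw [PG, piG_quo_iff hL.norm, ← relIndex_mul_relIndex _ D _ (Oc_le _ D) le_top, relIndex_top_right]
      refine PiN.mul ?_ ((piN_prime hp).2 rfl)
      have := (nil_Oc_hall hnil {p}ᶜ).idx
      rwa [compl_compl] at this
    have h3 : quo (Oc {p}ᶜ D) (zpowers x) = quo (Oc {p}ᶜ D) ⊤ := by
      refine H1.eq_of_sup_of_le_frattiniOf (quo_mono _ le_top)
        (H1.commutator_le_frattiniOf_of_isNilpotent h2.nil) ?_
      rw [← quo_comm hL.norm hL.norm, ← quo_sup (le_top.trans hL.norm) (le_top.trans hL.norm)]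
      exact quo_mono _ h1.ge
    have h4 : Ab (quo (Oc {p}ᶜ D) ⊤) := h3 ▸ ab_quo (comm_zpowers x) _
    exact (ab_quo_iff hL.norm).1 h4
  refine ⟨hcop, fun K hK => le_antisymm ?_ (Subgroup.commutator_mono le_rfl le_top)⟩
  exact (ha _ K inferInstance hcop hK le_rfl).1.le.trans (Subgroup.commutator_mono le_top le_rfl)

end Cfsg.Agent.S1459
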