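import Cfsg.Statements.S1463
import Cfsg.Agent.H18.G26
import Cfsg.Agent.H9.Dickson

set_option autoImplicit false
open scoped MatrixGroups
open Cfsg

namespace Cfsg.Agent.S1463

open Matrix Subgroup in
open scoped MatrixGroups in

/-- Let F be a field of odd characteristic p and H a finite subgroup of odd order of GL(2, F) that leaves no 1-dimensional subspace of F² invariant. Then p does not divide the order of H. -/
theorem result {F : Type*} [Field F] (p : ℕ) [Fact p.Prime] [CharP F p] (hp : p ≠ 2)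
    (H : Subgroup (GL (Fin 2) F)) [Finite H] (hodd : Odd (Nat.card H))
    (hirr : ∀ v : Fin 2 → F, v ≠ 0 → ∃ g ∈ H, (g : Matrix (Fin 2) (Fin 2) F).mulVec v ∉ Submodule.span F {v}) :
    ¬ p ∣ Nat.card H := by
  intro hd
  obtain ⟨⟨a, haH⟩, ha⟩ := exists_prime_orderOf_dvd_card' p hd
  rw [← orderOf_coe] at ha
  change orderOf a = p at ha
  have ha1 : a ≠ 1 := fun e => (Fact.out : p.Prime).one_lt.ne (by rw [← ha, e, orderOf_one])
  have hap : (a : Matrix (Fin 2) (Fin 2) F) ^ p = 1 := by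
    rw [← Units.val_pow_eq_pow_val, ← ha, pow_orderOf_eq_one, Units.val_one]
  have hdet : (a : Matrix (Fin 2) (Fin 2) F).det = 1 := by
    have h1 : ((a : Matrix (Fin 2) (Fin 2) F).det - 1) ^ p = 0 := by
      rw [sub_pow_char, ← det_pow, hap, det_one, one_pow, sub_self]
    exact sub_eq_zero.1 (pow_eq_zero_iff (Fact.out : p.Prime).ne_zero |>.1 h1)
  obtain ⟨v, hv, hav⟩ : ∃ v ≠ 0, ((a : Matrix (Fin 2) (Fin 2) F) - 1) *ᵥ v = 0 := by
    rw [exists_mulVec_eq_zero_iff]
    apply pow_eq_zero_iff (Fact.out : p.Prime).ne_zero |>.1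
    rw [← det_pow, sub_pow_char_of_commute _ (Commute.one_right _), hap, one_pow, sub_self,
      det_zero]
  rw [sub_mulVec, one_mulVec, sub_eq_zero] at hav
  obtain ⟨g, hg, hw⟩ := hirr v hv
  set w := (g : Matrix (Fin 2) (Fin 2) F) *ᵥ v with hwdef
  have hP : v 0 * w 1 - w 0 * v 1 ≠ 0 := by
    intro e
    apply hw
    rw [Submodule.mem_span_singleton]
    by_cases h0 : v 0 = 0
    · have h1 : v 1 ≠ 0 := fun h1 => hv (by ext i; fin_cases i <;> simp [h0, h1])
      refine ⟨w 1 / v 1, ?_⟩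
      ext i
      fin_cases i
      · simp only [h0, zero_mul, zero_sub, neg_eq_zero, mul_eq_zero, h1, or_false] at e
        simp [h0, e]
      · simp [h1]
    · refine ⟨w 0 / v 0, ?_⟩
      ext i
      fin_cases i
      · simp [h0]
      · simp only [Fin.mk_one, Pi.smul_apply, smul_eq_mul]
        field_simp
        linear_combination -e
  let P : GL (Fin 2) F := H27.gl2 (v 0) (w 0) (v 1) (w 1) hP
  have hP0 : (P : Matrix (Fin 2) (Fin 2) F) *ᵥ ![1, 0] = v := by
    ext i; fin_cases i <;> simp [P, mulVec, dotProduct, Fin.sum_univ_two, H27.gl2_00, H27.gl2_10]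
  have hP1 : (P : Matrix (Fin 2) (Fin 2) F) *ᵥ ![0, 1] = w := by
    ext i; fin_cases i <;> simp [P, mulVec, dotProduct, Fin.sum_univ_two, H27.gl2_01, H27.gl2_11]
  let G₀ : Subgroup (GL (Fin 2) F) := H ⊓ (GeneralLinearGroup.det).ker
  haveI : Finite G₀ := Finite.of_injective _ (inclusion_injective (inf_le_left : G₀ ≤ H))
  have hG₀ : ∀ x : G₀, ((P⁻¹ * x * P : GL (Fin 2) F) : Matrix (Fin 2) (Fin 2) F).det = 1 := by
    intro x
    have : GeneralLinearGroup.det (P⁻¹ * x.1 * P) = 1 := by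
      rw [map_mul, map_mul, MonoidHom.mem_ker.1 x.2.2, map_inv]; simp
    exact congrArg Units.val this
  let φ : G₀ →* SL(2, F) :=
    { toFun := fun x => ⟨_, hG₀ x⟩
      map_one' := by ext1; simp
      map_mul' := fun x y => by
        apply Subtype.ext
        change (P⁻¹ * (x.1 * y.1) * P).val = (P⁻¹ * x.1 * P).val * (P⁻¹ * y.1 * P).val
        rw [← Units.val_mul]; congr 1; group }
  have hfix : ∀ (x : GL (Fin 2) F) (e : Fin 2 → F),
      (x : Matrix (Fin 2) (Fin 2) F) *ᵥ ((P : Matrix (Fin 2) (Fin 2) F) *ᵥ e) = P *ᵥ e →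
      (P⁻¹ * x * P).val *ᵥ e = e := by
    intro x e h
    rw [Units.val_mul, Units.val_mul, ← mulVec_mulVec, ← mulVec_mulVec, h, mulVec_mulVec]
    simp
  have hne : ∀ x : G₀, (x : GL (Fin 2) F) ≠ 1 → (φ x : Matrix (Fin 2) (Fin 2) F) ≠ 1 := by
    intro x hx e
    apply hx
    have : P⁻¹ * x.1 * P = 1 := Units.ext e
    calc (x : GL (Fin 2) F) = P * (P⁻¹ * x.1 * P) * P⁻¹ := by group
      _ = 1 := by rw [this]; group
  let a' : G₀ := ⟨a, haH, Units.ext (by simpa using hdet)⟩
  let b' : G₀ := ⟨g * a * g⁻¹, H.mul_mem (H.mul_mem hg haH) (H.inv_mem hg),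
    (MonoidHom.normal_ker _).conj_mem _ a'.2.2 g⟩
  have ea : (φ a' : Matrix (Fin 2) (Fin 2) F) *ᵥ ![1, 0] = ![1, 0] :=
    hfix a _ (by rw [hP0, hav])
  have eb : (φ b' : Matrix (Fin 2) (Fin 2) F) *ᵥ ![0, 1] = ![0, 1] :=
    hfix (g * a * g⁻¹) _ (by
      rw [hP1, hwdef, mulVec_mulVec, ← Units.val_mul, inv_mul_cancel_right, Units.val_mul,
        ← mulVec_mulVec, hav])
  have da := (φ a').2
  have db := (φ b').2
  have na := hne a' ha1
  have nb := hne b' (by simpa [b'] using ha1)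
  generalize hA : (φ a' : Matrix (Fin 2) (Fin 2) F) = A at ea da na
  generalize hB : (φ b' : Matrix (Fin 2) (Fin 2) F) = B at eb db nb
  have a0 := congrFun ea 0
  have a1 := congrFun ea 1
  have b0 := congrFun eb 0
  have b1 := congrFun eb 1
  simp [mulVec, dotProduct, Fin.sum_univ_two] at a0 a1 b0 b1
  rw [det_fin_two, a0, a1] at da
  rw [det_fin_two, b0, b1] at db
  simp at da db
  have eA : A = !![1, A 0 1; 0, 1] := by
    ext i j; fin_cases i <;> fin_cases j <;> simp [a0, a1, da]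
  have eB : B = !![1, 0; B 1 0, 1] := by
    ext i j; fin_cases i <;> fin_cases j <;> simp [b0, b1, db]
  obtain ⟨L, π, hπ, -⟩ := H9.exists_surj_SL2 p hp φ (a := a') (b := b') (μ := A 0 1) (ν := B 1 0)
    (fun e => na (by rw [eA, e, one_fin_two])) (fun e => nb (by rw [eB, e, one_fin_two]))
    (hA.trans eA) (hB.trans eB)
  refine H18.not_odd_of_orderOf_two (x := (-1 : SL(2, ZMod p))) (fun e => ?_) (by simp)
    (hodd.of_dvd_nat ((card_dvd_of_surjective π hπ).trans ((card_subgroup_dvd_card L).trans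
      (card_dvd_of_le inf_le_left))))
  have h := congrArg (fun M : SL(2, ZMod p) => M.1 0 0) e
  simp only [SpecialLinearGroup.coe_neg, SpecialLinearGroup.coe_one, Matrix.neg_apply,
    one_apply_eq] at h
  haveI : Fact (2 < p) := ⟨lt_of_le_of_ne (Fact.out : p.Prime).two_le hp.symm⟩
  exact ZMod.neg_one_ne_one h

end Cfsg.Agent.S1463
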