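import Cfsg.Statements.S1464
import Cfsg.Agent.H18.Top
import Cfsg.Agent.H18.GA

set_option autoImplicit false
open Cfsg

namespace Cfsg.Agent.S1464

open H18 H19 Subgroup in

/-- Let p be an odd prime and G a solvable group of odd order, P a p-subgroup with O_{p'}(G)P normal in G, and A a p-subgroup of N_G(P) with [[P, A], A] = 1. Then the image of A in the quotient N_G(P)/C_G(P) is contained in the p-core of that quotient. -/
theorem result {G : Type*} [Group G] [Finite G] [Group.IsSolvable G] (hodd : Odd (Nat.card G)) (p : ℕ) [Fact p.Prime] (hp : p ≠ 2) (P A : Subgroup G) (hP : IsPGroup p P) (hPn : (Cfsg.pPrimeCore p G ⊔ P).Normal)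
    (hA : IsPGroup p A) (hAN : A ≤ Subgroup.normalizer (P : Set G)) (hquad : ⁅⁅P, A⁆, A⁆ = ⊥) :
    (A.subgroupOf (Subgroup.normalizer (P : Set G))).map
        (QuotientGroup.mk' ((Subgroup.centralizer (P : Set G)).subgroupOf (Subgroup.normalizer (P : Set G))))
      ≤ Cfsg.pCore p _ := by
  have hp' : p.Prime := Fact.out
  have h := odd_p_stable hp' (odd_sub hodd N(P)) (PiN.of_isPGroup hp' hP) le_rfl hAN
    (PiN.of_isPGroup hp' hA) hquad
  have hC := inf_cent_normal (le_refl N(P))
  rw [quo_le_iff (hC.norms hAN)] at h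
  set L := qpre (N(P) ⊓ C(P)) (Oc {p} (quo (N(P) ⊓ C(P)) N(P)))
  have hL : L ⊴ N(P) := qpre_normal hC (Oc_normal _ _)
  haveI := hL.subgroupOf
  refine (map_mono (comap_mono h : A.subgroupOf _ ≤ L.subgroupOf _)).trans (H1.le_pCore
    (Normal.map hL.subgroupOf _ (QuotientGroup.mk'_surjective _)) ?_)
  rw [← pG_iff, PG, PiG, H1.card_map_mk', comap_subtype, relIndex_subgroupOf hL.le]
  have h2 : PiN {p} ((N(P) ⊓ C(P)).relIndex L) := by
    rw [← piG_quo_iff (qpre_le_norm _), quo_qpre]; exact Oc_pi _ _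
  exact h2.dvd (relIndex_dvd_left inf_le_right _)

end Cfsg.Agent.S1464
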