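import Cfsg.Statements.S1465
import Cfsg.Agent.H18.Top
import Cfsg.Agent.H18.GA

set_option autoImplicit false
open Cfsg

namespace Cfsg.Agent.S1465

open H18 H19 Subgroup in

/-- Let p be an odd prime, G a solvable group of odd order, P a normal p-subgroup of G, and X the subgroup generated by a family of abelian p-subgroups of G each normalized by P. Then the image of X in G/C_G(P) lies in O_p(G/C_G(P)); and if O_{p'}(G) = 1 and O_p(G) ∩ C_G(P) ≤ P then X ≤ O_p(G). -/
theorem result {G : Type*} [Group G] [Finite G] [Group.IsSolvable G] (hodd : Odd (Nat.card G)) (p : ℕ) [Fact p.Prime] (hp : p ≠ 2) (P : Subgroup G) [P.Normal] (hP : IsPGroup p P)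
    (S : Set (Subgroup G)) (hS : ∀ B ∈ S, IsMulCommutative B ∧ IsPGroup p B ∧ P ≤ Subgroup.normalizer (B : Set G)) :
    (sSup S).map (QuotientGroup.mk' (Subgroup.centralizer (P : Set G))) ≤ Cfsg.pCore p (G ⧸ Subgroup.centralizer (P : Set G)) ∧
      (Cfsg.pPrimeCore p G = ⊥ → Cfsg.pCore p G ⊓ Subgroup.centralizer (P : Set G) ≤ P → sSup S ≤ Cfsg.pCore p G) := by
  have hp' : p.Prime := Fact.out
  have hP' := PiN.of_isPGroup hp' hP
  refine ⟨?_, fun h0 hc => sSup_le fun B hB => ?_⟩
  · rw [map_le_iff_le_comap]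
    refine sSup_le fun B hB => ?_
    obtain ⟨h1, h2, h3⟩ := hS B hB
    have h := odd_p_stable hp' (odd_top hodd) hP' (le_norm_top P ⊤) le_top (PiN.of_isPGroup hp' h2)
      (H19.eq_bot_mono (commutator_mono (commg_le_right h3) le_rfl) (comm_iff_der.1 h1))
    have hC := inf_cent_normal (le_norm_top P ⊤)
    rw [quo_le_iff (hC.norms le_top)] at h
    set L := qpre (⊤ ⊓ C(P)) (Oc {p} (quo (⊤ ⊓ C(P)) ⊤))
    have hL : L ⊴ ⊤ := qpre_normal hC (Oc_normal _ _)
    haveI := hL.normal
    rw [← map_le_iff_le_comap]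
    refine (map_mono h).trans (H1.le_pCore
      (Normal.map inferInstance _ (QuotientGroup.mk'_surjective _)) ?_)
    rw [← pG_iff, PG, PiG, H1.card_map_mk']
    have h2 : PiN {p} ((⊤ ⊓ C(P)).relIndex L) := by
      rw [← piG_quo_iff (qpre_le_norm _), quo_qpre]; exact Oc_pi _ _
    exact h2.dvd (relIndex_dvd_left inf_le_right _)
  · obtain ⟨h1, h2, h3⟩ := hS B hB
    rw [← Oc_top_p hp'] at hc ⊢
    rw [← Oc_top_p' hp'] at h0
    exact odd_abelian_constrained hp' (odd_top hodd) sol_top hP' normalIn_top h0 hc le_top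
      (PiN.of_isPGroup hp' h2) h1 h3

end Cfsg.Agent.S1465
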