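import Cfsg.Statements.S1466
import Cfsg.Agent.H18.GB

set_option autoImplicit false
open Cfsg

namespace Cfsg.Agent.S1466

open H18 H19 Subgroup in

/-- Let p be a prime and R a nontrivial finite p-group. Then for every i > 0, Z(R) ≤ C_R(L_i(R)) ≤ L_i(R); likewise Z(R) ≤ C_R(L_*(R)) ≤ L_*(R) and Z(R) ≤ C_R(L(R)) ≤ L(R); and L(R) ≠ 1, L_*(R) ≠ 1. -/
theorem result {R : Type*} [Group R] [Finite R] (p : ℕ) [Fact p.Prime] (hR : IsPGroup p R) [Nontrivial R] :
    (∀ i : ℕ, 0 < i → Subgroup.center R ≤ Subgroup.centralizer ((Cfsg.puigSeq R i : Subgroup R) : Set R) ∧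
        Subgroup.centralizer ((Cfsg.puigSeq R i : Subgroup R) : Set R) ≤ Cfsg.puigSeq R i) ∧
      (Subgroup.center R ≤ Subgroup.centralizer ((Cfsg.puigLower R : Subgroup R) : Set R) ∧ Subgroup.centralizer ((Cfsg.puigLower R : Subgroup R) : Set R) ≤ Cfsg.puigLower R) ∧
      (Subgroup.center R ≤ Subgroup.centralizer ((Cfsg.puigSubgroup R : Subgroup R) : Set R) ∧ Subgroup.centralizer ((Cfsg.puigSubgroup R : Subgroup R) : Set R) ≤ Cfsg.puigSubgroup R) ∧
      Cfsg.puigSubgroup R ≠ ⊥ ∧ Cfsg.puigLower R ≠ ⊥ := by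
  have hn : Group.IsNilpotent R := hR.isNilpotent
  have h1 : ∀ Y : Subgroup R, center R ≤ C(puigStep Y) ∧ C(puigStep Y) ≤ puigStep Y :=
    fun Y => ⟨center_le_centralizer _, centralizer_puigStep_le hn Y⟩
  have h2 : ∀ Y : Subgroup R, puigStep Y ≠ ⊥ := fun Y e =>
    (nontrivial_iff_ne_bot _).1 hR.center_nontrivial (by
      have := (h1 Y).1.trans (h1 Y).2
      rwa [e, le_bot_iff] at this)
  refine ⟨fun i hi => ?_, ?_, ?_, ?_, ?_⟩
  · obtain ⟨j, rfl⟩ := Nat.exists_eq_succ_of_ne_zero hi.ne'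
    exact h1 _
  · rw [← puigStep_puig]; exact h1 _
  · rw [← puigStep_lower]; exact h1 _
  · rw [← puigStep_lower]; exact h2 _
  · rw [← puigStep_puig]; exact h2 _

end Cfsg.Agent.S1466
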