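import Cfsg.Statements.S1469
import Cfsg.Agent.H18.GB
import Cfsg.Agent.H18.Top

set_option autoImplicit false
open Cfsg

namespace Cfsg.Agent.S1469

open H18 H19 Subgroup in

/-- Let p be an odd prime, G a solvable group of odd order and S a Sylow p-subgroup, and let Z be the centre of the Puig subgroup L(S), viewed inside G. Then G is generated by O_{p'}(G) and N_G(Z); and if O_{p'}(G) = 1 then Z is normal in G. -/
theorem result {G : Type*} [Group G] [Finite G] [Group.IsSolvable G] (hodd : Odd (Nat.card G)) (p : ℕ) [Fact p.Prime] (hp : p ≠ 2) (S : Sylow p G) :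
    Cfsg.pPrimeCore p G ⊔ Subgroup.normalizer ((((Subgroup.center ↥(Cfsg.puigSubgroup ↥(S : Subgroup G))).map (Cfsg.puigSubgroup ↥(S : Subgroup G)).subtype).map (S : Subgroup G).subtype : Subgroup G) : Set G) = ⊤ ∧
      (Cfsg.pPrimeCore p G = ⊥ → (((Subgroup.center ↥(Cfsg.puigSubgroup ↥(S : Subgroup G))).map (Cfsg.puigSubgroup ↥(S : Subgroup G)).subtype).map (S : Subgroup G).subtype).Normal) := by
  have hp' : p.Prime := Fact.out
  have e : ((center ↥(puigSubgroup ↥(S : Subgroup G))).map
      (puigSubgroup ↥(S : Subgroup G)).subtype).map (S : Subgroup G).subtype = ZL (S : Subgroup G) := by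
    rw [H1.map_subtype_center, map_inf _ _ _ (subtype_injective _), H1.map_subtype_centralizer,
      ← inf_assoc, inf_eq_left.2 (map_subtype_le _)]
    rfl
  rw [e, ← Oc_top_p' hp']
  refine ⟨?_, fun h0 => H1.normal_of_top_le_normalizer
    (Puig_center_normal hp' (odd_top hodd) sol_top (syl_sylow_top S) h0)⟩
  have h := Puig_factorisation hp' (odd_top hodd) sol_top (syl_sylow_top S)
  rwa [top_inf_eq] at h

end Cfsg.Agent.S1469
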