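import Cfsg.Statements.S1475
import Cfsg.Agent.H21.CN

set_option autoImplicit false
open Cfsg

namespace Cfsg.Agent.S1475

/-- Let G be a finite solvable group such that the order of every element is a prime power (1 included). Then at most two distinct primes divide the order of G. -/
theorem result {G : Type*} [Group G] [Finite G] [Group.IsSolvable G] (h : ∀ g : G, IsPrimePow (orderOf g) ∨ g = 1) :
    (Nat.card G).primeFactors.card ≤ 2 := by
  by_contra! h3
  have : Nontrivial G := not_subsingleton_iff_nontrivial.1 fun _ => by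
    simp [Nat.card_unique] at h3
  obtain ⟨p, hp, F0⟩ := H1.exists_pCore_ne_bot_of_isSolvable (G := G) inferInstance
  have := Fact.mk hp
  have k : ∀ x y : G, (orderOf x).Prime → (orderOf y).Prime → orderOf x ≠ orderOf y →
      ¬ Commute x y := fun x y hx hy e c => by
    have e1 := c.orderOf_mul_eq_mul_orderOf_of_coprime ((Nat.coprime_primes hx hy).2 e)
    rcases h (x * y) with e2 | e2
    · obtain ⟨r, -, hr⟩ := isPrimePow_iff_unique_prime_dvd.1 e2
      exact e ((hr _ ⟨hx, e1 ▸ Dvd.intro _ rfl⟩).trans (hr _ ⟨hy, e1 ▸ Dvd.intro_left _ rfl⟩).symm)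
    · rw [e2, orderOf_one] at e1
      exact hx.ne_one (Nat.eq_one_of_mul_eq_one_right e1.symm)
  obtain ⟨K, ⟨h1, h2⟩, -⟩ := H2.dPi_of_isSolvable {p}ᶜ G
  have hd : ∀ q ∈ (Nat.card G).primeFactors.erase p, q ∣ Nat.card K := fun q hq => by
    obtain ⟨e, hq⟩ := Finset.mem_erase.1 hq
    have h4 := Nat.prime_of_mem_primeFactors hq
    exact (h4.dvd_mul.1 (K.card_mul_index ▸ Nat.dvd_of_mem_primeFactors hq)).resolve_right
      (h2 q h4 e)
  obtain ⟨q, hq, r, hr, qr⟩ := Finset.one_lt_card.1 (show 1 < ((Nat.card G).primeFactors.erase p).card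
    from by have := Finset.pred_card_le_card_erase (s := (Nat.card G).primeFactors) (a := p); omega)
  have pq := Nat.prime_of_mem_primeFactors (Finset.mem_of_mem_erase hq)
  obtain ⟨⟨z, hz⟩, z1⟩ := Subgroup.ne_bot_iff_exists_ne_one.1 (H3.center_complement_ne_bot (H := K)
    Subgroup.le_normalizer_of_normal F0 (fun e => pq.ne_one (by simpa [e] using hd q hq))
    fun a ha a1 => eq_bot_iff.2 fun v ⟨hv, c⟩ => by_contra fun v1 => by
      obtain ⟨x, hx, -, x2⟩ := H21.CN.ex_prime a1
      obtain ⟨y, hy, -, y2⟩ := H21.CN.ex_prime v1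
      obtain ⟨i, hi⟩ := H28.exists_orderOf_eq_pow (H28.isPGroup_pCore p G)
        (Subgroup.zpowers_le.2 hv hy)
      exact k x y x2 y2 (fun e => h1 _ x2 (K.orderOf_dvd_natCard (Subgroup.zpowers_le.2 ha hx))
        (e.trans ((Nat.prime_dvd_prime_iff_eq y2 hp).1 (y2.dvd_of_dvd_pow hi.dvd))))
        (H21.CN.comm_zp (Subgroup.mem_centralizer_singleton_iff.1 c).symm hx hy))
  obtain ⟨y, hy, -, y2⟩ := H21.CN.ex_prime (x := (z : G)) fun e => z1 (Subtype.ext (Subtype.ext e))
  obtain ⟨s, hs, e⟩ : ∃ s ∈ (Nat.card G).primeFactors.erase p, s ≠ orderOf y := by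
    by_cases e : q = orderOf y
    exacts [⟨r, hr, fun e' => qr (e.trans e'.symm)⟩, ⟨q, hq, e⟩]
  have := Fact.mk (Nat.prime_of_mem_primeFactors (Finset.mem_of_mem_erase hs))
  obtain ⟨w, hw, rfl⟩ := H28.exists_orderOf_eq_of_dvd_card (hd s hs)
  exact k w y this.out y2 e (H21.CN.comm_zp
    (congrArg Subtype.val (Subgroup.mem_center_iff.1 hz ⟨w, hw⟩)) (Subgroup.mem_zpowers w) hy)

end Cfsg.Agent.S1475
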