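import Cfsg.Statements.S1476
import Cfsg.Agent.H21.CN

set_option autoImplicit false
open Cfsg

namespace Cfsg.Agent.S1476

/-- Let G be a finite solvable group in which every non-identity element has nilpotent centralizer. Then either G is nilpotent; or G has a normal subgroup K with a Frobenius complement E (K E = G, K ∩ E = 1, E meets its conjugates by outside elements trivially) such that E is cyclic or E is generated by two elementwise-commuting subgroups, one cyclic of odd order and one isomorphic to a generalized quaternion group; or G is a three-step group with respect to some prime p. -/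
theorem result {G : Type*} [Group G] [Finite G] [Group.IsSolvable G] (hCN : Cfsg.IsCNGroup G) :
    Group.IsNilpotent G ∨
      (∃ K E : Subgroup G, K.Normal ∧ Subgroup.IsComplement' K E ∧ Cfsg.IsFrobeniusComplement E ∧
        (IsCyclic E ∨ ∃ C Q : Subgroup G, C ⊔ Q = E ∧ (∀ a ∈ C, ∀ b ∈ Q, a * b = b * a) ∧ IsCyclic C ∧ Odd (Nat.card C) ∧
          ∃ n : ℕ, Nonempty (↥Q ≃* QuaternionGroup (2 ^ n)))) ∨
      ∃ p : ℕ, p.Prime ∧ Cfsg.IsThreeStepGroup p G := by
  refine or_iff_not_imp_left.2 fun hnn => ?_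
  by_cases h0 : Cfsg.fittingHall G = ⊥
  · exact .inr (H21.CN.three hCN hnn h0)
  obtain ⟨E, h1, h2, h3, h4⟩ := H21.CN.frob hCN hnn h0
  refine .inl ⟨_, E, inferInstance, h1, H3.isFrobeniusComplement_of_fpf h1 h0 h2 h4, ?_⟩
  have : Fact (Nat.Prime 2) := ⟨Nat.prime_two⟩
  have e := H1.pCoreOf_sup_pPrimeCoreOf h3 2
  have hC := H1.not_dvd_card_pPrimeCoreOf (p := 2) E
  have hQ := H1.pCoreOf_isPGroup (p := 2) E
  have lC := Subgroup.map_subtype_le (Cfsg.pPrimeCore 2 E)
  have lQ := Subgroup.map_subtype_le (Cfsg.pCore 2 E)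
  generalize (Cfsg.pPrimeCore 2 E).map E.subtype = C at *
  generalize (Cfsg.pCore 2 E).map E.subtype = Q at *
  have c : ∀ a ∈ C, ∀ b ∈ Q, a * b = b * a := fun a ha b hb => (H21.CN.comm_of h3 (lQ hb) (lC ha)
    (H21.CN.cop hQ hb (((Nat.prime_two.coprime_iff_not_dvd.2 hC).symm).coprime_dvd_left
      (C.orderOf_dvd_natCard ha)))).symm
  have := H3.isZGroup_of_fpf Subgroup.le_normalizer_of_normal h0 (fun a ha => h4 a (lC ha)) hC
  have := H1.isNilpotent_of_le lC h3
  have cy : IsCyclic C := inferInstance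
  rcases H3.cyclic_or_quaternion_of_fpf hQ Subgroup.le_normalizer_of_normal h0
    (fun a ha => h4 a (lQ ha)) with e' | ⟨-, n, -, e'⟩
  · have k1 := H28.le_centralizer_self_iff.2 cy.isMulCommutative
    have k2 := H28.le_centralizer_self_iff.2 e'.isMulCommutative
    have k3 : Q ≤ Subgroup.centralizer C := fun b hb a ha => c a ha b hb
    have : IsMulCommutative E := H28.le_centralizer_self_iff.1 (by
      rw [← e, H28.centralizer_sup]
      exact sup_le (le_inf k2 k3) (le_inf (H28.le_centralizer_comm.1 k3) k1))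
    exact .inl (H3.isCyclic_of_fpf Subgroup.le_normalizer_of_normal h0 h4)
  · exact .inr ⟨C, Q, (sup_comm _ _).trans e, c, cy,
      by rwa [← Nat.not_even_iff_odd, even_iff_two_dvd], n, e'⟩

end Cfsg.Agent.S1476
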