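import Cfsg.Statements.S1477
import Cfsg.Agent.H21.CN

set_option autoImplicit false
open Cfsg

namespace Cfsg.Agent.S1477

/-- Let G be a finite group in which every non-identity element has nilpotent centralizer, and H a nilpotent subgroup not properly contained in any nilpotent subgroup. Then the order of H is coprime to its index; if the order of H is not a prime power then H ∩ gHg⁻¹ = 1 whenever gHg⁻¹ ≠ H; and if H ∩ gHg⁻¹ = 1 whenever gHg⁻¹ ≠ H, then C_G(x) ≤ H for every non-identity x ∈ H. -/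
theorem result {G : Type*} [Group G] [Finite G] (hCN : Cfsg.IsCNGroup G) (H : Subgroup G) (hH : Group.IsNilpotent H)
    (hmax : ∀ L : Subgroup G, Group.IsNilpotent L → H ≤ L → L = H) :
    (Nat.card H).Coprime H.index ∧
      (¬ IsPrimePow (Nat.card H) → Nat.card H ≠ 1 → ∀ g : G, H.map (MulAut.conj g).toMonoidHom ≠ H → H ⊓ H.map (MulAut.conj g).toMonoidHom = ⊥) ∧
      ((∀ g : G, H.map (MulAut.conj g).toMonoidHom ≠ H → H ⊓ H.map (MulAut.conj g).toMonoidHom = ⊥) → ∀ x ∈ H, x ≠ 1 → Subgroup.centralizer ({x} : Set G) ≤ H) := by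
  have cz : ∀ {H : Subgroup G}, Group.IsNilpotent H →
      (∀ L : Subgroup G, Group.IsNilpotent L → H ≤ L → L = H) → ∀ p, p.Prime → p ∣ Nat.card H →
      ∃ z ∈ H, orderOf z = p ∧ Subgroup.centralizer {z} = H := fun hH hmax p hp e => by
    have := Fact.mk hp
    obtain ⟨z, hz, h1, h2⟩ := H21.CN.ex_center hH e
    exact ⟨z, hz, h1, hmax _ (hCN z (by rintro rfl; exact hp.ne_one (h1.symm.trans orderOf_one))) h2⟩
  have sy : ∀ p [Fact p.Prime], p ∣ Nat.card H → ∀ P : Subgroup G, IsPGroup p P →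
      Cfsg.pCoreOf p H ≤ P → P ≤ H :=
    fun p hp e P h1 h2 => by
      by_cases h3 : IsPGroup p H
      · exact (hmax P h1.isNilpotent (H28.pCoreOf_eq_self h3 ▸ h2)).le
      obtain ⟨q, hq, h4, h5⟩ : ∃ q, q.Prime ∧ q ∣ Nat.card H ∧ q ≠ p := by
        by_contra! h4
        exact h3 (IsPGroup.of_card (Nat.eq_prime_pow_of_unique_prime_dvd Nat.card_pos.ne'
          (fun a b => h4 _ a b)))
      obtain ⟨y, hy, y1, y2⟩ := cz hH hmax q hq h4
      obtain ⟨z, hz, z1, z2⟩ := cz hH hmax p hp.out e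
      exact y2 ▸ H21.CN.key hCN h1 (h2 (H28.le_pCoreOf (H28.isPGroup_zpowers_of_orderOf (k := 1)
        (by simpa using z1)) (Subgroup.zpowers_le.2 hz) (H28.le_normalizer_of_le_centralizer
          ((H28.centralizer_zpowers z).trans z2).ge) (Subgroup.mem_zpowers z)))
        (by rintro rfl; exact hp.out.ne_one (z1.symm.trans orderOf_one))
        (y1 ▸ (Nat.coprime_primes hq hp.out).2 h5)
        (Subgroup.mem_centralizer_singleton_iff.1 (z2.ge hy)).symm
  have pc' : ∀ {H : Subgroup G}, Group.IsNilpotent H → ∀ p, ∀ R ≤ H, IsPGroup p R →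
      R ≤ Cfsg.pCoreOf p H := fun hH p R h1 h2 =>
    (H28.map_subtype_subgroupOf h1).ge.trans (Subgroup.map_mono (H21.CN.le_core (N := ⊤)
      inferInstance le_top ((H28.isPGroup_subgroupOf_iff h1).2 h2)))
  have pc := pc' hH
  refine ⟨Nat.coprime_of_dvd fun p hp e => ?_, fun h1 h2 g hg => ?_, fun ti x hx x1 => ?_⟩
  · have := Fact.mk hp
    obtain ⟨P, h1, h2⟩ := H28.exists_isSylowIn_ge (H28.isPGroup_pCoreOf p H) le_top
    simpa using h1.not_dvd_relIndex_of_le (sy p e P h1.isPGroup h2)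
  · have hH' := H1.isNilpotent_map hH (MulAut.conj g).toMonoidHom
    have hc := H28.card_cj g H
    have hmax' : ∀ L : Subgroup G, Group.IsNilpotent L → H.map (MulAut.conj g).toMonoidHom ≤ L →
        L = H.map (MulAut.conj g).toMonoidHom := fun L h1 h2 => H28.cj_eq_iff.1
      (hmax _ (H1.isNilpotent_map h1 _) (H28.cj_le_iff.1 h2)) |>.trans (by rw [inv_inv])
    generalize H.map (MulAut.conj g).toMonoidHom = K at *
    refine eq_bot_iff.2 fun x hx => by_contra fun x1 => hg (H28.eq_of_le_of_card_le ?_ hc.ge)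
    obtain ⟨x, h3, x1, hp⟩ := H21.CN.ex_prime x1
    replace hx := Subgroup.zpowers_le.2 hx h3
    have := Fact.mk hp
    obtain ⟨q, hq, h4, h5⟩ : ∃ q, q.Prime ∧ q ∣ Nat.card H ∧ q ≠ orderOf x := by
      by_contra! h4
      exact h1 (isPrimePow_iff_unique_prime_dvd.2 ⟨_, ⟨hp, H.orderOf_dvd_natCard hx.1⟩,
        fun q hq => h4 q hq.1 hq.2⟩)
    have px := H28.isPGroup_zpowers_of_orderOf (x := x) (k := 1) (pow_one _).symm
    have k : ∀ {A B : Subgroup G}, x ∈ A → x ∈ B → Group.IsNilpotent A →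
        (∃ y ∈ B, orderOf y = q ∧ Subgroup.centralizer {y} = B) →
        ∀ w ∈ A, IsPGroup (orderOf x) (Subgroup.zpowers w) → w ∈ B := by
      rintro A B ha hb hA ⟨y, -, y1, rfl⟩ w hw pw
      have k1 : ∀ w ∈ A, IsPGroup (orderOf x) (Subgroup.zpowers w) →
          w ∈ Cfsg.pCoreOf (orderOf x) A := fun w hw pw =>
        pc' hA _ _ (Subgroup.zpowers_le.2 hw) pw (Subgroup.mem_zpowers w)
      exact H21.CN.key hCN (H28.isPGroup_pCoreOf _ A) (k1 x ha px) x1
        (y1 ▸ (Nat.coprime_primes hq hp).2 h5) (Subgroup.mem_centralizer_singleton_iff.1 hb)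
        (k1 w hw pw)
    obtain ⟨z, hz, z1, z2⟩ := cz hH hmax _ hp (H.orderOf_dvd_natCard hx.1)
    have z3 := k hx.1 hx.2 hH (cz hH' hmax' q hq (hc ▸ h4)) z hz
      (H28.isPGroup_zpowers_of_orderOf (k := 1) (by simpa using z1))
    refine H21.CN.le_of_pelts fun r hr w hw pw => ?_
    by_cases e : r = orderOf x
    · exact k hx.2 hx.1 hH' (cz hH hmax q hq h4) w hw (e ▸ pw)
    have := Fact.mk hr
    exact z2.le (Subgroup.mem_centralizer_singleton_iff.2 (H21.CN.comm_of hH' hw z3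
      (H21.CN.cop pw (Subgroup.mem_zpowers w) (z1 ▸ (Nat.coprime_primes hp hr).2 (Ne.symm e)))))
  obtain ⟨y, h3, y1, hp⟩ := H21.CN.ex_prime x1
  have hy := Subgroup.zpowers_le.2 hx h3
  have := Fact.mk hp
  refine H21.CN.le_of_pelts fun r hr w hw pw => ?_
  have c := H21.CN.comm_zp (Subgroup.mem_centralizer_singleton_iff.1 hw) (Subgroup.mem_zpowers w) h3
  by_cases e : r = orderOf y
  · subst e
    have hn : w ∈ Subgroup.normalizer (H : Set G) := H28.mem_normalizer_iff_cj.2 (by_contra fun e =>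
      y1 ((ti w e).le ⟨hy, y, hy, mul_inv_eq_of_eq_mul c⟩))
    exact sy _ (H.orderOf_dvd_natCard hy) _ (H28.isPGroup_sup_of_le_normalizer pw
      (H28.isPGroup_pCoreOf _ H) (H28.le_normalizer_pCoreOf' (Subgroup.zpowers_le.2 hn)))
      le_sup_right (Subgroup.mem_sup_left (Subgroup.mem_zpowers w))
  have := Fact.mk hr
  obtain ⟨z, hz, z1, z2⟩ := cz hH hmax _ hp (H.orderOf_dvd_natCard hy)
  exact z2.le (Subgroup.mem_centralizer_singleton_iff.2 (Subgroup.mem_centralizer_singleton_iff.1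
    (H21.CN.key hCN (H28.isPGroup_pCoreOf _ H) (pc _ _ (Subgroup.zpowers_le.2 hy)
      (H28.isPGroup_zpowers_of_orderOf (k := 1) (pow_one _).symm) (Subgroup.mem_zpowers y)) y1
      (H21.CN.cop pw (Subgroup.mem_zpowers w) ((Nat.coprime_primes hp hr).2 (Ne.symm e))) c.symm
      (pc _ _ (Subgroup.zpowers_le.2 hz) (H28.isPGroup_zpowers_of_orderOf (k := 1)
        (by simpa using z1)) (Subgroup.mem_zpowers z)))).symm)

end Cfsg.Agent.S1477
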