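import Cfsg.Statements.S1480
import Cfsg.Agent.H1.TT

set_option autoImplicit false
open Cfsg

namespace Cfsg.Agent.S1480

/-- Let G be a finite group and p a prime such that the normalizer of every nontrivial p-subgroup of G is p-constrained; if p = 2 assume also that the Sylow 2-subgroups of G have nilpotency class at most 2. Let E be an abelian p-subgroup containing an elementary abelian subgroup of order p ^ 3 and containing every element of p-power order of C_G(E). Then for every prime q ≠ p, any two maximal E-invariant q-subgroups of G are conjugate by an element of O_{p'}(C_G(E)). -/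
theorem result {G : Type*} [Group G] [Finite G] (p : ℕ) [Fact p.Prime]
    (hloc : ∀ T : Subgroup G, IsPGroup p T → T ≠ ⊥ → Cfsg.IsPConstrained p ↥(Subgroup.normalizer (T : Set G)))
    (h2 : p = 2 → ∀ S : Sylow p G, Group.IsNilpotent (S : Subgroup G) ∧ Group.nilpotencyClass (S : Subgroup G) ≤ 2)
    (E : Subgroup G) (hEp : IsPGroup p E) (hEc : IsMulCommutative E) (hE3 : ¬ Cfsg.PRankLE p 2 E)
    (hEfull : ∀ x ∈ Subgroup.centralizer (E : Set G), IsPGroup p (Subgroup.zpowers x) → x ∈ E)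
    (q : ℕ) [Fact q.Prime] (hqp : q ≠ p) :
    ∀ Q₁ ∈ Cfsg.maxInvSubgroups ⊤ E {q}, ∀ Q₂ ∈ Cfsg.maxInvSubgroups ⊤ E {q},
        ∃ k ∈ Cfsg.piCoreOf (Cfsg.primesNotDvd p) (Subgroup.centralizer (E : Set G)), Q₂ = Q₁.map (MulAut.conj k).toMonoidHom := by
    open H19 in
    intro Q₁ h1 Q₂ h2'
    have hp : p.Prime := Fact.out
    have m : ∀ Q ∈ Cfsg.maxInvSubgroups ⊤ E {q}, H18.MaxNormed {q} E Q := fun Q h =>
      ⟨h.1.2.1, h.1.2.2, fun R h1 h2 h3 => h.2 R ⟨le_top, h1, h2⟩ h3⟩
    have hE := PiN.of_isPGroup hp hEp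
    obtain ⟨F, f1, f2, f3⟩ := (H1.not_pRankLE_iff hp).1 hE3
    obtain ⟨n, e⟩ := abelem_el hp f2 f1
    obtain ⟨B, hB⟩ := e.exists_sub (k := 3) ((Nat.pow_le_pow_iff_right hp.one_lt).1 (e.card ▸ f3))
    have hf : ∀ x ∈ C(E), PiE {p} x → x ∈ E := fun x hx h => hEfull x hx (PiN.isPGroup (piG_zpowers.2 h))
    obtain ⟨k, hk, rfl⟩ := H1.transitivity hqp hEc hE (hB.mono f1) hf (fun e he e1 Y y1 y2 y3 => by
      have e2 := hB.ab.2 e he
      have hc : Cfsg.IsPConstrained p C[e] := H1.isPConstrained_of_subnIn (H1.SubnIn.of_le_normalizer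
        (cent1_le_norm_zpowers e) (by rw [← cent_zpowers]; exact norm_le_norm_cent _))
        (hloc _ (abelem_pg hp (abelem_zpowers e2)).isPGroup (by simpa using e1))
      have ec : E ≤ C[e] := (comm_iff_le_cent.1 hEc).trans (cent_le_cent1 (f1 (hB.le he)))
      by_cases h : p = 2
      · refine H1.le_Oc_two (fun T _ hT => ?_) hc hE ec (fun x hx => hf x hx.2) (y2.sing_ne hqp) y1 y3
        obtain ⟨S, hS⟩ := hT.isPGroup.exists_le_sylow
        obtain ⟨_, h3⟩ := h2 h S
        have h4 := congrArg (Subgroup.map (S : Subgroup G).subtype)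
          (Subgroup.lowerCentralSeries_eq_bot_iff_nilpotencyClass_le.2 h3)
        rw [Subgroup.top_subtype_lowerCentralSeries, Subgroup.map_bot] at h4
        exact commg_eq_bot.1 (H19.eq_bot_mono (Subgroup.lowerCentralSeries_mono 2 hS) h4)
      · exact H1.le_Oc_odd h hc hE ec (fun x hx h => hf x hx.2 (by rw [PiE, h]; exact (piN_prime hp).2 rfl))
          (y2.sing_ne hqp) y1 y3) (m _ h1) (m _ h2')
    refine ⟨k, Oc_mono' (fun r hr _ h => ?_) hk, rfl⟩
    exact ⟨hr, fun hd => h ((Nat.prime_dvd_prime_iff_eq hr hp).1 hd)⟩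

end Cfsg.Agent.S1480
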