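import Cfsg.Statements.S1481
import Cfsg.Agent.H21.CN
import Cfsg.Agent.H1.PConstr

set_option autoImplicit false
open Cfsg

namespace Cfsg.Agent.S1481

/-- Let G be a finite group and H a local subgroup (the normalizer of a nontrivial subgroup of prime-power order) not properly contained in any local subgroup; let F = F(H), suppose at least two primes divide #F, put X = H ∩ C_G(F), let M ≤ F with F ∩ C_G(M) ≤ M, and let R be a solvable subgroup normalized by M and by X. Then for every prime q not dividing #F there is exactly one maximal M-invariant q-subgroup of R, and it is a Sylow q-subgroup of the largest normal subgroup of R of order coprime to #F. -/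
theorem result {G : Type*} [Group G] [Finite G] (H : Subgroup G) (hH : Cfsg.IsLocalSubgroup H) (hHmax : ∀ L : Subgroup G, Cfsg.IsLocalSubgroup L → H ≤ L → L = H)
    (hF2 : 2 ≤ (Nat.card (Cfsg.fittingOf H)).primeFactors.card)
    (M : Subgroup G) (hM : M ≤ Cfsg.fittingOf H) (hCM : Cfsg.fittingOf H ⊓ Subgroup.centralizer (M : Set G) ≤ M)
    (R : Subgroup G) (hR : Group.IsSolvable R) (hMR : M ≤ Subgroup.normalizer (R : Set G))
    (hXR : H ⊓ Subgroup.centralizer (Cfsg.fittingOf H : Set G) ≤ Subgroup.normalizer (R : Set G))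
    (q : ℕ) [Fact q.Prime] (hq : ¬ q ∣ Nat.card (Cfsg.fittingOf H)) :
    ∃! Q : Subgroup G, Q ∈ Cfsg.maxInvSubgroups R M {q} ∧
      (∀ Q' : Subgroup G, Q' ∈ Cfsg.maxInvSubgroups R M {q} →
        Q' ≤ Cfsg.piCoreOf (Cfsg.primesNotDvd (Nat.card (Cfsg.fittingOf H))) R ∧
        ¬ q ∣ Q'.relIndex (Cfsg.piCoreOf (Cfsg.primesNotDvd (Nat.card (Cfsg.fittingOf H))) R)) := by
  set F := Cfsg.fittingOf H with hFd
  set L := Cfsg.piCoreOf (Cfsg.primesNotDvd (Nat.card F)) R with hLd
  have FH : F ≤ H := Subgroup.map_subtype_le _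
  have nF : Group.IsNilpotent F := H1.fittingOf_isNilpotent H
  have HF : H ≤ Subgroup.normalizer (F : Set G) := H1.le_normalizer_fittingOf H
  have LR : L ≤ R := Subgroup.map_subtype_le _
  have pc : ∀ p, ∀ A ≤ F, IsPGroup p A → A ≤ Cfsg.pCoreOf p F := fun p A h1 h2 =>
    (H28.map_subtype_subgroupOf h1).ge.trans (Subgroup.map_mono (H21.CN.le_core (N := ⊤)
      inferInstance le_top ((H28.isPGroup_subgroupOf_iff h1).2 h2)))
  -- the `p`-part of the center of `F`
  have Z : ∀ p, p.Prime → p ∣ Nat.card F → ∃ Z : Subgroup G, IsPGroup p Z ∧ Z ≤ M ∧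
      Z ≤ Subgroup.centralizer (F : Set G) ∧ Subgroup.normalizer (Z : Set G) = H := fun p hp e => by
    have := Fact.mk hp
    obtain ⟨z, hz, z1, z2⟩ := H21.CN.ex_center nF e
    have h1 : IsPGroup p (Cfsg.pCoreOf p F ⊓ Subgroup.centralizer (F : Set G) : Subgroup G) :=
      (H28.isPGroup_pCoreOf p F).to_inf_left
    refine ⟨_, h1, le_trans (inf_le_inf (H28.pCoreOf_le p F) (H28.centralizer_anti hM)) hCM,
      inf_le_right, hHmax _ ⟨p, _, hp, h1, fun e => hp.ne_one ?_, rfl⟩ (H28.le_normalizer_inf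
        (H28.le_normalizer_pCoreOf' HF) (H28.le_normalizer_centralizer HF))⟩
    rw [← z1, show z = 1 from e.le ⟨pc p _ (Subgroup.zpowers_le.2 hz)
      (H28.isPGroup_zpowers_of_orderOf (k := 1) (by simpa using z1)) (Subgroup.mem_zpowers z),
      fun g hg => Subgroup.mem_centralizer_singleton_iff.1 (z2 hg)⟩, orderOf_one]
  -- invariant `π'`-subgroups of `H ⊓ R` are trivial
  have triv : ∀ Y : Subgroup G, Y ≤ R → Y ≤ H → M ≤ Subgroup.normalizer (Y : Set G) →
      (Nat.card Y).Coprime (Nat.card F) → Y = ⊥ := fun Y h1 h2 h3 h4 => by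
    have h5 : Y ≤ Subgroup.centralizer (M : Set G) := H1.le_centralizer_of_commutator_eq_bot
      (eq_bot_iff.2 ((le_inf (H28.commutator_le_of_le_normalizer h3)
        ((Subgroup.commutator_mono le_rfl hM).trans (H28.commutator_le_of_le_normalizer'
          (h2.trans HF)))).trans (Subgroup.disjoint_of_coprime_natCard h4).eq_bot.le))
    have h6 : Y ≤ Subgroup.centralizer (F : Set G) := by
      refine H28.le_centralizer_comm.1 (H21.CN.le_of_pelts fun p hp x hx px => ?_)
      have := Fact.mk hp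
      by_cases e : p ∣ Nat.card F
      swap
      · exact (H28.eq_bot_of_isPGroup_of_not_dvd px (Subgroup.zpowers_le.2 hx) e).le.trans bot_le
          (Subgroup.mem_zpowers x)
      refine H28.le_centralizer_comm.1 (H2.thompson_PxQ (H28.isPGroup_pCoreOf p M)
        (h4.coprime_dvd_right e) ((H28.pCoreOf_le p M).trans (H28.le_centralizer_comm.1 h5)) _ rfl
        (H28.isPGroup_pCoreOf p F) (H28.le_normalizer_pCoreOf' (((H28.pCoreOf_le p M).trans
          (hM.trans FH)).trans HF)) (H28.le_normalizer_pCoreOf' (h2.trans HF)) ?_)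
        (pc p _ (Subgroup.zpowers_le.2 hx) px (Subgroup.mem_zpowers x))
      refine le_trans (fun u hu => hCM ⟨H28.pCoreOf_le p F hu.1, ?_⟩) (H28.le_centralizer_comm.1 h5)
      refine H28.centralizer_anti (H1.pCoreOf_sup_pPrimeCoreOf (H1.isNilpotent_of_le hM nF) p).ge ?_
      rw [H28.centralizer_sup]
      exact ⟨hu.2, fun w hw => (H21.CN.comm_of nF (H28.pCoreOf_le p F hu.1)
        (hM (Subgroup.map_subtype_le _ hw)) (H21.CN.cop (H28.isPGroup_pCoreOf p F) hu.1
          ((H1.pPrimeCoreOf_coprime M).coprime_dvd_left (Subgroup.orderOf_dvd_natCard _ hw)))).symm⟩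
    set X := H ⊓ Subgroup.centralizer (F : Set G)
    have h7 : Cfsg.fittingOf (X ⊓ R) ≤ F := (H1.fittingOf_mono inf_le_left
      (H28.le_normalizer_inf Subgroup.le_normalizer hXR)).trans (H1.fittingOf_mono inf_le_left
        (H28.le_normalizer_inf Subgroup.le_normalizer (H28.le_normalizer_centralizer HF)))
    have h8 : Y ≤ F := (le_inf (le_inf (le_inf h2 h6) h1) (h6.trans (H28.centralizer_anti h7))).trans
      ((H1.inf_centralizer_fittingOf_le (H1.isSolvable_of_le inf_le_right hR)).trans h7)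
    exact (inf_eq_left.2 h8).symm.trans (Subgroup.disjoint_of_coprime_natCard h4).eq_bot
  have cq : ∀ Q : Subgroup G, IsPGroup q Q → (Nat.card Q).Coprime (Nat.card F) := fun Q h =>
    (H2.coprime_card_of_isPGroup h ((Fact.out : q.Prime).coprime_iff_not_dvd.2 hq).symm).symm
  have main : ∀ Q : Subgroup G, Q ≤ R → IsPGroup q Q → M ≤ Subgroup.normalizer (Q : Set G) →
      Q ≤ L := fun Q h1 h2 h3 => by
    have k : ∀ p, p.Prime → p ∣ Nat.card F →
        Q ≤ (Cfsg.pPrimeCore p ↥(M ⊔ R)).map (M ⊔ R).subtype := fun p hp e => by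
      have := Fact.mk hp
      obtain ⟨r, hr, rp⟩ := Finset.exists_mem_ne hF2 p
      have hr' := Nat.prime_of_mem_primeFactors hr
      have := Fact.mk hr'
      obtain ⟨A, a1, a2, a3, a4⟩ := Z p hp e
      obtain ⟨B, b1, b2, b3, b4⟩ := Z r hr' (Nat.dvd_of_mem_primeFactors hr)
      have hB : B ≤ (Cfsg.pPrimeCore p ↥(M ⊔ R)).map (M ⊔ R).subtype := by
        rw [← H28.map_subtype_subgroupOf (b2.trans (le_sup_left : M ≤ M ⊔ R))]
        refine Subgroup.map_mono (le_trans (H1.le_pPrimeCoreOf ?_ ?_ ?_)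
          (H1.pPrimeCoreOf_normalizer_le (H1.isPConstrained_of_isSolvable (H1.isSolvable_sup hMR
            (@IsNilpotent.to_isSolvable _ _ (H1.isNilpotent_of_le hM nF)) hR))
            ((H28.isPGroup_subgroupOf_iff (a2.trans le_sup_left)).2 a1)))
        · rw [← Subgroup.subgroupOf_normalizer_eq (a2.trans le_sup_left), a4]
          exact Subgroup.comap_mono (b2.trans (hM.trans FH))
        · rw [← Subgroup.subgroupOf_normalizer_eq (a2.trans le_sup_left), a4,
            ← Subgroup.subgroupOf_normalizer_eq (b2.trans le_sup_left), b4]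
        · rw [H28.card_subgroupOf (b2.trans le_sup_left)]
          exact (H2.coprime_card_of_isPGroup b1 ((Nat.coprime_primes hp hr').2 rp.symm)).symm
      have h4 := H2.commutator_sup_centralizer (b2.trans h3) ((cq Q h2).symm.coprime_dvd_left
        (Subgroup.card_dvd_of_le (b2.trans hM))) (.inl (H2.isSolvable_of_isPGroup b1))
      rw [triv (Q ⊓ Subgroup.centralizer (B : Set G)) (inf_le_left.trans h1)
        (inf_le_right.trans ((Subgroup.centralizer_le_normalizer _).trans b4.le))
        (H28.le_normalizer_inf h3 (H28.le_normalizer_centralizer ((hM.trans FH).trans b4.ge)))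
        (cq _ h2.to_inf_left), sup_bot_eq] at h4
      exact h4.ge.trans ((Subgroup.commutator_mono le_rfl hB).trans
        (H28.commutator_le_of_le_normalizer' ((h1.trans le_sup_right).trans
          (H1.le_normalizer_pPrimeCoreOf _))))
    refine le_trans (le_inf h1 (le_iInf₂ fun p (hp : p.Prime ∧ p ∣ Nat.card F) => k p hp.1 hp.2))
      (H1.le_piCoreOf inf_le_left (H28.le_normalizer_inf Subgroup.le_normalizer
        (H28.le_normalizer_of_cj_le fun g hg => le_iInf₂ fun p hp => H28.cj_le_of_mem_normalizer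
          (iInf₂_le p hp) (H1.le_normalizer_pPrimeCoreOf _ (Subgroup.mem_sup_right hg))))
        fun p hp e => ⟨hp, fun e' => ?_⟩)
    have := Fact.mk hp
    exact H1.not_dvd_card_pPrimeCoreOf _ (e.trans (Subgroup.card_dvd_of_le
      (inf_le_right.trans (iInf₂_le p ⟨hp, e'⟩))))
  have ML : M ≤ Subgroup.normalizer (L : Set G) := hMR.trans (H1.normalizer_le_normalizer_piCoreOf R)
  have cL : (Nat.card L).Coprime (Nat.card F) :=
    Nat.coprime_of_dvd fun p hp e => (H1.piCoreOf_isPi R p hp e).2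
  have cM := (cL.coprime_dvd_right (Subgroup.card_dvd_of_le hM)).symm
  have sM : Group.IsSolvable M ∨ Group.IsSolvable L := .inr (H1.isSolvable_of_le LR hR)
  have inv : ∀ Q : Subgroup G, Q ∈ Cfsg.invSubgroups R M {q} ↔ Q ≤ R ∧ IsPGroup q Q ∧
      M ≤ Subgroup.normalizer (Q : Set G) := fun Q => and_congr_right fun _ => and_congr_left fun _ =>
    ⟨fun h => IsPGroup.of_card (Nat.eq_prime_pow_of_unique_prime_dvd Nat.card_pos.ne'
      (fun a b => h _ a b)), fun h p hp e => by
        obtain ⟨n, hn⟩ := h.exists_card_eq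
        exact (Nat.prime_dvd_prime_iff_eq hp Fact.out).1 (hp.dvd_of_dvd_pow (hn ▸ e))⟩
  obtain ⟨P, p1, p2, p3, p4⟩ := H2.exists_invariant_sylow ML cM sM q
  have le : ∀ Q ∈ Cfsg.invSubgroups R M {q}, Q ≤ P := fun Q hQ => by
    obtain ⟨h1, h2, h3⟩ := (inv Q).1 hQ
    obtain ⟨c, hc, e⟩ := H2.exists_centralizer_conj_le_sylow ML cM sM (main Q h1 h2 h3) h2 h3 p1 p2
      p3 p4
    obtain ⟨r, hr, -⟩ := Finset.exists_mem_ne hF2 q
    obtain ⟨B, -, b2, -, b4⟩ := Z r (Nat.prime_of_mem_primeFactors hr)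
      (Nat.dvd_of_mem_primeFactors hr)
    rw [triv _ (inf_le_left.trans LR) (inf_le_right.trans ((H28.centralizer_anti b2).trans
      ((Subgroup.centralizer_le_normalizer _).trans b4.le))) (H28.le_normalizer_inf ML
        (H28.le_normalizer_centralizer Subgroup.le_normalizer))
      (cL.coprime_dvd_left (Subgroup.card_dvd_of_le inf_le_left)), Subgroup.mem_bot] at hc
    simpa [hc] using e
  have hP := (inv P).2 ⟨p1.trans LR, p2, p4⟩
  have eq : ∀ Q ∈ Cfsg.maxInvSubgroups R M {q}, Q = P := fun Q hQ => (hQ.2 P hP (le Q hQ.1)).symm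
  exact ⟨P, ⟨⟨hP, fun Q hQ e => (le Q hQ).antisymm e⟩, fun Q hQ => eq Q hQ ▸ ⟨p1, p3⟩⟩,
    fun Q hQ => eq Q hQ.1⟩

end Cfsg.Agent.S1481
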