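import Cfsg.Statements.S1485
import Cfsg.Agent.H20.Br1

set_option autoImplicit false
open Cfsg

namespace Cfsg.Agent.S1485

/-- Let H be a normal subgroup of the finite group G and θ an irreducible character of H. On H, the function induced from θ equals r times the sum of the distinct G-conjugates of θ, where r is the number of elements of G fixing θ under conjugation divided by the order of H (the index of H in the inertia group). -/
theorem result {G : Type*} [Group G] [Fintype G] (H : Subgroup G) [hN : H.Normal] (θ : H → ℂ) (hθ : Cfsg.IsIrrCharacter H θ) : (fun h : H => Cfsg.indFun H θ h) = ((Nat.card {g : G // ∀ h : H, θ ⟨g * h * g⁻¹, hN.conj_mem h h.2 g⟩ = θ h} : ℂ) / (Nat.card H : ℂ)) • ∑ᶠ ψ ∈ {ψ : H → ℂ | ∃ g : G, ψ = fun h : H => θ ⟨g * h * g⁻¹, hN.conj_mem h h.2 g⟩}, ψ := by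
  open H20 H19 H5 Subgroup ComplexConjugate Classical in
  have hθ' := ext_mem_Irr.2 hθ
  have e : Nat.card {g : G // ∀ h : H, θ ⟨g * h * g⁻¹, hN.conj_mem h h.2 g⟩ = θ h} =
      #(inertia ⊤ (extendByZero H θ)) := Nat.card_congr (Equiv.subtypeEquivRight fun g => by
    rw [mem_inertia, cfj_ext_eq, funext_iff, and_iff_right (mem_top g)])
  have e2 : {ψ : H → ℂ | ∃ g : G, ψ = fun h : H => θ ⟨g * h * g⁻¹, hN.conj_mem h h.2 g⟩} =
      rs H '' (orb ⊤ (extendByZero H θ) : Set (G → ℂ)) := by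
    ext ψ
    refine ⟨fun h => ⟨_, mem_orb_ext.2 h, rs_ext H ψ⟩, ?_⟩
    rintro ⟨_, h, rfl⟩
    obtain ⟨g, -, rfl⟩ := mem_orb.1 h
    exact ⟨g, by rw [cfj_ext, rs_ext]⟩
  rw [e, e2, finsum_mem_image fun a ha b hb h => eq_of_rs
    (fun _ => irr_zero (orb_irr hθ' le_normalizer_of_normal ha))
    (fun _ => irr_zero (orb_irr hθ' le_normalizer_of_normal hb)) h, finsum_mem_coe_finset,
    indFun_eq, Ind_eq_sum_orb le_top (irr_cf hθ'),
    ← cardC_mul_relIndex (le_inertia (irr_cinv hθ') le_top), mul_div_cancel_left₀ _ (cardC_ne H)]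
  funext h
  simp [Finset.sum_apply]

end Cfsg.Agent.S1485
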