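import Cfsg.Statements.S1488
import Cfsg.Agent.H20.Br1

set_option autoImplicit false
open Cfsg

namespace Cfsg.Agent.S1488

/-- Let A be a normal subgroup of the finite group G contained in the subgroup H, let θ be a function on H and θ₁ a function on the image of H in G ⧸ A whose composite with the projection is θ. Then the function induced from θ₁ to G ⧸ A, composed with the projection G → G ⧸ A, equals the function induced from θ to G. -/
theorem result {G : Type*} [Group G] [Fintype G] (A H : Subgroup G) [A.Normal] (hAH : A ≤ H) [Fintype (G ⧸ A)] [Fintype ↥(H.map (QuotientGroup.mk' A))] (θ : H → ℂ) (θ₁ : ↥(H.map (QuotientGroup.mk' A)) → ℂ) (hθ : ∀ x : H, θ₁ ⟨QuotientGroup.mk' A x, Subgroup.mem_map_of_mem _ x.2⟩ = θ x) (g : G) : Cfsg.indFun (H.map (QuotientGroup.mk' A)) θ₁ (QuotientGroup.mk' A g) = Cfsg.indFun H θ g := by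
  open H20 H19 H5 Subgroup ComplexConjugate Classical in
  have e : ∀ y : G, extendByZero (H.map (QuotientGroup.mk' A)) θ₁ (QuotientGroup.mk' A y) =
      extendByZero H θ y := fun y => by
    by_cases hy : y ∈ H
    · rw [extendByZero_of_mem H θ hy, extendByZero_of_mem _ θ₁ (mem_map_of_mem _ hy), ← hθ]
    · rw [ext_zero H θ y hy, ext_zero]
      rwa [← mem_comap, comap_map_eq, QuotientGroup.ker_mk', sup_eq_left.2 hAH]
  have e2 : ∑ x : G, extendByZero H θ (x⁻¹ * g * x) = Nat.card A * ∑ x : G ⧸ A,
      extendByZero (H.map (QuotientGroup.mk' A)) θ₁ (x⁻¹ * QuotientGroup.mk' A g * x) := by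
    rw [← Finset.sum_fiberwise Finset.univ (fun x : G => (x : G ⧸ A)), Finset.mul_sum]
    refine Finset.sum_congr rfl fun q _ => ?_
    rw [Finset.sum_congr rfl (g := fun _ => extendByZero (H.map (QuotientGroup.mk' A)) θ₁
      (q⁻¹ * QuotientGroup.mk' A g * q)) fun x hx => by
        rw [← e, ← (Finset.mem_filter.1 hx).2]; simp, Finset.sum_const, nsmul_eq_mul]
    congr 2
    rw [← Nat.card_eq_finsetCard]
    obtain ⟨y, rfl⟩ := QuotientGroup.mk_surjective q
    refine Nat.card_congr ⟨fun x => ⟨y⁻¹ * x, QuotientGroup.eq.1 (Finset.mem_filter.1 x.2).2.symm⟩,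
      fun a => ⟨y * a, by simp⟩, fun x => by simp, fun a => by simp⟩
  have e3 : Nat.card H = Nat.card A * Nat.card (H.map (QuotientGroup.mk' A)) := by
    rw [← card_mul_relIndex hAH, ← relIndex_ker, QuotientGroup.ker_mk']
  simp only [indFun]
  rw [e2, e3]
  have := cardC_ne A
  push_cast
  field_simp

end Cfsg.Agent.S1488
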