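import Cfsg.Statements.S1489
import Cfsg.Agent.H20.Br1

set_option autoImplicit false
open Cfsg

namespace Cfsg.Agent.S1489

/-- Let H be a normal subgroup of the finite group G, θ an irreducible character of H, and T the inertia group of θ (the elements g with θ(g h g⁻¹) = θ(h) for all h ∈ H). If ψ and ψ' are irreducible characters of T having nonzero inner product with the function induced from θ to T, then the function induced from ψ to G is an irreducible character of G, and it equals the one induced from ψ' only if ψ = ψ'. -/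
theorem result {G : Type*} [Group G] [Fintype G] (H T : Subgroup G) [hN : H.Normal] [Fintype T] (θ : H → ℂ) (hθ : Cfsg.IsIrrCharacter H θ) (hT : ∀ g : G, g ∈ T ↔ ∀ h : H, θ ⟨g * h * g⁻¹, hN.conj_mem h h.2 g⟩ = θ h) (hHT : H ≤ T) (ψ ψ' : T → ℂ) (hψ : Cfsg.IsIrrCharacter T ψ) (hψ' : Cfsg.IsIrrCharacter T ψ') (hc : Cfsg.classInner (Cfsg.indFun (H.subgroupOf T) (fun x => θ ⟨(x : T), Subgroup.mem_subgroupOf.mp x.2⟩)) ψ ≠ 0) (hc' : Cfsg.classInner (Cfsg.indFun (H.subgroupOf T) (fun x => θ ⟨(x : T), Subgroup.mem_subgroupOf.mp x.2⟩)) ψ' ≠ 0) : Cfsg.IsIrrCharacter G (Cfsg.indFun T ψ) ∧ (Cfsg.indFun T ψ = Cfsg.indFun T ψ' → ψ = ψ') := by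
  open H20 H19 H5 Subgroup ComplexConjugate Classical in
  have hθ' := ext_mem_Irr.2 hθ
  have key : ∀ ψ : T → ℂ, IsIrrCharacter T ψ → classInner (indFun (H.subgroupOf T)
      (fun x => θ ⟨(x : T), mem_subgroupOf.mp x.2⟩)) ψ ≠ 0 →
      dot H (extendByZero T ψ) (extendByZero H θ) ≠ 0 := fun ψ h1 h2 => by
    rw [← dot_Ind_right hHT _ (irr_cinv (ext_mem_Irr.2 h1)), Ne, dot_eq_zero_comm, dot_eq_classInner,
      rs_ext, Ind_eq_indFun hHT]
    rwa [show (fun x : H.subgroupOf T => extendByZero H θ ((x : T) : G)) = _ from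
      funext fun x => extendByZero_of_mem H θ (mem_subgroupOf.mp x.2)]
  have e := inertia_ext hT
  rw [indFun_eq, indFun_eq, ← ext_inj, ← mem_Irr_top]
  have h1 := ext_mem_Irr.2 hψ
  have h2 := ext_mem_Irr.2 hψ'
  have h3 := key ψ hψ hc
  have h4 := key ψ' hψ' hc'
  generalize extendByZero T ψ = a at *
  generalize extendByZero T ψ' = b at *
  rw [← e] at h1 h2 ⊢
  exact ⟨corr_irr normalIn_top hθ' h1 h3, corr_inj normalIn_top hθ' h1 h3 h2 h4⟩

end Cfsg.Agent.S1489
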