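import Cfsg.Statements.S1492
import Cfsg.Agent.H20.Br1

set_option autoImplicit false
open Cfsg

namespace Cfsg.Agent.S1492

/-- Let ψ be an irreducible character of the finite group G and B ≤ D ≤ C subgroups with B normal in C, every commutator of an element of D with an element of C lying in B (so D/B is central in C/B), and ψ constant equal to ψ 1 on B. Then ψ(1) ^ 2 * |C| * |D| ≤ |G| ^ 2. -/
theorem result {G : Type*} [Group G] [Finite G] (ψ : G → ℂ) (hψ : Cfsg.IsIrrCharacter G ψ) (B C D : Subgroup G) (hBD : B ≤ D) (hDC : D ≤ C) (hBn : ∀ c ∈ C, ∀ b ∈ B, c * b * c⁻¹ ∈ B) (hcent : ∀ d ∈ D, ∀ c ∈ C, d * c * d⁻¹ * c⁻¹ ∈ B) (hker : ∀ b ∈ B, ψ b = ψ 1) : ‖ψ 1‖ ^ 2 * (Nat.card C : ℝ) * (Nat.card D : ℝ) ≤ (Nat.card G : ℝ) ^ 2 := by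
  open H20 H19 H5 Subgroup ComplexConjugate Classical in
  have h := mem_Irr_top.2 hψ
  have h1 := irr_deg_sq_le' h hDC le_top
    ((comm_le_of hcent).trans ((chr_le_cker (irr_chr h) le_top).2 hker))
  rw [chr_norm_one (irr_chr h), ← card_top' (Γ := G), ← card_mul_relIndex (le_top (a := C)),
    ← card_mul_relIndex hDC]
  have h2 : deg ψ ^ 2 * (#D * D.relIndex C) * #D ≤ (#D * D.relIndex C * C.relIndex ⊤) ^ 2 :=
    calc _ ≤ C.relIndex ⊤ ^ 2 * D.relIndex C * (#D * D.relIndex C) * #D := by gcongr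
      _ = _ := by ring
  exact_mod_cast h2

end Cfsg.Agent.S1492
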