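import Cfsg.Statements.S1493
import Cfsg.Agent.H20.Br1

set_option autoImplicit false
open Cfsg

namespace Cfsg.Agent.S1493

/-- Let G be a finite group of order a * b with a and b coprime, let k be coprime to a, and let χ be a character of G. Then there is a character χ' of G such that χ'(g) = χ(g ^ k) whenever the order of g divides a and χ'(g) = χ(g) whenever the order of g is coprime to a; moreover χ' is irreducible if χ is. -/
theorem result {G : Type*} [Group G] [Finite G] (a b k : ℕ) (hab : Nat.card G = a * b) (hcop : Nat.Coprime a b) (hk : Nat.Coprime k a) (χ : G → ℂ) (hχ : Cfsg.IsCharacter G χ) : ∃ χ' : G → ℂ, Cfsg.IsCharacter G χ' ∧ (Cfsg.IsIrrCharacter G χ → Cfsg.IsIrrCharacter G χ') ∧ (∀ g : G, orderOf g ∣ a → χ' g = χ (g ^ k)) ∧ (∀ g : G, Nat.Coprime (orderOf g) a → χ' g = χ g) := by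
  open H20 H19 H5 Subgroup ComplexConjugate Classical in
  have h0 : Nat.card G ≠ 0 := Nat.card_pos.ne'
  rw [hab, mul_ne_zero_iff] at h0
  obtain ⟨σ, h1, h2⟩ := exists_aut_crt h0.1 h0.2 hcop hk
  have h := mem_Chr_top.2 hχ
  refine ⟨aut σ χ, mem_Chr_top.1 (chr_aut h σ), fun e => mem_Irr_top.1 (irr_aut (mem_Irr_top.2 e) σ),
    fun g hg => zirr_aut_apply (chr_zirr h) σ (mem_top g) fun z hz => h1 z (pow_eq_one_of_dvd' hz hg),
    fun g hg => zirr_aut_fix (chr_zirr h) σ fun z hz => h2 z (pow_eq_one_of_dvd' hz ?_)⟩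
  exact hg.dvd_of_dvd_mul_left (hab ▸ orderOf_dvd_natCard g)

end Cfsg.Agent.S1493
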