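import Cfsg.Statements.S1500
import Cfsg.Agent.H5.Bridge
-- import your own Cfsg.Agent.* helpers here

set_option autoImplicit false
open Cfsg

namespace Cfsg.Agent.S1500
open H5


/-- Under the Dade hypothesis for (A, L, H), let α be a class function of L vanishing outside A. Then (i) for every class function β of L vanishing outside A, the inner product over G of the Dade images of α and β equals the inner product of α and β over L; and (ii) for every class function χ of G and every function ψ on L whose value at each a ∈ A is the average of χ over the coset a·H(a), the inner product over G of the Dade image of α with χ equals the inner product over L of α with ψ. -/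
theorem result {G : Type*} [Group G] [Fintype G] (A : Set G) (L : Subgroup G) [Fintype L] (H : G → Subgroup G) (hD : Cfsg.DadeHypothesis A L H) (α : L → ℂ) (hα : Cfsg.IsClassFunction L α) (hαA : ∀ x : L, (x : G) ∉ A → α x = 0) : (∀ β : L → ℂ, Cfsg.IsClassFunction L β → (∀ x : L, (x : G) ∉ A → β x = 0) → Cfsg.classInner (Cfsg.dadeIsometry A L H α) (Cfsg.dadeIsometry A L H β) = Cfsg.classInner α β) ∧ (∀ (χ : G → ℂ) (ψ : L → ℂ), Cfsg.IsClassFunction G χ → (∀ a : L, (a : G) ∈ A → ψ a = (Nat.card (H a) : ℂ)⁻¹ * ∑ᶠ u ∈ (H a : Set G), χ (a * u)) → Cfsg.classInner (Cfsg.dadeIsometry A L H α) χ = Cfsg.classInner α ψ) := by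
  refine ⟨fun β hβ hβA => ?_, fun χ ψ hχ hψ => ?_⟩
  · rw [dadeIsometry_eq hD hα, dadeIsometry_eq hD hβ, ← H20.dot_top_eq,
      dade_isom hD (ext_mem_CFon hα hαA) (ext_mem_CFon hβ hβA), dot_ext]
  · rw [dadeIsometry_eq hD hα, ← H20.dot_top_eq,
      dade_recip hD (ext_mem_CFon hα hαA) (H20.cinv_top_iff.2 hχ), ← dot_ext]
    refine H20.dot_congr_right fun x hx h => ?_
    have hA := H20.CFon.mem_of_ne (ext_mem_CFon hα hαA) h
    rw [extendByZero_of_mem L ψ hx, hψ ⟨x, hx⟩ hA, rho_of_mem H χ hA, finsum_eq_fin]

end Cfsg.Agent.S1500
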