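import Cfsg.Statements.S1502
import Cfsg.Agent.H6.TIBridge

set_option autoImplicit false
open Cfsg

namespace Cfsg.Agent.S1502

/-- Let W₁, W₂ be nontrivial subgroups of the finite group G generating a cyclic subgroup W = W₁ ⊔ W₂ of odd order that is the normaliser of every nonempty set of its elements outside W₁ ∪ W₂. Then there is a family attaching to each linear character ω of W an irreducible character of G up to sign, orthonormal, sending the trivial character to the principal character, with χ ω = ω on W outside W₁ ∪ W₂, and such that inducing (1 − φ)(1 − ψ) to G gives 1 − χ φ − χ ψ + χ (φψ) whenever φ ≠ 1 is trivial on W₂ and ψ ≠ 1 is trivial on W₁. -/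
theorem result {G : Type*} [Group G] [Fintype G] (W₁ W₂ : Subgroup G) (hW : Cfsg.IsSelfNormalizingCyclic W₁ W₂) (hodd : Odd (Nat.card ↥(W₁ ⊔ W₂))) : ∃ χ : (↥(W₁ ⊔ W₂) →* ℂˣ) → (G → ℂ), Cfsg.IsCyclicTIFamily W₁ W₂ χ := by
  classical
  have h : H20.CTI W₁ W₂ := ⟨hW, hodd⟩
  have f := H6.fam_eta h
  refine ⟨fun ω => H20.eta ((H6.chEquiv h.dp).symm ω).1 ((H6.chEquiv h.dp).symm ω).2,
    fun ω => (f.dirr _ _).cases.imp H20.mem_Irr_top.mp H20.mem_Irr_top.mp, fun ω ω' => ?_, ?_,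
    fun ω w h1 h2 => ?_, fun φ ψ _ _ h1 h2 => ?_⟩
  · simp only [← H20.dot_top_eq, f.orth, ← Prod.ext_iff, EmbeddingLike.apply_eq_iff_eq]
    congr
  · rw [← H6.chW_one h.dp, H6.chEquiv_symm, f.one, H20.triv_top]; rfl
  · obtain ⟨i, j, rfl⟩ := H6.chW_surj h.dp ω
    rw [H6.chEquiv_symm, H6.chW_apply, f.eq_V h _ _ ⟨w.2, h1, h2⟩]
  · obtain ⟨i, rfl⟩ := H6.exists_chW₁ h.dp h1
    obtain ⟨j, rfl⟩ := H6.exists_chW₂ h.dp h2
    rw [H6.rs_rect, ← H20.Ind_top_eq_indFun, f.rect, H6.chW_mul, f.one]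
    simp only [H6.chEquiv_symm, mul_one, one_mul]
    ext g; simp; ring

end Cfsg.Agent.S1502
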