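import Cfsg.Statements.S1504
import Cfsg.Agent.H6.TIBridge
import Cfsg.Agent.H6.Inner

set_option autoImplicit false
open Cfsg

namespace Cfsg.Agent.S1504

/-- Let W₁, W₂ be subgroups of a finite group with W₁ ⊓ W₂ = ⊥ whose elements commute, and W = W₁ ⊔ W₂. For linear characters φ, ψ of W with φ trivial on W₂ and ψ trivial on W₁, the function (1 − φ)(1 − ψ) vanishes on W₁ ∪ W₂; and the family of these functions, indexed by pairs (φ, ψ) with φ ≠ 1 ≠ ψ, is linearly independent over ℂ. -/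
theorem result {G : Type*} [Group G] [Finite G] (W₁ W₂ : Subgroup G) (hdisj : W₁ ⊓ W₂ = ⊥) (hcomm : ∀ a ∈ W₁, ∀ b ∈ W₂, a * b = b * a) : (∀ φ ψ : ↥(W₁ ⊔ W₂) →* ℂˣ, (∀ w : ↥(W₁ ⊔ W₂), (w : G) ∈ W₂ → φ w = 1) → (∀ w : ↥(W₁ ⊔ W₂), (w : G) ∈ W₁ → ψ w = 1) → ∀ w : ↥(W₁ ⊔ W₂), ((w : G) ∈ W₁ ∨ (w : G) ∈ W₂) → (1 - (φ w : ℂ) - (ψ w : ℂ) + (φ w : ℂ) * (ψ w : ℂ)) = 0) ∧ LinearIndependent ℂ (fun p : {p : (↥(W₁ ⊔ W₂) →* ℂˣ) × (↥(W₁ ⊔ W₂) →* ℂˣ) // p.1 ≠ 1 ∧ p.2 ≠ 1 ∧ (∀ w : ↥(W₁ ⊔ W₂), (w : G) ∈ W₂ → p.1 w = 1) ∧ (∀ w : ↥(W₁ ⊔ W₂), (w : G) ∈ W₁ → p.2 w = 1)} => fun w : ↥(W₁ ⊔ W₂) => 1 - (p.1.1 w : ℂ) - (p.1.2 w : ℂ) + (p.1.1 w : ℂ) * (p.1.2 w : ℂ)) := by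
  classical
  refine ⟨fun φ ψ h1 h2 w hw => ?_, ?_⟩
  · rcases hw with h | h
    · simp [h2 w h]
    · simp [h1 w h]
  have h : H19.Dprod W₁ W₂ (W₁ ⊔ W₂) := ⟨fun a ha b hb => (hcomm a ha b hb).symm, rfl, hdisj⟩
  have := Fintype.ofFinite ↥(W₁ ⊔ W₂)
  refine linearIndependent_iff'.mpr fun s c hc p hp => ?_
  have := congrArg (fun f => Cfsg.classInner f fun w => ((p.1.1 * p.1.2) w : ℂ)) hc
  simp only [H6.inner_sum_left, H6.inner_smul_left, H6.inner_zero_left] at this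
  rw [Finset.sum_eq_single_of_mem p hp] at this
  all_goals
    obtain ⟨⟨φ, ψ⟩, h1, h2, h3, h4⟩ := p
    obtain ⟨i, rfl⟩ := H6.exists_chW₁ h h3
    obtain ⟨j, rfl⟩ := H6.exists_chW₂ h h4
    have hi : i ≠ 1 := fun e => h1 (by rw [e, H6.chW_one])
    have hj : j ≠ 1 := fun e => h2 (by rw [e, H6.chW_one])
    have e : (fun w => ((H6.chW h i 1 * H6.chW h 1 j) w : ℂ)) = H20.rs _ (H20.omg i j) := by
      ext w; rw [H6.chW_mul, H6.chW_apply, mul_one, one_mul]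
  · simp only at this
    rw [H6.rs_rect, e, ← H20.dot_eq_classInner] at this
    simpa [H20.dot_omg h, hi.symm, hj.symm] using this
  · rintro ⟨⟨φ', ψ'⟩, h5, h6, h7, h8⟩ - hne
    obtain ⟨i', rfl⟩ := H6.exists_chW₁ h h7
    obtain ⟨j', rfl⟩ := H6.exists_chW₂ h h8
    simp only
    rw [H6.rs_rect, e, ← H20.dot_eq_classInner]
    have : ¬ (i' = i ∧ j' = j) := fun e => hne (by simp [e.1, e.2])
    simp [H20.dot_omg h, hi.symm, hj.symm, this]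

end Cfsg.Agent.S1504
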