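import Cfsg.Statements.S1505
import Cfsg.Agent.H6.TIBridge

set_option autoImplicit false
open Cfsg

namespace Cfsg.Agent.S1505

open Classical in
/-- Let W₁, W₂ ≤ G form a self-normalising cyclic subgroup W = W₁ ⊔ W₂. For nontrivial linear characters φ, φ' of W trivial on W₂ and ψ, ψ' trivial on W₁, put α = (1 − φ)(1 − ψ) and α' = (1 − φ')(1 − ψ'). Then the function induced from α to G has inner product 1 with the principal character, and the inner product of the functions induced from α and α' is 1 + a + b + ab where a = 1 if φ = φ' (else 0) and b = 1 if ψ = ψ' (else 0). -/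
theorem result {G : Type*} [Group G] [Fintype G] (W₁ W₂ : Subgroup G) (hW : Cfsg.IsSelfNormalizingCyclic W₁ W₂) (φ φ' ψ ψ' : ↥(W₁ ⊔ W₂) →* ℂˣ) (hφ : φ ≠ 1) (hφ' : φ' ≠ 1) (hψ : ψ ≠ 1) (hψ' : ψ' ≠ 1) (hφ₂ : ∀ w : ↥(W₁ ⊔ W₂), (w : G) ∈ W₂ → φ w = 1 ∧ φ' w = 1) (hψ₁ : ∀ w : ↥(W₁ ⊔ W₂), (w : G) ∈ W₁ → ψ w = 1 ∧ ψ' w = 1) : Cfsg.classInner (Cfsg.indFun (W₁ ⊔ W₂) (fun w => 1 - (φ w : ℂ) - (ψ w : ℂ) + (φ w : ℂ) * (ψ w : ℂ))) (fun _ => 1) = 1 ∧ Cfsg.classInner (Cfsg.indFun (W₁ ⊔ W₂) (fun w => 1 - (φ w : ℂ) - (ψ w : ℂ) + (φ w : ℂ) * (ψ w : ℂ))) (Cfsg.indFun (W₁ ⊔ W₂) (fun w => 1 - (φ' w : ℂ) - (ψ' w : ℂ) + (φ' w : ℂ) * (ψ' w : ℂ))) = 1 + (if φ = φ' then 1 else 0) + (if ψ = ψ' then 1 else 0) + (if φ = φ' then 1 else 0) * (if ψ = ψ' then 1 else 0) := by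
  have h := H6.snc_dp hW
  obtain ⟨i, rfl⟩ := H6.exists_chW₁ h fun w hw => (hφ₂ w hw).1
  obtain ⟨i', rfl⟩ := H6.exists_chW₁ h fun w hw => (hφ₂ w hw).2
  obtain ⟨j, rfl⟩ := H6.exists_chW₂ h fun w hw => (hψ₁ w hw).1
  obtain ⟨j', rfl⟩ := H6.exists_chW₂ h fun w hw => (hψ₁ w hw).2
  have hi : i ≠ 1 := fun e => hφ (by rw [e, H6.chW_one])
  have hj : j ≠ 1 := fun e => hψ (by rw [e, H6.chW_one])
  have hi' : i' ≠ 1 := fun e => hφ' (by rw [e, H6.chW_one])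
  have hj' : j' ≠ 1 := fun e => hψ' (by rw [e, H6.chW_one])
  rw [H6.rs_rect, H6.rs_rect, ← H20.Ind_top_eq_indFun, ← H20.Ind_top_eq_indFun,
    ← H20.dot_top_eq, ← H20.dot_top_eq]
  refine ⟨?_, ?_⟩
  · rw [show (fun _ => 1 : G → ℂ) = H20.triv ⊤ from H20.triv_top.symm, H20.dot_Ind_triv le_top,
      ← H20.omg_one_one h]
    simp [H20.dot_omg h, hi, hj]
  · have m := fun (i : H20.Ch W₁) (j : H20.Ch W₂) => H20.mem_CFon_ab (H6.snc_ab hW)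
      (H20.cyV_subset _ _) fun _ => H20.omg_rect_cyV h i 1 j 1
    rw [H20.dot_Ind_ti le_top (fun x _ => (m i j).2 x) (m i' j')
      fun g _ x hx hg => H6.snc_ti hW hx hg]
    simp only [H20.dot_add_left, H20.dot_sub_left, H20.dot_add_right, H20.dot_sub_right,
      H20.dot_omg h, H6.chW_eq_iff, hi, hj, hi'.symm, hj'.symm]
    by_cases e1 : i = i' <;> by_cases e2 : j = j' <;> simp [e1, e2]

end Cfsg.Agent.S1505
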