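import Cfsg.Statements.S1507
import Cfsg.Agent.H6.TIBridge

set_option autoImplicit false
open Cfsg

namespace Cfsg.Agent.S1507

open Classical in
/-- Let W₁, W₂ ≤ G form a self-normalising cyclic subgroup W = W₁ ⊔ W₂ of odd order with Nat.card W₁ < Nat.card W₂, and χ an orthonormal family of irreducible characters of G up to sign, indexed by the linear characters ω of W, with χ_1 = 1, χ_ω = ω on W outside W₁ ∪ W₂, and the induction identity for (1 − φ)(1 − ψ). Let θ be a class function of G vanishing on W outside W₁ ∪ W₂, and suppose fewer than 2 · Nat.card W₁ linear characters ω of W have ⟨θ, χ ω⟩ ≠ 0. Then one of: all ⟨θ, χ ω⟩ vanish; or there are ψ₀ and a with ⟨θ, χ ω⟩ = a when ω ψ₀⁻¹ is trivial on W₂ and 0 otherwise; or there are φ₀ and a with ⟨θ, χ ω⟩ = a when ω φ₀⁻¹ is trivial on W₁ and 0 otherwise. -/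
theorem result {G : Type*} [Group G] [Fintype G] (W₁ W₂ : Subgroup G) (hW : Cfsg.IsSelfNormalizingCyclic W₁ W₂) (hodd : Odd (Nat.card ↥(W₁ ⊔ W₂))) (χ : (↥(W₁ ⊔ W₂) →* ℂˣ) → (G → ℂ)) (hχ : Cfsg.IsCyclicTIFamily W₁ W₂ χ) (hlt : Nat.card W₁ < Nat.card W₂) (θ : G → ℂ) (hθ : Cfsg.IsClassFunction G θ) (hθV : ∀ w : ↥(W₁ ⊔ W₂), (w : G) ∉ W₁ → (w : G) ∉ W₂ → θ w = 0) (hfew : Nat.card {ω : ↥(W₁ ⊔ W₂) →* ℂˣ // Cfsg.classInner θ (χ ω) ≠ 0} < 2 * Nat.card W₁) : (∀ ω, Cfsg.classInner θ (χ ω) = 0) ∨ (∃ (ψ₀ : ↥(W₁ ⊔ W₂) →* ℂˣ) (a : ℂ), ∀ ω, Cfsg.classInner θ (χ ω) = if (∀ w : ↥(W₁ ⊔ W₂), (w : G) ∈ W₂ → (ω * ψ₀⁻¹) w = 1) then a else 0) ∨ (∃ (φ₀ : ↥(W₁ ⊔ W₂) →* ℂˣ) (a : ℂ), ∀ ω, Cfsg.classInner θ (χ ω) = if (∀ w : ↥(W₁ ⊔ W₂), (w : G) ∈ W₁ → (ω * φ₀⁻¹) w = 1) then a else 0) := by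
  have c : H20.CTI W₁ W₂ := ⟨hW, hodd⟩
  have h := c.dp
  have o1 := Nat.odd_iff.mp c.odd₁
  have o2 := Nat.odd_iff.mp c.odd₂
  have := H6.rect_trichotomy ((H6.fam_of_family h hχ).rect_dot c (H20.cinv_top_iff.mpr hθ)
      (fun x hx => hθV ⟨x, hx.1⟩ hx.2.1 hx.2.2))
    (by rw [H20.card_Ch c.ab₁, H20.card_Ch c.ab₂]; omega) (by
      rw [H20.card_Ch c.ab₁, H20.card_Ch c.ab₂, min_eq_left hlt.le]
      refine lt_of_eq_of_lt ?_ hfew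
      rw [← Nat.subtype_card _ (fun _ => by rw [Finset.mem_filter, and_iff_right (Finset.mem_univ _)])]
      exact Nat.card_congr ((H6.chEquiv h).subtypeEquiv fun p => by rw [H20.dot_top_eq]; rfl))
  simp only [H20.dot_top_eq] at this
  have inv : ∀ (i : H20.Ch W₁) (j : H20.Ch W₂), (H6.chW h i j)⁻¹ = H6.chW h i⁻¹ j⁻¹ :=
    fun i j => inv_eq_of_mul_eq_one_right (by rw [H6.chW_mul, mul_inv_cancel, mul_inv_cancel, H6.chW_one])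
  refine this.imp (fun e ω => ?_) (Or.imp (fun ⟨j₀, a, _, e⟩ => ⟨H6.chW h 1 j₀, a, fun ω => ?_⟩)
    fun ⟨i₀, a, _, e⟩ => ⟨H6.chW h i₀ 1, a, fun ω => ?_⟩) <;> obtain ⟨i, j, rfl⟩ := H6.chW_surj h ω
  · exact e i j
  · rw [e, inv, H6.chW_mul]
    exact if_congr (by
      simpa [H6.chW_one, mul_inv_eq_one] using
        (H6.chW_eq_on₂ h (i := i) (j := j * j₀⁻¹) (i' := 1) (j' := 1)).symm) rfl rfl
  · rw [e, inv, H6.chW_mul]
    exact if_congr (by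
      simpa [H6.chW_one, mul_inv_eq_one] using
        (H6.chW_eq_on₁ h (i := i * i₀⁻¹) (j := j) (i' := 1) (j' := 1)).symm) rfl rfl

end Cfsg.Agent.S1507
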