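import Cfsg.Statements.S1511
import Cfsg.Agent.H6.TIBridge

set_option autoImplicit false
open Cfsg

namespace Cfsg.Agent.S1511

/-- Let L be a finite group with K normal with complement W₁ ≠ 1 a cyclic Hall subgroup, and W₂ ≠ 1 a cyclic subgroup of K equal to C_K(x) for every non-identity x ∈ W₁, with W₁W₂ of odd order. Then there are a map μ from the linear characters of W = W₁ ⊔ W₂ to irreducible characters of L, injective, and a sign δ(ω) ∈ {1, −1} depending only on the values of ω on W₂, such that: for ω, ω' agreeing on W₂, the function induced to L from ω − ω' equals δ(ω) • (μ ω − μ ω'); μ ω x = δ(ω) ω x for x ∈ W outside W₂; every irreducible character of L not of the form μ ω vanishes on W outside W₂; and μ ω 1 − δ(ω) is an integer multiple of Nat.card W₁. -/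
theorem result {L : Type*} [Group L] [Fintype L] (K W₁ W₂ : Subgroup L) [hK : K.Normal] (hKW₁ : K ⊓ W₁ = ⊥) (hKW₁' : K ⊔ W₁ = ⊤) (hW₁ : W₁ ≠ ⊥) (hW₁c : IsCyclic W₁) (hHall : Nat.Coprime (Nat.card W₁) W₁.index) (hW₂ : W₂ ≠ ⊥) (hW₂c : IsCyclic W₂) (hW₂K : W₂ ≤ K) (hC : ∀ x ∈ W₁, x ≠ 1 → K ⊓ Subgroup.centralizer ({x} : Set L) = W₂) (hodd : Odd (Nat.card ↥(W₁ ⊔ W₂))) : ∃ (μ : (↥(W₁ ⊔ W₂) →* ℂˣ) → (L → ℂ)) (δ : (↥(W₁ ⊔ W₂) →* ℂˣ) → ℂ), Function.Injective μ ∧ (∀ ω, Cfsg.IsIrrCharacter L (μ ω)) ∧ (∀ ω, δ ω = 1 ∨ δ ω = -1) ∧ (∀ ω ω' : ↥(W₁ ⊔ W₂) →* ℂˣ, (∀ w : ↥(W₁ ⊔ W₂), (w : L) ∈ W₂ → ω w = ω' w) → δ ω = δ ω' ∧ Cfsg.indFun (W₁ ⊔ W₂) (fun w => (ω w : ℂ) - (ω' w : ℂ)) = δ ω • (μ ω - μ ω')) ∧ (∀ ω, ∀ w : ↥(W₁ ⊔ W₂), (w : L) ∉ W₂ → μ ω w = δ ω * (ω w : ℂ)) ∧ (∀ θ : L → ℂ, Cfsg.IsIrrCharacter L θ → (∀ ω, θ ≠ μ ω) → ∀ w : ↥(W₁ ⊔ W₂), (w : L) ∉ W₂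 → θ w = 0) ∧ (∀ ω, ∃ n : ℤ, μ ω 1 - δ ω = n * (Nat.card W₁ : ℂ)) := by
  classical
  have h := H6.pti_top hKW₁ hKW₁' hW₁ hW₁c hHall hW₂ hW₂c hW₂K hC hodd
  have d := H6.pti_dp h
  have f := H6.muFam h
  refine ⟨fun ω => H20.mu ⊤ ((H6.chEquiv d).symm ω).1 ((H6.chEquiv d).symm ω).2,
    fun ω => H20.dlt ⊤ W₁ ((H6.chEquiv d).symm ω).2, fun ω ω' e => ?_,
    fun ω => H20.mem_Irr_top.mp (f.irr _ _), fun ω => ?_, fun ω ω' e => ?_, fun ω w hw => ?_,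
    fun θ hθ hne w hw => ?_, fun ω => ?_⟩
  · exact (H6.chEquiv d).symm.injective (Prod.ext_iff.mpr (H6.mu_inj h e))
  · rcases f.sign ((H6.chEquiv d).symm ω).2 with e | e <;> simp [e]
  · obtain ⟨i, j, rfl⟩ := H6.chW_surj d ω
    obtain ⟨i', j', rfl⟩ := H6.chW_surj d ω'
    obtain rfl := (H6.chW_eq_on₂ d).mp e
    simp only [H6.chEquiv_symm, ← f.ind, H20.Ind_top_eq_indFun, H6.chW_apply, true_and]
    rfl
  · obtain ⟨i, j, rfl⟩ := H6.chW_surj d ω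
    simp only [H6.chEquiv_symm, H6.chW_apply, f.mu_val h _ _ w.2 hw]
  · have hθ' := H20.mem_Irr_top.mpr hθ
    rw [f.val h (H20.irr_cinv hθ') w.2 hw]
    refine Finset.sum_eq_zero fun i _ => Finset.sum_eq_zero fun j _ => ?_
    rw [H20.irr_dot_ne hθ' (f.irr _ _) (by simpa [H6.chEquiv_symm] using hne (H6.chW d i j)),
      mul_zero, zero_mul]
  · obtain ⟨n, hn⟩ := (H6.mu_deg_mod h ((H6.chEquiv d).symm ω).1 ((H6.chEquiv d).symm ω).2).symm.dvd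
    refine ⟨n, ?_⟩
    simp only [H20.irr_deg (f.irr _ _)]
    rw [mul_comm]
    exact_mod_cast hn

end Cfsg.Agent.S1511
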