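import Cfsg.Statements.S1512
import Cfsg.Agent.H6.TIBridge

set_option autoImplicit false
open Cfsg

namespace Cfsg.Agent.S1512

/-- Let K be a normal subgroup of the finite group L and x a non-identity element whose order is coprime to the order of K, such that K ⊓ C_L(y) = W₂ for every non-identity element y of the cyclic group generated by x. Then the number of conjugacy classes of K mapped to themselves by conjugation by x is at most Nat.card W₂. -/
theorem result {L : Type*} [Group L] [Finite L] (K W₂ : Subgroup L) [hK : K.Normal] (x : L) (hx1 : x ≠ 1) (hx : Nat.Coprime (orderOf x) (Nat.card K)) (hC : ∀ y ∈ Subgroup.zpowers x, y ≠ 1 → K ⊓ Subgroup.centralizer ({y} : Set L) = W₂) : Nat.card {C : ConjClasses K // ConjClasses.map (MulEquiv.toMonoidHom ((MulAut.conjNormal x : MulAut K))) C = C} ≤ Nat.card W₂ := by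
  classical
  have hg : x ∈ Subgroup.normalizer (K : Set L) := by rw [Subgroup.normalizer_eq_top]; trivial
  have h1 := H20.card_fixed_irr_le hg W₂ fun k hk y hy e => by
    obtain ⟨u, hu, c, hc, e'⟩ := H5.coset_conj hg hx (k := x⁻¹ * y⁻¹ * x)
      (hK.conj_mem' _ (K.inv_mem hy) x)
    have hcx : Commute x c := (H19.mem_cent1.mp hc.2).symm
    obtain ⟨m, h1, h2⟩ := Nat.chineseRemainder hx 1 0
    have e2 : (x * c) ^ m = x := by
      rw [hcx.mul_pow, pow_eq_pow_iff_modEq.mpr h1, pow_one, mul_eq_left]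
      exact orderOf_dvd_iff_pow_eq_one.mp ((K.orderOf_dvd_natCard hc.1).trans
        (Nat.modEq_zero_iff_dvd.mp h2))
    have e3 : Commute (u⁻¹ * k * u⁻¹⁻¹) (x * c) := by
      rw [show x * c = u⁻¹ * (y⁻¹ * x) * u by
        rw [show y⁻¹ * x = x * (x⁻¹ * y⁻¹ * x) by group, e']; group]
      calc _ = u⁻¹ * y⁻¹ * (y * k * y⁻¹) * x * u := by group
        _ = _ := by rw [e]; group
    refine ⟨u⁻¹, K.inv_mem hu, ?_⟩
    rw [← hC x (Subgroup.mem_zpowers x) hx1]
    exact ⟨K.mul_mem (K.mul_mem (K.inv_mem hu) hk) (K.inv_mem (K.inv_mem hu)),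
      H19.mem_cent1.mpr (e2 ▸ (e3.pow_right m).eq)⟩
  rw [H20.card_fixed_irr hg, ← Nat.card_coe_set_eq] at h1
  exact h1

end Cfsg.Agent.S1512
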