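import Cfsg.Statements.S1513
import Cfsg.Agent.H6.TIBridge

set_option autoImplicit false
open Cfsg

namespace Cfsg.Agent.S1513

/-- Let L be a finite group with K normal with complement W₁ ≠ 1 a cyclic Hall subgroup, and W₂ ≠ 1 a cyclic subgroup of K equal to C_K(x) for every non-identity x ∈ W₁, with W₁W₂ of odd order. For an irreducible character θ of K: if θ is not fixed under conjugation by some element of W₁, then the function induced from θ to L is an irreducible character of L; and the irreducible characters of K fixed by all of W₁ are exactly Nat.card W₂ in number, each inducing to the sum of Nat.card W₁ pairwise distinct irreducible characters of L. -/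
theorem result {L : Type*} [Group L] [Fintype L] (K W₁ W₂ : Subgroup L) [hK : K.Normal] (hKW₁ : K ⊓ W₁ = ⊥) (hKW₁' : K ⊔ W₁ = ⊤) (hW₁ : W₁ ≠ ⊥) (hW₁c : IsCyclic W₁) (hHall : Nat.Coprime (Nat.card W₁) W₁.index) (hW₂ : W₂ ≠ ⊥) (hW₂c : IsCyclic W₂) (hW₂K : W₂ ≤ K) (hC : ∀ x ∈ W₁, x ≠ 1 → K ⊓ Subgroup.centralizer ({x} : Set L) = W₂) (hodd : Odd (Nat.card ↥(W₁ ⊔ W₂))) : (∀ θ : K → ℂ, Cfsg.IsIrrCharacter K θ → (∃ x ∈ W₁, (fun k : K => θ ⟨x * k * x⁻¹, hK.conj_mem (k : L) k.2 x⟩) ≠ θ) → Cfsg.IsIrrCharacter L (Cfsg.indFun K θ)) ∧ Nat.card {θ : Cfsg.IrrCharacter K // ∀ x ∈ W₁, (fun k : K => (θ : K → ℂ) ⟨x * k * x⁻¹, hK.conj_mem (k : L) k.2 x⟩) = θ} = Nat.card W₂ ∧ (∀ θ : K → ℂ, Cfsg.IsIrrCharacter K θ → (∀ x ∈ W₁, (fun k : K => θ ⟨x * k * x⁻¹, hK.conj_mem (k : L) k.2 x⟩) = θ) → ∃ C : Finset (L → ℂ), C.card = Nat.card W₁ ∧ (∀ μ ∈ C, Cfsg.IsIrrCharacter L μ) ∧ Cfsg.indFun K θ =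 ∑ μ ∈ C, μ) := by
  classical
  have h := H6.pti_top hKW₁ hKW₁' hW₁ hW₁c hHall hW₂ hW₂c hW₂K hC hodd
  have e1 : ∀ θ : K → ℂ, Cfsg.indFun K θ = H20.Ind ⊤ K (extendByZero K θ) := fun θ => by
    rw [H20.Ind_top_eq_indFun, H20.rs_ext]
  have e2 : ∀ (j : H20.Ch W₂) (x : L), (fun k : K => H20.rs K (H20.chiR ⊤ K W₁ j)
      ⟨x * k * x⁻¹, hK.conj_mem (k : L) k.2 x⟩) = H20.rs K (H20.chiR ⊤ K W₁ j) := fun j x =>
    funext fun k => H6.cinv_chiR h j x trivial k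
  have e3 : ∀ θ : K → ℂ, Cfsg.IsIrrCharacter K θ → (∀ x ∈ W₁, (fun k : K => θ
      ⟨x * k * x⁻¹, hK.conj_mem (k : L) k.2 x⟩) = θ) →
      ∃ j : H20.Ch W₂, extendByZero K θ = H20.chiR ⊤ K W₁ j := fun θ hθ e => by
    obtain ⟨a, ha, -, ha1, ha2⟩ := H6.pti_exists h
    refine H6.eq_chiR_of_fixed h (H20.ext_mem_Irr.mpr hθ) trivial
      (fun hK => ha2 (H6.pti_mem_W2 h ha1 hK)) (funext fun y => ?_)
    by_cases hy : y ∈ K
    · exact (H5.extendByZero_coe K θ ⟨_, hK.conj_mem y hy a⟩).trans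
        ((congrFun (e a ha) ⟨y, hy⟩).trans (H5.extendByZero_coe K θ ⟨y, hy⟩).symm)
    · rw [H20.cfj_apply, H20.ext_zero _ _ _ hy, H20.ext_zero _ _ _ fun e => hy (by
        simpa [mul_assoc] using hK.conj_mem' _ e a)]
  refine ⟨fun θ hθ ⟨x, hx, hne⟩ => ?_, ?_, fun θ hθ e => ?_⟩
  · rcases H6.ind_cases h (H20.ext_mem_Irr.mpr hθ) with ⟨j, hj⟩ | ⟨h1, -⟩
    · rw [← H20.rs_ext K θ, hj] at hne
      exact (hne (e2 j x)).elim
    · exact e1 θ ▸ H20.mem_Irr_top.mp h1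
  · rw [← H20.card_Ch (H6.pti_ab₂ h), ← Nat.card_eq_fintype_card]
    refine (Nat.card_eq_of_bijective (fun j => ⟨⟨_, H20.irr_rs (H6.chiR_irr h j)⟩,
      fun x _ => e2 j x⟩) ⟨fun j j' e => H6.chiR_inj h ?_, fun θ => ?_⟩).symm
    · exact H20.eq_of_rs (H20.irr_cf (H6.chiR_irr h j)).2 (H20.irr_cf (H6.chiR_irr h j')).2
        (congrArg (fun x => x.1.1) e)
    · obtain ⟨j, hj⟩ := e3 _ θ.1.2 θ.2
      exact ⟨j, Subtype.ext (Subtype.ext (by simp only [← hj, H20.rs_ext]))⟩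
  · obtain ⟨j, hj⟩ := e3 θ hθ e
    have inj : Function.Injective fun i : H20.Ch W₁ => H20.mu ⊤ i j := fun i i' e =>
      (H6.mu_inj h e).1
    refine ⟨Finset.univ.image fun i : H20.Ch W₁ => H20.mu ⊤ i j, ?_, fun μ hμ => ?_, ?_⟩
    · rw [Finset.card_image_of_injective _ inj, Finset.card_univ, H20.card_Ch (H6.pti_ab₁ h)]
    · obtain ⟨i, -, rfl⟩ := Finset.mem_image.mp hμ
      exact H20.mem_Irr_top.mp (H6.mu_irr h i j)
    · rw [e1, hj, H6.ind_chiR h, Finset.sum_image fun a _ b _ e => inj e]; rfl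

end Cfsg.Agent.S1513
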