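import Cfsg.Statements.S1514
import Cfsg.Agent.H20.Br2

set_option autoImplicit false
open Cfsg

namespace Cfsg.Agent.S1514

/-- Let S be a nonempty set of irreducible characters of the finite group L, closed under complex conjugation and containing no real-valued member, and τ a linear isometry on the integer combinations of S vanishing at 1, with values virtual characters of G vanishing at 1. Then there is a choice R making (S, τ, R) a coherence system. -/
theorem result {L : Type*} [Group L] [Fintype L] {G : Type*} [Group G] [Fintype G] (S : Set (L → ℂ)) (hS : S.Nonempty) (hirr : ∀ χ ∈ S, Cfsg.IsIrrCharacter L χ) (hconj : ∀ χ ∈ S, Cfsg.conjFun χ ∈ S ∧ Cfsg.conjFun χ ≠ χ) (τ : (L → ℂ) → (G → ℂ)) (hτ : Cfsg.IsLinearIsometryOn (Cfsg.zspanOn S {1}ᶜ) τ) (hτ1 : ∀ α ∈ Cfsg.zspanOn S {1}ᶜ, τ α 1 = 0) : ∃ R : (L → ℂ) → Finset (G → ℂ), Cfsg.IsCoherenceSystem S τ R := by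
  open H20 H19 H5 Subgroup ComplexConjugate Classical in
  obtain ⟨T, rfl⟩ := ((Irr ⊤).finite_toSet.subset fun χ h => mem_Irr_top.2 (hirr χ h)).exists_finset_coe
  have hi : T ⊆ Irr ⊤ := fun χ h => mem_Irr_top.2 (hirr χ h)
  obtain ⟨τ', h1, e⟩ := exists_isoOn (fun χ h => ⟨irr_chr (hi h), irr_ne_zero (hi h)⟩) hτ hτ1
  obtain ⟨R, h, -⟩ := subCoh_irr hi (fun χ h => (hconj χ h).1) (fun χ h => (hconj χ h).2) h1
  refine ⟨R, hS, fun χ h => (hirr χ h).isCharacter, fun χ h => (hconj χ h).1, fun χ h => (hconj χ h).2,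
    hτ, hτ1, fun a ha b hb n => ?_, fun χ hχ a ha b hb => ?_,
    fun χ hχ a ha => mem_ZIrr_top.1 (h.Rz χ hχ a ha), fun χ hχ => ?_, fun χ hχ φ hφ e1 e2 a ha b hb => ?_⟩
  · rw [← dot_top_eq, h.orth a ha b hb n]
  · rw [← dot_top_eq, h.Rorth χ hχ a ha b hb]; congr
  · rw [← h.Rsum χ hχ]
    exact e _ (sub_mem_zspanOn hχ (hconj χ hχ).1 (chr_star_one (h.chr χ hχ)).symm)
  · rw [← dot_top_eq] at e1 e2 ⊢
    refine h.Rdisj χ hχ φ hφ (fun n => ?_) (fun n => ?_) a ha b hb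
    · simp [← n, irr_dot_self (hi hφ)] at e1
    · change dot ⊤ φ (star χ) = 0 at e2
      simp [← n, irr_dot_self (hi hφ)] at e2

end Cfsg.Agent.S1514
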