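import Cfsg.Statements.S1515
import Cfsg.Agent.H20.Br2

set_option autoImplicit false
open Cfsg

namespace Cfsg.Agent.S1515

/-- Let (S, τ, R) be a coherence system from L to G, χ ∈ S, and ψ an integer combination of S with ⟨χ, ψ⟩ = ⟨conj χ, ψ⟩ = 0. Let τ₁ be a linear isometry on the integer combinations of χ − ψ and χ − conj χ, with virtual-character values, agreeing with τ on integer multiples of χ − conj χ. Then the sum over α ∈ R χ of the squared absolute values of ⟨τ₁(χ − ψ), α⟩ is at least ⟨χ, χ⟩; and if ⟨τ₁(χ − ψ), τ₁(χ − ψ)⟩ minus that sum is at least ⟨ψ, ψ⟩, then the sum equals ⟨χ, χ⟩ and every ⟨τ₁(χ − ψ), α⟩ with α ∈ R χ is 0 or 1. -/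
theorem result {L : Type*} [Group L] [Fintype L] {G : Type*} [Group G] [Fintype G] (S : Set (L → ℂ)) (τ : (L → ℂ) → (G → ℂ)) (R : (L → ℂ) → Finset (G → ℂ)) (hS : Cfsg.IsCoherenceSystem S τ R) (χ : L → ℂ) (hχ : χ ∈ S) (ψ : L → ℂ) (hψ : ψ ∈ Cfsg.zspan S) (h1 : Cfsg.classInner χ ψ = 0) (h2 : Cfsg.classInner (Cfsg.conjFun χ) ψ = 0) (τ₁ : (L → ℂ) → (G → ℂ)) (hτ₁ : Cfsg.IsLinearIsometryOn (Cfsg.zspan {χ - ψ, χ - Cfsg.conjFun χ}) τ₁) (hagree : ∀ n : ℤ, τ₁ (n • (χ - Cfsg.conjFun χ)) = τ (n • (χ - Cfsg.conjFun χ))) : (Cfsg.classInner χ χ).re ≤ ∑ α ∈ R χ, ‖Cfsg.classInner (τ₁ (χ - ψ)) α‖ ^ 2 ∧ ((Cfsg.classInner ψ ψ).re ≤ (Cfsg.classInner (τ₁ (χ - ψ)) (τ₁ (χ - ψ))).re - ∑ α ∈ R χ, ‖Cfsg.classInner (τ₁ (χ - ψ)) α‖ ^ 2 → (∑ α ∈ R χ, ‖Cfsg.classInner (τ₁ (χ - ψ)) α‖ ^ 2 = (Cfsg.classInner χ χ).re ∧ ∀ α ∈ R χ, Cfsg.classInner (τ₁ (χ - ψ)) α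 = 0 ∨ Cfsg.classInner (τ₁ (χ - ψ)) α = 1)) := by
  open H20 H19 H5 Subgroup ComplexConjugate Classical in
  have m1 : χ - ψ ∈ zspan {χ - ψ, χ - conjFun χ} := Submodule.subset_span (by simp)
  have m2 : χ - conjFun χ ∈ zspan {χ - ψ, χ - conjFun χ} := Submodule.subset_span (by simp)
  have e1 := hτ₁.2.2.1 _ m1 _ m2
  have e2 := hτ₁.2.2.1 _ m1 _ m1
  have e3 := hagree 1
  have e4 := hS.orthogonal χ hχ _ (hS.conj_mem χ hχ) (hS.conj_ne χ hχ).symm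
  simp only [one_smul] at e3
  simp only [← dot_top_eq] at *
  rw [e3, hS.sum_eq χ hχ, dot_sub_left, dot_sub_right, dot_sub_right, e4, dot_eq_zero_comm.1 h1,
    dot_eq_zero_comm.1 h2, dot_self] at e1
  obtain ⟨k1, k2⟩ := int_coeffs (fun α hα => mem_ZIrr_top.2 (hS.virtual χ hχ α hα))
    (mem_ZIrr_top.2 (hτ₁.2.2.2 _ m1)) (n := nrm ⊤ χ) (by simpa using e1)
  refine ⟨k1, fun h => ?_⟩
  rw [e2] at h
  have k3 : ∑ α ∈ R χ, ‖dot ⊤ (τ₁ (χ - ψ)) α‖ ^ 2 ≤ nrm ⊤ χ := by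
    have := nrm_sub_of_orth h1
    simp only [nrm] at this ⊢
    linarith
  obtain ⟨E, -, -, hE⟩ := k2 k3
  exact ⟨le_antisymm k3 k1, fun α hα => by rw [hE α hα]; split_ifs <;> simp⟩

end Cfsg.Agent.S1515
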