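import Cfsg.Statements.S1516
import Cfsg.Agent.H20.Br2

set_option autoImplicit false
open Cfsg

namespace Cfsg.Agent.S1516

/-- Let (S, τ, R) be a coherence system from L to G with degrees φ 1 = d φ and squared norms ⟨φ, φ⟩ = n φ for φ ∈ S. Let S₁ ⊆ S be a finite subset closed under complex conjugation such that (S₁, L minus 1, τ) is coherent, let χ ∈ S with χ ∉ S₁ and conj χ ∉ S₁, and let χ₁ ∈ S₁ with d χ₁ dividing d χ and 2 d χ d χ₁ < Σ_{φ ∈ S₁} (d φ)² / n φ. Then S₁ together with χ and conj χ is coherent. -/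
theorem result {L : Type*} [Group L] [Fintype L] {G : Type*} [Group G] [Fintype G] (S : Set (L → ℂ)) (τ : (L → ℂ) → (G → ℂ)) (R : (L → ℂ) → Finset (G → ℂ)) (hS : Cfsg.IsCoherenceSystem S τ R) (d n : (L → ℂ) → ℕ) (hd : ∀ φ ∈ S, φ 1 = (d φ : ℂ)) (hn : ∀ φ ∈ S, Cfsg.classInner φ φ = (n φ : ℂ)) (S₁ : Finset (L → ℂ)) (hS₁ : ↑S₁ ⊆ S) (hS₁c : ∀ φ ∈ S₁, Cfsg.conjFun φ ∈ S₁) (hcoh : Cfsg.IsCoherent (↑S₁ : Set (L → ℂ)) {1}ᶜ τ) (χ : L → ℂ) (hχ : χ ∈ S) (hχ₁ : χ ∉ S₁) (hχ₂ : Cfsg.conjFun χ ∉ S₁) (χ₁ : L → ℂ) (hχ₁S : χ₁ ∈ S₁) (hdvd : d χ₁ ∣ d χ) (hineq : (2 * d χ * d χ₁ : ℝ) < ∑ φ ∈ S₁, ((d φ : ℝ) ^ 2 / (n φ : ℝ))) : Cfsg.IsCoherent (↑S₁ ∪ {χ, Cfsg.conjFun χ} : Set (L → ℂ)) {1}ᶜ τ := by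
  open H20 H19 H5 Subgroup ComplexConjugate Classical in
  obtain ⟨T, rfl⟩ := (cohSys_finite hS).exists_finset_coe
  obtain ⟨τ', h, e⟩ := exists_subCoh hS
  have c1 : CSub S₁ T := ⟨hS₁, hS₁c⟩
  obtain ⟨ν, hν⟩ := h.coherent_of hS₁ e hcoh
  have hd' : ∀ φ ∈ T, deg φ = d φ := fun φ hφ => deg_eq_of_cast (hd φ hφ)
  have hs : ({χ, star χ} : Finset (L → ℂ)) ⊆ T := by
    simp [Finset.insert_subset_iff, show χ ∈ T from hχ, h.star_mem χ hχ]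
  have := h.isCoherent (T₁ := {χ, star χ} ∪ S₁) ⟨Finset.union_subset hs hS₁, fun φ hφ => by
      simp only [Finset.mem_union, Finset.mem_insert, Finset.mem_singleton] at hφ ⊢
      rcases hφ with (rfl | rfl) | hφ <;> [simp; simp; exact Or.inr (hS₁c φ hφ)]⟩ ⟨χ, by simp⟩ e
    ⟨ν, (h.ext_all c1 hs hν hχ₁S fun φ hφ _ => by
      have e1 : deg φ = d χ := by
        rcases Finset.mem_insert.1 hφ with rfl | hφ
        exacts [hd' _ hχ, by rw [Finset.mem_singleton.1 hφ, deg_star (h.chr χ hχ), hd' _ hχ]]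
      rw [e1, hd' _ (hS₁ hχ₁S), Finset.sum_congr rfl fun a ha => by
        rw [hd' a (hS₁ ha), nrm_eq_of_dot (r := n a) (by rw [dot_top_eq, hn a (hS₁ ha)]; simp)]]
      exact ⟨hdvd, hineq⟩).mono fun _ => by simp [or_assoc]⟩
  rwa [Finset.coe_union, Set.union_comm, Finset.coe_pair] at this

end Cfsg.Agent.S1516
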