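import Cfsg.Statements.S1520
import Cfsg.Agent.H20.Br2

set_option autoImplicit false
open Cfsg

namespace Cfsg.Agent.S1520

/-- Let K be a solvable normal subgroup of the finite group L and (S, τ, R) a coherence system from L to G with S the functions induced from non-principal irreducible characters of K; S(A) the members of S induced from characters whose kernel contains A. Let M ≤ H₁ ≤ H ≤ K be normal subgroups of L such that every term of the lower central series of H eventually lies in M (H/M nilpotent), S(H₁) is coherent and [H:H₁] > 4 * [L:K]^2 + 1. Then S(M) is coherent. -/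
theorem result {L : Type*} [Group L] [Fintype L] {G : Type*} [Group G] [Fintype G] (K : Subgroup L) [hK : K.Normal] (hsolv : Group.IsSolvable K) (τ : (L → ℂ) → (G → ℂ)) (R : (L → ℂ) → Finset (G → ℂ)) (hS : Cfsg.IsCoherenceSystem (Cfsg.inducedIrrAbove K ⊥) τ R) (M H₁ H : Subgroup L) [M.Normal] [H₁.Normal] [H.Normal] (hMH₁ : M ≤ H₁) (hH₁H : H₁ ≤ H) (hHK : H ≤ K) [(M.subgroupOf H).Normal] (hnil : Group.IsNilpotent (↥H ⧸ M.subgroupOf H)) (hcoh : Cfsg.IsCoherent (Cfsg.inducedIrrAbove K H₁) {1}ᶜ τ) (hbig : 4 * K.index ^ 2 + 1 < H₁.relIndex H) : Cfsg.IsCoherent (Cfsg.inducedIrrAbove K M) {1}ᶜ τ := by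
  open H20 H19 H5 Subgroup ComplexConjugate Classical in
  rw [inducedIrrAbove_eq bot_le] at hS
  rw [inducedIrrAbove_eq (hH₁H.trans hHK)] at hcoh
  rw [inducedIrrAbove_eq ((hMH₁.trans hH₁H).trans hHK)]
  obtain ⟨τ', h, e⟩ := exists_subCoh hS
  obtain ⟨ν, hν⟩ := h.coherent_of (SInd_sub_bot _ _ _ _) e hcoh
  exact h.isCoherent (csub_SInd le_rfl bot_le) (SInd_nonempty _ ⟨le_rfl, le_normalizer⟩
    ⟨(hMH₁.trans hH₁H).trans hHK, le_normalizer_of_normal⟩ fun n => by
      rw [relIndex_eq_one.2 ((hHK.trans n).trans hMH₁)] at hbig; omega) e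
    ⟨ν, h.nil_step normalIn_top hsolv le_normalizer_of_normal le_normalizer_of_normal
      le_normalizer_of_normal hMH₁ hH₁H hHK (lcs_le_of_quot hnil) hν (by rwa [relIndex_top_right])⟩

end Cfsg.Agent.S1520
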