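import Cfsg.Statements.S1521
import Cfsg.Agent.H20.Br2

set_option autoImplicit false
open Cfsg

namespace Cfsg.Agent.S1521

/-- Let K be a solvable normal subgroup of the finite group L of odd order and (S, τ, R) a coherence system from L to G with S the functions induced from non-principal irreducible characters of K; S(A) as before. Let M ≤ K be normal in L with K/M nilpotent, H₁ = [K, K] ⊔ M, H₁ < K < L, and suppose every element of K outside H₁ is centralised modulo H₁ only from inside K (L/H₁ is a Frobenius group with kernel K/H₁). Suppose one of the following: some normal subgroup of L lies strictly between H₁ and K; or [K:H₁] > 4[L:K]^2 + 1; or [K:M] is not a prime power; or [K,K] ≤ M; or [K:M] is a power of a prime p with [L:K] dividing p − 1. Then S(M) is coherent. -/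
theorem result {L : Type*} [Group L] [Fintype L] {G : Type*} [Group G] [Fintype G] (K : Subgroup L) [hK : K.Normal] (hsolv : Group.IsSolvable K) (τ : (L → ℂ) → (G → ℂ)) (R : (L → ℂ) → Finset (G → ℂ)) (hS : Cfsg.IsCoherenceSystem (Cfsg.inducedIrrAbove K ⊥) τ R) (hodd : Odd (Nat.card L)) (M : Subgroup L) [M.Normal] (hMK : M ≤ K) [(M.subgroupOf K).Normal] (hnil : Group.IsNilpotent (↥K ⧸ M.subgroupOf K)) (H₁ : Subgroup L) (hH₁ : H₁ = ⁅K, K⁆ ⊔ M) (hH₁K : H₁ < K) (hKL : K < ⊤) (hfrob : ∀ k ∈ K, k ∉ H₁ → ∀ x : L, x * k * x⁻¹ * k⁻¹ ∈ H₁ → x ∈ K) (hgood : (∃ N : Subgroup L, N.Normal ∧ H₁ < N ∧ N < K) ∨ 4 * K.index ^ 2 + 1 < H₁.relIndex K ∨ (¬ ∃ p m : ℕ, p.Prime ∧ M.relIndex K = p ^ m) ∨ ⁅K, K⁆ ≤ M ∨ (∃ p m : ℕ, p.Prime ∧ M.relIndex K = p ^ m ∧ K.index ∣ p - 1)) : Cfsg.IsCoherent (Cfsg.inducedIrrAbove K M) {1}ᶜ τ := by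
  open H20 H19 H5 Subgroup ComplexConjugate Classical in
  subst hH₁
  have hM : M < K := lt_of_le_of_lt le_sup_right hH₁K
  rw [inducedIrrAbove_eq bot_le] at hS
  rw [inducedIrrAbove_eq hMK]
  obtain ⟨τ', h, e⟩ := exists_subCoh hS
  refine h.isCoherent (csub_SInd le_rfl bot_le) (SInd_nonempty _ ⟨le_rfl, le_normalizer⟩
    ⟨hMK, le_normalizer_of_normal⟩ hM.not_ge) e ((h.chief normalIn_top hsolv (by rwa [card_top'])
      le_normalizer_of_normal hM (lcs_le_of_quot hnil) fun k h1 h2 x _ => hfrob k h1 h2 x).resolve_right ?_)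
  rw [relIndex_top_right]
  rintro ⟨k1, k2, p, n, hp, k3, k4, k5⟩
  rcases hgood with ⟨N, _, h1, h2⟩ | h1 | h1 | h1 | ⟨q, m, hq, h1, h2⟩
  · exact (k1 N le_normalizer_of_normal h1.le h2.le).elim h1.ne' h2.ne
  · omega
  · exact h1 ⟨p, n, hp, k3⟩
  · exact k4 h1
  · have := one_lt_relIndex hM.not_ge
    have hn : n ≠ 0 := by rintro rfl; simp [k3] at this
    rw [(Nat.prime_dvd_prime_iff_eq hp hq).1 (hp.dvd_of_dvd_pow (h1 ▸ k3 ▸ dvd_pow_self p hn))] at k5
    exact k5 h2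

end Cfsg.Agent.S1521
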