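import Cfsg.Statements.S1522
import Cfsg.Agent.H20.Br2
import Cfsg.Agent.H5.PF6b1

set_option autoImplicit false
open Cfsg

namespace Cfsg.Agent.S1522

/-- Let K be a nilpotent normal subgroup of the finite group L of odd order with [K,K] < K < L and L/[K,K] a Frobenius group with kernel K/[K,K] (elements of K outside [K,K] are centralised modulo [K,K] only from inside K); let (S, τ, R) be a coherence system from L to G with S the functions induced from non-principal irreducible characters of K. Let Z be a nontrivial normal subgroup of L contained in the centre of K, and suppose every member of S outside S(Z) is an irreducible character of L. Then S minus S(Z) is the set of irreducible characters χ of L with χ z ≠ χ 1 for some z ∈ Z, and it is coherent. -/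
theorem result {L : Type*} [Group L] [Fintype L] {G : Type*} [Group G] [Fintype G] (K : Subgroup L) [hK : K.Normal] (hsolv : Group.IsSolvable K) (τ : (L → ℂ) → (G → ℂ)) (R : (L → ℂ) → Finset (G → ℂ)) (hS : Cfsg.IsCoherenceSystem (Cfsg.inducedIrrAbove K ⊥) τ R) (hodd : Odd (Nat.card L)) (hnil : Group.IsNilpotent K) (hH₁K : ⁅K, K⁆ < K) (hKL : K < ⊤) (hfrob : ∀ k ∈ K, k ∉ ⁅K, K⁆ → ∀ x : L, x * k * x⁻¹ * k⁻¹ ∈ ⁅K, K⁆ → x ∈ K) (Z : Subgroup L) [Z.Normal] (hZ1 : Z ≠ ⊥) (hZK : Z ≤ K) (hZc : ∀ z ∈ Z, ∀ k ∈ K, z * k = k * z) (hirr : ∀ χ ∈ Cfsg.inducedIrrAbove K ⊥ \ Cfsg.inducedIrrAbove K Z, Cfsg.IsIrrCharacter L χ) : Cfsg.inducedIrrAbove K ⊥ \ Cfsg.inducedIrrAbove K Z = {χ | Cfsg.IsIrrCharacter L χ ∧ ∃ z ∈ Z, χ z ≠ χ 1} ∧ Cfsg.IsCoherent (Cfsg.inducedIrrAbove K ⊥ \ Cfsg.inducedIrrAbove K Z) {1}ᶜ τ := by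
  open H20 H19 H5 Subgroup ComplexConjugate Classical in
  have nZ : ⊤ ≤ N(Z) := le_normalizer_of_normal
  have e0 : inducedIrrAbove K ⊥ \ inducedIrrAbove K Z = SInd ⊤ K Z ⊥ := by
    rw [inducedIrrAbove_eq bot_le, inducedIrrAbove_eq hZK]
    ext χ
    exact ⟨fun h => mem_SInd_of_cker le_top nZ hZK bot_le h.1 bot_le fun n => h.2
      ((mem_SInd_iff le_top le_normalizer_of_normal le_rfl nZ hZK).2 ⟨h.1, n⟩), fun h =>
      ⟨SInd_mono hZK le_rfl h, fun n => sind_not_le_cker le_top hZK h (sind_le_cker nZ hZK n)⟩⟩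
  rw [e0] at hirr ⊢
  have hi : SInd ⊤ K Z ⊥ ⊆ Irr ⊤ := fun χ h => mem_Irr_top.2 (hirr χ h)
  refine ⟨Set.ext fun χ => ⟨fun h => ⟨hirr χ h, ?_⟩, fun h => irr_mem_SInd le_top nZ hZK bot_le hi
    (mem_Irr_top.2 h.1) bot_le fun n => ?_⟩, ?_⟩
  · simpa [chr_le_cker (irr_chr (hi h)) le_top] using sind_not_le_cker le_top hZK h
  · obtain ⟨z, h1, h2⟩ := h.2
    exact h2 (cker_apply (n h1))
  rw [inducedIrrAbove_eq bot_le] at hS
  obtain ⟨τ', h, e⟩ := exists_subCoh hS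
  have c := csub_SInd (L := ⊤) (K := K) hZK (le_refl ⊥)
  have ho : Odd #(⊤ : Subgroup L) := by rwa [card_top']
  refine h.isCoherent c (SInd_nonempty _ ⟨hZK, le_normalizer_of_normal⟩ ⟨bot_le, le_normalizer_of_normal⟩
    (mt le_bot_iff.1 hZ1)) e ?_
  rcases h.chief normalIn_top hsolv ho le_normalizer_of_normal (bot_le.trans_lt hH₁K) (lcs_of_nil hnil ⊥)
    (fun k h1 h2 x _ => by rw [sup_bot_eq] at h2 ⊢; exact hfrob k h1 h2 x) with
    h1 | ⟨-, -, p, n, hp, k3, -⟩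
  · exact h1.mono c.sub
  rw [relIndex_bot_left] at k3
  have k4 := dvd_relIndex_sub_one normalIn_top le_normalizer_of_normal le_rfl hH₁K.le
    (sind_irr_of_lin normalIn_top le_normalizer_of_normal le_rfl hH₁K.le fun k h1 h2 x _ => hfrob k h1 h2 x)
  have k5 := one_lt_relIndex hH₁K.not_ge
  obtain ⟨m, -, hm⟩ := (Nat.dvd_prime_pow hp).1 (k3 ▸ relIndex_dvd_card ⁅K, K⁆ K)
  have m0 : m ≠ 0 := by rintro rfl; simp [hm] at k5
  refine coh_center normalIn_top (h.sub c) hp (fun p2 => ?_) k3 ?_ hZK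
    (fun z hz k hk => (hZc z hz k hk).symm) nZ hi
  · have := odd_relIndex (ho.of_dvd_nat (card_dvd_of_le le_top)) ⁅K, K⁆ (K := K)
    rw [hm, p2, ← Nat.not_even_iff_odd] at this
    exact this (even_two.pow_of_ne_zero m0)
  · rw [k3]
    refine ((hp.coprime_iff_not_dvd).2 fun n => hp.not_dvd_one ?_).pow_left _
    have := Nat.dvd_sub (hm ▸ dvd_pow_self p m0 : p ∣ ⁅K, K⁆.relIndex K) (n.trans k4)
    rwa [Nat.sub_sub_self k5.le] at this

end Cfsg.Agent.S1522
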