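import Cfsg.Statements.S1524
import Cfsg.Agent.H5.Bridge
-- import your own Cfsg.Agent.* helpers here

set_option autoImplicit false
open Cfsg

namespace Cfsg.Agent.S1524
open H5


/-- Let G be a finite group and H ≤ L subgroups with L of odd order, H ≠ ⊥ nilpotent and normal in L with a nontrivial complement W₁ in L (H ⊓ W₁ = ⊥, H ⊔ W₁ = L) acting on H without non-identity fixed points (L is a Frobenius group with kernel H), and suppose the underlying set of H is a TI-subset of G whose normaliser is L. Let S be the set of functions on L induced from the non-principal irreducible characters of H. Then (S, L minus 1, induction to G) is coherent. -/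
theorem result {G : Type*} [Group G] [Fintype G] (H L W₁ : Subgroup G) [Fintype L] (hodd : Odd (Nat.card L)) (hHL : H ≤ L) (hW₁L : W₁ ≤ L) (hH1 : H ≠ ⊥) (hW1 : W₁ ≠ ⊥) (hnil : Group.IsNilpotent H) (hHn : ∀ x ∈ L, ∀ h ∈ H, x * h * x⁻¹ ∈ H) (hinf : H ⊓ W₁ = ⊥) (hsup : H ⊔ W₁ = L) (hfpf : ∀ w ∈ W₁, w ≠ 1 → ∀ h ∈ H, w * h = h * w → h = 1) (hTI : Cfsg.IsTISubset (H : Set G)) (hN : Subgroup.normalizer (H : Set G) = L) : Cfsg.IsCoherent (Cfsg.inducedIrrAbove (H.subgroupOf L) ⊥) {1}ᶜ (fun α : L → ℂ => Cfsg.indFun L α) := by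
  have hti := normedTI_of_isTI hH1 hTI hN
  have hF : H19.Frob H W₁ L := ⟨⟨hW₁L.trans hN.ge, hsup, hinf⟩, hH1, hW1, fun w hw e =>
    eq_bot_iff.2 fun h hh => hfpf w hw e h hh.1 (H19.mem_cent1.1 hh.2).symm⟩
  have hc := pf6b.sibley (τ := H20.Ind ⊤ L) hodd hnil hti (fun _ _ => rfl) (Or.inl hF)
  refine isCoherent_of_coherent (fun φ hφ => ext_mem_SInd hHL hφ)
    (fun α _ => by rw [H20.Ind_top_eq_indFun, H20.rs_ext]) hc ?_
  obtain ⟨ζ, h1, -⟩ := exists_sind_lin hF.sd.normal (H19.sol_of_nil hnil) hH1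
  have h2 := H20.SInd_sub_bot _ _ _ _ h1
  refine exists_zspanOn_of_ne (rs_mem_inducedIrrAbove hHL h2)
    (rs_mem_inducedIrrAbove hHL (H20.sind_star h2)) (fun e => ?_)
    (H20.chr_star_one (H20.sind_chr hHL h2)).symm
  exact H20.sind_star_ne hF.sd.normal hodd le_rfl h2 (H20.eq_of_rs
    (H20.chr_star (H20.sind_chr hHL h2)).2 (H20.sind_chr hHL h2).2 e.symm)

end Cfsg.Agent.S1524
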