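import Cfsg.Statements.S1527
import Cfsg.Agent.H5.Bridge
-- import your own Cfsg.Agent.* helpers here

set_option autoImplicit false
open Cfsg

namespace Cfsg.Agent.S1527
open H5


/-- Let G be a finite group and H i (i in a finite index type) subgroups of pairwise coprime orders, each of whose underlying sets is a TI-subset of G, such that every non-identity element of G is conjugate to an element of some H i. Then Nat.card G − 1 = Σ_i [G : N_G(H i)] · (Nat.card (H i) − 1). -/
theorem result {G : Type*} [Group G] [Finite G] {ι : Type*} [Fintype ι] (H : ι → Subgroup G) (hcop : ∀ i j, i ≠ j → Nat.Coprime (Nat.card (H i)) (Nat.card (H j))) (hTI : ∀ i, Cfsg.IsTISubset (H i : Set G)) (hcover : ∀ g : G, g ≠ 1 → ∃ i, ∃ x : G, x * g * x⁻¹ ∈ H i) : Nat.card G - 1 = ∑ i, (Subgroup.normalizer (H i : Set G)).index * (Nat.card (H i) - 1) := by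
  have h1 := sum_partition (Γ := G) Finset.univ (D := fun i => H19.classSupp (H19.nt (H i)))
    (fun i _ j _ e => classSupp_disj (hcop i j e)) (G₀ := {1}) (fun g => ⟨by
      rintro rfl i - ⟨a, ha, y, e⟩
      exact ha.2 (H20.conj_eq_one_iff'.1 e.symm), fun h => by
      by_contra e
      obtain ⟨i, x, hx⟩ := hcover g e
      exact h i (Finset.mem_univ i) (H20.conj_mem_classSupp_iff.1 (H20.subset_classSupp _
        ⟨hx, fun e1 => e (H20.conj_eq_one_iff'.1 e1)⟩))⟩) fun _ => 1
  simp only [H20.sum_fin_const, nsmul_eq_mul, mul_one, H20.ncard_sub, H20.card_top',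
    Set.ncard_singleton] at h1
  have h2 : Nat.card G = 1 + ∑ i, (H19.classSupp (H19.nt (H i))).ncard := by exact_mod_cast h1
  rw [h2, Nat.add_sub_cancel_left]
  refine Finset.sum_congr rfl fun i _ => ?_
  by_cases h0 : H i = ⊥
  · have : H19.classSupp (H19.nt (H i)) = ∅ := by
      rw [Set.eq_empty_iff_forall_notMem]
      rintro _ ⟨a, ha, -⟩
      exact ha.2 (Subgroup.mem_bot.1 (h0 ▸ ha.1))
    rw [this, h0]; simp
  · have h3 := card_Dsupp (dade_of_ti (normedTI_of_isTI h0 (hTI i) rfl) (H20.one_not_mem_nt _))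
    rw [Dsupp_bot, H20.ncard_nt, ← (Subgroup.normalizer (H i : Set G)).index_mul_card] at h3
    refine Nat.eq_of_mul_eq_mul_right (H19.card_pos (Subgroup.normalizer (H i : Set G))) ?_
    rw [h3]; ring

end Cfsg.Agent.S1527
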