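import Cfsg.Statements.S1529
import Cfsg.Agent.H20.Br2

set_option autoImplicit false
open Cfsg

namespace Cfsg.Agent.S1529

/-- Let N be a subgroup of the finite group G, S a set of irreducible characters of N with at least two members, and τ₁ a linear isometry on the integer combinations of S with virtual-character values such that τ₁ α vanishes at 1 whenever α ∈ ℤ[S] does. Then there is ε ∈ {1, −1} such that ε • τ₁ χ is an irreducible character of G for every χ ∈ S, and distinct members of S give distinct characters. -/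
theorem result {G : Type*} [Group G] [Fintype G] (N : Subgroup G) [Fintype N] (S : Set (N → ℂ)) (hirr : ∀ χ ∈ S, Cfsg.IsIrrCharacter N χ) (htwo : ∃ χ ∈ S, ∃ ψ ∈ S, χ ≠ ψ) (τ₁ : (N → ℂ) → (G → ℂ)) (hτ₁ : Cfsg.IsLinearIsometryOn (Cfsg.zspan S) τ₁) (h0 : ∀ α ∈ Cfsg.zspan S, α 1 = 0 → τ₁ α 1 = 0) : ∃ ε : ℂ, (ε = 1 ∨ ε = -1) ∧ (∀ χ ∈ S, Cfsg.IsIrrCharacter G (ε • τ₁ χ)) ∧ (∀ χ ∈ S, ∀ ψ ∈ S, τ₁ χ = τ₁ ψ → χ = ψ) := by
  open H20 H19 H5 Subgroup ComplexConjugate Classical in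
  have m : ∀ χ ∈ S, χ ∈ zspan S := fun _ h => Submodule.subset_span h
  have i : ∀ χ ∈ S, χ ∈ Irr ⊤ := fun χ h => mem_Irr_top.2 (hirr χ h)
  have o : ∀ χ ∈ S, ∀ ψ ∈ S, dot ⊤ (τ₁ χ) (τ₁ ψ) = dot ⊤ χ ψ := fun χ h ψ h' => by
    rw [dot_top_eq, dot_top_eq, hτ₁.2.2.1 _ (m χ h) _ (m ψ h')]
  have d : ∀ χ ∈ S, DIrr ⊤ (τ₁ χ) := fun χ h =>
    ⟨mem_ZIrr_top.2 (hτ₁.2.2.2 χ (m χ h)), by rw [o χ h χ h, irr_dot_self (i χ h)]⟩
  obtain ⟨φ, hφ, -⟩ := htwo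
  have k : ∀ χ ∈ S, (deg φ : ℝ) * (τ₁ χ 1).re = deg χ * (τ₁ φ 1).re := fun χ h => by
    have m1 := Submodule.smul_mem _ (deg φ : ℤ) (m χ h)
    have m2 := Submodule.smul_mem _ (-deg χ : ℤ) (m φ hφ)
    have := h0 _ (add_mem m1 m2) (by simp [irr_deg (i χ h), irr_deg (i φ hφ), mul_comm])
    rw [hτ₁.1 _ m1 _ m2, hτ₁.2.1 _ (m χ h), hτ₁.2.1 _ (m φ hφ)] at this
    simpa [← sub_eq_add_neg, sub_eq_zero] using congrArg Complex.re this
  have p : (0 : ℝ) < deg φ := by exact_mod_cast irr_deg_pos (i φ hφ)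
  have inj : ∀ χ ∈ S, ∀ ψ ∈ S, τ₁ χ = τ₁ ψ → χ = ψ := fun χ h ψ h' e => irr_eq_of_dot (i χ h) (i ψ h')
    (by rw [← o χ h ψ h', e, (d ψ h').self]; exact one_ne_zero)
  rcases le_total 0 (τ₁ φ 1).re with e | e
  · refine ⟨1, Or.inl rfl, fun χ h => mem_Irr_top.1 ?_, inj⟩
    rw [one_smul]
    exact (d χ h).irr_of_re (le_of_mul_le_mul_left (by rw [k χ h, mul_zero]; positivity) p)
  · refine ⟨-1, Or.inr rfl, fun χ h => mem_Irr_top.1 ?_, inj⟩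
    rw [neg_smul, one_smul]
    refine (d χ h).neg.irr_of_re (le_of_mul_le_mul_left ?_ p)
    simpa [k χ h] using mul_nonpos_of_nonneg_of_nonpos (Nat.cast_nonneg (deg χ)) e

end Cfsg.Agent.S1529
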