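import Cfsg.Statements.S1530
import Cfsg.Agent.H20.Br2

set_option autoImplicit false
open Cfsg

namespace Cfsg.Agent.S1530

/-- Let N be a subgroup of the finite group G and S₀ a finite set of irreducible characters of N, χ an irreducible character of N not in S₀, with degrees ξ 1 = d ξ. Let τ be a linear isometry on the integer combinations of S₀ ∪ {χ} vanishing at 1, with values virtual characters of G vanishing at 1, such that (S₀, N minus 1, τ) is coherent. If some ψ ∈ S₀ has d ψ dividing d χ and 2 · d ψ · d χ < Σ_{ξ ∈ S₀} (d ξ)², then (S₀ ∪ {χ}, N minus 1, τ) is coherent. -/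
theorem result {G : Type*} [Group G] [Fintype G] (N : Subgroup G) [Fintype N] (S₀ : Finset (N → ℂ)) (χ : N → ℂ) (hirr : ∀ ξ ∈ S₀, Cfsg.IsIrrCharacter N ξ) (hχ : Cfsg.IsIrrCharacter N χ) (hχS : χ ∉ S₀) (d : (N → ℂ) → ℕ) (hd : ∀ ξ ∈ insert χ S₀, ξ 1 = (d ξ : ℂ)) (τ : (N → ℂ) → (G → ℂ)) (hτ : Cfsg.IsLinearIsometryOn (Cfsg.zspanOn (↑(insert χ S₀) : Set (N → ℂ)) {1}ᶜ) τ) (hτ1 : ∀ α ∈ Cfsg.zspanOn (↑(insert χ S₀) : Set (N → ℂ)) {1}ᶜ, τ α 1 = 0) (hcoh : Cfsg.IsCoherent (↑S₀ : Set (N → ℂ)) {1}ᶜ τ) (ψ : N → ℂ) (hψ : ψ ∈ S₀) (hdvd : d ψ ∣ d χ) (hlt : 2 * d ψ * d χ < ∑ ξ ∈ S₀, d ξ ^ 2) : Cfsg.IsCoherent (↑(insert χ S₀) : Set (N → ℂ)) {1}ᶜ τ := by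
  open H20 H19 H5 Subgroup ComplexConjugate Classical in
  have hi : insert χ S₀ ⊆ Irr ⊤ :=
    Finset.insert_subset (mem_Irr_top.2 hχ) fun ξ h => mem_Irr_top.2 (hirr ξ h)
  have hc : ∀ ξ ∈ insert χ S₀, ξ ∈ Chr ⊤ ∧ ξ ≠ 0 := fun ξ h => ⟨irr_chr (hi h), irr_ne_zero (hi h)⟩
  have s : S₀ ⊆ insert χ S₀ := Finset.subset_insert _ _
  obtain ⟨τ', h1, e⟩ := exists_isoOn hc hτ hτ1
  obtain ⟨ν, hν⟩ := coherent_of_isCoherent (fun ξ h => hc ξ (s h)) hcoh s e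
  have hd' : ∀ ξ ∈ insert χ S₀, deg ξ = d ξ := fun ξ h => deg_eq_of_cast (hd ξ h)
  have e1 := hd' _ (s hψ)
  have e2 := hd' _ (Finset.mem_insert_self _ _)
  exact Coherent.isCoherent ⟨ν, (IsoOn.feit (h1.mono fun _ => by simp) (fun _ h => hi (by simpa using h))
    hν hχS hψ (by rwa [e1, e2]) (by
    rwa [e1, e2, Finset.sum_congr rfl fun a ha => by rw [hd' a (s ha)]])).mono fun _ => by simp⟩ le_rfl e
    (hcoh.1.imp fun α h => ⟨zspanOn_mono s h.1, h.2⟩)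

end Cfsg.Agent.S1530
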