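import Cfsg.Statements.S1531
import Cfsg.Agent.H20.Br2

set_option autoImplicit false
open Cfsg

namespace Cfsg.Agent.S1531

/-- Let N be a subgroup of the finite group G, S a set of irreducible characters of N, and α a linear isometry on the integer combinations of S vanishing at 1 with values virtual characters of G vanishing at 1. Let X, Y ⊆ S be disjoint, each with at least two members, and σ, τ linear isometries on ℤ[X], ℤ[Y] into virtual characters agreeing with α on the members vanishing at 1. Then ⟨σ χ, τ η⟩ = 0 for χ ∈ X, η ∈ Y; and if for some χ₀ ∈ X, η₀ ∈ Y with degrees c = χ₀ 1, e = η₀ 1 one has α (c • η₀ − e • χ₀) = c • τ η₀ − e • σ χ₀, then (X ∪ Y, N minus 1, α) is coherent. -/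
theorem result {G : Type*} [Group G] [Fintype G] (N : Subgroup G) [Fintype N] (S X Y : Set (N → ℂ)) (hirr : ∀ ξ ∈ S, Cfsg.IsIrrCharacter N ξ) (hXS : X ⊆ S) (hYS : Y ⊆ S) (hXY : Disjoint X Y) (hX2 : ∃ a ∈ X, ∃ b ∈ X, a ≠ b) (hY2 : ∃ a ∈ Y, ∃ b ∈ Y, a ≠ b) (α : (N → ℂ) → (G → ℂ)) (hα : Cfsg.IsLinearIsometryOn (Cfsg.zspanOn S {1}ᶜ) α) (hα1 : ∀ θ ∈ Cfsg.zspanOn S {1}ᶜ, α θ 1 = 0) (σ τ : (N → ℂ) → (G → ℂ)) (hσ : Cfsg.IsLinearIsometryOn (Cfsg.zspan X) σ) (hσα : ∀ θ ∈ Cfsg.zspanOn X {1}ᶜ, σ θ = α θ) (hτ : Cfsg.IsLinearIsometryOn (Cfsg.zspan Y) τ) (hτα : ∀ θ ∈ Cfsg.zspanOn Y {1}ᶜ, τ θ = α θ) : (∀ χ ∈ X, ∀ η ∈ Y, Cfsg.classInner (σ χ) (τ η) = 0) ∧ ((∃ χ₀ ∈ X, ∃ η₀ ∈ Y, α (χ₀ 1 • η₀ - η₀ 1 • χ₀) = χ₀ 1 • τ η₀ - η₀ 1 • σ χ₀) → Cfsg.IsCoherent (X ∪ Y) {1}ᶜ α) := by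
  open H20 H19 H5 Subgroup ComplexConjugate Classical in
  have m : ∀ {Z : Set (N → ℂ)}, ∀ χ ∈ Z, χ ∈ zspan Z := fun _ h => Submodule.subset_span h
  have i : ∀ χ ∈ S, χ ∈ Irr ⊤ := fun χ h => mem_Irr_top.2 (hirr χ h)
  obtain ⟨T, rfl⟩ := ((Irr ⊤).finite_toSet.subset i).exists_finset_coe
  obtain ⟨X, rfl⟩ := (T.finite_toSet.subset hXS).exists_finset_coe
  obtain ⟨Y, rfl⟩ := (T.finite_toSet.subset hYS).exists_finset_coe
  have hc : ∀ ξ ∈ T, ξ ∈ Chr ⊤ ∧ ξ ≠ 0 := fun ξ h => ⟨irr_chr (i ξ h), irr_ne_zero (i ξ h)⟩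
  obtain ⟨α', h1, e⟩ := exists_isoOn hc hα hα1
  obtain ⟨μ, hμ, eμ⟩ := exists_coh (fun ξ h => hc ξ (hXS h)) hσ
    fun θ h => (hσα θ h).trans (e θ (zspanOn_mono hXS h))
  obtain ⟨ν, hν, eν⟩ := exists_coh (fun ξ h => hc ξ (hYS h)) hτ
    fun θ h => (hτα θ h).trans (e θ (zspanOn_mono hYS h))
  have o : ∀ χ ∈ X, ∀ η ∈ Y, dot ⊤ (μ χ) (ν η) = 0 := fun χ hχ η hη =>
    h1.coh_orth_irr i hXS hYS (Finset.disjoint_coe.1 hXY) hμ hν hX2 hY2 hχ hη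
  refine ⟨fun χ hχ η hη => by rw [← dot_top_eq, ← eμ χ hχ, ← eν η hη, o χ hχ η hη], ?_⟩
  rintro ⟨χ, hχ, η, hη, h⟩
  have z : (χ 1 • η - η 1 • χ) 1 = 0 := by simp [mul_comm]
  rw [e _ (deg_sub_mem (hXS hχ) (hYS hη) (irr_deg (i χ (hXS hχ))) (irr_deg (i η (hYS hη)))),
    ← hν.agree _ z, ← eμ χ hχ, ← eν η hη, map_sub, map_smul, map_smul, sub_right_inj,
    smul_right_inj (irr_one_ne (i η (hYS hη)))] at h
  have k : ∀ ξ ∈ X, ν ξ = μ ξ := fun ξ _ => by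
    have z := sub_div_smul_one (irr_one_ne (i χ (hXS hχ))) ξ
    have := (hν.agree _ z).trans (hμ.agree _ z).symm
    rwa [map_sub, map_sub, map_smul, map_smul, h, sub_left_inj] at this
  obtain ⟨a, ha, b, hb, hab⟩ := hX2
  rw [← Finset.coe_union]
  have s : ((X ∪ Y : Finset (N → ℂ)) : Set (N → ℂ)) ⊆ T := by simp [hXS, hYS]
  refine Coherent.isCoherent ⟨ν, h1.coh_of_pivot hν.agree s (Finset.mem_union_right _ hη)
    (irr_one_ne (i η (hYS hη))) (fun ξ hξ => ?_) fun ξ hξ => ?_⟩ s e ⟨_, deg_sub_mem (by simp [ha])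
      (by simp [hb]) (irr_deg (i a (hXS ha))) (irr_deg (i b (hXS hb))), fun n => ?_⟩
  · rcases Finset.mem_union.1 hξ with hξ | hξ
    exacts [k ξ hξ ▸ hμ.zirr ξ hξ, hν.zirr ξ hξ]
  · rcases Finset.mem_union.1 hξ with hξ | hξ
    · rw [k ξ hξ, o ξ hξ η hη, irr_dot_ne (i ξ (hXS hξ)) (i η (hYS hη))
        fun n => Set.disjoint_left.1 hXY hξ (n ▸ hη)]
    · exact hν.isom ξ hξ η hη
  · have := congrArg (dot ⊤ · b) n
    simp [dot_sub_left, dot_smul_left, irr_dot_self (i b (hXS hb)), irr_one_ne (i a (hXS ha)),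
      irr_dot_ne (i a (hXS ha)) (i b (hXS hb)) hab] at this

end Cfsg.Agent.S1531
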