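import Cfsg.Statements.S1532
import Cfsg.Agent.H5.Feit
-- import your own Cfsg.Agent.* helpers here

set_option autoImplicit false
open Cfsg

namespace Cfsg.Agent.S1532
open H5


/-- Let G be a finite group, p an odd prime and P a Sylow p-subgroup that is non-abelian, whose underlying set is a TI-subset of G, with P properly contained in its set normaliser N and C_G(x) ≤ P for every non-identity x ∈ P. Let Z be a nontrivial subgroup of the centre of P normalised by N. Then the set of irreducible characters χ of N with χ z ≠ χ 1 for some z ∈ Z is coherent for the map induced by induction from N to G. -/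
theorem result {G : Type*} [Group G] [Fintype G] (p : ℕ) [Fact p.Prime] (hp : p ≠ 2) (P : Sylow p G) (hna : ¬ IsMulCommutative (P : Subgroup G)) (hTI : Cfsg.IsTISubset ((P : Subgroup G) : Set G)) (hlt : (P : Subgroup G) < Subgroup.normalizer ((P : Subgroup G) : Set G)) (hC : ∀ k ∈ (P : Subgroup G), k ≠ 1 → Subgroup.centralizer ({k} : Set G) ≤ (P : Subgroup G)) [Fintype ↥(Subgroup.normalizer ((P : Subgroup G) : Set G))] (Z : Subgroup G) (hZ1 : Z ≠ ⊥) (hZP : ∀ z ∈ Z, z ∈ (P : Subgroup G) ∧ ∀ y ∈ (P : Subgroup G), z * y = y * z) (hZn : ∀ x ∈ Subgroup.normalizer ((P : Subgroup G) : Set G), ∀ z ∈ Z, x * z * x⁻¹ ∈ Z) : Cfsg.IsCoherent {χ : ↥(Subgroup.normalizer ((P : Subgroup G) : Set G)) → ℂ | Cfsg.IsIrrCharacter ↥(Subgroup.normalizer ((P : Subgroup G) : Set G)) χ ∧ ∃ z : ↥(Subgroup.normalizer ((P : Subgroup G) : Set G)), (z : G) ∈ Z ∧ χ z ≠ χ 1} {1}ᶜ (fun α => Cfsg.indFun (Subgroup.normalizer ((P : Subgroup G) : Set G)) α) := by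
  open H19 H20 Subgroup in
  have hP1 : (P : Subgroup G) ≠ ⊥ := fun e => hna (e ▸ inferInstance)
  obtain ⟨E, hF⟩ := exists_frob (H := (P : Subgroup G)) ⟨hlt.le, le_rfl⟩ hP1 hlt fun h hh e =>
    inf_le_right.trans (hC h hh e)
  have hZ : Z ≤ P := fun z hz => (hZP z hz).1
  have hna' : ⁅(P : Subgroup G), (P : Subgroup G)⁆ ≠ ⊥ := fun e =>
    hna (H28.le_centralizer_self_iff.1 (commutator_eq_bot_iff_le_centralizer.1 e))
  obtain ⟨k, hk⟩ := IsPGroup.iff_card.1 P.2
  have ho : Odd (Nat.card (normalizer ((P : Subgroup G) : Set G))) := by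
    rw [← card_mul_relIndex hlt.le, hk]
    exact (((Fact.out : p.Prime).odd_of_ne_two hp).pow).mul
      (Nat.not_even_iff_odd.1 fun e => hna' (frob_ab_of_even hF e))
  refine isCoherent_of_coherent (fun φ hφ => (frob_ext_mem hF).2
    ⟨hφ.1, hφ.2.imp fun z hz => ⟨hZ hz.1, hz.2⟩⟩) (fun α _ => by rw [Ind_top_eq_indFun, rs_ext])
    (pf6b.sibley ho (frob_nil hF) (normedTI_of_isTI hP1 hTI rfl) (fun _ _ => rfl) (.inl hF)) ?_
  obtain ⟨z, hz, z1⟩ := (bot_or_exists_ne_one Z).resolve_left hZ1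
  obtain ⟨χ, h1, h2⟩ := exists_irr_not_mem_charKer (G := normalizer ((P : Subgroup G) : Set G))
    (g := ⟨z, hlt.le (hZ hz)⟩) fun e => z1 (congrArg Subtype.val e)
  rw [h1.mem_charKer_iff] at h2
  exact exists_zspanOn_of_irr ⟨h1, _, hz, h2⟩
    ⟨h1.star, _, hz, fun e => h2 ((starRingEnd ℂ).injective e)⟩ h1 h1.star
    (h1.star_ne_of_odd ho fun e => h2 (by rw [e])).symm

end Cfsg.Agent.S1532
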