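import Cfsg.Statements.S1535
import Cfsg.Agent.H5.Feit
-- import your own Cfsg.Agent.* helpers here

set_option autoImplicit false
open Cfsg

namespace Cfsg.Agent.S1535
open H5


/-- Let N be a finite group with a proper nontrivial normal subgroup H such that every element commuting with a non-identity element of H lies in H (N is a Frobenius group with kernel H); let e be the index of H and suppose Nat.card H ≠ e + 1. Let S be the set of irreducible characters χ of N with χ h ≠ χ 1 for some h ∈ H, and τ a linear isometry on the integer combinations of S vanishing at 1, with values virtual characters of a finite group G vanishing at 1. Then (S, N minus 1, τ) is coherent, or there is a prime p with Nat.card H a power of p, H non-abelian and [H : [H,H]] ≤ 4e² + 1. -/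
theorem result {N : Type*} [Group N] [Fintype N] {G : Type*} [Group G] [Fintype G] (H : Subgroup N) [H.Normal] (hH1 : H ≠ ⊥) (hH2 : H ≠ ⊤) (hC : ∀ h ∈ H, h ≠ 1 → Subgroup.centralizer ({h} : Set N) ≤ H) (he : Nat.card H ≠ H.index + 1) (τ : (N → ℂ) → (G → ℂ)) (hτ : Cfsg.IsLinearIsometryOn (Cfsg.zspanOn {χ : N → ℂ | Cfsg.IsIrrCharacter N χ ∧ ∃ h ∈ H, χ h ≠ χ 1} {1}ᶜ) τ) (hτ1 : ∀ α ∈ Cfsg.zspanOn {χ : N → ℂ | Cfsg.IsIrrCharacter N χ ∧ ∃ h ∈ H, χ h ≠ χ 1} {1}ᶜ, τ α 1 = 0) : Cfsg.IsCoherent {χ : N → ℂ | Cfsg.IsIrrCharacter N χ ∧ ∃ h ∈ H, χ h ≠ χ 1} {1}ᶜ τ ∨ ∃ p : ℕ, p.Prime ∧ (∃ m : ℕ, Nat.card H = p ^ m) ∧ ¬ IsMulCommutative H ∧ (⁅H, H⁆.subgroupOf H).index ≤ 4 * H.index ^ 2 + 1 := by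
  open H19 H20 Subgroup in
  obtain ⟨E, hF⟩ := exists_frob (H := H) (L := ⊤) ⟨le_top, by rw [normalizer_eq_top]⟩ hH1
    hH2.lt_top fun h hh e => inf_le_right.trans (hC h hh e)
  have e : {χ : N → ℂ | Cfsg.IsIrrCharacter N χ ∧ ∃ h ∈ H, χ h ≠ χ 1} = (SInd ⊤ H H ⊥ : Set _) := by
    ext χ; rw [Finset.mem_coe, frob_mem_sind hF, mem_Irr_top]; rfl
  rw [e] at hτ hτ1 ⊢
  have hi : SInd ⊤ H H ⊥ ⊆ Irr ⊤ := H20.frob_sind_irr hF le_rfl
  obtain ⟨τ', h1, h2⟩ := exists_isoOn (fun χ h => ⟨irr_chr (hi h), irr_ne_zero (hi h)⟩) hτ hτ1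
  obtain h | ⟨p, m, hp, hm, h3, h4⟩ := feit_frob hF h1
  · obtain ⟨χ, c1, φ, c2, c3⟩ := frob_exists_two hF (by rwa [relIndex_top_right])
    exact .inl (h.isCoherent le_rfl h2
      (exists_zspanOn_of_irr c1 c2 (mem_Irr_top.1 (hi c1)) (mem_Irr_top.1 (hi c2)) c3))
  · exact .inr ⟨p, hp, ⟨m, hm⟩, fun h => h3 (commutator_eq_bot_iff_le_centralizer.2
      (H28.le_centralizer_self_iff.2 h)), by rwa [relIndex_top_right] at h4⟩

end Cfsg.Agent.S1535
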