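import Cfsg.Statements.S1536
import Cfsg.Agent.H6.BrauerPerm

set_option autoImplicit false
open Cfsg

namespace Cfsg.Agent.S1536

/-- Let H be a normal subgroup of the finite group M whose order is coprime to its index. For x ∈ M: some non-principal irreducible character of H is unchanged under h ↦ θ(x h x⁻¹) if and only if some non-identity element of H commutes with x. -/
theorem result {M : Type*} [Group M] [Finite M] (H : Subgroup M) [hN : H.Normal] (hHall : Nat.Coprime (Nat.card H) H.index) (x : M) : (∃ θ : H → ℂ, Cfsg.IsIrrCharacter H θ ∧ θ ≠ (fun _ => 1) ∧ (fun h : H => θ ⟨x * h * x⁻¹, hN.conj_mem h h.2 x⟩) = θ) ↔ ∃ h ∈ H, h ≠ 1 ∧ x * h = h * x := by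
  refine ⟨fun ⟨θ, h1, h2, h3⟩ => by_contra fun e => h2 (H6.eq_one_of_fixed_aut
    (MulAut.conjNormal x) (fun g hg => ?_) h1 h3), fun ⟨h, hh, h1, h2⟩ => ?_⟩
  · have k : ∀ h : H, x * h = h * x → h = 1 := fun h c => by_contra fun h1 =>
      e ⟨h, h.2, fun e' => h1 (Subtype.ext e'), c⟩
    obtain ⟨c, hc⟩ := isConj_iff.1 hg
    obtain ⟨m, hm⟩ := Finite.injective_iff_surjective.1 (show Function.Injective fun m : H =>
      m⁻¹ * MulAut.conjNormal x m from fun m n e => mul_inv_eq_one.1 (k _ (by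
        have := congrArg Subtype.val e
        push_cast [MulAut.conjNormal_apply] at this ⊢
        calc _ = m * ((m : M)⁻¹ * (x * m * x⁻¹)) * x * (n : M)⁻¹ := by group
          _ = _ := by rw [this]; group))) c⁻¹
    have e1 := congrArg Subtype.val hc
    have e2 := congrArg Subtype.val hm
    push_cast [MulAut.conjNormal_apply] at e1 e2
    simpa using k (m * g * m⁻¹) (by
      push_cast
      calc _ = m * ((m : M)⁻¹ * (x * m * x⁻¹)) * (x * g * x⁻¹) * x * (m : M)⁻¹ := by group
        _ = m * g * ((c : M)⁻¹) * x * (m : M)⁻¹ := by rw [e2, ← e1]; group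
        _ = _ := by rw [← e2]; group)
  have h3 := H6.brauer_perm_aut (MulAut.conjNormal (H := H) x)
  have : Nontrivial {C : ConjClasses H //
      ConjClasses.map (MulAut.conjNormal (H := H) x).toMonoidHom C = C} :=
    ⟨⟨ConjClasses.mk ⟨h, hh⟩, congrArg ConjClasses.mk (Subtype.ext (mul_inv_eq_of_eq_mul h2))⟩,
      ⟨ConjClasses.mk 1, congrArg ConjClasses.mk (map_one _)⟩, fun e => h1 (congrArg Subtype.val
        (isConj_one_left.1 (ConjClasses.mk_eq_mk_iff_isConj.1 (congrArg Subtype.val e))))⟩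
  have := Finite.one_lt_card_iff_nontrivial.1 (Finite.one_lt_card.trans_eq h3.symm)
  obtain ⟨⟨χ, h4⟩, h5⟩ := exists_ne (⟨H5.irrOne H, rfl⟩ : {χ : Cfsg.IrrCharacter H //
    (χ : H → ℂ) ∘ MulAut.conjNormal (H := H) x = χ})
  exact ⟨χ, χ.2, fun e => h5 (Subtype.ext (Subtype.ext e)), h4⟩

end Cfsg.Agent.S1536
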