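import Cfsg.Statements.S1546
-- import your own Cfsg.Agent.* helpers here

set_option autoImplicit false
open Cfsg

namespace Cfsg.Agent.S1546

/-- Let p and q be odd primes and N = (p ^ q − 1) / (p − 1) = 1 + p + ⋯ + p^(q−1). Then N is odd; if p ≡ 1 (mod q) then q ∣ N; and if p is not ≡ 1 (mod q) then N is coprime to p − 1 and every divisor of N is ≡ 1 (mod q). -/
theorem result (p q : ℕ) (hp : p.Prime) (hq : q.Prime) (hp2 : p ≠ 2) (hq2 : q ≠ 2) : Odd ((p ^ q - 1) / (p - 1)) ∧ (p % q = 1 → q ∣ (p ^ q - 1) / (p - 1)) ∧ (p % q ≠ 1 → Nat.Coprime ((p ^ q - 1) / (p - 1)) (p - 1) ∧ ∀ x : ℕ, x ∣ (p ^ q - 1) / (p - 1) → x % q = 1) := by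
  have hp1 : 1 < p := hp.one_lt
  have hN : (p ^ q - 1) / (p - 1) = ∑ i ∈ Finset.range q, p ^ i := (Nat.geomSum_eq hp.two_le q).symm
  have hmul : (∑ i ∈ Finset.range q, p ^ i) * (p - 1) = p ^ q - 1 := by
    rw [← hN]
    exact Nat.div_mul_cancel (by simpa using Nat.sub_dvd_pow_sub_pow p 1 q)
  rw [hN]
  have hpo : Odd p := hp.odd_of_ne_two hp2
  have hqo : Odd q := hq.odd_of_ne_two hq2
  -- reduction modulo a divisor of p - 1
  have key : ∀ r : ℕ, (p : ZMod r) = 1 → ((∑ i ∈ Finset.range q, p ^ i : ℕ) : ZMod r) = q := by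
    intro r h
    push_cast
    simp [h]
  have hodd : Odd (∑ i ∈ Finset.range q, p ^ i) := by
    have h1 : (p : ZMod 2) = 1 := (ZMod.natCast_eq_one_iff_odd).2 hpo
    have := key 2 h1
    rw [(ZMod.natCast_eq_one_iff_odd).2 hqo] at this
    exact (ZMod.natCast_eq_one_iff_odd).1 this
  have hmod : ∀ r : ℕ, 1 < r → ((p : ZMod r) = 1 ↔ p % r = 1) := by
    intro r hr
    have := ZMod.natCast_eq_natCast_iff' p 1 r
    rw [Nat.mod_eq_of_lt hr] at this
    simpa using this
  -- every prime divisor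
  have hprime : p % q ≠ 1 → ∀ r : ℕ, r.Prime → r ∣ ∑ i ∈ Finset.range q, p ^ i →
      (p : ZMod r) ≠ 1 ∧ r % q = 1 := by
    intro hne r hr hd
    haveI := Fact.mk hr
    have h0 : ((∑ i ∈ Finset.range q, p ^ i : ℕ) : ZMod r) = 0 := (ZMod.natCast_eq_zero_iff _ _).2 hd
    have h1 : (p : ZMod r) ≠ 1 := by
      intro h
      rw [key r h, ZMod.natCast_eq_zero_iff] at h0
      have : r = q := (Nat.prime_dvd_prime_iff_eq hr hq).1 h0
      subst this
      exact hne ((hmod r hr.one_lt).1 h)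
    refine ⟨h1, ?_⟩
    have h2 : (p : ZMod r) ^ q = 1 := by
      have h3 : ((p ^ q - 1 : ℕ) : ZMod r) = 0 := by
        rw [← hmul]; push_cast at h0 ⊢; rw [h0]; simp
      rw [Nat.cast_sub (Nat.one_le_pow _ _ hp.pos)] at h3
      push_cast at h3
      exact sub_eq_zero.1 h3
    have h4 : orderOf (p : ZMod r) = q := by
      haveI := Fact.mk hq
      exact orderOf_eq_prime h2 h1
    have h5 : (p : ZMod r) ≠ 0 := by
      intro h; rw [h, zero_pow hq.ne_zero] at h2; exact zero_ne_one h2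
    have h6 := ZMod.orderOf_dvd_card_sub_one h5
    rw [h4] at h6
    obtain ⟨k, hk⟩ := h6
    have : r = q * k + 1 := by have := hr.pos; omega
    rw [this, Nat.mul_add_mod, Nat.mod_eq_of_lt hq.one_lt]
  refine ⟨hodd, fun h => ?_, fun h => ⟨?_, ?_⟩⟩
  · have := key q ((hmod q hq.one_lt).2 h)
    rw [ZMod.natCast_self, ZMod.natCast_eq_zero_iff] at this
    exact this
  · apply Nat.Coprime.symm
    apply Nat.coprime_of_dvd
    intro r hr h1 h2
    apply (hprime h r hr h2).1
    have : ((p - 1 : ℕ) : ZMod r) = 0 := (ZMod.natCast_eq_zero_iff _ _).2 h1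
    rw [Nat.cast_sub hp.pos] at this
    simpa using sub_eq_zero.1 this
  · intro x hx
    have hx0 : x ≠ 0 := by
      rintro rfl
      rw [zero_dvd_iff] at hx
      rw [hx] at hodd; exact absurd hodd (by decide)
    induction x using Nat.recOnMul with
    | zero => exact absurd rfl hx0
    | one => exact Nat.mod_eq_of_lt hq.one_lt
    | prime r hr => exact (hprime h r hr hx).2
    | mul a b ha hb =>
      have ha' := ha (Dvd.dvd.trans (Dvd.intro _ rfl) hx) (left_ne_zero_of_mul hx0)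
      have hb' := hb (Dvd.dvd.trans (Dvd.intro_left _ rfl) hx) (right_ne_zero_of_mul hx0)
      rw [Nat.mul_mod, ha', hb']
      exact Nat.mod_eq_of_lt hq.one_lt

end Cfsg.Agent.S1546
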