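import Cfsg.Statements.S1553
import Cfsg.Agent.H15.Octad

set_option autoImplicit false
open scoped Pointwise
open Cfsg

namespace Cfsg.Agent.S1553

open scoped Pointwise
open H15 Finset MulAction

/-- The stabiliser of an octad in the group of the length-24 code induces on the octad exactly its alternating group. -/
theorem result (o : Finset Cfsg.GolayPt) (ho : o ∈ Cfsg.octads) : {e : Equiv.Perm ↥o | ∃ g : Equiv.Perm Cfsg.GolayPt, g ∈ Cfsg.M24 ∧ ∃ h : (∀ x, g x ∈ o ↔ x ∈ o), g.subtypePerm h = e} = (alternatingGroup ↥o : Set (Equiv.Perm ↥o)) := by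
  have hinv : ∀ g ∈ M24 ⊓ stabilizer (Equiv.Perm GolayPt) o, g • o = o := fun g hg => hg.2
  have h1 := card_eq_range_mul_ker (resHom _ o hinv)
  have h2 : Nat.card (resHom _ o hinv).ker = 16 := by
    rw [← card_fix_octad ho]
    exact Nat.card_congr
      { toFun := fun g => ⟨g.1.1, g.1.2.1, mem_fixing.2 ((mem_ker_resHom _ _ _ _).1 g.2)⟩
        invFun := fun g => ⟨⟨g.1, g.2.1, smul_eq_of_fix (mem_fixing.1 g.2.2)⟩,
          (mem_ker_resHom _ _ _ _).2 (mem_fixing.1 g.2.2)⟩
        left_inv := fun _ => rfl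
        right_inv := fun _ => rfl }
  rw [h2, card_stab_inf, card_stab_octad ho] at h1
  rw [← range_eq_alt (resHom _ o hinv) (by
    rw [Fintype.card_coe, ho.2, show Nat.factorial 8 = 40320 from rfl]; omega)]
  ext e
  constructor
  · rintro ⟨g, hg, h, rfl⟩
    refine ⟨⟨g, hg, eq_of_subset_of_card_le ?_ (card_smul_finset _ _).ge⟩, rfl⟩
    intro p hp
    obtain ⟨q, hq, rfl⟩ := mem_smul_finset.1 hp
    exact (h q).2 hq
  · rintro ⟨g, rfl⟩
    exact ⟨g.1, g.2.1, apply_mem_of_smul_eq g.2.2, rfl⟩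

end Cfsg.Agent.S1553
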