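import Cfsg.Statements.S1554
import Cfsg.Agent.H15.Octad

set_option autoImplicit false
open scoped Pointwise
open Cfsg

namespace Cfsg.Agent.S1554

open scoped Pointwise
open H15 Finset MulAction

/-- An octad stabiliser is a split extension: the joint stabiliser of the octad and a point outside it is a complement to the pointwise stabiliser of the octad, and is isomorphic to the alternating group of degree 8. -/
theorem result (o : Finset Cfsg.GolayPt) (ho : o ∈ Cfsg.octads) (p : Cfsg.GolayPt) (hp : p ∉ o) : (Cfsg.M24 ⊓ fixingSubgroup (Equiv.Perm Cfsg.GolayPt) (o : Set Cfsg.GolayPt)) ⊓ (Cfsg.M24 ⊓ MulAction.stabilizer (Equiv.Perm Cfsg.GolayPt) o ⊓ MulAction.stabilizer (Equiv.Perm Cfsg.GolayPt) p) = ⊥ ∧ (Cfsg.M24 ⊓ fixingSubgroup (Equiv.Perm Cfsg.GolayPt) (o : Set Cfsg.GolayPt)) ⊔ (Cfsg.M24 ⊓ MulAction.stabilizer (Equiv.Perm Cfsg.GolayPt) o ⊓ MulAction.stabilizer (Equiv.Perm Cfsg.GolayPt) p) = (Cfsg.M24 ⊓ MulAction.stabilizer (Equiv.Perm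 Cfsg.GolayPt) o) ∧ Nonempty (↥(Cfsg.M24 ⊓ MulAction.stabilizer (Equiv.Perm Cfsg.GolayPt) o ⊓ MulAction.stabilizer (Equiv.Perm Cfsg.GolayPt) p) ≃* alternatingGroup (Fin 8)) := by
  refine ⟨eq_bot_iff.2 fun g hg => ?_, le_antisymm (sup_le (fun g hg => ?_) inf_le_left)
    fun g hg => ?_, ?_⟩
  · exact eq_one_of_frame ho (by rw [ho.2]; norm_num) le_rfl hg.1.1 (mem_fixing.1 hg.1.2) hp hg.2.2
  · exact ⟨hg.1, smul_eq_of_fix (mem_fixing.1 hg.2)⟩
  · obtain ⟨E, h0, hE⟩ := exists_subset_card_eq (show 6 ≤ o.card by rw [ho.2]; norm_num)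
    obtain ⟨τ, h1, h2, h3, h4⟩ := oct_frame le_rfl ho ho
      (fun i => ((E.equivFinOfCardEq hE).symm i : GolayPt)) _
      (Subtype.val_injective.comp (E.equivFinOfCardEq hE).symm.injective)
      (Subtype.val_injective.comp (E.equivFinOfCardEq hE).symm.injective)
      (fun i => h0 (coe_mem _)) (fun i => h0 (coe_mem _)) hp
      (mt (apply_mem_of_smul_eq hg.2 p).1 hp)
    have h5 := fix_octad_of_six ho hE.ge h0 h1 (fun q hq => by
      simpa using h3 (E.equivFinOfCardEq hE ⟨q, hq⟩))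
    rw [show g = τ * (τ⁻¹ * g) by group]
    refine Subgroup.mul_mem_sup ⟨h1, mem_fixing.2 h5⟩ (Subgroup.mem_inf.2
      ⟨mul_mem (inv_mem (Subgroup.mem_inf.2 ⟨h1, h2⟩)) hg, ?_⟩)
    show τ⁻¹ (g p) = p
    rw [← h4, inv_app]
  · refine iso_alt_of_inj _ o ?_ ?_ ho.2 ?_
    · exact fun g hg => hg.1.2
    · exact fun g hg h => eq_one_of_frame ho (by rw [ho.2]; norm_num) le_rfl hg.1.1 h hp hg.2
    have := card_eq_of_orbit (M24 ⊓ stabilizer (Equiv.Perm GolayPt) o) p (oᶜ : Finset GolayPt)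
      (fun g hg => mem_coe.2 (mem_compl.2 (mt (apply_mem_of_smul_eq hg.2 p).1 hp)))
      (fun q hq => by
        obtain ⟨τ, h1, h2, -, h4⟩ := oct_frame (n := 0) (by norm_num) ho ho ![] ![]
          (Function.injective_of_subsingleton _) (Function.injective_of_subsingleton _)
          (by simp) (by simp) hp (mem_compl.1 (mem_coe.1 hq))
        exact ⟨τ, ⟨h1, h2⟩, h4⟩)
    rw [card_stab_inf, card_stab_octad ho, Set.ncard_coe_finset, card_compl, card_pt, ho.2] at this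
    rw [show Nat.factorial 8 = 40320 from rfl]; omega

end Cfsg.Agent.S1554
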