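import Cfsg.Statements.S1560
import Cfsg.Agent.H15.Octad

set_option autoImplicit false
open scoped Pointwise
open Cfsg

namespace Cfsg.Agent.S1560

open scoped Pointwise
open H15 Finset MulAction

/-- Intersection numbers of dodecads: a dodecad meets every other dodecad in 0, 4, 6 or 8 points, meeting 495 of them in 4 points, 1584 in 6 points and 495 in 8 points. -/
theorem result (d : Finset Cfsg.GolayPt) (hd : d ∈ Cfsg.dodecads) : (∀ d' ∈ Cfsg.dodecads, d' ≠ d → (d ∩ d').card = 0 ∨ (d ∩ d').card = 4 ∨ (d ∩ d').card = 6 ∨ (d ∩ d').card = 8) ∧ {d' : Finset Cfsg.GolayPt | d' ∈ Cfsg.dodecads ∧ (d ∩ d').card = 4}.ncard = 495 ∧ {d' : Finset Cfsg.GolayPt | d' ∈ Cfsg.dodecads ∧ (d ∩ d').card = 6}.ncard = 1584 ∧ {d' : Finset Cfsg.GolayPt | d' ∈ Cfsg.dodecads ∧ (d ∩ d').card = 8}.ncard = 495 := by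
  obtain ⟨σ, h1, rfl⟩ := m24_trans_dodecads_std hd
  obtain ⟨h2, h3⟩ := (cwE 12).pair_census (cw_inv 12) (S 340831) ci ci_smul _ (ci_cw 12 _)
    [4, 6, 8, 0, 12] [495, 1584, 495, 1, 1] (by decide +kernel) h1
  refine ⟨fun e he hne => ?_, h3 0 (by norm_num), h3 1 (by norm_num), h3 2 (by norm_num)⟩
  have h4 := h2 e he
  have h5 : ci (σ • S 340831) e ≠ 12 := fun h => hne (by
    have h6 := eq_of_subset_of_card_le (inter_subset_left (s₁ := σ • S 340831) (s₂ := e))
      (hd.2.trans h.symm).le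
    exact (eq_of_subset_of_card_le (h6 ▸ inter_subset_right) (he.2.trans hd.2.symm).le).symm)
  simp only [List.mem_cons, List.not_mem_nil, or_false] at h4
  unfold ci at h4 h5
  omega

end Cfsg.Agent.S1560
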