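import Cfsg.Statements.S1562
import Cfsg.Agent.H15.Octad
import Cfsg.Agent.S1564

set_option autoImplicit false
open scoped Pointwise
open Cfsg

namespace Cfsg.Agent.S1562

open scoped Pointwise
open H15 Finset MulAction
set_option linter.unusedSimpArgs false

/-- Orbits of a triad stabiliser on the triads disjoint from it: the 210 triads inside a common octad with it form one orbit and the remaining 1120 another. -/
theorem result (T : Finset Cfsg.GolayPt) (hT : T.card = 3) : {U : Finset Cfsg.GolayPt | U.card = 3 ∧ Disjoint T U ∧ (∃ o ∈ Cfsg.octads, T ∪ U ⊆ o)}.ncard = 210 ∧ {U : Finset Cfsg.GolayPt | U.card = 3 ∧ Disjoint T U ∧ ¬ (∃ o ∈ Cfsg.octads, T ∪ U ⊆ o)}.ncard = 1120 ∧ ∀ U U' : Finset Cfsg.GolayPt, U.card = 3 → U'.card = 3 → Disjoint T U → Disjoint T U' → ((∃ o ∈ Cfsg.octads, T ∪ U ⊆ o) ↔ (∃ o ∈ Cfsg.octads, T ∪ U' ⊆ o)) → ∃ g : Equiv.Perm Cfsg.GolayPt, g ∈ Cfsg.M24 ∧ g • T = T ∧ g • U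 = U' := by
  obtain ⟨σ, h1, rfl⟩ := m24_trans_sets (s := S 7) (t := T) (by decide +kernel) (by rw [hT]; decide +kernel)
  have h2 := (S1564.cen_su h1).2
  have h3 : ∀ a x : Finset GolayPt, a.card = 3 → (S1564.ti a x = 4 ↔
      Disjoint a x ∧ ∃ o ∈ octads, a ∪ x ⊆ o) ∧ (S1564.ti a x = 0 ↔
      Disjoint a x ∧ ¬ ∃ o ∈ octads, a ∪ x ⊆ o) := by
    intro a x ha
    have : (a ∩ x).card ≤ 3 := ha ▸ card_le_card inter_subset_left
    rw [disjoint_iff_inter_eq_empty, ← card_eq_zero, S1564.ti]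
    split_ifs with h
    · simp only [h, not_true, and_true, and_false, iff_false]; omega
    · simp only [h, not_false_iff, and_true, and_false, iff_false]; omega
  refine ⟨?_, ?_, fun U U' hU hU' h4 h5 h6 => ?_⟩
  · simp only [← (h3 _ _ hT).1]; exact h2 3 (by norm_num)
  · simp only [← (h3 _ _ hT).2]; exact h2 4 (by norm_num)
  · refine (S1564.lev_su h1).tr U hU U' hU' ?_
    by_cases h : ∃ o ∈ octads, σ • S 7 ∪ U ⊆ o
    · rw [(h3 _ _ hT).1.2 ⟨h4, h⟩, (h3 _ _ hT).1.2 ⟨h5, h6.1 h⟩]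
    · rw [(h3 _ _ hT).2.2 ⟨h4, h⟩, (h3 _ _ hT).2.2 ⟨h5, mt h6.2 h⟩]

end Cfsg.Agent.S1562
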