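import Cfsg.Statements.S1568
import Cfsg.Agent.H15.LeechCount

set_option autoImplicit false
open Cfsg

namespace Cfsg.Agent.S1568

open H15 Finset

theorem ex_abs (a : ℕ) (ha : a ≤ 7) (h0 : 0 < a) (n : ℕ)
    (h : lcount (fun j => !(Nat.beq j (8 + a) || Nat.beq j (8 - a))) 48 + n = 16773120) :
    {x : Cfsg.GolayPt → ℤ | x ∈ Cfsg.leechLattice ∧ Cfsg.sqNorm x = 48 ∧ ∃ i, |x i| = a}.ncard = n := by
  have h1 := leech_count (fun j => !(Nat.beq j (8 + a) || Nat.beq j (8 - a))) (N := 48) (by norm_num)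
  have h2 := leech_ncard48
  have hf := Set.finite_of_ncard_ne_zero (h2.trans_ne (by norm_num))
  have h3 := Set.ncard_inter_add_ncard_diff_eq_ncard _ {x : Cfsg.GolayPt → ℤ | ∃ i, |x i| = a} hf
  rw [h2] at h3
  have e1 : {x : Cfsg.GolayPt → ℤ | x ∈ Cfsg.leechLattice ∧ Cfsg.sqNorm x = 48 ∧ ∃ i, |x i| = a} =
      {x | x ∈ Cfsg.leechLattice ∧ Cfsg.sqNorm x = 48} ∩ {x | ∃ i, |x i| = a} := by
    ext x; simp only [Set.mem_setOf_eq, Set.mem_inter_iff, and_assoc]
  have e2 : {x | x ∈ Cfsg.leechLattice ∧ Cfsg.sqNorm x = 48} \ {x | ∃ i, |x i| = a} =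
      {x : Cfsg.GolayPt → ℤ | x ∈ Cfsg.leechLattice ∧ Cfsg.sqNorm x = ((48 : ℕ) : ℤ) ∧
        ∀ i, (fun j => !(Nat.beq j (8 + a) || Nat.beq j (8 - a))) (x i + 8).toNat = true} := by
    ext x
    simp only [Set.mem_setOf_eq, Set.mem_diff, and_assoc, not_exists, Bool.not_eq_true',
      Bool.or_eq_false_iff, Nat.cast_ofNat]
    refine and_congr_right fun _ => and_congr_right fun _ => forall_congr' fun i => ?_
    rw [← Bool.not_eq_true, ← Bool.not_eq_true, Nat.beq_eq, Nat.beq_eq, abs_eq (by positivity)]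
    omega
  rw [e1]
  rw [e2, h1] at h3
  omega

/-- Shape census of the lattice vectors of sum of squares 48 (customary norm 6): the four families (2^12, 0^12), (±3^3, ±1^21), (±4, ±2^8, 0^15) and (±5, ±1^23) have 5275648, 8290304, 3108864 and 98304 members. -/
theorem result : {x : Cfsg.GolayPt → ℤ | x ∈ Cfsg.leechLattice ∧ Cfsg.sqNorm x = 48 ∧ ∀ i, x i = 0 ∨ x i = 2 ∨ x i = -2}.ncard = 5275648 ∧ {x : Cfsg.GolayPt → ℤ | x ∈ Cfsg.leechLattice ∧ Cfsg.sqNorm x = 48 ∧ ∃ i j k, i ≠ j ∧ j ≠ k ∧ i ≠ k ∧ |x i| = 3 ∧ |x j| = 3 ∧ |x k| = 3}.ncard = 8290304 ∧ {x : Cfsg.GolayPt → ℤ | x ∈ Cfsg.leechLattice ∧ Cfsg.sqNorm x = 48 ∧ ∃ i, |x i| = 4}.ncard = 3108864 ∧ {x : Cfsg.GolayPt → ℤ | x ∈ Cfsg.leechLattice ∧ Cfsg.sqNorm x = 48 ∧ ∃ i, |x i| = 5}.ncard = 98304 := by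
  refine ⟨?_, ?_, ex_abs 4 (by norm_num) (by norm_num) _ (by decide +kernel),
    ex_abs 5 (by norm_num) (by norm_num) _ (by decide +kernel)⟩
  · have h1 := leech_count (fun j => Nat.beq j 8 || Nat.beq j 10 || Nat.beq j 6) (N := 48) (by norm_num)
    rw [show lcount (fun j => Nat.beq j 8 || Nat.beq j 10 || Nat.beq j 6) 48 = 5275648 by
      decide +kernel] at h1
    rw [← h1]
    congr 1
    ext x
    simp only [Set.mem_setOf_eq, Bool.or_eq_true, Nat.beq_eq, Nat.cast_ofNat]
    refine and_congr_right fun _ => and_congr_right fun _ => forall_congr' fun i => ?_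
    omega
  · have h1 := leech_count (fun j => Nat.beq j 5 || Nat.beq j 7 || Nat.beq j 9 || Nat.beq j 11)
      (N := 48) (by norm_num)
    rw [show lcount (fun j => Nat.beq j 5 || Nat.beq j 7 || Nat.beq j 9 || Nat.beq j 11) 48 =
      8290304 by decide +kernel] at h1
    rw [← h1]
    congr 1
    ext x
    simp only [Set.mem_setOf_eq, Bool.or_eq_true, Nat.beq_eq, Nat.cast_ofNat]
    refine and_congr_right fun hx => and_congr_right fun hn => ⟨?_, fun h => ?_⟩
    · rintro ⟨i, j, k, hij, hjk, hik, hi, hj, hk⟩ l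
      obtain ⟨m, c, h⟩ := mem_leech.1 hx
      have a := h.res i
      have b := h.res l
      have hp := h.par
      rw [abs_eq (by norm_num)] at hi hj hk
      have hl : x l % 2 = 1 := by split_ifs at a b <;> omega
      by_contra hc
      have h5 : 25 ≤ x l ^ 2 := by
        have : x l ≤ -5 ∨ 5 ≤ x l := by omega
        rcases this with h | h <;> nlinarith
      have h1 : l ≠ i := by rintro rfl; omega
      have h2 : l ≠ j := by rintro rfl; omega
      have h3 : l ≠ k := by rintro rfl; omega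
      have h4 : ∑ t ∈ ({l, i, j, k} : Finset _), x t ^ 2 ≤ Cfsg.sqNorm x :=
        sum_le_sum_of_subset_of_nonneg (subset_univ _) fun _ _ _ => sq_nonneg _
      rw [sum_insert (by simp [h1, h2, h3]), sum_insert (by simp [hij, hik]),
        sum_insert (by simp [hjk]), sum_singleton] at h4
      have : x i ^ 2 = 9 := by rcases hi with h | h <;> rw [h] <;> norm_num
      have : x j ^ 2 = 9 := by rcases hj with h | h <;> rw [h] <;> norm_num
      have : x k ^ 2 = 9 := by rcases hk with h | h <;> rw [h] <;> norm_num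
      omega
    · have e : Cfsg.sqNorm x = ∑ i, (1 + if i ∈ univ.filter (fun i => |x i| = 3) then 8 else 0) := by
        refine sum_congr rfl fun i _ => ?_
        have : x i = -3 ∨ x i = -1 ∨ x i = 1 ∨ x i = 3 := by have := h i; omega
        rcases this with h | h | h | h <;> simp [h]
      rw [sum_add_distrib, sum_ind, sum_pt, hn] at e
      obtain ⟨i, j, k, hij, hik, hjk, e⟩ := card_eq_three.1
        (show (univ.filter fun i => |x i| = 3).card = 3 by omega)
      have h1 : ∀ t ∈ ({i, j, k} : Finset _), |x t| = 3 := fun t ht => by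
        rw [← e] at ht; exact (mem_filter.1 ht).2
      exact ⟨i, j, k, hij, hjk, hik, h1 i (by simp), h1 j (by simp), h1 k (by simp)⟩

end Cfsg.Agent.S1568
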