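import Cfsg.Statements.S1573
import Cfsg.Agent.H15.Conway

set_option autoImplicit false
open Cfsg

namespace Cfsg.Agent.S1573

/-- Census of minimal vectors by inner product with a fixed minimal vector: 4600 have customary inner product −2, 47104 have −1, and 93150 are orthogonal. -/
theorem result (v : Cfsg.GolayPt → ℤ) (hv : v ∈ Cfsg.leechLattice) (hvn : Cfsg.sqNorm v = 32) : {w : Cfsg.GolayPt → ℤ | w ∈ Cfsg.leechLattice ∧ Cfsg.sqNorm w = 32 ∧ Cfsg.dotInt v w = -16}.ncard = 4600 ∧ {w : Cfsg.GolayPt → ℤ | w ∈ Cfsg.leechLattice ∧ Cfsg.sqNorm w = 32 ∧ Cfsg.dotInt v w = -8}.ncard = 47104 ∧ {w : Cfsg.GolayPt → ℤ | w ∈ Cfsg.leechLattice ∧ Cfsg.sqNorm w = 32 ∧ Cfsg.dotInt v w = 0}.ncard = 93150 := by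
  obtain ⟨g, e⟩ := H15.trans_min (v := ⟨v, hv⟩) hvn
  have key : ∀ d : ℤ, {w : Cfsg.GolayPt → ℤ | w ∈ Cfsg.leechLattice ∧ Cfsg.sqNorm w = 32 ∧
      Cfsg.dotInt v w = d}.ncard = (H15.Sh H15.lU d).ncard := fun d => by
    rw [← H15.ncard_Sh g, e]
    exact (H15.ncard_lat fun w => Cfsg.sqNorm w = 32 ∧ Cfsg.dotInt v w = d).symm
  rw [key, key, key]
  exact ⟨H15.n4600, H15.n47104, H15.n93150⟩

end Cfsg.Agent.S1573
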