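import Cfsg.Statements.S1583
import Cfsg.Agent.H15.Conway2

set_option autoImplicit false
open Cfsg

namespace Cfsg.Agent.S1583

/-- The Higman–Sims configuration: for two vectors of customary norm 6 with inner product −4, exactly 100 minimal vectors have customary inner products 3 and −3 with them, and the joint stabiliser permutes these transitively. -/
theorem result (v w : ↥Cfsg.leechLattice) (hv : Cfsg.sqNorm (v : Cfsg.GolayPt → ℤ) = 48) (hw : Cfsg.sqNorm (w : Cfsg.GolayPt → ℤ) = 48) (hvw : Cfsg.dotInt (v : Cfsg.GolayPt → ℤ) (w : Cfsg.GolayPt → ℤ) = -32) : {x : ↥Cfsg.leechLattice | Cfsg.sqNorm (x : Cfsg.GolayPt → ℤ) = 32 ∧ Cfsg.dotInt (v : Cfsg.GolayPt → ℤ) (x : Cfsg.GolayPt → ℤ) = 24 ∧ Cfsg.dotInt (w : Cfsg.GolayPt → ℤ) (x : Cfsg.GolayPt → ℤ) = -24}.ncard = 100 ∧ ∀ x ∈ {x : ↥Cfsg.leechLattice | Cfsg.sqNorm (x : Cfsg.GolayPt → ℤ) = 32 ∧ Cfsg.dotInt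 (v : Cfsg.GolayPt → ℤ) (x : Cfsg.GolayPt → ℤ) = 24 ∧ Cfsg.dotInt (w : Cfsg.GolayPt → ℤ) (x : Cfsg.GolayPt → ℤ) = -24}, ∀ x' ∈ {x : ↥Cfsg.leechLattice | Cfsg.sqNorm (x : Cfsg.GolayPt → ℤ) = 32 ∧ Cfsg.dotInt (v : Cfsg.GolayPt → ℤ) (x : Cfsg.GolayPt → ℤ) = 24 ∧ Cfsg.dotInt (w : Cfsg.GolayPt → ℤ) (x : Cfsg.GolayPt → ℤ) = -24}, ∃ g : ↥Cfsg.Co0, g • v = v ∧ g • w = w ∧ g • x = x' := by
  rw [H15.hs_set]
  refine ⟨?_, fun x hx x' hx' => ?_⟩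
  · obtain ⟨g, e, e'⟩ := H15.std_hs hv hw hvw
    rw [← e, ← e', H15.ncard_Sh2]
    exact H15.n100
  · obtain ⟨g, e1, e2, rfl⟩ := H15.triple_std H15.trans100 (H15.std_hs hv hw hvw) hx
    obtain ⟨h, e3, e4, rfl⟩ := H15.triple_std H15.trans100 (H15.std_hs hv hw hvw) hx'
    have := H15.fix_hs (g := h * g⁻¹) (v := v) (w := w) (by rw [← e1, mul_smul, inv_smul_smul, e3, e1])
      (by rw [← e2, mul_smul, inv_smul_smul, e4, e2])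
    exact ⟨h * g⁻¹, this.1, this.2, by rw [mul_smul, inv_smul_smul]⟩

end Cfsg.Agent.S1583
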