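import Cfsg.Statements.S1584
import Cfsg.Agent.H15.Conway2

set_option autoImplicit false
open Cfsg

namespace Cfsg.Agent.S1584

open H15 in
theorem n22 : {y : Lam | y ∈ Sh2 lV lU' (-24) 0 ∧ Cfsg.dotInt (cf lU) (cf y) = 8}.ncard = 22 :=
  (census (fun a b c => band (Nat.beq a 5) (band (Nat.beq b 4) (Nat.beq c 1))) _ (fun _ h => h.1.1)
    fun y a b c h0 h1 h2 h3 => by
      simp only [Sh2, Set.mem_setOf_eq, h0, h1, h2, h3, band_iff, Nat.beq_eq, true_and]; omega).trans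
    (by decide +kernel)

open H15 in
theorem n77 : {y : Lam | y ∈ Sh2 lV lU' (-24) 0 ∧ y ≠ lU ∧ Cfsg.dotInt (cf lU) (cf y) ≠ 8}.ncard = 77 :=
  (census (fun a b c => band (band (decide (a ≠ 5)) (decide (a ≠ 8))) (band (Nat.beq b 4) (Nat.beq c 1))) _
    (fun _ h => h.1.1) fun y a b c h0 h1 h2 h3 => by
      have : y ≠ lU ↔ a ≠ 8 := not_congr ⟨fun e => by rw [e, dotInt_self, norm_U] at h1; omega,
        fun e => (eq_of_dot norm_U h0 (by rw [h1, e]; norm_num)).symm⟩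
      simp only [Sh2, Set.mem_setOf_eq, h0, h1, h2, h3, band_iff, Nat.beq_eq, true_and, this,
        decide_eq_true_eq]
      omega).trans (by decide +kernel)

open H15 in
theorem d16 {y : Lam} (hy : y ∈ Sh2 lV lU' (-24) 0) (h1 : y ≠ lU) (h2 : Cfsg.dotInt (cf lU) (cf y) ≠ 8) :
    Cfsg.dotInt (cf lU) (cf y) = 16 := by
  by_contra h3
  have : {y : Lam | y ∈ Sh2 lV lU' (-24) 0 ∧ y ≠ lU ∧ Cfsg.dotInt (cf lU) (cf y) ≠ 8 ∧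
      Cfsg.dotInt (cf lU) (cf y) ≠ 16}.ncard = 0 :=
    (census (fun a b c => band (band (decide (a ≠ 5)) (band (decide (a ≠ 8)) (decide (a ≠ 6))))
      (band (Nat.beq b 4) (Nat.beq c 1))) _
      (fun _ h => h.1.1) fun y a b c h0 h1 h2 h3 => by
        have : y ≠ lU ↔ a ≠ 8 := not_congr ⟨fun e => by rw [e, dotInt_self, norm_U] at h1; omega,
          fun e => (eq_of_dot norm_U h0 (by rw [h1, e]; norm_num)).symm⟩
        simp only [Sh2, Set.mem_setOf_eq, h0, h1, h2, h3, band_iff, Nat.beq_eq, true_and, this,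
          decide_eq_true_eq]
        omega).trans (by decide +kernel)
  rw [Set.ncard_eq_zero ((Sh2_fin _ _ _ _).subset fun _ h => h.1)] at this
  exact (this ▸ (⟨hy, h1, h2, h3⟩ : y ∈ {y : Lam | y ∈ Sh2 lV lU' (-24) 0 ∧ y ≠ lU ∧
    Cfsg.dotInt (cf lU) (cf y) ≠ 8 ∧ Cfsg.dotInt (cf lU) (cf y) ≠ 16}) : y ∈ (∅ : Set Lam))

/-- The Higman–Sims group acts with rank 3 and subdegrees 1, 22, 77 on its 100 points, the orbits of a point stabiliser being distinguished by customary inner product 1 with the fixed point. -/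
theorem result (v w x : ↥Cfsg.leechLattice) (hv : Cfsg.sqNorm (v : Cfsg.GolayPt → ℤ) = 48) (hw : Cfsg.sqNorm (w : Cfsg.GolayPt → ℤ) = 48) (hvw : Cfsg.dotInt (v : Cfsg.GolayPt → ℤ) (w : Cfsg.GolayPt → ℤ) = -32) (hx : x ∈ {x : ↥Cfsg.leechLattice | Cfsg.sqNorm (x : Cfsg.GolayPt → ℤ) = 32 ∧ Cfsg.dotInt (v : Cfsg.GolayPt → ℤ) (x : Cfsg.GolayPt → ℤ) = 24 ∧ Cfsg.dotInt (w : Cfsg.GolayPt → ℤ) (x : Cfsg.GolayPt → ℤ) = -24}) : {y : ↥Cfsg.leechLattice | y ∈ {x : ↥Cfsg.leechLattice | Cfsg.sqNorm (x : Cfsg.GolayPt → ℤ) = 32 ∧ Cfsg.dotInt (v : Cfsg.GolayPt → ℤ) (x : Cfsg.GolayPt → ℤ) = 24 ∧ Cfsg.dotInt (w : Cfsg.GolayPt → ℤ) (x : Cfsg.GolayPt → ℤ) = -24} ∧ Cfsg.dotInt (x : Cfsg.GolayPt → ℤ) (y : Cfsg.GolayPt → ℤ) = 8}.ncard = 22 ∧ {y : ↥Cfsg.leechLattice | y ∈ {x : ↥Cfsg.leechLattice | Cfsg.sqNorm (x : Cfsg.GolayPt → ℤ) = 32 ∧ Cfsg.dotInt (v : Cfsg.GolayPt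 → ℤ) (x : Cfsg.GolayPt → ℤ) = 24 ∧ Cfsg.dotInt (w : Cfsg.GolayPt → ℤ) (x : Cfsg.GolayPt → ℤ) = -24} ∧ y ≠ x ∧ Cfsg.dotInt (x : Cfsg.GolayPt → ℤ) (y : Cfsg.GolayPt → ℤ) ≠ 8}.ncard = 77 ∧ ∀ y ∈ {x : ↥Cfsg.leechLattice | Cfsg.sqNorm (x : Cfsg.GolayPt → ℤ) = 32 ∧ Cfsg.dotInt (v : Cfsg.GolayPt → ℤ) (x : Cfsg.GolayPt → ℤ) = 24 ∧ Cfsg.dotInt (w : Cfsg.GolayPt → ℤ) (x : Cfsg.GolayPt → ℤ) = -24}, ∀ y' ∈ {x : ↥Cfsg.leechLattice | Cfsg.sqNorm (x : Cfsg.GolayPt → ℤ) = 32 ∧ Cfsg.dotInt (v : Cfsg.GolayPt → ℤ) (x : Cfsg.GolayPt → ℤ) = 24 ∧ Cfsg.dotInt (w : Cfsg.GolayPt → ℤ) (x : Cfsg.GolayPt → ℤ) = -24}, y ≠ x → y' ≠ x → (Cfsg.dotInt (x : Cfsg.GolayPt → ℤ) (y : Cfsg.GolayPt → ℤ) = 8 ↔ Cfsg.dotInt (x : Cfsg.GolayPt → ℤ) (y' : Cfsg.GolayPt → ℤ) = 8) → ∃ g : ↥Cfsg.Co0, g • v = v ∧ g • w = w ∧ g • x = x ∧ g • y = y' := by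
  rw [H15.hs_set] at hx ⊢
  obtain ⟨g, e1, e2, rfl⟩ := H15.triple_std H15.trans100 (H15.std_hs hv hw hvw) hx
  refine ⟨?_, ?_, fun y hy y' hy' n1 n2 h => ?_⟩
  · rw [← e1, ← e2]
    exact (H15.ncard_smul_eq g fun y => and_congr (H15.smul_mem_Sh2 g)
      (Eq.congr_left (H15.co_dot g _ _))).trans n22
  · rw [← e1, ← e2]
    exact (H15.ncard_smul_eq g fun y => and_congr (H15.smul_mem_Sh2 g)
      (and_congr (MulAction.injective g).ne_iff (not_congr (Eq.congr_left (H15.co_dot g _ _))))).trans n77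
  · rw [← e1, ← e2] at hy hy'
    have key : ∀ y ∈ H15.Sh2 (g • H15.lV) (g • H15.lU') (-24) 0, y ≠ g • H15.lU →
        Cfsg.dotInt (H15.cf (g • H15.lU)) (H15.cf y) ≠ 8 →
        Cfsg.dotInt (H15.cf (g • H15.lU)) (H15.cf y) = 16 := fun y hy n1 n2 => by
      obtain ⟨y, rfl⟩ := MulAction.surjective g y
      rw [H15.co_dot] at n2 ⊢
      exact d16 ((H15.smul_mem_Sh2 g).1 hy) (fun e => n1 (by rw [e])) n2
    obtain ⟨a, h1, h2, h3, h4⟩ := H15.rank_conj2 (A := H15.sMcL ⊓ MulAction.stabilizer Cfsg.Co0 H15.lU')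
      (fun a ha => ⟨ha.1.1, ha.2, ha.1.2⟩) H15.rank100 g y hy y' hy' (by
        by_cases e : Cfsg.dotInt (H15.cf (g • H15.lU)) (H15.cf y) = 8
        · exact e.trans (h.1 e).symm
        · exact (key y hy n1 e).trans (key y' hy' n2 fun e' => e (h.2 e')).symm)
    rw [e1] at h1
    rw [e2] at h2
    exact ⟨a, (H15.fix_hs h1 h2).1, (H15.fix_hs h1 h2).2, h3, h4⟩

end Cfsg.Agent.S1584
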