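import Cfsg.Statements.S1585
import Cfsg.Agent.H15.Conway2

set_option autoImplicit false
open Cfsg

namespace Cfsg.Agent.S1585

/-- Two vectors of customary norm 6 with inner product −4 are exchanged by some automorphism of the lattice. -/
theorem result (v w : ↥Cfsg.leechLattice) (hv : Cfsg.sqNorm (v : Cfsg.GolayPt → ℤ) = 48) (hw : Cfsg.sqNorm (w : Cfsg.GolayPt → ℤ) = 48) (hvw : Cfsg.dotInt (v : Cfsg.GolayPt → ℤ) (w : Cfsg.GolayPt → ℤ) = -32) : ∃ g : ↥Cfsg.Co0, g • v = w ∧ g • w = v := by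
  obtain ⟨g, e1, e2⟩ := H15.std_hs hv hw hvw
  obtain ⟨h, e3, e4⟩ := H15.std_hs hw hv ((H15.dotInt_comm _ _).trans hvw)
  have h1 : (h * g⁻¹) • v = w := by
    rw [← neg_inj, ← H15.co_neg, ← e1, mul_smul, inv_smul_smul, e3]
  have h2 : (h * g⁻¹) • (v + w) = w + v := by rw [← e2, mul_smul, inv_smul_smul, e4]
  rw [H15.co_add, h1, add_right_inj] at h2
  exact ⟨_, h1, h2⟩

end Cfsg.Agent.S1585
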