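import Cfsg.Statements.S1589
import Cfsg.Agent.H15.Idx2

set_option autoImplicit false
open scoped Pointwise
open Cfsg

namespace Cfsg.Agent.S1589


open H15 H15.Idx Finset MulAction

theorem card_map {H : Subgroup M24} {n c : ℕ} (h : H.index = n) (e : n * c = 244823040) :
    Nat.card (H.map M24.subtype) = c := by
  have := H.index_mul_card
  rw [h, card_M24, ← e] at this
  rw [Subgroup.card_map_of_injective (Subgroup.subtype_injective _)]
  exact Nat.eq_of_mul_eq_mul_left (Nat.pos_of_ne_zero (by rintro rfl; simp at e)) this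

theorem eq_stab {X : Type} [MulAction PG X] {H : Subgroup M24} {s : X}
    (h : ∀ σ ∈ H.map M24.subtype, σ • s = s)
    (h2 : Nat.card (H.map M24.subtype) = Nat.card (stabilizer M24 s)) : H = stabilizer M24 s :=
  Subgroup.eq_of_le_of_card_ge (fun a ha => h _ ⟨a, ha, rfl⟩)
    (by rw [← h2, Subgroup.card_map_of_injective (Subgroup.subtype_injective _)])

theorem cases {H : Subgroup M24} {n c : ℕ} (h : H.index = n) (e : n * c = 244823040)
    (h' : ¬ 2 ∣ n ∧ ¬ 11 ∣ c ∧ ¬ 23 ∣ c ∧ ¬ c ∣ 64512) :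
    (c ∣ 322560 ∧ ∃ o ∈ octads, ∀ σ ∈ H.map M24.subtype, σ • o = o) ∨
      c ∣ 138240 ∧ ∃ X ∈ sextets, ∀ σ ∈ H.map M24.subtype, σ • X = X := by
  have hc := card_map h e
  have hM := Subgroup.map_subtype_le H
  rcases odd_index hM (n := n) (by rw [hc, e]) h'.1 (hc ▸ h'.2.1) (hc ▸ h'.2.2.1) with
    ⟨o, h1, h2⟩ | ⟨o, h1, h2⟩ | ⟨o, h1, h2⟩
  · exact .inl ⟨hc ▸ card_stab_octad h1 ▸ dvd_stab hM h2, o, h1, h2⟩
  · exact .inr ⟨hc ▸ card_stab_sextet h1 ▸ dvd_stab hM h2, o, h1, h2⟩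
  · exact absurd (hc ▸ card_stab_trio h1 ▸ dvd_stab hM h2) h'.2.2.2

/-- Subgroups of the group of the length-24 code of index 759, 276 and 1771 are exactly the octad, duad and sextet stabilisers, and no subgroup has index 253. -/
theorem result : (∀ H : Subgroup ↥Cfsg.M24, H.index = 759 → ∃ o ∈ Cfsg.octads, H = MulAction.stabilizer Cfsg.M24 o) ∧ (∀ H : Subgroup ↥Cfsg.M24, H.index = 276 → ∃ s : Finset Cfsg.GolayPt, s.card = 2 ∧ H = MulAction.stabilizer Cfsg.M24 s) ∧ (∀ H : Subgroup ↥Cfsg.M24, H.index = 1771 → ∃ S ∈ Cfsg.sextets, H = MulAction.stabilizer Cfsg.M24 S) ∧ ∀ H : Subgroup ↥Cfsg.M24, H.index ≠ 253 := by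
  refine ⟨fun H h => ?_, fun H h => ?_, fun H h => ?_, fun H h => ?_⟩
  · rcases cases h (c := 322560) (by norm_num) (by norm_num) with ⟨-, o, h1, h2⟩ | ⟨h1, -⟩
    · exact ⟨o, h1, eq_stab h2 ((card_map h (by norm_num)).trans (card_stab_octad h1).symm)⟩
    · norm_num at h1
  · have hc := card_map h (c := 887040) (by norm_num)
    obtain ⟨s, h1, h2⟩ := idx276 (Subgroup.map_subtype_le H) hc
    exact ⟨s, h1, eq_stab h2 (hc.trans (card_stab_set h1 (by norm_num) (by decide)).symm)⟩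
  · rcases cases h (c := 138240) (by norm_num) (by norm_num) with ⟨h1, -⟩ | ⟨-, o, h1, h2⟩
    · norm_num at h1
    · exact ⟨o, h1, eq_stab h2 ((card_map h (by norm_num)).trans (card_stab_sextet h1).symm)⟩
  · rcases cases h (c := 967680) (by norm_num) (by norm_num) with ⟨h1, -⟩ | ⟨h1, -⟩ <;>
      norm_num at h1

end Cfsg.Agent.S1589
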