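import Cfsg.Statements.S1590
import Cfsg.Agent.H15.Tern

set_option autoImplicit false
open Cfsg

namespace Cfsg.Agent.S1590

open H15 H15.Tern Finset MulAction
open scoped Pointwise

/-- The length-12 ternary code has 729 words with weight distribution 0^1 6^264 9^440 12^24. -/
theorem result : Nat.card ↥Cfsg.ternaryGolayCode = 729 ∧ (∀ x ∈ Cfsg.ternaryGolayCode, x ≠ 0 → (Cfsg.ternarySupport x).card = 6 ∨ (Cfsg.ternarySupport x).card = 9 ∨ (Cfsg.ternarySupport x).card = 12) ∧ {x : Cfsg.ArrayPt → ZMod 3 | x ∈ Cfsg.ternaryGolayCode ∧ (Cfsg.ternarySupport x).card = 6}.ncard = 264 ∧ {x : Cfsg.ArrayPt → ZMod 3 | x ∈ Cfsg.ternaryGolayCode ∧ (Cfsg.ternarySupport x).card = 9}.ncard = 440 ∧ {x : Cfsg.ArrayPt → ZMod 3 | x ∈ Cfsg.ternaryGolayCode ∧ (Cfsg.ternarySupport x).card = 12}.ncard = 24 := by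
  refine ⟨?_, fun x hx h => (words x hx).1.resolve_left h, (ncard_tw _).trans (by decide +kernel),
    (ncard_tw _).trans (by decide +kernel), (ncard_tw _).trans (by decide +kernel)⟩
  have := ncard_tw fun _ => True
  simp only [and_true] at this
  exact (Nat.card_coe_set_eq _).trans (this.trans (by simp))

end Cfsg.Agent.S1590
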