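import Cfsg.Statements.S1591
import Cfsg.Agent.H15.Tern

set_option autoImplicit false
open Cfsg

namespace Cfsg.Agent.S1591

open H15 H15.Tern Finset MulAction
open scoped Pointwise

/-- Any two words of the length-12 ternary code have dot product zero. -/
theorem result (x y : Cfsg.ArrayPt → ZMod 3) (hx : x ∈ Cfsg.ternaryGolayCode) (hy : y ∈ Cfsg.ternaryGolayCode) : ∑ p, x p * y p = 0 := by
  have h1 := (words _ hx).2.1
  have h2 := (words _ hy).2.1
  have h3 := (words _ (sub_mem hx hy)).2.1
  have h4 : ∀ a b : ZMod 3, (a - b) * (a - b) = a * a + a * b + b * b := by decide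
  simp only [Pi.sub_apply, h4, sum_add_distrib, h1, h2] at h3
  simpa using h3

end Cfsg.Agent.S1591
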