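import Cfsg.Statements.S1594
import Cfsg.Agent.H15.Tern

set_option autoImplicit false
open Cfsg

namespace Cfsg.Agent.S1594

open H15 H15.Tern Finset MulAction
open scoped Pointwise

/-- The monomial automorphism group of the length-12 ternary code has order 190080 and its permutation parts are exactly the automorphisms of its hexad system. -/
theorem result : Nat.card {f : Equiv.Perm Cfsg.ArrayPt × (Cfsg.ArrayPt → (ZMod 3)ˣ) // (∀ x ∈ Cfsg.ternaryGolayCode, Cfsg.monomialMap f.1 f.2 x ∈ Cfsg.ternaryGolayCode)} = 190080 ∧ {σ : Equiv.Perm Cfsg.ArrayPt | ∃ c : Cfsg.ArrayPt → (ZMod 3)ˣ, (∀ x ∈ Cfsg.ternaryGolayCode, Cfsg.monomialMap σ c x ∈ Cfsg.ternaryGolayCode)} = (Cfsg.setSystemAut {h : Finset Cfsg.ArrayPt | ∃ x ∈ Cfsg.ternaryGolayCode, Cfsg.ternarySupport x = h ∧ h.card = 6} : Set (Equiv.Perm Cfsg.ArrayPt)) := by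
  refine ⟨?_, congrArg SetLike.coe TP_eq.1⟩
  choose c hc using fun σ : TP => σ.2
  have : Function.Bijective fun t : TP × (ZMod 3)ˣ => (⟨(t.1, fun p => t.2 * c t.1 p), fun x hx => by
      convert Submodule.smul_mem _ (t.2 : ZMod 3) (hc t.1 x hx) using 1
      ext p; simp [Cfsg.monomialMap, mul_assoc]⟩ : {f : Equiv.Perm Cfsg.ArrayPt ×
        (Cfsg.ArrayPt → (ZMod 3)ˣ) // (∀ x ∈ Cfsg.ternaryGolayCode,
          Cfsg.monomialMap f.1 f.2 x ∈ Cfsg.ternaryGolayCode)}) := by
    constructor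
    · rintro ⟨σ, u⟩ ⟨τ, v⟩ e
      obtain ⟨e1, e2⟩ := Prod.mk.inj (congrArg Subtype.val e)
      obtain rfl : σ = τ := Subtype.ext e1
      obtain rfl : u = v := mul_right_cancel (congrFun e2 (0, 0))
      rfl
    · rintro ⟨⟨σ, d⟩, hd⟩
      let s : TP := ⟨σ, d, hd⟩
      have h1 : Function.Surjective fun x : Cfsg.ternaryGolayCode =>
          (⟨_, hc s x x.2⟩ : Cfsg.ternaryGolayCode) := Finite.surjective_of_injective fun x y e => by
        ext p
        simpa [Cfsg.monomialMap, s] using congrFun (congrArg Subtype.val e) (σ p)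
      have h2 := diag (fun p => d p * (c s p)⁻¹) fun x hx => by
        obtain ⟨y, e⟩ := h1 ⟨x, hx⟩
        obtain rfl : Cfsg.monomialMap σ (c s) y = x := congrArg Subtype.val e
        convert hd y y.2 using 1
        ext p
        show ((d p * (c s p)⁻¹ : (ZMod 3)ˣ) : ZMod 3) * (c s p * _) = d p * _
        rw [← mul_assoc, ← Units.val_mul, inv_mul_cancel_right]; rfl
      refine ⟨(s, d (1, 2) * (c s (1, 2))⁻¹), Subtype.ext (Prod.ext rfl (funext fun p => ?_))⟩
      exact (congrArg (· * c s p) (h2 p).symm).trans (inv_mul_cancel_right _ _)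
  rw [← Nat.card_eq_of_bijective _ this, Nat.card_prod, TP_eq.2, Nat.card_eq_fintype_card]
  rfl

end Cfsg.Agent.S1594
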