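import Cfsg.Statements.S1595
import Cfsg.Agent.H15.Steiner

set_option autoImplicit false
open Cfsg

namespace Cfsg.Agent.S1595

/-- Leech triangle of S(5, 6, 12): blocks meet in 0, 2, 3 or 4 points, and a block is met exactly in a given 2-, 3- or 4-subset by 3, 2, 3 blocks respectively. -/
theorem result {α : Type*} [Fintype α] [DecidableEq α] (hα : Fintype.card α = 12) {B : Set (Finset α)} (hB : Cfsg.IsSteinerSystem 5 6 B) (b : Finset α) (hb : b ∈ B) : (∀ c ∈ B, c ≠ b → (b ∩ c).card = 0 ∨ (b ∩ c).card = 2 ∨ (b ∩ c).card = 3 ∨ (b ∩ c).card = 4) ∧ ∀ s ⊆ b, (s.card = 2 → {c : Finset α | c ∈ B ∧ b ∩ c = s}.ncard = 3) ∧ (s.card = 3 → {c : Finset α | c ∈ B ∧ b ∩ c = s}.ncard = 2) ∧ (s.card = 4 → {c : Finset α | c ∈ B ∧ b ∩ c = s}.ncard = 3) := by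
  constructor
  · intro c hc hbc
    have h1 := H15.steiner_inter_lt hB hb hc hbc.symm
    have h2 := H15.tri_ne_zero_of_inter hα hB (by norm_num) hb hc
    generalize (b ∩ c).card = n at *
    interval_cases n <;> first | (exfalso; revert h2; decide) | simp
  · intro s hs
    have h := H15.meet_count_block hα hB (by norm_num) hb s hs
    refine ⟨fun h2 => ?_, fun h2 => ?_, fun h2 => ?_⟩ <;> rw [h2] at h
    · have : H15.tri (H15.lam 5 6 12) (6 - 2) 2 = 3 := by decide
      rw [this] at h; exact_mod_cast h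
    · have : H15.tri (H15.lam 5 6 12) (6 - 3) 3 = 2 := by decide
      rw [this] at h; exact_mod_cast h
    · have : H15.tri (H15.lam 5 6 12) (6 - 4) 4 = 3 := by decide
      rw [this] at h; exact_mod_cast h

end Cfsg.Agent.S1595
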