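import Cfsg.Statements.S1597
import Cfsg.Agent.H15.Quartet

set_option autoImplicit false
open scoped Pointwise
open Cfsg

namespace Cfsg.Agent.S1597

open H15 Finset MulAction
open scoped Pointwise

/-- A dodecad has 220 quartets and its stabiliser is transitive on them. -/
theorem result (d : Finset Cfsg.GolayPt) (hd : d ∈ Cfsg.dodecads) : (Cfsg.quartets d).ncard = 220 ∧ ∀ Q ∈ Cfsg.quartets d, ∀ Q' ∈ Cfsg.quartets d, ∃ g : Equiv.Perm Cfsg.GolayPt, g ∈ Cfsg.M24 ∧ g • d = d ∧ g • Q = Q' := by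
  refine ⟨?_, fun Q hQ Q' hQ' => ?_⟩
  · obtain ⟨σ, h1, rfl⟩ := m24_trans_dodecads_std hd
    rw [ncard_eq_of_smul σ _ (Cfsg.quartets (S 340831)) fun X => smul_mem_quartets_iff h1]
    have := qtE.ncard (fun _ => True) (fun _ => true) (fun _ _ _ => by simp)
    simp only [and_true, Set.setOf_mem_eq] at this
    exact this.trans (by decide +kernel)
  · obtain ⟨σ, h1, h2, rfl⟩ := quartet_std hd hQ
    obtain ⟨τ, h3, h4, rfl⟩ := quartet_std hd hQ'
    exact ⟨τ * σ⁻¹, mul_mem h3 (inv_mem h1), by rw [mul_smul, inv_smul_eq_iff.2 h2.symm, h4],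
      by rw [mul_smul, inv_smul_smul]⟩

end Cfsg.Agent.S1597
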