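import Cfsg.Statements.S1599
import Cfsg.Agent.H15.Quartet

set_option autoImplicit false
open scoped Pointwise
open Cfsg

namespace Cfsg.Agent.S1599

open H15 Finset MulAction
open scoped Pointwise

/-- A quartet stabiliser has five orbits on the quartets of its dodecad, of sizes 1, 12, 27, 72, 108. -/
theorem result (d : Finset Cfsg.GolayPt) (hd : d ∈ Cfsg.dodecads) (Q : Finset (Finset Cfsg.GolayPt)) (hQ : Q ∈ Cfsg.quartets d) : ∃ X₁ ∈ Cfsg.quartets d, ∃ X₂ ∈ Cfsg.quartets d, ∃ X₃ ∈ Cfsg.quartets d, ∃ X₄ ∈ Cfsg.quartets d, (MulAction.orbit ↥(MulAction.stabilizer Cfsg.M24 d ⊓ MulAction.stabilizer Cfsg.M24 Q) X₁).ncard = 12 ∧ (MulAction.orbit ↥(MulAction.stabilizer Cfsg.M24 d ⊓ MulAction.stabilizer Cfsg.M24 Q) X₂).ncard = 27 ∧ (MulAction.orbit ↥(MulAction.stabilizer Cfsg.M24 d ⊓ MulAction.stabilizer Cfsg.M24 Q) X₃).ncard = 72 ∧ (MulAction.orbit ↥(MulAction.stabilizer Cfsg.M24 d ⊓ MulAction.stabilizer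 Cfsg.M24 Q) X₄).ncard = 108 ∧ Cfsg.quartets d = {Q} ∪ MulAction.orbit ↥(MulAction.stabilizer Cfsg.M24 d ⊓ MulAction.stabilizer Cfsg.M24 Q) X₁ ∪ MulAction.orbit ↥(MulAction.stabilizer Cfsg.M24 d ⊓ MulAction.stabilizer Cfsg.M24 Q) X₂ ∪ MulAction.orbit ↥(MulAction.stabilizer Cfsg.M24 d ⊓ MulAction.stabilizer Cfsg.M24 Q) X₃ ∪ MulAction.orbit ↥(MulAction.stabilizer Cfsg.M24 d ⊓ MulAction.stabilizer Cfsg.M24 Q) X₄ := by
  obtain ⟨σ, h1, rfl, rfl⟩ := quartet_std hd hQ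
  have k0 := (quartet_level h1 1048588).trans (show _ = 1 by decide +kernel)
  have k1 := (quartet_level h1 262726).trans (show _ = 11 + 1 by decide +kernel)
  have k2 := (quartet_level h1 16648).trans (show _ = 26 + 1 by decide +kernel)
  have k3 := (quartet_level h1 12679).trans (show _ = 71 + 1 by decide +kernel)
  have k4 := (quartet_level h1 4741).trans (show _ = 107 + 1 by decide +kernel)
  obtain ⟨x₁, m₁, e₁⟩ := exists_of_ncard k1
  obtain ⟨x₂, m₂, e₂⟩ := exists_of_ncard k2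
  obtain ⟨x₃, m₃, e₃⟩ := exists_of_ncard k3
  obtain ⟨x₄, m₄, e₄⟩ := exists_of_ncard k4
  refine ⟨x₁, m₁, x₂, m₂, x₃, m₃, x₄, m₄, ?_⟩
  rw [quartet_orbit h1 m₁ e₁, quartet_orbit h1 m₂ e₂, quartet_orbit h1 m₃ e₃,
    quartet_orbit h1 m₄ e₄, ← level_self (f := iv) hQ (by
      rw [iv_smul, iv_SS (by decide +kernel) (by decide +kernel)]; decide +kernel) k0]
  refine ⟨k1, k2, k3, k4, Set.ext fun x => ?_⟩
  have := quartet_values h1 x
  simp only [List.mem_cons, List.not_mem_nil, or_false] at this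
  simp only [Set.mem_union, Set.mem_setOf_eq, ← and_or_left, or_assoc]
  exact ⟨fun h => ⟨h, this h⟩, fun h => h.1⟩

end Cfsg.Agent.S1599
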