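import Cfsg.Statements.S1600
import Cfsg.Agent.H15.Dod

set_option autoImplicit false
open scoped Pointwise
open Cfsg

namespace Cfsg.Agent.S1600

open H15 Finset
open scoped Pointwise

/-- The pointwise stabiliser of three points of a dodecad inside the dodecad stabiliser (order 72) is transitive on the complementary dodecad. -/
theorem result (d : Finset Cfsg.GolayPt) (hd : d ∈ Cfsg.dodecads) (p q r : Cfsg.GolayPt) (hp : p ∈ d) (hq : q ∈ d) (hr : r ∈ d) (hpq : p ≠ q) (hpr : p ≠ r) (hqr : q ≠ r) : Nat.card ↥(MulAction.stabilizer Cfsg.M24 d ⊓ MulAction.stabilizer Cfsg.M24 p ⊓ MulAction.stabilizer Cfsg.M24 q ⊓ MulAction.stabilizer Cfsg.M24 r) = 72 ∧ ∀ x ∉ d, ∀ y ∉ d, ∃ g ∈ (MulAction.stabilizer Cfsg.M24 d ⊓ MulAction.stabilizer Cfsg.M24 p ⊓ MulAction.stabilizer Cfsg.M24 q ⊓ MulAction.stabilizer Cfsg.M24 r), ((g : ↥Cfsg.M24) : Equiv.Perm Cfsg.GolayPt) x = y := by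
  obtain ⟨σ, h1, rfl, rfl, rfl, rfl⟩ := dod_std3 hd hp hq hr hpq hpr hqr
  refine ⟨(Nat.card_congr (G3equiv h1).toEquiv).trans card_G3, fun x hx y hy => ?_⟩
  have H := lev_sound (tab_chk (H := Cfsg.Spor.M12) (T := 0x3c5e5732e8a4da352e04b4aa930820b5eae2a62d7d20359e465226460820794eab0eadbc5889d1307496620820ad1768a67255c6c71510790ed308209bceab92885c4692b9b2a9ad0608207ccf1b36835a90c2d48674af0488205da952c9467b868bc48c3c2696882051de5a1963acd908d912ba5c4688203a9f37216ca946d8dcc9b4a8480820a3aeb54a643d90da96037a62660820ab9778c8a93d983a4ccd7915040820bdab49ca307b9ac5a928398a418820) (N := 12)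
    (chk := fun g => Nat.beq (act g 340831) 340831) (fun _ _ h h1 h2 =>
      mem_M12.2 ⟨h1, chk_S _ _ _ h h2⟩) (by decide +kernel)) (J := 0xa00200100700000b000009008000000005003000000004000006000000000000000) (F := 7) (b := 23)
    (O := 16436384) (by decide +kernel)
  rw [D0_compl] at H
  obtain ⟨a, h2, h3⟩ := H (σ⁻¹ x) (by rwa [mem_compl, inv_apply_mem_iff])
  obtain ⟨b, h4, h5⟩ := H (σ⁻¹ y) (by rwa [mem_compl, inv_apply_mem_iff])
  refine ⟨_, ((G3equiv h1).symm ⟨b⁻¹ * a, mul_mem (inv_mem h4) h2⟩).2, ?_⟩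
  show σ (b⁻¹ (a (σ⁻¹ x))) = y
  rw [show a (σ⁻¹ x) = b (σ⁻¹ y) from h3.trans h5.symm, inv_app, app_inv]

end Cfsg.Agent.S1600
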