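import Cfsg.Statements.S1601
import Cfsg.Agent.H15.Dod
import Cfsg.Agent.H13.SL2Pres
import Cfsg.Agent.H11.LowDim
import Cfsg.Agent.H11.O3

set_option autoImplicit false
open scoped Pointwise
open Cfsg

namespace Cfsg.Agent.S1601

open H15 Finset MulAction
open scoped Pointwise MatrixGroups

section
local instance fact11 : Fact (Nat.Prime 11) := ⟨by norm_num⟩

theorem aux : Nonempty (↥(Cfsg.Spor.M12 ⊓ Fx 8388609) ≃* PSL(2, ZMod 11)) := by
  let H := Cfsg.Spor.M12 ⊓ Fx 8388609
  have hc : Nat.card H = 660 := by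
    have := step_card (H := Cfsg.Spor.M12) M11_le_M12 (F := 1) (b := 23) (O := 16436384)
      (by norm_num) (by norm_num) (fun σ h => orbit_bound' (D := 16436384) (by
        rw [D0_compl, smul_finset_compl', (mem_M12.1 h.1).2]) h.2 (by decide +kernel))
      (lev_sound (m11c_tab c11a_mem c11b_mem) (J := m11cJ0) (by decide +kernel))
    rw [card_G1, show pc 16436384 = 12 by decide +kernel, show 1 ||| 2 ^ 23 = 8388609 from rfl]
      at this
    change 7920 = 12 * Nat.card H at this
    omega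
  have hX : ∀ t : ZMod 11, InK H (getP 0xbc68e7a0a93a8329d870ab56c11880b95ca3c163ad8887c449a067233580bad56aa662a4590394c3711e868640bced1a0de671649aada2530f009100bbe25708ed52d03a4c26b4aa923200b9cab51aa1b4e0273c8d8a28364920bd573b36848bd2651d812c1c292060bd26f885cc29c6db56445a54644040bb9e7291525d4418d10c98ecd824c0ba8f55b2c89d0c42ba1278a2148da0bdab49ca307b9ac5a928398a418820 t.val) := fun t => inK_G (by revert t; decide +kernel)
  have hW : ∀ t : ZMod 11, InK H (getP 0xbae957b6289ba44b1cd0524ac18820bbaab3c2322d9aca2883985e9408c0bd1d69a2303d461595327914668980bd96e50e2d7d209acd88298e190880bd6d42ca2352d0673c2d3b26480920bd6d42ca2352d0673c2d3b26480920bd96e50e2d7d209acd88298e190880bd1d69a2303d461595327914668980bbaab3c2322d9aca2883985e9408c0bae957b6289ba44b1cd0524ac18820bdab49ca307b9ac5a928398a418820 t.val) := fun t => inK_G (by revert t; decide +kernel)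
  choose X mX rX using hX
  choose W mW rW using hW
  have hi : ∀ t : ZMod 11, t⁻¹ = t ^ 9 := fun t => by
    by_cases e : t = 0
    · simp [e]
    · exact inv_eq_of_mul_eq_one_right (by revert t; decide +kernel)
  have h3 : (W 1)⁻¹ = W 1 := ((rW 1).inv (rW 1) (by decide +kernel)).symm
  obtain ⟨φ, h4, h5⟩ := H13.SL2.exists_hom (G := H) (fun t => ⟨X t, mX t⟩) (fun t => ⟨W t, mW t⟩)
    (fun s t => Subtype.ext (((rX _).eq_iff ((rX s).mul (rX t))).2 (by revert s t; decide +kernel)))
    (fun s t hs ht => Subtype.ext (by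
      simp only [Subgroup.coe_mul, Subgroup.coe_inv, h3]
      exact (((rW _).mul (rW 1)).eq_iff (((rW s).mul (rW 1)).mul ((rW t).mul (rW 1)))).2
        (by revert s t; decide +kernel)))
    (fun s t ht => Subtype.ext (by
      simp only [Subgroup.coe_mul, Subgroup.coe_inv, h3]
      exact ((((rW t).mul (rW 1)).mul (rX s)).eq_iff ((rX _).mul ((rW t).mul (rW 1)))).2
        (by revert s t; decide +kernel)))
    (fun t ht => Subtype.ext ((((rW 1).mul (rW t)).eq_iff ((rW _).mul (rW 1))).2
      (by rw [hi]; revert t; decide +kernel)))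
    (Subtype.ext (by
      simp only [Subgroup.coe_inv, h3]
      exact ((rW _).eq_iff (rW 1)).2 (by decide +kernel)))
    (fun t ht => Subtype.ext (by
      simp only [Subgroup.coe_mul, Subgroup.coe_inv, h3]
      exact ((((rW 1).mul (rX t)).mul (rW 1)).eq_iff (((rX _).mul (rW _)).mul (rX _))).2
        (by rw [hi]; revert t; decide +kernel)))
  let ψ : PSL(2, ZMod 11) →* H := QuotientGroup.lift _ φ fun g hg => by
    obtain ⟨k1, k2, k3⟩ := (H11.sl2_mem_center_iff g).1 hg
    have k4 := H13.SL2.det' g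
    rw [k1, ← k3, zero_mul, sub_zero, mul_self_eq_one_iff] at k4
    rcases k4 with k4 | k4
    · rw [show g = 1 from H13.SL2.ext' k4 k1 k2 (k3 ▸ k4)]; exact one_mem _
    · rw [show g = H13.SL2.w 1 * H13.SL2.w 1 by
        apply H13.SL2.ext' <;> simp [H13.SL2.mul_apply', H13.SL2.coe_w, k1, k2, k4, ← k3],
        MonoidHom.mem_ker, map_mul, h5 1 one_ne_zero]
      exact Subtype.ext (eq_inv_iff_mul_eq_one.1 h3.symm)
  have := H11.psl2_simple (F := ZMod 11) (by simp)
  have h6 : Function.Injective ψ := by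
    refine (MonoidHom.ker_eq_bot_iff ψ).1 ((ψ.normal_ker.eq_bot_or_eq_top).resolve_right fun e => ?_)
    have : φ (H13.SL2.x 1) = 1 := e.ge (Subgroup.mem_top (QuotientGroup.mk (H13.SL2.x 1)))
    rw [h4] at this
    exact absurd ((is1_iff (rX 1)).1 (congrArg Subtype.val this)) (by decide +kernel)
  have h7 := H11.card_psl_two (F := ZMod 11)
  rw [ZMod.card] at h7
  exact ⟨(MulEquiv.ofBijective ψ (h6.bijective_of_nat_card_le (by
    rw [hc]; generalize Nat.card _ = c at h7 ⊢; norm_num at h7; omega))).symm⟩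

end

/-- In the 3-transitive action of the smallest Mathieu group on the complementary dodecad, a point stabiliser is isomorphic to PSL(2, 11). -/
theorem result (d : Finset Cfsg.GolayPt) (hd : d ∈ Cfsg.dodecads) (p q : Cfsg.GolayPt) (hp : p ∈ d) (hq : q ∉ d) : Nonempty (↥(MulAction.stabilizer Cfsg.M24 d ⊓ MulAction.stabilizer Cfsg.M24 p ⊓ MulAction.stabilizer Cfsg.M24 q) ≃* Matrix.ProjectiveSpecialLinearGroup (Fin 2) (ZMod 11)) := by
  obtain ⟨σ, h1, rfl, rfl, h2⟩ := dod_frame (n := 1) (by norm_num) hd hp ![q]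
    (Function.injective_of_subsingleton _) (by simpa)
  obtain rfl : σ (pt 23) = q := h2 0
  obtain ⟨e⟩ := aux
  refine ⟨(equivOfConj _ _ (inf_le_left.trans M12_le) σ h1 fun x => ?_).trans e⟩
  rw [Subgroup.mem_inf (p := Cfsg.Spor.M12), mem_M12, conj_smul_eq_iff σ x (S 340831), mem_Fx,
    S_pair]
  simp only [mem_insert, mem_singleton, forall_eq_or_imp, forall_eq, conj_apply_eq_iff]
  exact ⟨fun h => ⟨⟨conj_mem_M24 h1 x.2, h.1.1⟩, h.2, h.1.2⟩, fun h => ⟨⟨h.1.2, h.2.2⟩, h.2.1⟩⟩

end Cfsg.Agent.S1601
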