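import Cfsg.Statements.S1602
import Cfsg.Agent.H15.Dod

set_option autoImplicit false
open scoped Pointwise
open Cfsg

namespace Cfsg.Agent.S1602

open H15 Finset
open scoped Pointwise

/-- In the 12-point action of the smallest Mathieu group the setwise stabiliser of a pair is isomorphic to the symmetric group of degree 5. -/
theorem result (d : Finset Cfsg.GolayPt) (hd : d ∈ Cfsg.dodecads) (p q q' : Cfsg.GolayPt) (hp : p ∈ d) (hq : q ∉ d) (hq' : q' ∉ d) (hqq' : q ≠ q') : Nonempty (↥(MulAction.stabilizer Cfsg.M24 d ⊓ MulAction.stabilizer Cfsg.M24 p ⊓ MulAction.stabilizer Cfsg.M24 ({q, q'} : Finset Cfsg.GolayPt)) ≃* Equiv.Perm (Fin 5)) := by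
  obtain ⟨σ, h1, rfl, rfl, h2⟩ := dod_frame (n := 2) (by norm_num) hd hp ![q, q'] (inj_vec2 hqq')
    (fun i => by fin_cases i <;> simpa)
  obtain rfl : σ (pt 23) = q := h2 0
  obtain rfl : σ (pt 5) = q' := h2 1
  let K := Cfsg.Spor.M11 ⊓ MulAction.stabilizer (Equiv.Perm Cfsg.GolayPt) (S 8388640)
  have h3 : ∀ o ∈ (cwE 8).Ω, S 8388641 ⊆ o → (o ∩ S 340831).card = 6 → o = S 8663097 :=
    (cwE 8).forall _ (fun i => force (enc i) fun m => bimp (band (Nat.beq (Nat.land 8388641 m) 8388641)
      (Nat.beq (pc (Nat.land m 340831)) 6)) (Nat.beq m 8663097)) (fun i _ _ h h4 h5 => by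
        simp only [force_eq, bimp_iff, band_iff, Nat.beq_eq, Nat.land_eq] at h
        exact congrArg S (h ⟨(S_subset_iff (by norm_num)).1 h4, (card_S_and (enc_lt i) _).symm.trans h5⟩))
      (by decide +kernel)
  obtain ⟨e⟩ := iso_perm_of_inj' K (S 274456) (fun g hg => by
      obtain ⟨⟨h4, h5⟩, h6⟩ := mem_M11.1 hg.1
      have h7 : g • S 1 = S 1 := smul_eq_of_fix fun p hp => by
        rwa [show p = pt 0 by clear h6; revert p; decide +kernel]
      have h8 : g • S 8388641 = S 8388641 := by
        rw [show 8388641 = 8388640 ||| 1 from rfl, S_or, smul_finset_union, h7, hg.2]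
      have h9 := h3 _ (smul_mem_octads h4 (S_mem_octads (m := 8663097) (by decide +kernel)))
        (h8 ▸ smul_finset_subset_smul_finset (S_subset_of_and (by decide)))
        (by rw [← h5, H15.card_smul_inter]; decide +kernel)
      rw [show 274456 = (8663097 &&& 340831) &&& (1 ^^^ 16777215) from rfl, S_sdiff, S_and, smul_finset_sdiff,
        smul_finset_inter, h9, h5, h7])
    (fun g hg h => dod_fix_five D0_mem (M11_le hg.1) (mem_M11.1 hg.1).1.2
      (S_subset_of_and (by decide)) (by decide +kernel) h) (n := 5) (by decide +kernel) (by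
      rw [← inf_Fx_zero K]
      exact le_trans (by decide +kernel) (lchk_ge (tab_chk (T := 0x2ceb4b36295ba4c79e06522e418440bc6a7b36615bd9275102540a41a4c02daa78b26873db25a830a0ae419920bae957b6289ba44b1cd0524ac188202ccea5b1c9b448d7d506a42f2188202bd47b11c65c5929d209aa2ed18820b9dcf99170a546c8a846b20b26a420bae75734e2a3d8354606b24b2220202d4eb536908d88c7cd02726e3918202bad150df059e4ca4cc9a8aed22020bdab49ca307b9ac5a928398a418820) (N := 11)
        (chk := fun g => band (band (Nat.beq (act g 340831) 340831) (Nat.beq (ap g 0) 0))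
          (Nat.beq (act g 8388640) 8388640)) (fun _ _ h h1 h2 => by
            simp only [band_iff] at h2
            exact ⟨mem_M11.2 ⟨⟨h1, chk_S _ _ _ h h2.1.1⟩, chk_pt (by norm_num) _ _ h h2.1.2⟩,
              chk_S _ _ _ h h2.2⟩) (by decide +kernel))
        (L := [(3, 0x1000000000000004003000000000000000000000002000000000000, 274456), (4, 0x5000000000000006007000000000000000000000000000000000000, 274448), (12, 0x8000000000000009000000000000000000000000000000000000000, 274432), (13, 0xa000000000000000000000000000000000000000000000000000000, 270336)]) (by decide +kernel)))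
  refine ⟨(equivOfConj _ K (inf_le_left.trans M11_le) σ h1 fun x => ?_).trans e⟩
  rw [Subgroup.mem_inf (p := Cfsg.Spor.M11), mem_M11, conj_smul_eq_iff σ x (S 340831), conj_apply_eq_iff,
    conj_mem_stabilizer σ x (S 8388640),
    show S 8388640 = {pt 23, pt 5} by decide +kernel, smul_finset_insert, smul_finset_singleton]
  exact ⟨fun h => ⟨⟨⟨conj_mem_M24 h1 x.2, h.1.1⟩, h.1.2⟩, h.2⟩, fun h => ⟨⟨h.1.1.2, h.1.2⟩, h.2⟩⟩

end Cfsg.Agent.S1602
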