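import Cfsg.Statements.S1606
import Cfsg.Agent.H15.Idx2

set_option autoImplicit false
open scoped Pointwise
open Cfsg

namespace Cfsg.Agent.S1606


open H15 H15.Idx Finset MulAction

/-- The stabiliser of two points in the group of the length-24 code has no subgroups of index 56 or 210. -/
theorem result (p q : Cfsg.GolayPt) (hpq : p ≠ q) (H : Subgroup ↥(MulAction.stabilizer Cfsg.M24 p ⊓ MulAction.stabilizer Cfsg.M24 q)) : H.index ≠ 56 ∧ H.index ≠ 210 := by
  haveI := Fact.mk (by norm_num : Nat.Prime 11)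
  obtain ⟨e⟩ := stab_iso_M22 hpq
  have hM : (H.map e.toMonoidHom).map Spor.M22.subtype ≤ M24 ⊓ Fx 8388609 :=
    M22_eq ▸ Subgroup.map_subtype_le _
  have hc : Nat.card ((H.map e.toMonoidHom).map Spor.M22.subtype) = Nat.card H := by
    rw [Subgroup.card_map_of_injective (Subgroup.subtype_injective _),
      Subgroup.card_map_of_injective e.injective]
  have h1 := H.index_mul_card
  rw [Nat.card_congr e.toEquiv, card_M22, ← hc] at h1
  generalize (H.map e.toMonoidHom).map Spor.M22.subtype = K at hM h1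
  have key : ¬ 11 ∣ H.index → Nat.card K ≠ 7920 ∧ Nat.card K ≠ 2112 := fun h => by
    obtain ⟨g, hg, h2⟩ := conj_into hM (Subgroup.zpowers_le_of_mem bb_mem) bb_grp
      (card_F2.trans h1.symm) h
    have := sub22 (h2 (Subgroup.mem_zpowers bb)) (cj_le hg hM)
    rw [card_cj] at this
    exact ⟨this.1, this.2.1⟩
  refine ⟨fun h => (key (by omega)).1 ?_, fun h => (key (by omega)).2 ?_⟩ <;> rw [h] at h1 <;> omega

end Cfsg.Agent.S1606
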