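import Cfsg.Statements.S1609
import Cfsg.Agent.H15.Idx

set_option autoImplicit false
open scoped Pointwise
open Cfsg

namespace Cfsg.Agent.S1609


open H15 H15.Idx Finset MulAction

theorem eq_stab {x : GolayPt} {H : Subgroup (stabilizer M24 x)} {s : Finset GolayPt}
    (hc : Nat.card ((H.map (Subgroup.subtype _)).map M24.subtype) = 40320)
    (h : ∀ σ ∈ (H.map (Subgroup.subtype _)).map M24.subtype, σ • s = s)
    (h2 : Nat.card ↥(M24 ⊓ stabilizer PG s ⊓ stabilizer PG x) = 40320) :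
    H = (stabilizer M24 s).subgroupOf (stabilizer M24 x) := by
  have e := Subgroup.eq_of_le_of_card_ge (H := (H.map (Subgroup.subtype _)).map M24.subtype)
    (K := M24 ⊓ stabilizer PG s ⊓ stabilizer PG x) (fun σ hσ => by
      have h3 := h σ hσ
      obtain ⟨_, ⟨y, -, rfl⟩, rfl⟩ := hσ
      exact ⟨⟨y.1.2, h3⟩, y.2⟩) (by rw [hc, h2])
  ext a
  refine ⟨fun ha => h _ ⟨_, ⟨a, ha, rfl⟩, rfl⟩, fun ha => ?_⟩
  obtain ⟨_, ⟨y, h1, rfl⟩, h3⟩ := e.ge (⟨⟨a.1.2, ha⟩, a.2⟩ :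
    a.1.1 ∈ M24 ⊓ stabilizer PG s ⊓ stabilizer PG x)
  exact (Subtype.ext (Subtype.ext h3) : y = a) ▸ h1

/-- Subgroups of index 253 in the Mathieu group of degree 23 are exactly the duad stabilisers and the heptad stabilisers. -/
theorem result (x : Cfsg.GolayPt) (H : Subgroup ↥(MulAction.stabilizer Cfsg.M24 x)) (hH : H.index = 253) : (∃ s : Finset Cfsg.GolayPt, s.card = 2 ∧ x ∉ s ∧ H = (MulAction.stabilizer Cfsg.M24 s).subgroupOf (MulAction.stabilizer Cfsg.M24 x)) ∨ ∃ o ∈ Cfsg.octads, x ∈ o ∧ H = (MulAction.stabilizer Cfsg.M24 o).subgroupOf (MulAction.stabilizer Cfsg.M24 x) := by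
  have hc : Nat.card ((H.map (Subgroup.subtype _)).map M24.subtype) = 40320 := by
    rw [Subgroup.card_map_of_injective (Subgroup.subtype_injective _),
      Subgroup.card_map_of_injective (Subgroup.subtype_injective _)]
    have := H.index_mul_card
    obtain ⟨e⟩ := stab_iso_M23 x
    rw [hH, Nat.card_congr e.toEquiv, card_M23] at this
    omega
  rcases m23_253 (x := x) (by rintro _ ⟨_, ⟨y, -, rfl⟩, rfl⟩; exact ⟨y.1.2, y.2⟩) hc with
    ⟨s, h1, h2, h3⟩ | ⟨o, h1, h2, h3⟩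
  · exact .inl ⟨s, h1, h2, eq_stab hc h3 (card_duad_pt h1 h2)⟩
  · exact .inr ⟨o, h1, h2, eq_stab hc h3 (card_oct_pt h1 h2)⟩

end Cfsg.Agent.S1609
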