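import Cfsg.Statements.S1610
import Cfsg.Agent.H10.Hex

set_option autoImplicit false
open Cfsg

namespace Cfsg.Agent.S1610

open H10.Hex in

/-- The hexacode has 64 words, minimum weight 4, and weight distribution 0^1 4^45 6^18. -/
theorem result (F : Type*) [Field F] [Fintype F] [DecidableEq F] (hF : Fintype.card F = 4) (ω : F) (hω : ω ^ 2 + ω + 1 = 0) : Nat.card ↥(Cfsg.hexacode F ω) = 64 ∧ (∀ x ∈ Cfsg.hexacode F ω, x ≠ 0 → (Finset.univ.filter fun i => x i ≠ 0).card = 4 ∨ (Finset.univ.filter fun i => x i ≠ 0).card = 6) ∧ {x : Fin 6 → F | x ∈ Cfsg.hexacode F ω ∧ (Finset.univ.filter fun i => x i ≠ 0).card = 4}.ncard = 45 ∧ {x : Fin 6 → F | x ∈ Cfsg.hexacode F ω ∧ (Finset.univ.filter fun i => x i ≠ 0).card = 6}.ncard = 18 := by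
  have key : ∀ w : H12.F4, w ^ 2 + w + 1 = 0 →
      (Finset.univ.filter fun a => (Finset.univ.filter fun i => enc w a i ≠ 0).card = 4).card = 45 ∧
      (Finset.univ.filter fun a => (Finset.univ.filter fun i => enc w a i ≠ 0).card = 6).card = 18 ∧
      (Finset.univ.filter fun a => (Finset.univ.filter fun i => enc w a i ≠ 0).card ∉
        ({0, 4, 6} : Finset ℕ)).card = 0 := by decide +kernel
  refine ⟨?_, fun x hx h0 => ?_, ?_, ?_⟩
  · rw [← SetLike.coe_sort_coe, show (hexacode F ω : Set (Fin 6 → F)) = Set.range (enc ω) from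
      Set.ext fun _ => mem_iff, Nat.card_range_of_injective (enc_inj (two_eq hF) hω)]
    simp [hF]
  · obtain ⟨w, hw, h⟩ := ncard_wt hF hω (· ∉ ({0, 4, 6} : Finset ℕ))
    rw [(key w hw).2.2, Set.ncard_eq_zero] at h
    have := (Set.eq_empty_iff_forall_notMem.1 h x)
    simp only [Set.mem_setOf_eq, hx, true_and, not_not, Finset.mem_insert, Finset.mem_singleton,
      Finset.card_eq_zero, Finset.filter_eq_empty_iff] at this
    exact this.resolve_left fun h => h0 (funext fun i => h (Finset.mem_univ i))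
  · obtain ⟨w, hw, h⟩ := ncard_wt hF hω (· = 4)
    exact h.trans (key w hw).1
  · obtain ⟨w, hw, h⟩ := ncard_wt hF hω (· = 6)
    exact h.trans (key w hw).2.1

end Cfsg.Agent.S1610
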