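import Cfsg.Statements.S1611
import Cfsg.Agent.H10.Hex

set_option autoImplicit false
open Cfsg

namespace Cfsg.Agent.S1611

open H10.Hex in

/-- The monomial automorphism group of the hexacode has order 1080: its diagonal part is the scalars and its permutation parts form the alternating group of degree 6. -/
theorem result (F : Type*) [Field F] [Fintype F] [DecidableEq F] (hF : Fintype.card F = 4) (ω : F) (hω : ω ^ 2 + ω + 1 = 0) : Nat.card {f : Equiv.Perm (Fin 6) × (Fin 6 → Fˣ) // (∀ x ∈ Cfsg.hexacode F ω, Cfsg.monomialMap f.1 f.2 x ∈ Cfsg.hexacode F ω)} = 1080 ∧ (∀ c : Fin 6 → Fˣ, (∀ x ∈ Cfsg.hexacode F ω, Cfsg.monomialMap 1 c x ∈ Cfsg.hexacode F ω) → ∀ i j, c i = c j) ∧ {σ : Equiv.Perm (Fin 6) | ∃ c : Fin 6 → Fˣ, (∀ x ∈ Cfsg.hexacode F ω, Cfsg.monomialMap σ c x ∈ Cfsg.hexacode F ω)} = (alternatingGroup (Fin 6) : Set (Equiv.Perm (Fin 6))) := by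
  have h2 := two_eq hF
  refine ⟨?_, fun c hc i j => (Pr.diag h2 hω hc i).trans (Pr.diag h2 hω hc j).symm,
    Set.ext (exists_pr h2 hω)⟩
  choose d hd using fun σ : alternatingGroup (Fin 6) => (exists_pr h2 hω σ).2 σ.2
  change Nat.card {f : Equiv.Perm (Fin 6) × (Fin 6 → Fˣ) // Pr ω f.1 f.2} = _
  rw [← Nat.card_eq_of_bijective (fun x : alternatingGroup (Fin 6) × Fˣ =>
    (⟨(x.1, fun i => x.2 * d x.1 i), by simpa using (Pr.const x.2).mul (hd x.1)⟩ :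
      {f : Equiv.Perm (Fin 6) × (Fin 6 → Fˣ) // Pr ω f.1 f.2})) ⟨?_, ?_⟩]
  · rw [Nat.card_prod, nat_card_alternatingGroup, Nat.card_units]
    simp [hF, Nat.factorial]
  · rintro ⟨σ, u⟩ ⟨τ, v⟩ h
    simp only [Subtype.mk.injEq, Prod.mk.injEq, SetLike.coe_eq_coe] at h
    obtain ⟨rfl, h⟩ := h
    simpa using congrFun h 0
  · rintro ⟨⟨σ, c⟩, h⟩
    let s : alternatingGroup (Fin 6) := ⟨σ, (exists_pr h2 hω σ).1 ⟨c, h⟩⟩
    have h0 := Pr.mul h (hd s).inv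
    rw [show σ * s.1⁻¹ = 1 from mul_inv_cancel σ] at h0
    have h1 := Pr.diag h2 hω h0
    refine ⟨(s, c 0 * (d s 0)⁻¹), Subtype.ext (Prod.ext rfl (funext fun i => ?_))⟩
    simp only [s, Equiv.Perm.inv_def, Equiv.apply_symm_apply] at h1 ⊢
    rw [← h1 i, inv_mul_cancel_right]

end Cfsg.Agent.S1611
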