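import Cfsg.Statements.S1621
import Cfsg.Agent.H15.J2

set_option autoImplicit false
open Quaternion
open Cfsg

namespace Cfsg.Agent.S1621

/-- The icosian Leech lattice has 37800 minimal vectors giving 315 distinct reflections. -/
theorem result : {r : Fin 3 → ℍ[ℝ] | r ∈ Cfsg.Spor.icoLeech ∧ Cfsg.Spor.qip r r = 4}.ncard = 37800 ∧ {f : Equiv.Perm ↥Cfsg.Spor.icoLeech | Cfsg.Spor.IsIcoReflection f}.ncard = 315 := by
  constructor
  · rw [← H15.Ico.ncard_X0, ← Set.ncard_image_of_injective _ H15.Ico.psi_inj]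
    congr 1
    ext r
    exact ⟨fun h => by obtain ⟨v, rfl⟩ := H15.Ico.psi_surj h.1; exact ⟨v, h.2, rfl⟩,
      by rintro ⟨v, h, rfl⟩; exact ⟨H15.Ico.psi_mem v, h⟩⟩
  · have := H15.ncard_image_pt (n := 315) (pt := fun i => H15.Ico.Th (H15.J2L.cj i * H15.J2L.t0 * (H15.J2L.cj i)⁻¹))
      (fun i hi j hj e => H15.J2L.conj_inj hi hj (H15.Ico.Th_inj e)) fun _ => true
    simp only [true_and] at this
    simp only [H15.J2L.refl_iff]
    exact this.trans (by decide +kernel)

end Cfsg.Agent.S1621
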