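import Cfsg.Statements.S1624
import Cfsg.Agent.H15.J2
import Cfsg.Agent.H16.L.U33
import Cfsg.Agent.H16.Fast

set_option autoImplicit false
open Quaternion
open Cfsg

namespace Cfsg.Agent.S1624


open H16 (gen evA apW ptF nth eqL ltAll allL Rels mem_gen evA_mem_gen wds wdsP)

def Ws : List (List ℕ) := [[0, 2, 1, 3, 2], [2, 0, 3, 2, 1], [1, 2, 1, 2, 0, 2, 0], [2]]
def cls (i : ℕ) : ℕ := (0xa56a659656956a9566a59696a656a6556a9655595655555554 >>> (2 * i)) % 4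

theorem c1 : allL (ltAll 4) Ws = true ∧ allL (ltAll 5) Ws = true := by decide +kernel
theorem c2 : ∀ W ∈ H16.U33.Rl, eqL (wdsP H16.J2.P Ws) 4 H16.J2.B W [] = 0 := by decide +kernel
theorem c3 : ∀ k < 4, ∀ i < 100, H16.clsEnt H16.J2.P cls k i = 0 := by decide +kernel
theorem c4 : ∀ r ∈ (0 :: H16.J2.Rs.map H16.Root.r), r < 100 ∧
    ∀ r' ∈ (0 :: H16.J2.Rs.map H16.Root.r), cls r = cls r' → r = r' := by decide +kernel
theorem c5 : (1 ∈ (0 :: H16.J2.Rs.map H16.Root.r) ∧ H16.cntCls cls (cls 1) 0 100 = 63) ∧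
    (16 ∈ (0 :: H16.J2.Rs.map H16.Root.r) ∧ H16.cntCls cls (cls 16) 0 100 = 36) ∧
    59 ≠ wdsP H16.J2.P Ws 3 59 := by decide +kernel

theorem c6 : apW H16.J2.P [4, 2, 0, 2, 4] 0 = 16 ∧ apW H16.J2.P [4] 0 = 1 := by decide +kernel

theorem card4 : Nat.card (gen H16.J2.g 4) = 6048 :=
  H16.J2.chain.tail.card' (H16.ptF_inj 100) (by decide +kernel)

theorem iso : Nonempty (gen H16.J2.g 4 ≃* PSU 3 H16.F9c 3) := by
  have hle : gen (wds H16.J2.g Ws) 4 ≤ gen H16.J2.g 4 := H16.gen_wds_le c1.1 4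
  have hr : Rels (wds H16.J2.g Ws) H16.U33.Rl := fun W hW =>
    H16.eqL_sound (H16.J2.act.wds c1.2 4) H16.J2.Blt
      (H16.J2.isBase.mono (H16.gen_wds_le c1.2 4)) (c2 W hW)
  haveI := H16.U33.simple
  obtain ⟨e, -⟩ := H16.U33.bound.exists_equiv_of_simple H16.U33.rels H16.U33.card hr (j := 3)
    (by norm_num) fun h => by
      have h1 := ((H16.J2.act.wds c1.2 4) 3 (by norm_num) 59 (by norm_num))
      rw [h, one_smul] at h1
      exact c5.2.2 (H16.ptF_inj 100 _ (by norm_num) _ h1.1 h1.2)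
  obtain ⟨e2⟩ := H16.LU33.equiv
  have : gen (wds H16.J2.g Ws) 4 = gen H16.J2.g 4 := Subgroup.eq_of_le_of_card_ge hle (by
    rw [card4, ← Nat.card_congr e.toEquiv, H16.U33.card])
  exact ⟨((MulEquiv.subgroupCongr this).symm.trans e.symm).trans e2⟩

theorem orb {G Ω : Type} [Group G] (φ : G →* Equiv.Perm Ω) (S : Subgroup (Equiv.Perm Ω)) (x : Ω)
    (hS : S = φ.range ⊓ MulAction.stabilizer _ x) (a : G) :
    (MulAction.orbit (S.comap φ) (QuotientGroup.mk a : G ⧸ S.comap φ)).ncard =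
      (MulAction.orbit S (φ a • x)).ncard := by
  have key : ∀ a b : G, a⁻¹ * b ∈ S.comap φ ↔ φ a • x = φ b • x := fun a b => by
    rw [Subgroup.mem_comap, hS, Subgroup.mem_inf, MulAction.mem_stabilizer_iff, map_mul, map_inv,
      mul_smul, inv_smul_eq_iff, eq_comm]
    exact and_iff_right ⟨a⁻¹ * b, by simp⟩
  let ψ : G ⧸ S.comap φ → Ω := Quotient.lift (fun a => φ a • x) fun a b h =>
    (key a b).1 (QuotientGroup.leftRel_apply.1 h)
  have hψ : Function.Injective ψ := fun a b => QuotientGroup.induction_on a fun a =>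
    QuotientGroup.induction_on b fun b h => QuotientGroup.eq.2 ((key a b).2 h)
  rw [← Set.ncard_image_of_injective _ hψ]
  congr 1
  ext y
  refine ⟨?_, ?_⟩
  · rintro ⟨_, ⟨h, rfl⟩, rfl⟩
    refine ⟨⟨φ h, h.2⟩, ?_⟩
    change φ h • φ a • x = φ (h * a) • x
    rw [map_mul, mul_smul]
  · rintro ⟨⟨s, hs⟩, rfl⟩
    obtain ⟨h, rfl⟩ := (hS.le hs).1
    refine ⟨_, ⟨⟨h, hs⟩, rfl⟩, ?_⟩
    change φ (h * a) • x = φ h • φ a • x
    rw [map_mul, mul_smul]

/-- The Hall–Janko group contains PSU(3, 3) with index 100 and acts on the 100 cosets with rank 3 and subdegrees 1, 36, 63. -/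
theorem result : ∃ H : Subgroup Cfsg.Spor.J2, H.index = 100 ∧ (∃ (F : Type) (_ : Field F) (_ : Fintype F), Fintype.card F = 9 ∧ Nonempty (↥H ≃* Cfsg.PSU 3 F 3)) ∧ ∃ c₁ c₂ : Cfsg.Spor.J2 ⧸ H, (MulAction.orbit ↥H c₁).ncard = 36 ∧ (MulAction.orbit ↥H c₂).ncard = 63 := by
  let φ : Cfsg.Spor.J2 →* Equiv.Perm (Fin 100) :=
    (gen H16.J2.g 5).subtype.comp H15.J2L.equiv.toMonoidHom
  have hi : Function.Injective φ := Subtype.val_injective.comp H15.J2L.equiv.injective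
  have hr : φ.range = gen H16.J2.g 5 := by
    rw [MonoidHom.range_comp, MonoidHom.range_eq_top.2 H15.J2L.equiv.surjective,
      ← MonoidHom.range_eq_map, Subgroup.range_subtype]
  have hS : gen H16.J2.g 4 = φ.range ⊓ MulAction.stabilizer _ (ptF 100 0) :=
    hr ▸ H16.J2.chain.stab_eq (H16.ptF_inj 100)
  have e : (gen H16.J2.g 4).comap φ ≃* gen H16.J2.g 4 :=
    (Subgroup.equivMapOfInjective _ φ hi).trans (MulEquiv.subgroupCongr
      (Subgroup.map_comap_eq_self (hS.le.trans inf_le_left)))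
  have tr : ∀ W : List ℕ, (∀ k ∈ W, k < 5) → ∃ a, φ a • ptF 100 0 = ptF 100 (apW H16.J2.P W 0) :=
    fun W h => by
      obtain ⟨a, ha⟩ := hr.ge (evA_mem_gen _ h)
      exact ⟨a, ha ▸ (H16.J2.act.apW h (by norm_num)).2⟩
  have no := fun r => H16.ncard_orbit_cls (H16.J2.act.mono (by norm_num : 4 ≤ 5)) (H16.ptF_inj 100)
    (by norm_num) c3 H16.J2.Foe c4 (r := r)
  obtain ⟨e2⟩ := iso
  obtain ⟨a, ha⟩ := tr [4, 2, 0, 2, 4] (by decide)
  obtain ⟨b, hb⟩ := tr [4] (by decide)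
  rw [c6.1] at ha
  rw [c6.2] at hb
  refine ⟨(gen H16.J2.g 4).comap φ, ?_, ⟨H16.F9c, inferInstance, inferInstance, H16.card_F9c,
    ⟨e.trans e2⟩⟩, QuotientGroup.mk a, QuotientGroup.mk b, ?_, ?_⟩
  · have := ((gen H16.J2.g 4).comap φ).card_mul_index
    rw [Nat.card_congr e.toEquiv, card4, H15.J2L.card_J2] at this
    omega
  · rw [orb φ _ _ hS, ha, no 16 c5.2.1.1, c5.2.1.2]
  · rw [orb φ _ _ hS, hb, no 1 c5.1.1, c5.1.2]

end Cfsg.Agent.S1624
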