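import Cfsg.Statements.S1626
import Cfsg.Agent.H15.BS
import Cfsg.Agent.H16.L.J3

set_option autoImplicit false
open scoped MatrixGroups
open Matrix
open Cfsg

namespace Cfsg.Agent.S1626


open H15 H15.BS H16.LJ3 Spor
open H16 (gen nth PtInj)

/-- binary digits -/
def bit (x i : ℕ) : ZMod 2 := if x.testBit i then 1 else 0
/-- vectors -/
def vec (x : ℕ) (z : F9) : H11.F4 := ⟨bit x (2 * I9.idx z), bit x (2 * I9.idx z + 1)⟩
/-- the generators -/
noncomputable def g (k : ℕ) : GG := nth 1 o k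
/-- as products of transvections -/
def Ps : List (List (ℕ × ℕ)) := [[(10, 11), (11, 10), (4, 5), (16, 17), (17, 16), (8, 9), (0, 1), (1, 0), (14, 15), (15, 14), (2, 3), (6, 7), (7, 6), (12, 13), (13, 12), (9, 8), (3, 2), (5, 4)],
  [(2, 4), (6, 4), (11, 15), (9, 11), (15, 11), (17, 11), (15, 17), (10, 14), (8, 10), (14, 10), (16, 10), (15, 9), (5, 3), (13, 3), (14, 8), (11, 15), (2, 12), (6, 12), (5, 7), (13, 7), (4, 2), (12, 2), (14, 16), (3, 5), (7, 5), (10, 14), (4, 6), (12, 6), (3, 13), (7, 13)],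
  [(3, 5), (5, 3), (17, 13), (13, 17), (13, 15), (15, 13), (0, 2), (2, 0), (8, 10), (10, 8), (11, 8), (13, 15), (16, 15), (17, 15), (10, 6), (6, 10), (11, 7), (7, 11), (16, 12), (12, 16), (7, 9), (9, 7), (7, 9), (8, 9), (11, 9), (12, 14), (14, 12), (5, 1), (1, 5), (3, 1), (5, 1), (9, 6), (10, 6), (12, 14), (15, 14), (16, 14), (2, 4), (4, 2), (0, 4), (2, 4)]]

theorem prog : Prog 18 vec g 3 Ps where
  add a b := funext fun z => by
    have : ∀ i, bit (a ^^^ b) i = bit a i + bit b i := fun i => by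
      simp only [bit, Nat.testBit_xor]
      cases a.testBit i <;> cases b.testBit i <;> rfl
    ext <;> exact this _
  ok := by decide
  eq := show ∀ k < 3, ∀ j < 18, (g k).val *ᵥ vec (2 ^ j) = _ by decide +kernel

theorem gen_g : gen g 3 = threeJ3 H11.F4 om := le_antisymm
  (H16.gen_le.2 fun k hk => match k, hk with | 0, _ => b0_mem' | 1, _ => b1_mem | 2, _ => b2_mem)
  (gen_eq ▸ H16.gen_le.2 fun k _ => h_mem (H16.all_cons (H16.mem_gen g (k := 0) (by decide)) (H16.all_cons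
    (H16.mem_gen g (k := 1) (by decide)) (H16.all_cons (H16.mem_gen g (k := 2) (by decide)) H16.all_nil))) k)

theorem inj : PtInj vec (2 ^ 18) := fun x hx y hy e => Nat.eq_of_testBit_eq fun i => by
  have k : ∀ i, bit x i = bit y i → x.testBit i = y.testBit i := fun i => by
    simp only [bit]
    cases x.testBit i <;> cases y.testBit i <;> decide
  by_cases h : i < 18
  · obtain ⟨z, e1 | e1⟩ := (by decide : ∀ i < 18, ∃ z, i = 2 * I9.idx z ∨ i = 2 * I9.idx z + 1) i h
    exacts [e1 ▸ k _ congr(($e z).re), e1 ▸ k _ congr(($e z).im)]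
  · have := Nat.pow_le_pow_right two_pos (not_lt.1 h)
    rw [Nat.testBit_lt_two_pow (hx.trans_le this), Nat.testBit_lt_two_pow (hy.trans_le this)]

theorem surj (v : F9 → H11.F4) : ∃ x < 2 ^ 18, vec x = v :=
  cover_of_ncard inj (X := Set.univ) (by
    rw [Set.ncard_univ, Nat.card_eq_fintype_card, Fintype.card_fun, H11.card_F4]; rfl) Set.finite_univ
    (fun _ _ => trivial) v trivial

theorem orb1 : {v | ∃ a ∈ gen g 3, a • vec 1 = v}.ncard = 69768 :=
  prog.ncard (W := [0, 0, 2, 1, 2, 1, 2, 1, 2, 1, 2, 1, 2, 1, 2, 1, 2, 1, 2, 1, 2, 1, 2, 1, 2, 1, 2, 1, 2, 1, 2, 1, 2, 1, 2, 1, 2]) (a := 512) (b := 512) inj surj (by decide +kernel)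

/-- the support of a coordinate -/
noncomputable def sp (k : ℕ) : ℕ := msk 18 (2 * k) ||| msk 18 (2 * k + 1)

theorem all2 : grow 18 Ps [0, 1, 0, 2, 1, 2, 1, 2, 1, 2, 1, 2, 1, 2, 1, 2, 1, 2, 1, 2, 1, 2, 1, 2, 1, 2, 1, 2, 1, 2, 1, 2, 1, 2, 1, 2, 1, 2] (2 ^ 5) |||
    (sp 0 ^^^ sp 1 ^^^ sp 2 ^^^ sp 3 ^^^ sp 4 ^^^ sp 5 ^^^ sp 6 ^^^ sp 7 ^^^ sp 8) ||| 2 ^ 0 = 2 ^ 2 ^ 18 - 1 := by
  decide +kernel

theorem orb2 {v : F9 → H11.F4} (h : v ≠ 0) (e : ∑ z, v z ^ 3 = 0) : ∃ a ∈ gen g 3, a • v = vec 5 := by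
  obtain ⟨x, hx, rfl⟩ := surj v
  have k := congrArg (Nat.testBit · x) all2
  simp only [Nat.testBit_or, Nat.testBit_two_pow_sub_one, hx, decide_true, Bool.or_eq_true,
    Nat.testBit_xor, Nat.testBit_two_pow, decide_eq_true_eq] at k
  rcases k with (k | k) | rfl
  · exact prog.reach (by decide) x hx k
  · have s : ∀ z, vec x z ^ 3 = if (sp (I9.idx z)).testBit x then 1 else 0 := fun z => by
      have := (I9.ok.1 z).1
      simp only [vec, bit, sp, Nat.testBit_or, msk_spec (show 2 * I9.idx z < 18 by omega),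
        msk_spec (show 2 * I9.idx z + 1 < 18 by omega), hx, decide_true, Bool.true_and]
      cases x.testBit _ <;> cases x.testBit _ <;> decide
    rw [Finset.sum_congr rfl fun z _ => s z, ← e9.symm.sum_comp] at e
    simp only [Fin.sum_univ_succ, Fin.sum_univ_zero] at e
    change (if (sp 0).testBit x then _ else _) + ((if (sp 1).testBit x then _ else _) +
      ((if (sp 2).testBit x then _ else _) + ((if (sp 3).testBit x then _ else _) +
      ((if (sp 4).testBit x then _ else _) + ((if (sp 5).testBit x then _ else _) +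
      ((if (sp 6).testBit x then _ else _) + ((if (sp 7).testBit x then _ else _) +
      ((if (sp 8).testBit x then _ else _) + _)))))))) = _ at e
    revert k e
    generalize (sp 0).testBit x = a0, (sp 1).testBit x = a1, (sp 2).testBit x = a2, (sp 3).testBit x = a3,
      (sp 4).testBit x = a4, (sp 5).testBit x = a5, (sp 6).testBit x = a6, (sp 7).testBit x = a7,
      (sp 8).testBit x = a8
    intro k e
    refine absurd e ?_
    revert a0 a1 a2 a3 a4 a5 a6 a7 a8
    decide +kernel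
  · exact absurd (by decide) h

/-- Orbits of the triple cover of the third Janko group on lines of its 9-space over the field with 4 elements: the line through the first basis vector has exactly 23256 images, and the isotropic lines (nonzero v with Σ v_z³ = 0) form a single orbit. -/
theorem result (F : Type) [Field F] [Fintype F] (hF : Fintype.card F = 4) (ω : F) (hω : ω ^ 2 + ω + 1 = 0) : {L : Submodule F (Cfsg.Spor.F9 → F) | ∃ g ∈ Cfsg.Spor.threeJ3 F ω, L = F ∙ ((g : Matrix Cfsg.Spor.F9 Cfsg.Spor.F9 F) *ᵥ (Pi.single (0 : Cfsg.Spor.F9) (1 : F) : Cfsg.Spor.F9 → F))}.ncard = 23256 ∧ ∀ v w : Cfsg.Spor.F9 → F, v ≠ 0 → w ≠ 0 → ∑ z, (v z) ^ 3 = 0 → ∑ z, (w z) ^ 3 = 0 → ∃ g ∈ Cfsg.Spor.threeJ3 F ω, ∃ c : F, c ≠ 0 ∧ (g : Matrix Cfsg.Spor.F9 Cfsg.Spor.F9 F) *ᵥ v = c • w := by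

  obtain ⟨f, rfl⟩ := exists_f hF hω
  have m : ∀ (a : GG) (v : F9 → H11.F4), (H11.glCongr (Equiv.refl F9) f a).val *ᵥ (f ∘ v) = f ∘ (a • v) :=
    fun a v => funext fun i => (RingHom.map_mulVec (f : H11.F4 →+* F) a.val v i).symm
  rw [← map_three, ← gen_g]
  refine ⟨?_, fun v w hv hw h1 h2 => ?_⟩
  · classical
    let L : (F9 → H11.F4) → Submodule F (F9 → F) := fun v => F ∙ (f ∘ v)
    have e0 : Pi.single 0 1 = f ∘ vec 1 := by
      rw [show vec 1 = Pi.single 0 1 by decide +kernel]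
      exact funext fun i => by simp [Pi.single_apply, apply_ite f]
    have hf := Set.toFinite {v | ∃ a ∈ gen g 3, a • vec 1 = v}
    have sc : ∀ c : H11.F4ˣ, ∃ a ∈ gen g 3, ∀ v : F9 → H11.F4, a • v = c • v := fun c => by
      obtain ⟨k, e⟩ := (by decide +kernel : ∀ c : H11.F4, c ≠ 0 → ∃ k : Fin 3,
        (b0 ^ k.val).val = Matrix.scalar _ c) c c.ne_zero
      exact ⟨_, pow_mem (H16.mem_gen g (k := 0) (by decide)) k, fun v => by
        change (b0 ^ k.val).val *ᵥ v = _
        simp [e, Units.smul_def]⟩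
    have c := (Finset.card_eq_sum_card_image L hf.toFinset).trans <| Finset.sum_const_nat (m := 3) fun l hl => by
      obtain ⟨v, hv, rfl⟩ := Finset.mem_image.1 hl
      obtain ⟨a, ha, rfl⟩ := hf.mem_toFinset.1 hv
      have n : a • vec 1 ≠ 0 := (smul_ne_zero_iff_ne a).2 (by decide +kernel)
      refine (congrArg _ (Finset.ext fun w => ?_)).trans ((Finset.card_image_of_injective Finset.univ
        (f := fun c : H11.F4ˣ => c • a • vec 1) fun c d e => Units.ext (smul_left_injective _ n e)).trans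
        (Fintype.card_units _))
      simp only [Finset.mem_filter, Finset.mem_image, Finset.mem_univ, true_and, hf.mem_toFinset, L]
      rw [eq_comm, Submodule.span_singleton_eq_span_singleton]
      refine ⟨fun ⟨_, c, e⟩ => ⟨Units.map f.symm c, funext fun i => f.injective ?_⟩, ?_⟩
      · simpa [Units.smul_def] using congrFun e i
      · rintro ⟨c, rfl⟩
        obtain ⟨b, hb, e⟩ := sc c
        exact ⟨⟨b * a, mul_mem hb ha, by rw [mul_smul, e]⟩, Units.map f c, funext fun i => by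
          simp [Units.smul_def]⟩
    rw [← Set.ncard_eq_toFinset_card _ hf, orb1, ← Set.ncard_coe_finset] at c
    refine (congrArg _ (Set.ext fun l => ?_)).trans (Nat.eq_of_mul_eq_mul_right three_pos c.symm)
    simp only [Finset.coe_image, hf.coe_toFinset, e0]
    exact ⟨by rintro ⟨_, ⟨a, ha, rfl⟩, rfl⟩; exact ⟨_, ⟨a, ha, rfl⟩, congrArg (F ∙ ·) (m a _).symm⟩,
      by rintro ⟨_, ⟨a, ha, rfl⟩, rfl⟩; exact ⟨_, ⟨a, ha, rfl⟩, congrArg (F ∙ ·) (m a _).symm⟩⟩
  · have k : ∀ v : F9 → F, v ≠ 0 → ∑ z, v z ^ 3 = 0 → ∃ a ∈ gen g 3, a • (f.symm ∘ v) = vec 5 :=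
      fun v h e => orb2 (fun e => h (funext fun i => f.symm.injective (by simpa using congrFun e i)))
        (by simpa using congrArg f.symm e)
    obtain ⟨a, ha, e⟩ := k v hv h1
    obtain ⟨b, hb, e'⟩ := k w hw h2
    have := m (b⁻¹ * a) (f.symm ∘ v)
    rw [mul_smul, e, ← e', inv_smul_smul] at this
    exact ⟨_, ⟨_, mul_mem (inv_mem hb) ha, rfl⟩, 1, one_ne_zero, by simpa [Function.comp_def] using this⟩

end Cfsg.Agent.S1626
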