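import Cfsg.Statements.S1634
import Cfsg.Agent.H15.Conway2

set_option autoImplicit false
open Cfsg

namespace Cfsg.Agent.S1634

open H15 MulAction in
theorem orb {g : Cfsg.Co0} {e : ℤ} {n : ℕ} (hn : (Sh3 lV lU lU' (-16) 0 e).ncard = n) (h0 : n ≠ 0) :
    ∃ y ∈ Sh2 (g • lV) (g • lU) (-16) 0, (orbit (stabilizer Cfsg.Co0 (g • lU) ⊓
      stabilizer Cfsg.Co0 (g • (-lV - lU)) ⊓ stabilizer Cfsg.Co0 (g • lU') : Subgroup Cfsg.Co0) y).ncard = n := by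
  rw [← ncard_Sh3 g] at hn
  obtain ⟨y, hy⟩ := Set.nonempty_of_ncard_ne_zero (hn ▸ h0)
  refine ⟨y, hy.1, (congrArg _ (orbit_eq_of (fun a ha => ?_) fun z hz => ?_)).trans hn⟩
  · have h1 : a • g • lU = g • lU := ha.1.1
    have h2 : a • g • (-lV - lU) = g • (-lV - lU) := ha.1.2
    have h3 : a • g • lU' = g • lU' := ha.2
    rw [co_sub, co_neg, co_sub, co_neg, h1, sub_left_inj, neg_inj] at h2
    rw [← h1, ← h2, ← h3, smul_mem_Sh3]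
    exact hy
  · obtain ⟨a, h1, h2, h3, h4⟩ := rank_conj2 (A := sMcL ⊓ stabilizer Cfsg.Co0 lU')
      (fun a ha => ⟨ha.1.1, ha.1.2, ha.2⟩) rank2025 g y hy.1 z hz.1 (hy.2.trans hz.2.symm)
    refine ⟨a, ⟨⟨h2, ?_⟩, h3⟩, h4⟩
    change a • _ = _
    rw [co_sub, co_neg, co_sub, co_neg, h1, h2]

open H15 in
theorem hset (g : Cfsg.Co0) : {x : Lam | Cfsg.sqNorm (cf x) = 32 ∧ Cfsg.dotInt (cf (g • lU)) (cf x) = 0 ∧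
    Cfsg.dotInt (cf (g • (-lV - lU))) (cf x) = 16} = Sh2 (g • lV) (g • lU) (-16) 0 := by
  ext x
  rw [co_sub, co_neg]
  simp only [Sh2, Set.mem_setOf_eq, show ∀ a b : Lam, cf (-a - b) = -cf a - cf b from fun _ _ => rfl,
    dotInt_sub_left, dotInt_neg_left]
  omega

/-- The McLaughlin group acts on 2025 points (minimal vectors orthogonal to v with customary inner product 2 with w) transitively with rank 4 and subdegrees 1, 330, 462, 1232. -/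
theorem result (v w : ↥Cfsg.leechLattice) (hv : Cfsg.sqNorm (v : Cfsg.GolayPt → ℤ) = 32) (hw : Cfsg.sqNorm (w : Cfsg.GolayPt → ℤ) = 32) (hvw : Cfsg.dotInt (v : Cfsg.GolayPt → ℤ) (w : Cfsg.GolayPt → ℤ) = -8) : {x : ↥Cfsg.leechLattice | Cfsg.sqNorm (x : Cfsg.GolayPt → ℤ) = 32 ∧ Cfsg.dotInt (v : Cfsg.GolayPt → ℤ) (x : Cfsg.GolayPt → ℤ) = 0 ∧ Cfsg.dotInt (w : Cfsg.GolayPt → ℤ) (x : Cfsg.GolayPt → ℤ) = 16}.ncard = 2025 ∧ (∀ x ∈ {x : ↥Cfsg.leechLattice | Cfsg.sqNorm (x : Cfsg.GolayPt → ℤ) = 32 ∧ Cfsg.dotInt (v : Cfsg.GolayPt → ℤ) (x : Cfsg.GolayPt → ℤ) = 0 ∧ Cfsg.dotInt (w : Cfsg.GolayPt → ℤ) (x : Cfsg.GolayPt → ℤ) = 16}, ∀ x' ∈ {x : ↥Cfsg.leechLattice | Cfsg.sqNorm (x : Cfsg.GolayPt → ℤ) = 32 ∧ Cfsg.dotInt (v : Cfsg.GolayPt → ℤ) (x : Cfsg.GolayPt → ℤ) = 0 ∧ Cfsg.dotInt (w : Cfsg.GolayPt → ℤ) (x : Cfsg.GolayPt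 → ℤ) = 16}, ∃ g : ↥Cfsg.Co0, g • v = v ∧ g • w = w ∧ g • x = x') ∧ ∀ x ∈ {x : ↥Cfsg.leechLattice | Cfsg.sqNorm (x : Cfsg.GolayPt → ℤ) = 32 ∧ Cfsg.dotInt (v : Cfsg.GolayPt → ℤ) (x : Cfsg.GolayPt → ℤ) = 0 ∧ Cfsg.dotInt (w : Cfsg.GolayPt → ℤ) (x : Cfsg.GolayPt → ℤ) = 16}, ∃ y₁ ∈ {x : ↥Cfsg.leechLattice | Cfsg.sqNorm (x : Cfsg.GolayPt → ℤ) = 32 ∧ Cfsg.dotInt (v : Cfsg.GolayPt → ℤ) (x : Cfsg.GolayPt → ℤ) = 0 ∧ Cfsg.dotInt (w : Cfsg.GolayPt → ℤ) (x : Cfsg.GolayPt → ℤ) = 16}, ∃ y₂ ∈ {x : ↥Cfsg.leechLattice | Cfsg.sqNorm (x : Cfsg.GolayPt → ℤ) = 32 ∧ Cfsg.dotInt (v : Cfsg.GolayPt → ℤ) (x : Cfsg.GolayPt → ℤ) = 0 ∧ Cfsg.dotInt (w : Cfsg.GolayPt → ℤ) (x : Cfsg.GolayPt → ℤ) = 16}, ∃ y₃ ∈ {x : ↥Cfsg.leechLattice | Cfsg.sqNorm (x : Cfsg.GolayPt → ℤ) = 32 ∧ Cfsg.dotInt (v : Cfsg.GolayPt → ℤ) (x : Cfsg.GolayPt →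 ℤ) = 0 ∧ Cfsg.dotInt (w : Cfsg.GolayPt → ℤ) (x : Cfsg.GolayPt → ℤ) = 16}, (MulAction.orbit ↥(MulAction.stabilizer ↥Cfsg.Co0 v ⊓ MulAction.stabilizer ↥Cfsg.Co0 w ⊓ MulAction.stabilizer ↥Cfsg.Co0 x) y₁).ncard = 330 ∧ (MulAction.orbit ↥(MulAction.stabilizer ↥Cfsg.Co0 v ⊓ MulAction.stabilizer ↥Cfsg.Co0 w ⊓ MulAction.stabilizer ↥Cfsg.Co0 x) y₂).ncard = 462 ∧ (MulAction.orbit ↥(MulAction.stabilizer ↥Cfsg.Co0 v ⊓ MulAction.stabilizer ↥Cfsg.Co0 w ⊓ MulAction.stabilizer ↥Cfsg.Co0 x) y₃).ncard = 1232 := by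
  obtain ⟨g, rfl, rfl⟩ := H15.pair_std H15.trans47104 (H15.trans_min hv) ⟨hw, hvw⟩
  have std : ∀ x ∈ H15.Sh2 (g • H15.lV) (g • H15.lU) (-16) 0, ∃ h : Cfsg.Co0, h • H15.lV = g • H15.lV ∧
      h • H15.lU = g • H15.lU ∧ h • H15.lU' = x := fun x hx =>
    H15.triple_std H15.trans2025 ⟨g, rfl, rfl⟩ hx
  rw [hset]
  refine ⟨(H15.ncard_Sh2 _ _ _ _ _).trans H15.n2025, fun x hx x' hx' => ?_, fun x hx => ?_⟩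
  · obtain ⟨a, a1, a2, rfl⟩ := std x hx
    obtain ⟨b, b1, b2, rfl⟩ := std x' hx'
    have h1 : (b * a⁻¹) • g • H15.lV = g • H15.lV := by rw [← a1, mul_smul, inv_smul_smul, b1, a1]
    have h2 : (b * a⁻¹) • g • H15.lU = g • H15.lU := by rw [← a2, mul_smul, inv_smul_smul, b2, a2]
    exact ⟨b * a⁻¹, h2, by rw [H15.co_sub, H15.co_neg, H15.co_sub, H15.co_neg, h1, h2],
      by rw [mul_smul, inv_smul_smul]⟩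
  · obtain ⟨a, a1, a2, rfl⟩ := std x hx
    have a3 : g • (-H15.lV - H15.lU) = a • (-H15.lV - H15.lU) := by
      rw [H15.co_sub, H15.co_neg, H15.co_sub, H15.co_neg, a1, a2]
    rw [a3, ← a1, ← a2]
    obtain ⟨y1, h1, e1⟩ := orb (g := a) ((H15.cen3 2 4 4).trans (by decide +kernel : _ = 330)) (by norm_num)
    obtain ⟨y2, h2, e2⟩ := orb (g := a) ((H15.cen3 2 4 6).trans (by decide +kernel : _ = 462)) (by norm_num)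
    obtain ⟨y3, h3, e3⟩ := orb (g := a) ((H15.cen3 2 4 5).trans (by decide +kernel : _ = 1232)) (by norm_num)
    exact ⟨y1, h1, y2, h2, y3, h3, e1, e2, e3⟩

end Cfsg.Agent.S1634
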