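import Cfsg.Statements.S1635
import Cfsg.Agent.H15.AbsGolay

set_option autoImplicit false
open Cfsg

namespace Cfsg.Agent.S1635

open H15 Finset
open scoped Pointwise

/-- Coset leaders of the length-24 code: a coset contains a unique word of weight ≤ 3, or else exactly six words of weight 4 and none lighter. -/
theorem result (w : Cfsg.GolayPt → ZMod 2) : ({v : Cfsg.GolayPt → ZMod 2 | hammingNorm v ≤ 4 ∧ w - v ∈ Cfsg.golayCode}.ncard = 1 ∧ ∃ v : Cfsg.GolayPt → ZMod 2, hammingNorm v ≤ 3 ∧ w - v ∈ Cfsg.golayCode) ∨ ({v : Cfsg.GolayPt → ZMod 2 | hammingNorm v ≤ 4 ∧ w - v ∈ Cfsg.golayCode}.ncard = 6 ∧ ∀ v : Cfsg.GolayPt → ZMod 2, w - v ∈ Cfsg.golayCode → hammingNorm v ≤ 4 → hammingNorm v = 4) := by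
  have e : {v : GolayPt → ZMod 2 | hammingNorm v ≤ 4 ∧ w - v ∈ golayCode} =
      {u | u - w ∈ (golayCode : Set (GolayPt → ZMod 2)) ∧ hammingNorm u ≤ 4} := by
    ext v
    simp only [Set.mem_setOf_eq, SetLike.mem_coe]
    rw [and_comm, ← Submodule.neg_mem_iff, neg_sub]
  rcases ACode.coset' card_pt aCode_cw w with ⟨u, h1, h2⟩ | ⟨h1, h2⟩
  · rw [← e] at h1
    have : u ∈ {v : GolayPt → ZMod 2 | hammingNorm v ≤ 4 ∧ w - v ∈ golayCode} := h1 ▸ rfl
    exact Or.inl ⟨by rw [h1, Set.ncard_singleton], u, h2, this.2⟩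
  · rw [← e] at h1 h2
    exact Or.inr ⟨h1, fun v a b => (h2 v ⟨b, a⟩).1⟩

end Cfsg.Agent.S1635
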