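import Cfsg.Statements.S1636
import Cfsg.Agent.H15.Mod

set_option autoImplicit false
open Cfsg

namespace Cfsg.Agent.S1636

open H15 Finset
open scoped Pointwise

theorem norm_res (w : Cfsg.GolayPt → ZMod 2) :
    hammingNorm (fun x : ZMod 23 => w (some x)) = ((Cfsg.support₂ w).erase none).card := by
  rw [hammingNorm_eq_card, ← card_image_of_injective _ (Option.some_injective _)]
  congr 1
  ext p
  cases p <;> simp [mem_support₂]

theorem res_inj {v w : Cfsg.GolayPt → ZMod 2} (hv : v ∈ Cfsg.golayCode) (hw : w ∈ Cfsg.golayCode)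
    (h : hammingNorm (fun x : ZMod 23 => (v - w) (some x)) ≤ 6) : v = w := by
  have h1 := cw_card (support_mem_cw.2 (sub_mem hv hw))
  have h2 := pred_card_le_card_erase (s := Cfsg.support₂ (v - w)) (a := none)
  rw [norm_res] at h
  exact sub_eq_zero.1 (support₂_inj ((card_eq_zero.1 (by omega)).trans support_zero.symm))

theorem cnt (p : ℕ → Prop) (P : ℕ → Bool) (h : ∀ n, p n ↔ P n = true) :
    {u : ZMod 23 → ZMod 2 | u ∈ {u : ZMod 23 → ZMod 2 | ∃ w ∈ Cfsg.golayCode,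
      ∀ x : ZMod 23, u x = w (some x)} ∧ p (hammingNorm u)}.ncard
      = cntTo2 (fun a => P (pc (Nat.land (enc a) 8388607))) 64 64 := by
  rw [← ncard_cw (X := {s | s ∈ cw ∧ p (s.erase none).card}) (fun m => P (pc (Nat.land m 8388607)))
    (fun _ h => h.1) (fun m hm => by
      rw [Set.mem_setOf_eq, and_iff_right (S_mem_cw hm), h, Nat.land_eq, ← card_S_and (isC_lt hm),
        show S 8388607 = univ.erase none by decide +kernel, inter_erase, inter_univ])]
  symm
  refine Set.ncard_congr (fun s _ x => W (msk s) (some x)) ?_ ?_ ?_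
  · rintro s ⟨h1, h2⟩
    exact ⟨⟨_, support_mem_cw.1 (by rwa [support_W, S_msk]), fun _ => rfl⟩,
      by rwa [norm_res, support_W, S_msk]⟩
  · rintro s t ⟨h1, -⟩ ⟨h2, -⟩ e
    have := res_inj (v := W (msk s)) (w := W (msk t)) (support_mem_cw.1 (by rwa [support_W, S_msk]))
      (support_mem_cw.1 (by rwa [support_W, S_msk])) (by
        rw [show (fun x : ZMod 23 => (W (msk s) - W (msk t)) (some x)) = 0 from sub_eq_zero.2 e]
        simp)
    rw [← S_msk s, ← support_W, this, support_W, S_msk]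
  · rintro u ⟨⟨w, h1, h2⟩, h3⟩
    obtain rfl : u = fun x => w (some x) := funext h2
    refine ⟨Cfsg.support₂ w, ⟨support_mem_cw.2 h1, by rwa [← norm_res]⟩, ?_⟩
    rw [support₂_inj ((support_W _).trans (S_msk _))]

/-- The punctured length-23 code has weight distribution 0^1 7^253 8^506 11^1288 12^1288 15^506 16^253 23^1. -/
theorem result : {u : ZMod 23 → ZMod 2 | ∃ w ∈ Cfsg.golayCode, ∀ x : ZMod 23, u x = w (some x)}.ncard = 4096 ∧ {u : ZMod 23 → ZMod 2 | u ∈ {u : ZMod 23 → ZMod 2 | ∃ w ∈ Cfsg.golayCode, ∀ x : ZMod 23, u x = w (some x)} ∧ hammingNorm u = 7}.ncard = 253 ∧ {u : ZMod 23 → ZMod 2 | u ∈ {u : ZMod 23 → ZMod 2 | ∃ w ∈ Cfsg.golayCode, ∀ x : ZMod 23, u x = w (some x)} ∧ hammingNorm u = 8}.ncard = 506 ∧ {u : ZMod 23 → ZMod 2 | u ∈ {u : ZMod 23 → ZMod 2 | ∃ w ∈ Cfsg.golayCode, ∀ x : ZMod 23, u x = w (some x)} ∧ hammingNorm u = 11}.ncard = 1288 ∧ {u : ZMod 23 → ZMod 2 | u ∈ {u : ZMod 23 → ZMod 2 | ∃ w ∈ Cfsg.golayCode,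 ∀ x : ZMod 23, u x = w (some x)} ∧ hammingNorm u = 12}.ncard = 1288 ∧ {u : ZMod 23 → ZMod 2 | u ∈ {u : ZMod 23 → ZMod 2 | ∃ w ∈ Cfsg.golayCode, ∀ x : ZMod 23, u x = w (some x)} ∧ hammingNorm u = 15}.ncard = 506 ∧ {u : ZMod 23 → ZMod 2 | u ∈ {u : ZMod 23 → ZMod 2 | ∃ w ∈ Cfsg.golayCode, ∀ x : ZMod 23, u x = w (some x)} ∧ hammingNorm u = 16}.ncard = 253 ∧ ∀ u ∈ {u : ZMod 23 → ZMod 2 | ∃ w ∈ Cfsg.golayCode, ∀ x : ZMod 23, u x = w (some x)}, u ≠ 0 → 7 ≤ hammingNorm u := by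
  have h := fun k => cnt (· = k) (fun n => Nat.beq n k) (fun n => Nat.beq_eq.symm.to_iff)
  refine ⟨?_, (h 7).trans (by decide +kernel), (h 8).trans (by decide +kernel),
    (h 11).trans (by decide +kernel), (h 12).trans (by decide +kernel),
    (h 15).trans (by decide +kernel), (h 16).trans (by decide +kernel), ?_⟩
  · have := cnt (fun _ => True) (fun _ => true) (by simp)
    simp only [and_true] at this
    exact this.trans (by decide +kernel)
  · rintro u ⟨w, h1, h2⟩ hu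
    obtain rfl : u = fun x => w (some x) := funext h2
    by_contra h3
    exact hu (by rw [res_inj h1 (zero_mem _) (by simpa using Nat.le_of_lt_succ (not_le.1 h3))]; rfl)

end Cfsg.Agent.S1636
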