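import Cfsg.Statements.S1637
import Cfsg.Agent.H15.Mod

set_option autoImplicit false
open Cfsg

namespace Cfsg.Agent.S1637

open H15 Finset
open scoped Pointwise

theorem norm_res (w : Cfsg.GolayPt → ZMod 2) :
    hammingNorm (fun x : ZMod 23 => w (some x)) = ((Cfsg.support₂ w).erase none).card := by
  rw [hammingNorm_eq_card, ← card_image_of_injective _ (Option.some_injective _)]
  congr 1
  ext p
  cases p <;> simp [mem_support₂]

theorem res_inj {v w : Cfsg.GolayPt → ZMod 2} (hv : v ∈ Cfsg.golayCode) (hw : w ∈ Cfsg.golayCode)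
    (h : hammingNorm (fun x : ZMod 23 => (v - w) (some x)) ≤ 6) : v = w := by
  have h1 := cw_card (support_mem_cw.2 (sub_mem hv hw))
  have h2 := pred_card_le_card_erase (s := Cfsg.support₂ (v - w)) (a := none)
  rw [norm_res] at h
  exact sub_eq_zero.1 (support₂_inj ((card_eq_zero.1 (by omega)).trans support_zero.symm))

/-- The punctured length-23 code is a perfect 3-error-correcting code: each word of length 23 is within distance 3 of exactly one codeword. -/
theorem result (u : ZMod 23 → ZMod 2) : ∃! c : ZMod 23 → ZMod 2, c ∈ {u : ZMod 23 → ZMod 2 | ∃ w ∈ Cfsg.golayCode, ∀ x : ZMod 23, u x = w (some x)} ∧ hammingDist u c ≤ 3 := by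
  let v : Cfsg.GolayPt → ZMod 2 := fun p => p.elim 0 u
  obtain ⟨w, h1, h2⟩ : ∃ w ∈ Cfsg.golayCode, hammingDist u (fun x => w (some x)) ≤ 3 := by
    by_cases h : v ∈ Cfsg.golayCode
    · exact ⟨v, h, (hammingDist_self u).trans_le (by norm_num)⟩
    obtain ⟨t, h1, -, h2⟩ := exists_small_rep (fun e => h (support_mem_cw.1 e)) none
    obtain ⟨w, rfl⟩ := support₂_surj t
    refine ⟨v - w, support_mem_cw.1 (by rwa [support₂_sub]), ?_⟩
    rw [hammingDist_comm, hammingDist_eq_hammingNorm,
      show -(fun x => (v - w) (some x)) + u = fun x => w (some x) from funext fun x => by simp [v],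
      norm_res]
    rcases h2 with h2 | h2
    · exact card_erase_le.trans h2
    · rw [card_erase_of_mem h2.2, h2.1]
  refine ⟨_, ⟨⟨w, h1, fun _ => rfl⟩, h2⟩, ?_⟩
  rintro c ⟨⟨w', h3, h4⟩, h5⟩
  obtain rfl : c = fun x => w' (some x) := funext h4
  have := hammingDist_triangle_left (fun x => w (some x)) (fun x => w' (some x)) u
  rw [res_inj h3 h1 (by
    rw [hammingDist_eq_hammingNorm, neg_add_eq_sub] at this
    exact this.trans (by omega))]

end Cfsg.Agent.S1637
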