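import Cfsg.Statements.S1641
import Cfsg.Agent.H15.Conway2

set_option autoImplicit false
open Cfsg

namespace Cfsg.Agent.S1641

open H15 MulAction in
theorem orb {g : Cfsg.Co0} {e : ℤ} {n : ℕ} (hn : (Sh2 lV lU' (-16) e).ncard = n) (h0 : n ≠ 0) :
    ∃ y ∈ Sh (g • lV) (-16), (orbit (stabilizer Cfsg.Co0 (g • lV) ⊓
      stabilizer Cfsg.Co0 (g • lU') : Subgroup Cfsg.Co0) y).ncard = n ∧ orbit (stabilizer Cfsg.Co0 (g • lV) ⊓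
      stabilizer Cfsg.Co0 (g • lU') : Subgroup Cfsg.Co0) y = Sh2 (g • lV) (g • lU') (-16) e := by
  rw [← ncard_Sh2 g] at hn
  obtain ⟨y, hy⟩ := Set.nonempty_of_ncard_ne_zero (hn ▸ h0)
  have : orbit (stabilizer Cfsg.Co0 (g • lV) ⊓
      stabilizer Cfsg.Co0 (g • lU') : Subgroup Cfsg.Co0) y = Sh2 (g • lV) (g • lU') (-16) e := by
    refine orbit_eq_of (fun a ha => Sh2.smul ha.1 ha.2 hy) fun z hz => ?_
    obtain ⟨y, rfl⟩ := MulAction.surjective g y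
    obtain ⟨z, rfl⟩ := MulAction.surjective g z
    rw [smul_mem_Sh2] at hy hz
    obtain ⟨a, ha, rfl⟩ := rank11178 y ⟨hy.1, hy.2.1⟩ z ⟨hz.1, hz.2.1⟩ (hy.2.2.trans hz.2.2.symm)
    exact ⟨g * a * g⁻¹, ⟨conj_fix' ha.1, conj_fix' ha.2⟩, by rw [mul_smul, inv_smul_smul, mul_smul]⟩
  exact ⟨y, ⟨hy.1, hy.2.1⟩, this ▸ hn, this⟩

open H15 in
theorem noo {e : ℤ} (hn : (Sh2 lV lU' (-16) e).ncard = 0) (y : Lam) : y ∉ Sh2 lV lU' (-16) e := by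
  rw [Set.ncard_eq_zero (Sh2_fin _ _ _ _)] at hn
  rw [hn]; exact id

/-- The third Conway group acts on the 11178 cosets of the Higman–Sims group with rank 5 and subdegrees 1, 352, 1100, 4125, 5600. -/
theorem result (u x : ↥Cfsg.leechLattice) (hu : Cfsg.sqNorm (u : Cfsg.GolayPt → ℤ) = 48) (hx : x ∈ {x : ↥Cfsg.leechLattice | Cfsg.sqNorm (x : Cfsg.GolayPt → ℤ) = 32 ∧ Cfsg.dotInt (u : Cfsg.GolayPt → ℤ) (x : Cfsg.GolayPt → ℤ) = -16}) : ∃ y₁ ∈ {x : ↥Cfsg.leechLattice | Cfsg.sqNorm (x : Cfsg.GolayPt → ℤ) = 32 ∧ Cfsg.dotInt (u : Cfsg.GolayPt → ℤ) (x : Cfsg.GolayPt → ℤ) = -16}, ∃ y₂ ∈ {x : ↥Cfsg.leechLattice | Cfsg.sqNorm (x : Cfsg.GolayPt → ℤ) = 32 ∧ Cfsg.dotInt (u : Cfsg.GolayPt → ℤ) (x : Cfsg.GolayPt → ℤ) = -16}, ∃ y₃ ∈ {x : ↥Cfsg.leechLattice | Cfsg.sqNorm (x : Cfsg.GolayPt → ℤ) = 32 ∧ Cfsg.dotInt (u : Cfsg.GolayPt → ℤ) (x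 : Cfsg.GolayPt → ℤ) = -16}, ∃ y₄ ∈ {x : ↥Cfsg.leechLattice | Cfsg.sqNorm (x : Cfsg.GolayPt → ℤ) = 32 ∧ Cfsg.dotInt (u : Cfsg.GolayPt → ℤ) (x : Cfsg.GolayPt → ℤ) = -16}, (MulAction.orbit ↥(MulAction.stabilizer ↥Cfsg.Co0 u ⊓ MulAction.stabilizer ↥Cfsg.Co0 x) y₁).ncard = 352 ∧ (MulAction.orbit ↥(MulAction.stabilizer ↥Cfsg.Co0 u ⊓ MulAction.stabilizer ↥Cfsg.Co0 x) y₂).ncard = 1100 ∧ (MulAction.orbit ↥(MulAction.stabilizer ↥Cfsg.Co0 u ⊓ MulAction.stabilizer ↥Cfsg.Co0 x) y₃).ncard = 4125 ∧ (MulAction.orbit ↥(MulAction.stabilizer ↥Cfsg.Co0 u ⊓ MulAction.stabilizer ↥Cfsg.Co0 x) y₄).ncard = 5600 ∧ {x : ↥Cfsg.leechLattice | Cfsg.sqNorm (x : Cfsg.GolayPt → ℤ) = 32 ∧ Cfsg.dotInt (u : Cfsg.GolayPt → ℤ) (x : Cfsg.GolayPt → ℤ) = -16} = {x} ∪ MulAction.orbit ↥(MulAction.stabilizer ↥Cfsg.Co0 u ⊓ MulAction.stabilizer ↥Cfsg.Co0 x) y₁ ∪ MulAction.orbit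 ↥(MulAction.stabilizer ↥Cfsg.Co0 u ⊓ MulAction.stabilizer ↥Cfsg.Co0 x) y₂ ∪ MulAction.orbit ↥(MulAction.stabilizer ↥Cfsg.Co0 u ⊓ MulAction.stabilizer ↥Cfsg.Co0 x) y₃ ∪ MulAction.orbit ↥(MulAction.stabilizer ↥Cfsg.Co0 u ⊓ MulAction.stabilizer ↥Cfsg.Co0 x) y₄ := by
  obtain ⟨g, rfl, rfl⟩ := H15.std_VU' hu hx
  obtain ⟨y1, h1, e1, s1⟩ := orb (g := g) ((H15.cen_VU' 2 3).trans (by decide +kernel : _ = 352)) (by norm_num)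
  obtain ⟨y2, h2, e2, s2⟩ := orb (g := g) ((H15.cen_VU' 2 6).trans (by decide +kernel : _ = 1100)) (by norm_num)
  obtain ⟨y3, h3, e3, s3⟩ := orb (g := g) ((H15.cen_VU' 2 4).trans (by decide +kernel : _ = 4125)) (by norm_num)
  obtain ⟨y4, h4, e4, s4⟩ := orb (g := g) ((H15.cen_VU' 2 5).trans (by decide +kernel : _ = 5600)) (by norm_num)
  refine ⟨y1, h1, y2, h2, y3, h3, y4, h4, e1, e2, e3, e4, ?_⟩
  rw [s1, s2, s3, s4]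
  ext y
  obtain ⟨y, rfl⟩ := MulAction.surjective g y
  change g • y ∈ H15.Sh (g • H15.lV) (-16) ↔ _
  simp only [Set.mem_union, Set.mem_singleton_iff, H15.smul_mem_Sh, H15.smul_mem_Sh2,
    (MulAction.injective g).eq_iff]
  constructor
  · intro hy
    have n0 := noo ((H15.cen_VU' 2 0).trans (by decide +kernel : _ = 0)) y
    have n2 := noo ((H15.cen_VU' 2 2).trans (by decide +kernel : _ = 0)) y
    have h1 := @H15.eq_of_dot H15.lU' y H15.norm_U' hy.1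
    have h2 := @H15.eq_of_dot H15.lU' (-y) H15.norm_U' ((H15.sqNorm_neg _).trans hy.1)
    have h3 : (8 : ℤ) ∣ Cfsg.dotInt (H15.cf H15.lU') (H15.cf y) := H15.leech_dot H15.lU'.2 y.2
    have e : Cfsg.dotInt (H15.cf H15.lU') (H15.cf (-y)) = -Cfsg.dotInt (H15.cf H15.lU') (H15.cf y) :=
      H15.dotInt_neg_right _ _
    have h4 : ¬ 16 < Cfsg.dotInt (H15.cf H15.lU') (H15.cf (-y)) := fun h => by
      have h5 : Cfsg.dotInt (H15.cf H15.lV) (H15.cf (-y)) = -Cfsg.dotInt (H15.cf H15.lV) (H15.cf y) :=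
        H15.dotInt_neg_right _ _
      rw [← h2 h, H15.U'_mem_V.2, hy.2] at h5
      omega
    simp only [H15.Sh2, Set.mem_setOf_eq, hy.1, hy.2, true_and] at n0 n2 ⊢
    by_cases e : 16 < Cfsg.dotInt (H15.cf H15.lU') (H15.cf y)
    · exact Or.inl (Or.inl (Or.inl (Or.inl (h1 e).symm)))
    · omega
  · rintro ((((rfl | h) | h) | h) | h)
    · exact H15.U'_mem_V
    all_goals exact ⟨h.1, h.2.1⟩

end Cfsg.Agent.S1641
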