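import Cfsg.Statements.S1642
import Cfsg.Agent.H15.Conway2

set_option autoImplicit false
open Cfsg

namespace Cfsg.Agent.S1642

open H15 H16 in
theorem key : ∃ a ∈ sHS, orderOf a = 2 ∧ ∀ x ∈ Sh2 lV lU' (-24) 0, a • x ≠ x := by
  have hc : H16.powL HS.P 6 HS.B [0, 5, 4, 1, 0, 3] 2 = 0 ∧
      ∀ i < 100, H16.apW HS.P [0, 5, 4, 1, 0, 3] i ≠ i := by decide +kernel
  have h1 := H16.powL_eq_one HS.act HS.Blt HS.isBase hc.1
  have h2 : ∀ x ∈ Sh2 lV lU' (-24) 0, evA HS.g [0, 5, 4, 1, 0, 3] • x ≠ x := fun x hx e => by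
    obtain ⟨i, hi, rfl⟩ := cover100 x hx
    have := HS.act.apW (W := [0, 5, 4, 1, 0, 3]) (by decide) hi
    exact hc.2 i hi (HS.inj _ this.1 _ hi (this.2.symm.trans e))
  refine ⟨_, gen_HS ▸ evA_mem_gen _ h1.1, orderOf_eq_prime h1.2 fun e => h2 lU U_mem_VU' (by rw [e, one_smul]), h2⟩

/-- Some involution of the Higman–Sims group acts without fixed points on its 100 points. -/
theorem result (v w : ↥Cfsg.leechLattice) (hv : Cfsg.sqNorm (v : Cfsg.GolayPt → ℤ) = 48) (hw : Cfsg.sqNorm (w : Cfsg.GolayPt → ℤ) = 48) (hvw : Cfsg.dotInt (v : Cfsg.GolayPt → ℤ) (w : Cfsg.GolayPt → ℤ) = -32) : ∃ g : ↥Cfsg.Co0, g • v = v ∧ g • w = w ∧ orderOf g = 2 ∧ ∀ x ∈ {x : ↥Cfsg.leechLattice | Cfsg.sqNorm (x : Cfsg.GolayPt → ℤ) = 32 ∧ Cfsg.dotInt (v : Cfsg.GolayPt → ℤ) (x : Cfsg.GolayPt → ℤ) = 24 ∧ Cfsg.dotInt (w : Cfsg.GolayPt → ℤ) (x : Cfsg.GolayPt → ℤ) = -24}, g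 • x ≠ x := by
  obtain ⟨g, e1, e2⟩ := H15.std_hs hv hw hvw
  obtain ⟨a, ha, h1, h2⟩ := key
  have := H15.fix_hs (g := g * a * g⁻¹) (v := v) (w := w) (e1 ▸ H15.conj_fix' ha.1)
    (e2 ▸ H15.conj_fix' ha.2)
  refine ⟨g * a * g⁻¹, this.1, this.2, ?_, ?_⟩
  · rw [← h1]; exact (MulAut.conj g).orderOf_eq a
  · rw [H15.hs_set, ← e1, ← e2]
    intro x hx e
    obtain ⟨x, rfl⟩ := MulAction.surjective g x
    rw [mul_smul, inv_smul_smul, mul_smul] at e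
    exact h2 x ((H15.smul_mem_Sh2 g).1 hx) (MulAction.injective g e)

end Cfsg.Agent.S1642
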