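import Cfsg.Statements.S1666
import Cfsg.Agent.H15.HSGraph

set_option autoImplicit false
open Cfsg

namespace Cfsg.Agent.S1666

open H15 Finset
open scoped Pointwise

/-- Recognition of the Higman–Sims group as a rank 3 permutation group: a transitive permutation group on 100 points in which the stabiliser of a point is isomorphic to the Mathieu group M₂₂ and has two further orbits, of sizes 22 and 77, is isomorphic to the Higman–Sims group. -/
theorem result {Ω : Type*} [Fintype Ω] [DecidableEq Ω] (hΩ : Fintype.card Ω = 100) (G : Subgroup (Equiv.Perm Ω)) [MulAction.IsPretransitive G Ω] (a : Ω)  (e : MulAction.stabilizer G a ≃* Cfsg.Spor.M22) (b c : Ω) (hb : (MulAction.orbit (MulAction.stabilizer G a) b).ncard = 22) (hc : (MulAction.orbit (MulAction.stabilizer G a) c).ncard = 77) : Cfsg.Spor.IsoHS G := by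
  classical
  obtain ⟨Γ, h1, -, l, m, h2⟩ := rank3_srg hΩ rfl (by norm_num) (by norm_num) a b c hb hc
  obtain ⟨rfl, rfl⟩ := srg_params h2
  obtain ⟨φ, h3, -⟩ := srg_hs h2
  have h4 := card_aut_srg h2
  have : Finite (Γ ≃g Γ) := Nat.finite_of_card_ne_zero (by rw [h4]; norm_num)
  have := simple_sHS
  have h5 : Nat.card G = 44352000 := by
    rw [← (MulAction.stabilizer G a).card_mul_index, MulAction.index_stabilizer_of_transitive,
      Nat.card_congr e.toEquiv, card_M22, Nat.card_eq_fintype_card, hΩ]
  obtain ⟨e'⟩ := iso_of_index_two (autHom Γ h1) φ (fun g g' h => Subtype.ext (Equiv.ext fun x =>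
    congrArg (fun ψ : Γ ≃g Γ => ψ x) h)) h3 (by rw [h4, h5]) (by rw [h5, card_sHS])
    (by rw [card_sHS]; norm_num)
  exact ⟨e'.trans hsEquiv⟩

end Cfsg.Agent.S1666
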