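import Cfsg.Agent.H16.McR3
import Cfsg.Agent.H16.L.U43
import Cfsg.Agent.H11.Congr
import Cfsg.Statements.S1667
-- import your own Cfsg.Agent.* helpers here

set_option autoImplicit false
open Cfsg

namespace Cfsg.Agent.S1667

/-- Recognition of the McLaughlin group as a rank 3 permutation group: a transitive permutation group on 275 points in which the stabiliser of a point is isomorphic to the unitary group U₄(3) and has two further orbits, of sizes 112 and 162, is isomorphic to the McLaughlin group. -/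
theorem result {Ω : Type*} [Fintype Ω] [DecidableEq Ω] (hΩ : Fintype.card Ω = 275) (G : Subgroup (Equiv.Perm Ω)) [MulAction.IsPretransitive G Ω] (a : Ω) (K : Type) [Field K] [Fintype K] (hK : Fintype.card K = 9) (e : MulAction.stabilizer G a ≃* Cfsg.PSU 4 K 3) (b c : Ω) (hb : (MulAction.orbit (MulAction.stabilizer G a) b).ncard = 112) (hc : (MulAction.orbit (MulAction.stabilizer G a) c).ncard = 162) : Cfsg.Spor.IsoMcL G := by
  classical
  obtain ⟨e0, -⟩ := H15.McL.bound.exists_equiv H15.McL.rels H15.McL.card H16.McG.y_rels H16.McG.y_card.ge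
  obtain ⟨i, g, M, -⟩ := H0.TR.exists_md H16.McG.y_act (H16.ptF_inj 275) H16.McG.y_card H16.McG.y_base
    ⟨by decide +kernel, by norm_num⟩ (e0.symm.trans H15.mclGen)
  have := H15.McL.simple
  have : IsSimpleGroup Spor.McL := H15.mclGen.symm.isSimpleGroup
  obtain ⟨-, e1, -⟩ := H16.McR.iso M (H16.McG.v_act M) H16.McG.vf (H16.McG.vr M) (H16.McG.vn M)
  have e2 := e1.symm.trans ((H16.LU43.equiv.some.trans (H11.psuCongr 4 3 (H11.nonempty_ringEquiv_of_card
    (F := H16.F9c) (K := K) (by rw [hK]; rfl)).some)).trans e.symm)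
  obtain ⟨Γ, h1, h2, l, m, h3⟩ := H15.rank3_srg hΩ rfl (by norm_num) (by norm_num) a b c hb hc
  obtain ⟨rfl, rfl⟩ := H16.McR.params h3
  let ρ := (MulAction.toPermHom (MulAction.stabilizer G a) Ω).comp e2.toMonoidHom
  have o : ∀ {D : Ω → Prop} {x n}, {y | D y} = MulAction.orbit (MulAction.stabilizer G a) x →
      (MulAction.orbit (MulAction.stabilizer G a) x).ncard = n → H16.McR.Orb ρ D n := fun {D x n} h hn =>
    ⟨fun k y hy => h.ge (MulAction.mapsTo_smul_orbit (e2 k) _ (h.le hy)), fun y z hy hz => by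
      obtain ⟨k, rfl⟩ := h.le hy
      obtain ⟨l, rfl⟩ := h.le hz
      exact ⟨e2.symm (l * k⁻¹), by simp [ρ, mul_smul]⟩, h ▸ hn⟩
  have c1 : {y | Γ.Adj a y} = MulAction.orbit (MulAction.stabilizer G a) b := Set.ext h2
  have c2 : {y | ¬ Γ.Adj a y ∧ y ≠ a} = MulAction.orbit (MulAction.stabilizer G a) c := by
    refine Eq.symm (Set.eq_of_subset_of_ncard_le (fun y hy => ⟨fun h => ?_, fun h => ?_⟩) ?_)
    · rw [← MulAction.orbit_eq_iff.2 ((h2 y).1 h), MulAction.orbit_eq_iff.2 hy] at hb; omega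
    · rw [← MulAction.orbit_eq_iff.2 hy, h] at hc
      have := Set.ncard_le_one_iff_subsingleton.2 (show (MulAction.orbit (MulAction.stabilizer G a) a).Subsingleton by
        rintro _ ⟨k, rfl⟩ _ ⟨l, rfl⟩; exact Eq.trans k.2 (Eq.symm l.2))
      omega
    · have := Set.ncard_add_ncard_compl (insert a {y | Γ.Adj a y})
      rw [Set.ncard_insert_of_notMem (s := {y | Γ.Adj a y}) Γ.irrefl, c1, hb, Nat.card_eq_fintype_card, hΩ, ← c1] at this
      rw [hc, show {y | ¬ Γ.Adj a y ∧ y ≠ a} = (insert a {y | Γ.Adj a y})ᶜ by ext; simp [and_comm]]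
      omega
  obtain ⟨f⟩ := H16.McR.graph_iso M h3 (ρ := ρ) ⟨fun k => h1 (e2 k), o c1 hb, o c2 hc⟩
  refine H16.McR.iso_of_aut M ((H15.isoCongr f).symm.toMonoidHom.comp (H15.autHom Γ h1))
    ((H15.isoCongr f).symm.injective.comp fun x y e => Subtype.ext (Equiv.ext fun z =>
      congrArg (fun φ : Γ ≃g Γ => φ z) e)) ?_
  rw [← (MulAction.stabilizer G a).index_mul_card, MulAction.index_stabilizer_of_transitive,
    Nat.card_eq_fintype_card, hΩ, ← Nat.card_congr e2.toEquiv, H16.McR.cardH M]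

end Cfsg.Agent.S1667
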