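import Cfsg.Statements.S1668
import Cfsg.Agent.H15.SzH
import Cfsg.Agent.H15.SzS
import Cfsg.Agent.H16.L.G24

set_option autoImplicit false
open Cfsg

namespace Cfsg.Agent.S1668

set_option maxRecDepth 100000

/-- Recognition of the sporadic Suzuki group as a rank 3 permutation group: a transitive permutation group on 1782 points in which the stabiliser of a point is isomorphic to the Chevalley group G₂(4) and has two further orbits, of sizes 416 and 1365, is isomorphic to the sporadic Suzuki group. -/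
theorem result {Ω : Type*} [Fintype Ω] [DecidableEq Ω] (hΩ : Fintype.card Ω = 1782) (G : Subgroup (Equiv.Perm Ω)) [MulAction.IsPretransitive G Ω] (a : Ω) (K : Type) [Field K] [Fintype K] (hK : Fintype.card K = 4) (e : MulAction.stabilizer G a ≃* Cfsg.Lie.chevG2.group K) (b c : Ω) (hb : (MulAction.orbit (MulAction.stabilizer G a) b).ncard = 416) (hc : (MulAction.orbit (MulAction.stabilizer G a) c).ncard = 1365) : Cfsg.Spor.IsoSuz G := by
  obtain ⟨i, g, M, -⟩ := H0.TR.exists_md H16.G24.act (H16.ptF_inj 416) H16.G24.card H16.G24.isBase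
    ⟨H16.G24.Blt, by norm_num⟩ (MulEquiv.refl _)
  obtain ⟨i', g', M', -⟩ := H0.TR.exists_md H16.PSuz.act (H16.ptF_inj 1782) H16.PSuz.card H16.PSuz.isBase
    ⟨H16.PSuz.Blt, by norm_num⟩ (MulEquiv.refl _)
  have := H16.PSuz.simple
  have e1 := (H16.LG24.equiv.some.trans (H16.LG24.congr (H11.nonempty_ringEquiv_of_card (F := H11.F4) (K := K)
    (by rw [hK]; rfl)).some).some).symm
  obtain ⟨f⟩ := H15.R3.master (n := 7) (m := 6) (R := H15.SzT.RK) (R' := H15.SzT.RG) (Wt := H15.SzH.Wt) (V := H15.SzH.Wv)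
    (d := 604800) (n1 := 416) (n2 := 1365) (d2 := 184320) (d' := 6048) M (H15.SzH.X_act M)
    (H15.SzH.tr1 M) ((H15.SzH.eH M).trans M.top) (H15.SzH.out M) H15.SzT.bdm7
    (by rw [H15.SzH.eK M, H15.SzH.cK M]) (by rw [H15.SzH.eL M, H15.SzH.cL M]) H15.SzH.et H15.SzH.er H15.SzT.bdm9 (H15.SzH.cl M)
    (H15.SzS.main M').1 (H15.SzS.main M').2 (H16.PSuz.card.trans (by norm_num)) (by norm_num) (e.trans e1)
    (by rw [Nat.card_eq_fintype_card, hΩ]) hb hc
  exact ⟨f.trans H16.PSuz.equiv.symm⟩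

end Cfsg.Agent.S1668
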