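import Cfsg.Statements.S1669
import Cfsg.Agent.H15.RuH
import Cfsg.Agent.H15.RuI
import Cfsg.Agent.H15.RuS
import Cfsg.Agent.H15.RuK
import Cfsg.Agent.H15.Ru

set_option autoImplicit false
open Cfsg

namespace Cfsg.Agent.S1669

set_option maxRecDepth 100000

/-- Recognition of the Rudvalis group as a rank 3 permutation group: a transitive permutation group on 4060 points in which the stabiliser of a point is isomorphic to the Ree group ²F₄(2) and has two further orbits, of sizes 1755 and 2304, is isomorphic to the Rudvalis group. -/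
theorem result {Ω : Type*} [Fintype Ω] [DecidableEq Ω] (hΩ : Fintype.card Ω = 4060) (G : Subgroup (Equiv.Perm Ω)) [MulAction.IsPretransitive G Ω] (a : Ω)  (e : MulAction.stabilizer G a ≃* Cfsg.Lie.twistedF4 (ZMod 2) 1) (b c : Ω) (hb : (MulAction.orbit (MulAction.stabilizer G a) b).ncard = 1755) (hc : (MulAction.orbit (MulAction.stabilizer G a) c).ncard = 2304) : Cfsg.Spor.IsoRu G := by
  obtain ⟨i, g, M, -⟩ := H0.TR.exists_md H15.XF42.act (H16.ptF_inj 2304) H15.XF42.card H15.XF42.isBase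
    ⟨H15.XF42.Blt, by norm_num⟩ (MulEquiv.refl _)
  obtain ⟨i', g', M', -⟩ := H0.TR.exists_md H15.Ru.act (H16.ptF_inj 4060) H15.Ru.card H15.Ru.isBase
    ⟨H15.Ru.Blt, by norm_num⟩ (MulEquiv.refl _)
  have := H15.Ru.simple
  obtain ⟨f⟩ := H15.R3.master (n := 5) (m := 4) (R := H15.RuT.RK) (R' := H15.RuT.RG) (Wt := H15.RuH.Wt) (V := H15.RuH.Wv)
    (d := 15600) (n1 := 2304) (n2 := 1755) (d2 := 20480) (d' := 200) M (H15.RuH.X_act M)
    (H15.RuH.tr1 M) ((H15.RuH.eH M).trans M.top) (H15.RuH.out M) H15.RuT.bdm5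
    (by rw [H15.RuH.eK M, H15.RuH.cK M]) (by rw [H15.RuH.eL M, H15.RuH.cL M]) H15.RuH.et H15.RuH.er H15.RuT.bdm7 (H15.RuI.cl M)
    (H15.RuS.main M').1 (H15.RuS.main M').2 (H15.Ru.card.trans (by norm_num)) (by norm_num)
    (e.trans (H15.RuK.equiv M).some.symm)
    (by rw [Nat.card_eq_fintype_card, hΩ]) hc hb
  exact ⟨f.trans H15.RuL.equiv.symm⟩

end Cfsg.Agent.S1669
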