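import Cfsg.Statements.S1717
import Cfsg.Agent.H19.Amb3

set_option autoImplicit false
open Cfsg

namespace Cfsg.Agent.S1717

open Matrix Subgroup

abbrev M5 := Matrix.SpecialLinearGroup (Fin 5) (ZMod 2)

theorem mul_vv (u φ v ψ : Fin 5 → ZMod 2) (h : φ ⬝ᵥ v = 0) :
    (1 + vecMulVec u φ) * (1 + vecMulVec v ψ) = 1 + (vecMulVec u φ + vecMulVec v ψ) := by
  simp only [add_mul, mul_add, vecMulVec_mul_vecMulVec, h, one_mul, mul_one, zero_smul,
    vecMulVec_zero]
  abel

theorem main {C : Type*} [Group C] (ρ : C →* Matrix (Fin 5) (Fin 5) (ZMod 2))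
    (hρ : Function.Injective ρ) (T : Sylow 2 C)
    (P : (Fin 5 → ZMod 2) → (Fin 5 → ZMod 2) → Prop) (p0 : P 0 0)
    (p1 : ∀ u φ v ψ, P u φ → P v ψ → φ ⬝ᵥ v = 0 ∧ ∃ w χ, P w χ ∧
        vecMulVec u φ + vecMulVec v ψ = vecMulVec w χ)
    (p2 : ∀ u φ c, P u φ → ∃ w χ, P w χ ∧ vecMulVec (ρ c *ᵥ u) (φ ᵥ* ρ c⁻¹) = vecMulVec w χ)
    (u φ) (t : C) (h : P u φ) (e : ρ t = 1 + vecMulVec u φ) : t ∈ T := by
  have hinv : ∀ u φ t, P u φ → ρ t = 1 + vecMulVec u φ → t * t = 1 := fun u φ t h e => hρ (by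
    rw [map_mul, e, mul_vv _ _ _ _ (p1 u φ u φ h h).1, ← two_smul (ZMod 2)]
    simp [show (2 : ZMod 2) = 0 from rfl])
  let A : Subgroup C :=
    { carrier := {t | ∃ u φ, P u φ ∧ ρ t = 1 + vecMulVec u φ}
      one_mem' := ⟨0, 0, p0, by simp⟩
      mul_mem' := by
        rintro a b ⟨u, φ, h1, e1⟩ ⟨v, ψ, h2, e2⟩
        obtain ⟨h3, w, χ, h4, e⟩ := p1 u φ v ψ h1 h2
        exact ⟨w, χ, h4, by rw [map_mul, e1, e2, mul_vv _ _ _ _ h3, e]⟩
      inv_mem' := by
        rintro a ⟨u, φ, h1, e1⟩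
        exact ⟨u, φ, h1, by rw [inv_eq_of_mul_eq_one_right (hinv u φ a h1 e1), e1]⟩ }
  haveI : A.Normal := ⟨by
    rintro a ⟨u, φ, h1, e1⟩ c
    obtain ⟨w, χ, h4, e⟩ := p2 u φ c h1
    exact ⟨w, χ, h4, by rw [map_mul, map_mul, e1, mul_add, add_mul, mul_one, ← e, mul_vecMulVec,
      vecMulVec_mul, ← map_mul, mul_inv_cancel, map_one]⟩⟩
  exact IsPGroup.le_sylow_of_normal (N := A) (fun ⟨a, u, φ, h, e⟩ =>
    ⟨1, Subtype.ext (by simpa [sq] using hinv u φ a h e)⟩) T ⟨u, φ, h, e⟩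

theorem key (s : M5) (hs : (s : Matrix (Fin 5) (Fin 5) (ZMod 2)) = transvection 0 1 1)
    (T : Sylow 2 (centralizer {s}))
    (x : centralizer {s}) (hx : ∀ t ∈ T, t * x = x * t) : x = 1 ∨ x.1 = s := by
  let ρ₀ : M5 →* Matrix (Fin 5) (Fin 5) (ZMod 2) := (Units.coeHom _).comp SpecialLinearGroup.toGL
  have h0 : Function.Injective ρ₀ := fun _ _ h => Subtype.ext h
  let ρ := ρ₀.comp (centralizer {s}).subtype
  have hρ : Function.Injective ρ := h0.comp (subtype_injective _)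
  have hc : ∀ c : M5, c ∈ centralizer {s} ↔ Commute (single 0 1 1) (ρ₀ c) := fun c => by
    rw [mem_centralizer_singleton_iff, ← h0.eq_iff, map_mul, map_mul, show ρ₀ s = _ from hs]
    simp [transvection, mul_add, add_mul, commute_iff_eq, eq_comm]
  have h01 : ∀ a : ZMod 2, a = 0 ∨ a = 1 := by decide
  have h2 : ∀ c : centralizer {s}, ρ c *ᵥ Pi.single 0 1 = Pi.single 0 1 ∧
      Pi.single 1 1 ᵥ* ρ c = Pi.single 1 1 := fun c => by
    have h : Commute (single 0 1 1) (ρ c) := (hc c).1 c.2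
    have h1 : ρ c 0 0 = 1 := (h01 _).resolve_left fun e => by
      have : (ρ c).det = 1 := c.1.2
      rw [det_eq_zero_of_column_eq_zero 0 fun i =>
        (eq_or_ne i 0).elim (· ▸ e) (col_eq_zero_of_commute_single h)] at this
      simp at this
    constructor <;> ext i
    · by_cases hi : i = 0
      · simp [hi, h1]
      · simp [hi, col_eq_zero_of_commute_single h hi]
    · by_cases hi : i = 1
      · simp [hi, h1, ← diag_eq_of_commute_single h]
      · simp [hi, row_eq_zero_of_commute_single h hi]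
  have hA := main ρ hρ T (fun u φ => (u = 0 ∨ u = Pi.single 0 1) ∧ φ 0 = 0) (by simp) (by
      rintro u φ v ψ ⟨rfl | rfl, h1⟩ ⟨rfl | rfl, h2⟩
      · exact ⟨by simp, 0, 0, by simp, by simp⟩
      · exact ⟨by simp [h1], _, ψ, ⟨.inr rfl, h2⟩, by simp⟩
      · exact ⟨by simp, _, φ, ⟨.inr rfl, h1⟩, by simp⟩
      · exact ⟨by simp [h1], _, φ + ψ, ⟨.inr rfl, by simp [h1, h2]⟩, by simp [vecMulVec_add]⟩) (by
      rintro u φ c ⟨rfl | rfl, h1⟩
      · exact ⟨0, 0, by simp, by simp⟩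
      · refine ⟨_, _, ⟨.inr rfl, ?_⟩, by rw [(h2 c).1]⟩
        rw [← dotProduct_single_one (φ ᵥ* _), ← dotProduct_mulVec, (h2 c⁻¹).1,
          dotProduct_single_one, h1])
  have hB := main ρ hρ T (fun u φ => (φ = 0 ∨ φ = Pi.single 1 1) ∧ u 1 = 0) (by simp) (by
      rintro u φ v ψ ⟨rfl | rfl, h1⟩ ⟨rfl | rfl, h2⟩
      · exact ⟨by simp, 0, 0, by simp, by simp⟩
      · exact ⟨by simp, v, _, ⟨.inr rfl, h2⟩, by simp⟩
      · exact ⟨by simp [h2], u, _, ⟨.inr rfl, h1⟩, by simp⟩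
      · exact ⟨by simp [h2], u + v, _, ⟨.inr rfl, by simp [h1, h2]⟩, by simp [add_vecMulVec]⟩) (by
      rintro u φ c ⟨rfl | rfl, h1⟩
      · exact ⟨0, 0, by simp, by simp⟩
      · refine ⟨_, _, ⟨.inr rfl, ?_⟩, by rw [(h2 c⁻¹).2]⟩
        rw [← single_one_dotProduct 1 (_ *ᵥ u), dotProduct_mulVec, (h2 c).2, single_one_dotProduct,
          h1])
  have h3 : ∀ i j : Fin 5, i ≠ j → i ≠ 1 → j ≠ 0 → (i = 0 ∨ j = 1) →
      Commute (single i j 1) (ρ x) := fun i j hij hi hj h => by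
    let t₀ : M5 := ⟨transvection i j 1, det_transvection_of_ne _ _ hij _⟩
    have e₀ : ρ₀ t₀ = 1 + single i j 1 := rfl
    let t : centralizer {s} := ⟨t₀, (hc _).2 (by
      simp [e₀, commute_iff_eq, add_mul, mul_add, hi.symm, hj])⟩
    have e : ρ t = 1 + vecMulVec (Pi.single i 1) (Pi.single j 1) := by
      rw [← single_eq_single_vecMulVec_single]; rfl
    have := congrArg ρ (hx t (h.elim (fun h => hA _ _ t ⟨.inr (by rw [h]), by simp [hj.symm]⟩ e)
      fun h => hB _ _ t ⟨.inr (by rw [h]), by simp [hi.symm]⟩ e))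
    rw [map_mul, map_mul, show ρ t = _ from e₀] at this
    simpa [add_mul, mul_add, commute_iff_eq] using this
  have h4 : ρ x = transvection 0 1 (ρ x 0 1) := by
    have a : ρ x 0 0 = 1 := by simpa using congrFun (h2 x).1 0
    have c := fun j (h : 0 ≠ j) => h3 0 j h (by decide) h.symm (.inl rfl)
    ext i j
    by_cases hi : i = 0
    · subst hi
      by_cases hj : j = 0
      · simp [hj, a, transvection]
      by_cases hj' : j = 1
      · simp [hj', transvection]
      · simpa [transvection, one_apply, Ne.symm hj, Ne.symm hj'] using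
          col_eq_zero_of_commute_single (h3 j 1 hj' hj' (by decide) (.inr rfl)) (Ne.symm hj)
    · by_cases hj : j = i
      · simp [hj, transvection, Ne.symm hi, ← diag_eq_of_commute_single (c i (Ne.symm hi)), a]
      · simp [transvection, Ne.symm hi, Ne.symm hj,
          row_eq_zero_of_commute_single (c i (Ne.symm hi)) hj]
  rcases h01 (ρ x 0 1) with e | e
  · exact .inl (hρ (by rw [h4, e]; simp))
  · exact .inr (h0 ((h4.trans (by rw [e])).trans hs.symm))

/-- Let G be a finite group with an involution z whose centraliser C is isomorphic to the centraliser of a transvection of SL(5, 2). Then a Sylow 2-subgroup of C, viewed in G, is a Sylow 2-subgroup of G (its index in G is odd). -/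
theorem result {G : Type*} [Group G] [Finite G] (s : Matrix.SpecialLinearGroup (Fin 5) (ZMod 2)) (hs : (s : Matrix (Fin 5) (Fin 5) (ZMod 2)) = Matrix.transvection 0 1 1) (z : G) (hz : orderOf z = 2) (e : (Subgroup.centralizer ({z} : Set G)) ≃* Subgroup.centralizer ({s} : Set (Matrix.SpecialLinearGroup (Fin 5) (ZMod 2)))) (T : Sylow 2 (Subgroup.centralizer ({z} : Set G))) : ¬ 2 ∣ ((T : Subgroup (Subgroup.centralizer ({z} : Set G))).map (Subgroup.subtype (Subgroup.centralizer ({z} : Set G)))).index := by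
  have h0 := H19.syl_sylow T
  set P := (T : Subgroup (centralizer {z})).map (centralizer {z}).subtype
  have hz1 : z ≠ 1 := by rintro rfl; simp at hz
  have hzc : z ∈ centralizer {z} := mem_centralizer_singleton_iff.2 rfl
  have h1 : ∀ x ∈ centralizer {z}, x ≠ 1 → (∀ t ∈ P, t * x = x * t) → (e ⟨z, hzc⟩).1 = s →
      x = z := fun x hx h1 h h2 => by
    rcases key s hs (T.mapSurjective (f := e.toMonoidHom) e.surjective) (e ⟨x, hx⟩) (by
      rintro _ ⟨t, ht, rfl⟩
      exact (map_mul e _ _).symm.trans ((congrArg e (Subtype.ext (h t ⟨t, ht, rfl⟩))).trans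
        (map_mul e _ _))) with h3 | h3
    · exact absurd (congrArg Subtype.val (e.map_eq_one_iff.1 h3)) h1
    · exact congrArg Subtype.val (e.injective (Subtype.ext (h3.trans h2.symm)))
  have h2 : (e ⟨z, hzc⟩).1 = s := (key s hs (T.mapSurjective (f := e.toMonoidHom) e.surjective) _ (by
    rintro _ ⟨t, ht, rfl⟩
    exact (map_mul e _ _).symm.trans ((congrArg e (Subtype.ext
      (mem_centralizer_singleton_iff.1 t.2))).trans (map_mul e _ _)))).resolve_left
    fun h => hz1 (congrArg Subtype.val (e.map_eq_one_iff.1 h))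
  have hzP : z ∈ P := by
    haveI : (zpowers (⟨z, hzc⟩ : centralizer {z})).Normal := ⟨by
      rintro _ ⟨k, rfl⟩ g
      have : Commute g ⟨z, hzc⟩ := Subtype.ext (mem_centralizer_singleton_iff.1 g.2)
      exact ⟨k, by simp only; rw [(this.zpow_right k).eq, mul_inv_cancel_right]⟩⟩
    exact ⟨⟨z, hzc⟩, IsPGroup.le_sylow_of_normal (N := zpowers ⟨z, hzc⟩) (IsPGroup.of_card (n := 1) (by
      rw [Nat.card_zpowers]; exact (orderOf_mk _ _).trans hz)) T (mem_zpowers _), rfl⟩
  have h3 := H19.Hall.syl_of_norm_le h0 le_top fun g hg => mem_centralizer_singleton_iff.2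
    (mul_inv_eq_iff_eq_mul.1 (h1 _ (map_subtype_le _ ((mem_normalizer_iff.1 hg.2 z).1 hzP))
      (by simpa using hz1) (fun t ht => by
        have := mem_centralizer_singleton_iff.1 (map_subtype_le _
          ((mem_normalizer_iff.1 (inv_mem hg.2) t).1 ht))
        calc _ = g * (g⁻¹ * t * g⁻¹⁻¹ * z) * g⁻¹ := by group
          _ = _ := by rw [this]; group) h2))
  simpa using ((H19.syl_iff Nat.prime_two).1 h3).2.2

end Cfsg.Agent.S1717
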