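import Cfsg.Statements.S1729
import Cfsg.Agent.H17.HT27

set_option autoImplicit false
open Cfsg

namespace Cfsg.Agent.S1729

/-- Let G be a finite simple group acting faithfully and primitively on a finite set Ω, with no nontrivial normal subgroup of odd order and trivial centre. If some involution of G lying in the centre of a Sylow 2-subgroup fixes exactly one point of Ω, then either G has a strongly embedded subgroup, or G is isomorphic to the alternating or the symmetric group of some odd degree. For a simple group the symmetric alternative cannot occur, since no symmetric group of degree at least 3 is simple. -/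
theorem result {G : Type*} [Group G] [Finite G] [IsSimpleGroup G] {Ω : Type*} [Finite Ω]
    [MulAction G Ω] [FaithfulSMul G Ω] [MulAction.IsPreprimitive G Ω] (hO : Cfsg.oddCore G = ⊥)
    (hZ : Subgroup.center G = ⊥) (t : G) (ht : Cfsg.IsTwoCentralInvolution t) (hfix : ∃! ω : Ω, t • ω = ω) :
    (∃ H : Subgroup G, Cfsg.IsStronglyEmbedded H) ∨
      ∃ n : ℕ, Odd n ∧ (Nonempty (G ≃* alternatingGroup (Fin n)) ∨ Nonempty (G ≃* Equiv.Perm (Fin n))) := by
  obtain ⟨ω, h1, h2⟩ := hfix
  have hna : ¬ IsMulCommutative G := fun h => by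
    have : t ∈ Subgroup.center G := Subgroup.mem_center_iff.2 fun g => h.1.1 g t
    rw [hZ, Subgroup.mem_bot] at this
    have h3 := ht.1
    rw [this, orderOf_one] at h3
    omega
  refine (H17.HT.holt hna (P := MulAction.stabilizer G ω) (fun e => ?_) ht (fun g hg => h2 _ ?_)
    fun g hg => ⟨g, ?_, rfl⟩).imp (fun h => ⟨_, h.1⟩) fun ⟨n, a, _, b, _⟩ => ⟨n, a, .inl b⟩
  · have : t = 1 := FaithfulSMul.eq_of_smul_eq_smul (α := Ω) fun p => by
      obtain ⟨g, rfl⟩ := MulAction.exists_smul_eq G ω p
      rw [show g • ω = ω from e.ge (Subgroup.mem_top g), h1, one_smul]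
    have h3 := ht.1
    rw [this, orderOf_one] at h3
    omega
  · change t • g • ω = g • ω
    rw [← mul_smul, Subgroup.mem_centralizer_iff.1 hg t rfl, mul_smul, h1]
  · have : g⁻¹ • ω = ω := h2 _ (by
      have e : (g * t * g⁻¹) • ω = ω := hg
      rwa [mul_smul, mul_smul, smul_eq_iff_eq_inv_smul] at e)
    exact (inv_mem_iff (H := MulAction.stabilizer G ω)).1 this

end Cfsg.Agent.S1729
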