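import Cfsg.Statements.S1753
import Cfsg.Agent.H28.Basic

set_option autoImplicit false
universe u
open Cfsg

namespace Cfsg.Agent.S1753

open H28 Subgroup


/-- Let K be any property of groups. (1) If G is a minimal counterexample relative to K — a finite non-abelian simple group not satisfying K such that every finite non-abelian simple group of smaller order satisfies K — then every proper subgroup of G is a K-group (all its non-abelian simple sections satisfy K), since such sections have smaller order than G. (2) Consequently (induction on the order), if every finite non-abelian simple group all of whose proper subgroups are K-groups satisfies K, then every finite non-abelian simple group satisfies K. -/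
theorem result (K : ∀ (X : Type u) [Group X], Prop) :
    (∀ (G : Type u) [Group G], Cfsg.IsMinCounterexampleWith K G → Cfsg.IsKProperWith K G) ∧
      ((∀ (X : Type u) [Group X] [Finite X], IsSimpleGroup X → ¬ IsMulCommutative X → Cfsg.IsKProperWith K X → K X) →
        ∀ (G : Type u) [Group G] [Finite G], IsSimpleGroup G → ¬ IsMulCommutative G → K G) := by
  have h1 : ∀ (G : Type u) [Group G] [Finite G], (∀ (X : Type u) [Group X] [Finite X],
      IsSimpleGroup X → ¬ IsMulCommutative X → Nat.card X < Nat.card G → K X) → Cfsg.IsKProperWith K G := by
    intro G _ _ h H hH L N _ hs hc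
    refine h _ hs hc ?_
    calc Nat.card (L ⧸ N) ≤ Nat.card L := Nat.card_le_card_of_surjective _ (QuotientGroup.mk'_surjective N)
      _ ≤ Nat.card H := L.card_le_card_group
      _ < Nat.card (⊤ : Subgroup G) := card_lt_of_lt (lt_top_iff_ne_top.2 hH)
      _ = Nat.card G := Subgroup.card_top
  refine ⟨fun G _ h => ?_, fun h => ?_⟩
  · obtain ⟨_, -, -, -, h⟩ := h
    exact h1 G h
  · have : ∀ (n : ℕ) (G : Type u) [Group G] [Finite G], Nat.card G = n → IsSimpleGroup G →
        ¬ IsMulCommutative G → K G := by
      intro n
      induction n using Nat.strong_induction_on with
      | _ n ih =>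
        intro G _ _ hn hs hc
        exact h G hs hc (h1 G fun X _ _ hs hc hlt => ih _ (hn ▸ hlt) X rfl hs hc)
    exact fun G _ _ => this _ G rfl

end Cfsg.Agent.S1753
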