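import Cfsg.Statements.S1755
import Cfsg.Agent.H28.Core
import Cfsg.Agent.H1.GFitting

set_option autoImplicit false
open Cfsg

namespace Cfsg.Agent.S1755

open H28 Subgroup

theorem invol_unique {G : Type*} [Group G] [Finite G] {H : Subgroup G} (hH : IsCyclic H) {x y : G} (hx : x ∈ H)
    (hy : y ∈ H) (hx2 : orderOf x = 2) (hy2 : orderOf y = 2) : x = y := by
  classical
  have := Fintype.ofFinite H
  have h1 := IsCyclic.card_orderOf_eq_totient (α := H) (d := 2)
    (by rw [← Nat.card_eq_fintype_card, ← hx2]; exact Subgroup.orderOf_dvd_natCard _ hx)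
  rw [Nat.totient_two, Finset.card_eq_one] at h1
  obtain ⟨a, ha⟩ := h1
  have h2 : (⟨x, hx⟩ : H) ∈ ({a} : Finset H) := by rw [← ha]; simpa using hx2
  have h3 : (⟨y, hy⟩ : H) ∈ ({a} : Finset H) := by rw [← ha]; simpa using hy2
  rw [Finset.mem_singleton] at h2 h3
  exact congrArg Subtype.val (h2.trans h3.symm)


theorem aux {G : Type*} [Group G] [Finite G] (z : G) (hz : orderOf z = 2) (C : Subgroup G)
    (hC : C = Subgroup.centralizer ({z} : Set G)) (Q : Subgroup C) [Q.Normal] (hZ : center C ≤ Q)
    (hQ : Cfsg.IsOfSymplecticType Q) (B : Subgroup Q) (hBc : B.Characteristic) (hBa : IsMulCommutative ↥B) (g : G) :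
    cj g ((B.map Q.subtype).map C.subtype) = (B.map Q.subtype).map C.subtype ∨
      cj g ((B.map Q.subtype).map C.subtype) ⊓ (B.map Q.subtype).map C.subtype = ⊥ := by
  have hz1 : z ∈ C := by rw [hC, mem_centralizer_singleton_iff]
  have hz2 : (⟨z, hz1⟩ : C) ∈ center C := by
    rw [mem_center_iff]; intro g
    exact Subtype.ext (mem_centralizer_singleton_iff.1 (hC.le g.2))
  have hz3 : (⟨z, hz1⟩ : C) ∈ Q := hZ hz2
  have hz4 : (⟨_, hz3⟩ : Q) ∈ center Q := by
    rw [mem_center_iff]; intro g
    exact Subtype.ext (mem_center_iff.1 hz2 g)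
  have hcyc : IsCyclic (B ⊔ center Q : Subgroup Q) := by
    refine hQ.2 _ inferInstance (le_centralizer_self_iff.1 ?_)
    rw [centralizer_sup]
    refine sup_le (le_inf (le_centralizer_self_iff.2 hBa) (le_centralizer_comm.1 (center_le_centralizer _)))
      (le_inf (center_le_centralizer _) (center_le_centralizer _))
  set f : Q →* G := C.subtype.comp Q.subtype with hf
  have hfi : Function.Injective f := C.subtype_injective.comp Q.subtype_injective
  rw [Subgroup.map_map (K := B) C.subtype Q.subtype, ← hf]
  have hu : ∀ x ∈ B.map f, orderOf x = 2 → x = z := by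
    intro x hx hx2
    have hc2 : IsCyclic ((B ⊔ center Q).map f) :=
      isCyclic_of_surjective _ (f.subgroupMap_surjective (B ⊔ center Q))
    exact invol_unique hc2 (Subgroup.map_mono le_sup_left hx)
      (mem_map_of_mem f (K := B ⊔ center Q) (mem_sup_right hz4)) hx2 hz
  by_cases h : cj g (B.map f) ⊓ B.map f = ⊥
  · exact Or.inr h
  left
  have hp : IsPGroup 2 (cj g (B.map f) ⊓ B.map f : Subgroup G) :=
    ((hQ.1.to_subgroup B).map f).to_inf_right
  obtain ⟨x, hx, hx2⟩ := exists_orderOf_eq_of_isPGroup hp h
  have e1 := hu x hx.2 hx2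
  have e2 := hu _ (mem_cj.1 hx.1) (by
    rw [← hx2]; exact (orderOf_injective (MulAut.conj g⁻¹).toMonoidHom (MulEquiv.injective _) x).symm ▸ by simp)
  have hg : g ∈ C := by
    rw [hC, mem_centralizer_singleton_iff]
    rw [e1] at e2
    calc g * z = g * (g⁻¹ * z * g) := by rw [e2]
      _ = z * g := by group
  have hn : (B.map Q.subtype).Normal := inferInstance
  rw [hf, ← Subgroup.map_map]
  exact cj_eq_self (le_normalizer_map_subtype _ hg)

/-- Let G be a finite group and let z be an involution of G such that Q, the generalized Fitting subgroup of the centralizer C of z, is a 2-group of symplectic type (every characteristic abelian subgroup of Q is cyclic). Let B be a characteristic abelian subgroup of Q, viewed as a subgroup of G. Then for every g in G, the conjugate of B by g either equals B or meets B trivially. -/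
theorem result {G : Type*} [Group G] [Finite G] (z : G) (hz : orderOf z = 2) (hQ : Cfsg.IsOfSymplecticType ↥(Cfsg.generalizedFittingSubgroup ↥(Subgroup.centralizer ({z} : Set G))))
    (B : Subgroup ↥(Cfsg.generalizedFittingSubgroup ↥(Subgroup.centralizer ({z} : Set G)))) (hBc : B.Characteristic) (hBa : IsMulCommutative ↥B) (g : G) :
    ((B.map (Cfsg.generalizedFittingSubgroup ↥(Subgroup.centralizer ({z} : Set G))).subtype).map (Subgroup.centralizer ({z} : Set G)).subtype).map (MulAut.conj g).toMonoidHom =
        (B.map (Cfsg.generalizedFittingSubgroup ↥(Subgroup.centralizer ({z} : Set G))).subtype).map (Subgroup.centralizer ({z} : Set G)).subtype ∨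
      ((B.map (Cfsg.generalizedFittingSubgroup ↥(Subgroup.centralizer ({z} : Set G))).subtype).map (Subgroup.centralizer ({z} : Set G)).subtype).map (MulAut.conj g).toMonoidHom ⊓
        (B.map (Cfsg.generalizedFittingSubgroup ↥(Subgroup.centralizer ({z} : Set G))).subtype).map (Subgroup.centralizer ({z} : Set G)).subtype = ⊥ := by
  exact aux z hz _ rfl _ H1.center_le_gf hQ B hBc hBa g

end Cfsg.Agent.S1755
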