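import Cfsg.Statements.S1757
import Cfsg.Agent.H28.Sylow
import Cfsg.Agent.H1.Basic

set_option autoImplicit false
open Cfsg

namespace Cfsg.Agent.S1757

open H28 Subgroup


/-- Let p be a prime and A, B p-subgroups of the finite group G, each of which meets every conjugate of itself other than itself trivially. Suppose the order of A is at most that of B, A and B intersect trivially, and B normalizes A. Then A and B commute elementwise. -/
theorem result {G : Type*} [Group G] [Finite G] (p : ℕ) [Fact p.Prime] (A B : Subgroup G)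
    (hA : IsPGroup p ↥A) (hB : IsPGroup p ↥B)
    (hAti : ∀ g : G, A.map (MulAut.conj g).toMonoidHom = A ∨ A.map (MulAut.conj g).toMonoidHom ⊓ A = ⊥)
    (hBti : ∀ g : G, B.map (MulAut.conj g).toMonoidHom = B ∨ B.map (MulAut.conj g).toMonoidHom ⊓ B = ⊥)
    (hle : Nat.card ↥A ≤ Nat.card ↥B) (hAB : A ⊓ B = ⊥) (hN : B ≤ Subgroup.normalizer (A : Set G)) : ⁅A, B⁆ = ⊥ := by
  have hp : IsPGroup p (B ⊔ A : Subgroup G) := isPGroup_sup_of_le_normalizer hB hA hN
  set D := (B ⊔ A) ⊓ 𝐍 B with hD
  by_cases h : B ⊔ A ≤ D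
  · rw [eq_bot_iff, ← hAB]
    exact le_inf (commutator_le_of_le_normalizer hN)
      (commutator_le_of_le_normalizer' (le_sup_right.trans (h.trans inf_le_right)))
  exfalso
  have hlt : D < B ⊔ A := lt_of_le_not_ge inf_le_left h
  obtain ⟨x, hx, hxD⟩ := SetLike.exists_of_lt (lt_inf_normalizer hp hlt)
  have hBD : B ≤ D := le_inf le_sup_left le_normalizer
  have hxB : cj x B ≤ D := cj_le_of_mem_normalizer hBD hx.2
  rcases hBti x with h1 | h1
  · exact hxD ⟨hx.1, mem_normalizer_iff_cj.2 h1⟩
  have h2 := H1.card_sup_of_disjoint (hxB.trans inf_le_right) h1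
  have h3 := card_le_of_le' (sup_le hxB hBD)
  have h4 := card_lt_of_lt hlt
  have h5 := Nat.le_of_dvd (Nat.mul_pos Nat.card_pos Nat.card_pos) (H1.card_sup_dvd hN)
  rw [card_cj] at h2
  have := Nat.mul_le_mul_left (Nat.card B) hle
  omega

end Cfsg.Agent.S1757
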