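import Cfsg.Statements.S1774
import Cfsg.Agent.H0.ES3
import Cfsg.Agent.S3762
import Cfsg.Agent.S1755

set_option autoImplicit false
open Cfsg

namespace Cfsg.Agent.S1774

open Subgroup H19 H0
open scoped commutatorElement

universe u
variable {G : Type u} [Group G]

structure SY (Q : Subgroup G) (z : G) : Prop where
  zQ : z ∈ Q
  z1 : z ≠ 1
  zz : z * z = 1
  comm : ∀ x ∈ Q, ∀ y ∈ Q, ⁅x, y⁆ = 1 ∨ ⁅x, y⁆ = z
  sq : ∀ x ∈ Q, x * x = 1 ∨ x * x = z
  cent : ∀ x ∈ Q, x * z = z * x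
  ctr : ∀ x ∈ Q, (∀ y ∈ Q, x * y = y * x) → x * x = 1 → x = 1 ∨ x = z
  norm : C[z] ≤ N(Q)
  big : ∀ g ∈ C[z], (∀ x ∈ Q, ⁅g, x⁆ = 1 ∨ ⁅g, x⁆ = z) → g ∈ Q

theorem nlc {X : Type*} [Group X] {N : Subgroup X} (h : N ≤ center X) : N.Normal :=
  ⟨fun n hn g => by rw [mem_center_iff.1 (h hn) g]; simpa using hn⟩

theorem fix_of_four {X : Type*} [Group X] {V : Subgroup X} (hV : ∀ v ∈ V, v * v = 1) {c : X}
    (hc : c ∈ N(V)) (h4 : c * c * (c * c) = 1)
    (h : ∀ v ∈ V, c * c * v = v * (c * c) → c * v = v * c) : ∀ v ∈ V, c * v = v * c := by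
  have hcomm : ∀ a ∈ V, ∀ b ∈ V, a * b = b * a := by
    intro a ha b hb
    have h1 := hV _ (V.mul_mem ha hb)
    calc a * b = a * (b * a * b * a) * b := by
          rw [show b * a * b * a = a⁻¹ * (a * b * (a * b)) * a by group, h1]; group
      _ = a * b * a * (b * a * b) := by group
      _ = (a * b * (a * b)) * a * b := by group
      _ = (a * b) * (a * b) * (a * b) := by group
      _ = b * a := by
          rw [h1, one_mul]
          calc a * b = a * b * (b * a * (b * a)) := by rw [hV _ (V.mul_mem hb ha), mul_one]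
            _ = a * (b * b) * a * (b * a) := by group
            _ = b * a := by rw [hV b hb, mul_one, hV a ha, one_mul]
  let α : X ≃* X := MulAut.conj c
  have hα : ∀ v, α v = c * v * c⁻¹ := fun _ => rfl
  have hm : ∀ v ∈ V, α v ∈ V := fun v hv => conj_mem_of_norm hc hv
  have h4' : ∀ v, α (α (α (α v))) = v := fun v => by
    simp only [hα]
    calc c * (c * (c * (c * v * c⁻¹) * c⁻¹) * c⁻¹) * c⁻¹
        = (c * c * (c * c)) * v * (c * c * (c * c))⁻¹ := by group
      _ = v := by rw [h4]; simp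
  have h' : ∀ v ∈ V, α (α v) = v → α v = v := fun v hv e => by
    rw [hα, mul_inv_eq_iff_eq_mul]
    apply h v hv
    simp only [hα] at e
    calc c * c * v = c * (c * v * c⁻¹) * c⁻¹ * (c * c) := by group
      _ = _ := by rw [e]
  intro v hv
  have m1 := hm v hv
  have m2 := hm _ m1
  have m3 := hm _ m2
  have e1 : α (α (α v) * v) = α (α v) * v := h' _ (V.mul_mem m2 hv) (by
    rw [map_mul, map_mul, h4', hcomm _ hv _ m2])
  rw [map_mul] at e1
  have e2 : α (α v * v) = α v * v := h' _ (V.mul_mem m1 hv) (by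
    rw [map_mul, map_mul]
    calc α (α (α v)) * α (α v) = (α (α (α v)) * α v) * α v * α (α v) := by
          rw [mul_assoc (α (α (α v))), hV _ m1, mul_one]
      _ = α (α v) * (v * α v) * α (α v) := by rw [e1]; group
      _ = α (α v) * α (α v) * (v * α v) := by
          rw [mul_assoc, ← hcomm _ m2 _ (V.mul_mem hv m1), mul_assoc]
      _ = α v * v := by rw [hV _ m2, one_mul, hcomm _ hv _ m1])
  rw [map_mul, hcomm _ m1 _ hv] at e2
  have e3 := h' v hv (mul_right_cancel e2)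
  rwa [hα, mul_inv_eq_iff_eq_mul] at e3

namespace SY
variable {Q : Subgroup G} {z : G} (h : SY Q z)
include h

theorem zinv : z⁻¹ = z := inv_eq_of_mul_eq_one_right h.zz

theorem J (g : G) : SY (cj g Q) (g * z * g⁻¹) where
  zQ := conj_mem_cj.2 h.zQ
  z1 := by simpa using h.z1
  zz := by rw [conj_mul, h.zz]; simp
  comm := by
    rintro _ ⟨x, hx, rfl⟩ _ ⟨y, hy, rfl⟩
    rw [← map_commutatorElement]
    rcases h.comm x hx y hy with e | e <;> simp [e]
  sq := by
    rintro _ ⟨x, hx, rfl⟩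
    rw [← map_mul]
    rcases h.sq x hx with e | e <;> simp [e]
  cent := by
    rintro _ ⟨x, hx, rfl⟩
    change g * x * g⁻¹ * _ = _ * (g * x * g⁻¹)
    rw [conj_mul, conj_mul, h.cent x hx]
  ctr := by
    rintro _ ⟨x, hx, rfl⟩ h1 h2
    have e1 : ∀ y ∈ Q, x * y = y * x := fun y hy => by
      have := h1 _ ⟨y, hy, rfl⟩
      rw [← map_mul, ← map_mul] at this
      exact (MulAut.conj g).injective this
    have e2 : x * x = 1 := by
      rw [← map_mul] at h2
      exact (MulAut.conj g).injective (h2.trans (map_one _).symm)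
    rcases h.ctr x hx e1 e2 with e | e <;> simp [e]
  norm := by rw [← cj_cent1, ← cj_norm]; exact cj_mono g h.norm
  big := by
    intro k hk H
    have : g⁻¹ * k * g ∈ Q := by
      refine h.big _ ?_ fun x hx => ?_
      · rw [← cj_cent1] at hk; exact mem_cj.1 hk
      · have e : ⁅k, g * x * g⁻¹⁆ = g * ⁅g⁻¹ * k * g, x⁆ * g⁻¹ := by
          simp only [commutatorElement_def]; group
        rcases H _ (conj_mem_cj.2 hx) with e1 | e1
        · left; rw [e] at e1; simpa using e1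
        · right; rw [e] at e1; simpa using e1
    exact mem_cj.2 this

theorem exists_conj {t : G} (ht : t ∈ Q) (htt : t * t = 1) (h1 : t ≠ 1) (hz : t ≠ z) :
    ∃ a ∈ Q, a * t * a⁻¹ = t * z := by
  by_contra hn
  push Not at hn
  refine (h.ctr t ht (fun y hy => ?_) htt).elim h1 hz
  rcases h.comm y hy t ht with e | e
  · exact (comm_eq_one.1 e).symm
  · exfalso
    apply hn y hy
    rw [h.cent t ht, ← e, commutatorElement_def]; group

theorem cj_eq {a b : G} (e : a * z * a⁻¹ = b * z * b⁻¹) : cj a Q = cj b Q := by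
  have : b⁻¹ * a ∈ N(Q) := h.norm (mem_cent1.2 (by
    calc b⁻¹ * a * z = b⁻¹ * (a * z * a⁻¹) * a := by group
      _ = _ := by rw [e]; group))
  calc cj a Q = cj b (cj (b⁻¹ * a) Q) := by rw [← cj_mul]; simp
    _ = _ := by rw [cj_of_mem_norm this]

theorem symm [Finite G] {g : G} (ht : g * z * g⁻¹ ∈ Q) (hne : g * z * g⁻¹ ≠ z) : z ∈ cj g Q := by
  have h' := h.J g
  by_cases hcz : ∀ x ∈ Q, (∀ y ∈ Q, x * y = y * x) → x * x = 1
  · obtain ⟨a, ha, e⟩ := h.exists_conj ht h'.zz h'.z1 hne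
    have hes : ES Q z := ⟨h.zQ, h.z1, h.zz, h.comm, h.sq, h.cent,
      fun x hx H => h.ctr x hx H (hcz x hx H), a, ha, _, ht, fun e1 => h.z1 (by
        rw [e1, mul_inv_cancel_right] at e
        exact (left_eq_mul.1 e))⟩
    exact LE.symm ⟨hes, fun x hx => h.big x (mem_cent1.2 (hx z h.zQ).symm)
      (fun y hy => Or.inl (comm_eq_one.2 (hx y hy).symm)), h.norm⟩ ht
  push Not at hcz
  obtain ⟨c, hcQ, hcc, hc2⟩ := hcz
  have hcz : c * c = z := (h.sq c hcQ).resolve_left hc2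
  by_contra hz
  set t := g * z * g⁻¹ with htd
  set Q' := cj g Q
  have hc : t * z = z * t := h.cent t ht
  obtain ⟨a, ha, e1⟩ := h.exists_conj ht h'.zz h'.z1 hne
  have e2 : a * z * a⁻¹ = z := mul_inv_eq_iff_eq_mul.2 (h.cent a ha)
  have s1 : ∀ y ∈ Q', ⁅z, y⁆ = 1 ∨ ⁅z, y⁆ = t → y ∈ C[z] := fun y hy e => by
    rcases e with e | e
    · exact mem_cent1.2 (comm_eq_one.1 e).symm
    exfalso
    have e3 : y * t * y⁻¹ = t := mul_inv_eq_iff_eq_mul.2 (h'.cent y hy)
    have e4 : y * z * y⁻¹ = z * t := by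
      rw [← e, commutatorElement_def, h.zinv]
      simp only [← mul_assoc, h.zz, one_mul]
    have e5 : a * y * a * z * (a * y * a)⁻¹ = t := by
      calc _ = a * (y * (a * z * a⁻¹) * y⁻¹) * a⁻¹ := by group
        _ = (a * z * a⁻¹) * (a * t * a⁻¹) := by rw [conj_mul, e2, e4]
        _ = t := by rw [e1, e2, hc, ← mul_assoc, h.zz, one_mul]
    have e6 : a * y * a * t * (a * y * a)⁻¹ = z := by
      calc _ = a * (y * (a * t * a⁻¹) * y⁻¹) * a⁻¹ := by group
        _ = a * ((y * t * y⁻¹) * (y * z * y⁻¹)) * a⁻¹ := by rw [e1, conj_mul]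
        _ = z := by rw [e3, e4, ← hc, ← mul_assoc t, h'.zz, one_mul, e2]
    refine hz ?_
    rw [show Q' = cj (a * y * a) Q from h.cj_eq (htd.symm.trans e5.symm), ← e6]
    exact conj_mem_cj.2 ht
  have central : ∀ x ∈ Q, (∀ p ∈ Q, p * t = t * p → x * p = p * x) → x * a = a * x →
      ∀ y ∈ Q, x * y = y * x := by
    intro x _ H1 H2 y hy
    rcases h.comm y hy t ht with e | e
    · exact H1 y hy (comm_eq_one.1 e)
    · have e3 : y * t * y⁻¹ = t * z := by rw [hc, ← e, commutatorElement_def]; group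
      have e4 : a * y * t = t * (a * y) := by
        rw [← mul_inv_eq_iff_eq_mul]
        calc a * y * t * (a * y)⁻¹ = a * (y * t * y⁻¹) * a⁻¹ := by group
          _ = (a * t * a⁻¹) * (a * z * a⁻¹) := by rw [e3, conj_mul]
          _ = t := by rw [e1, e2, mul_assoc, h.zz, mul_one]
      have := H1 _ (Q.mul_mem ha hy) e4
      rw [← mul_assoc, H2, mul_assoc, mul_assoc] at this
      exact mul_left_cancel this
  have s2 : ∀ x ∈ Q, x ∈ Q' → x = 1 ∨ x = t := fun x hx hx' => by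
    have H1 : ∀ p ∈ Q, p * t = t * p → x * p = p * x := fun p hp e => (comm_eq_one.1
      ((h.comm p hp x hx).resolve_right fun e' =>
        hz (e' ▸ comm_mem_right (h'.norm (mem_cent1.2 e)) hx'))).symm
    have hxx : x * x = 1 := (h.sq x hx).resolve_right fun e => hz (e ▸ Q'.mul_mem hx' hx')
    have hxt : x * t = t * x := h'.cent x hx'
    rcases h.comm a ha x hx with e | e
    · rcases h.ctr x hx (central x hx H1 (comm_eq_one.1 e).symm) hxx with e | e
      · exact Or.inl e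
      · exact absurd (e ▸ hx') hz
    · have e3 : a * x * a⁻¹ = z * x := by rw [← e, commutatorElement_def]; group
      have e4 : x * t * a = a * (x * t) := by
        symm
        rw [← mul_inv_eq_iff_eq_mul, ← conj_mul, e3, e1]
        calc z * x * (t * z) = z * (x * t * z) := by group
          _ = x * t := by rw [h.cent _ (Q.mul_mem hx ht), ← mul_assoc, h.zz, one_mul]
      rcases h.ctr _ (Q.mul_mem hx ht) (central _ (Q.mul_mem hx ht) (fun p hp e => by
        rw [mul_assoc, ← e, ← mul_assoc, H1 p hp e, mul_assoc]) e4) (by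
        rw [show x * t * (x * t) = x * (t * x) * t by group, ← hxt, ← mul_assoc x x t, hxx, one_mul,
          h'.zz]) with e | e
      · right
        rw [eq_inv_of_mul_eq_one_left e, h'.zinv]
      · exact absurd (e ▸ Q'.mul_mem hx' h'.zQ) hz
  have hct : c ∈ C[t] := mem_cent1.2 (hcc t ht)
  have s3 : ∀ y ∈ Q', ⁅z, y⁆ = 1 ∨ ⁅z, y⁆ = t → ⁅c, y⁆ = 1 ∨ ⁅c, y⁆ = t := fun y hy e =>
    s2 _ (comm_mem_left (h.norm (s1 y hy e)) hcQ) (comm_mem_right (h'.norm hct) hy)
  have htt : t ∈ C[t] := mem_cent1.2 rfl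
  have hcen : zpowers (⟨t, htt⟩ : C[t]) ≤ center _ := by
    rw [zpowers_le, mem_center_iff]
    intro y
    exact Subtype.ext (mem_cent1.1 y.2)
  have hn : (zpowers (⟨t, htt⟩ : C[t])).Normal := nlc hcen
  let π := QuotientGroup.mk' (zpowers (⟨t, htt⟩ : C[t]))
  have hπ : ∀ x : C[t], π x = 1 ↔ (x : G) = 1 ∨ (x : G) = t := fun x => by
    rw [← MonoidHom.mem_ker, QuotientGroup.ker_mk', mem_zpowers_inv (Subtype.ext h'.zz)]
    exact or_congr Subtype.ext_iff Subtype.ext_iff
  have hπc : ∀ x y : C[t], π x * π y = π y * π x ↔ ⁅(x : G), (y : G)⁆ = 1 ∨ ⁅(x : G), (y : G)⁆ = t :=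
    fun x y => by rw [← comm_eq_one, ← map_commutatorElement, hπ]; rfl
  have key := fix_of_four (V := (Q'.subgroupOf C[t]).map π) (c := π ⟨c, hct⟩) (by
      rintro _ ⟨x, hx, rfl⟩
      rw [← map_mul, hπ]
      exact h'.sq _ hx) (by
      apply le_normalizer_map π
      refine ⟨⟨c, hct⟩, ?_, rfl⟩
      exact le_normalizer_comap C[t].subtype (h'.norm hct)) (by
      rw [← map_mul, ← map_mul, hπ]
      left
      change c * c * (c * c) = 1
      rw [hcz, h.zz]) (by
      rintro _ ⟨y, hy, rfl⟩ e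
      rw [← map_mul, hπc] at e
      rw [hπc]
      refine s3 _ hy ?_
      rwa [← hcz])
  have : c ∈ Q' := h'.big c hct fun y hy => by
    have hy' : y ∈ C[t] := mem_cent1.2 (h'.cent y hy)
    exact (hπc ⟨c, hct⟩ ⟨y, hy'⟩).1 (key _ ⟨⟨y, hy'⟩, hy, rfl⟩)
  exact hz (hcz ▸ Q'.mul_mem this this)

end SY

theorem struct {Q : Type*} [Group Q] [Finite Q] (hQ : IsOfSymplecticType Q) (h4 : ∀ q : Q, q ^ 4 = 1)
    {z : Q} (hz : orderOf z = 2) (hzc : z ∈ center Q) :
    (∀ x ∈ center Q, x * x = 1 → x = 1 ∨ x = z) ∧ (∀ x y : Q, ⁅x, y⁆ = 1 ∨ ⁅x, y⁆ = z) ∧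
      ∀ x : Q, x * x = 1 ∨ x * x = z := by
  have hZ : IsCyclic (center Q) := hQ.2 _ inferInstance inferInstance
  have h1 : ∀ x ∈ center Q, x * x = 1 → x = 1 ∨ x = z := fun x hx hxx => by
    by_cases hx1 : x = 1
    · exact Or.inl hx1
    · exact Or.inr (S1755.invol_unique hZ hx hzc (orderOf_inv2 hx1 hxx) hz)
  obtain ⟨E, R, hER, hsup, hE, hR⟩ := S3762.result hQ.1 hQ.2
  have h4R : ∀ r : R, orderOf r ∣ 4 := fun r =>
    orderOf_dvd_of_pow_eq_one (Subtype.ext (h4 r))
  have hRc : IsCyclic R := by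
    rcases hR with hR | ⟨-, hc, ⟨m, ⟨e⟩⟩ | ⟨m, ⟨e⟩⟩ | ⟨n, hn, -, x, -, hx, -⟩⟩
    · exact hR
    · exfalso
      have h2 := h4R (e.symm (DihedralGroup.r 1))
      rw [MulEquiv.orderOf_eq, DihedralGroup.orderOf_r_one] at h2
      rw [Nat.card_congr e.toEquiv, DihedralGroup.nat_card] at hc
      have := Nat.le_of_dvd (by norm_num) h2
      omega
    · exfalso
      have h2 := h4R (e.symm (QuaternionGroup.a 1))
      rw [MulEquiv.orderOf_eq, QuaternionGroup.orderOf_a_one] at h2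
      have := Nat.le_of_dvd (by norm_num) h2
      have hm : m ≠ 0 := by rintro rfl; simp at h2
      have : NeZero m := ⟨hm⟩
      rw [Nat.card_congr e.toEquiv, Nat.card_eq_fintype_card, QuaternionGroup.card] at hc
      omega
    · exfalso
      have h2 := h4R x
      rw [hx] at h2
      have := Nat.le_of_dvd (by norm_num) h2
      have : 2 ^ 3 ≤ 2 ^ n := Nat.pow_le_pow_right (by norm_num) hn
      omega
  have hRR : ∀ r ∈ R, ∀ s ∈ R, r * s = s * r := fun r hr s hs =>
    congrArg Subtype.val (hRc.isMulCommutative.is_comm.comm (⟨r, hr⟩ : R) ⟨s, hs⟩)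
  have hcen : ∀ x, (∀ e ∈ E, e * x = x * e) → (∀ e ∈ R, e * x = x * e) → x ∈ center Q := by
    intro x a b
    have : E ⊔ R ≤ C[x] := sup_le (fun e he => mem_cent1.2 (a e he)) (fun e he => mem_cent1.2 (b e he))
    rw [mem_center_iff]
    intro y
    exact mem_cent1.1 (this (hsup ▸ mem_top y))
  have hRZ : ∀ r ∈ R, r ∈ center Q := fun r hr => hcen r (fun e he => hER e he r hr)
    (fun s hs => hRR s hs r hr)
  have hE' : (∀ x ∈ E, ∀ y ∈ E, ⁅x, y⁆ = 1 ∨ ⁅x, y⁆ = z) ∧ ∀ x ∈ E, x * x = 1 ∨ x * x = z := by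
    rcases hE with rfl | hE
    · simp
    · obtain ⟨w, hw⟩ := exists_ES hE
      have : w = z := (h1 w (hcen w hw.cent (fun r hr => (hER w hw.zQ r hr).symm)) hw.zz).resolve_left
        hw.z1
      subst this
      exact ⟨hw.comm, hw.sq⟩
  have hdec : ∀ x : Q, ∃ e ∈ E, ∃ r ∈ R, x = e * r := fun x => by
    have hn : R.Normal := nlc hRZ
    have : x ∈ ((E ⊔ R : Subgroup Q) : Set Q) := hsup ▸ mem_top x
    rw [mul_normal] at this
    obtain ⟨e, he, r, hr, rfl⟩ := this
    exact ⟨e, he, r, hr, rfl⟩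
  refine ⟨h1, fun x y => ?_, fun x => ?_⟩
  · obtain ⟨e, he, r, hr, rfl⟩ := hdec x
    obtain ⟨f, hf, s, hs, rfl⟩ := hdec y
    have a1 := mem_center_iff.1 (hRZ r hr)
    have a2 := mem_center_iff.1 (hRZ s hs)
    have : ⁅e * r, f * s⁆ = ⁅e, f⁆ := by
      simp only [commutatorElement_def]
      calc e * r * (f * s) * (e * r)⁻¹ * (f * s)⁻¹
          = e * (r * (f * s) * r⁻¹) * e⁻¹ * (f * s)⁻¹ := by group
        _ = e * f * (s * e⁻¹ * s⁻¹) * f⁻¹ := by rw [← a1]; group
        _ = _ := by rw [← a2]; group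
    rw [this]; exact hE'.1 e he f hf
  · obtain ⟨e, he, r, hr, rfl⟩ := hdec x
    have a1 := mem_center_iff.1 (hRZ r hr)
    have hrr := h1 (r * r) (mul_mem (hRZ r hr) (hRZ r hr)) (by rw [← h4 r]; simp only [pow_succ, pow_zero, one_mul, mul_assoc])
    have : e * r * (e * r) = e * e * (r * r) := by
      rw [mul_assoc e r, ← a1]; group
    rw [this]
    rcases hE'.2 e he with b | b <;> rcases hrr with d | d <;>
      simp [b, d, mul_self_of_order hz]

theorem sy_of [Finite G] (z : G) (hz : orderOf z = 2)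
    (hQ : Cfsg.IsOfSymplecticType ↥(Cfsg.generalizedFittingSubgroup C[z]))
    (h4 : ∀ q ∈ (Cfsg.generalizedFittingSubgroup C[z]).map C[z].subtype, q ^ 4 = 1) :
    SY ((Cfsg.generalizedFittingSubgroup C[z]).map C[z].subtype) z := by
  set F := Cfsg.generalizedFittingSubgroup C[z] with hF
  have hz1 : z ∈ C[z] := mem_cent1.2 rfl
  have hz2 : (⟨z, hz1⟩ : C[z]) ∈ center C[z] := by
    rw [mem_center_iff]; intro g
    exact Subtype.ext (mem_cent1.1 g.2)
  have hz3 : (⟨z, hz1⟩ : C[z]) ∈ F := H1.center_le_gf hz2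
  have hz4 : (⟨_, hz3⟩ : F) ∈ center F := by
    rw [mem_center_iff]; intro g
    exact Subtype.ext (mem_center_iff.1 hz2 g)
  obtain ⟨s1, s2, s3⟩ := struct hQ (fun q => Subtype.ext (Subtype.ext (h4 _ ⟨q, q.2, rfl⟩)))
    (z := ⟨_, hz3⟩) (by rw [← Subgroup.orderOf_coe, ← Subgroup.orderOf_coe]; exact hz) hz4
  have zz := mul_self_of_order hz
  have inj : ∀ {a b : F}, a = b → ((a : C[z]) : G) = ((b : C[z]) : G) := fun e => by rw [e]
  refine ⟨⟨_, hz3, rfl⟩, ne_one_of_order hz, zz, ?_, ?_, ?_, ?_, H1.le_normalizer_map_subtype F, ?_⟩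
  · rintro _ ⟨x, hx, rfl⟩ _ ⟨y, hy, rfl⟩
    exact (s2 ⟨x, hx⟩ ⟨y, hy⟩).imp inj inj
  · rintro _ ⟨x, hx, rfl⟩
    exact (s3 ⟨x, hx⟩).imp inj inj
  · rintro _ ⟨x, _, rfl⟩
    exact mem_cent1.1 x.2
  · rintro _ ⟨x, hx, rfl⟩ H1 H2
    refine (s1 ⟨x, hx⟩ ?_ (Subtype.ext (Subtype.ext H2))).imp inj inj
    rw [mem_center_iff]
    intro y
    exact Subtype.ext (Subtype.ext (H1 _ ⟨y, y.2, rfl⟩).symm)
  · intro g hg H
    have hn : (zpowers (⟨z, hz1⟩ : C[z])).Normal := nlc (zpowers_le.2 hz2)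
    have hFn : (F.map (QuotientGroup.mk' (zpowers (⟨z, hz1⟩ : C[z])))).Normal :=
      Subgroup.Normal.map inferInstance _ (QuotientGroup.mk'_surjective _)
    let K := (centralizer ((F.map (QuotientGroup.mk' (zpowers (⟨z, hz1⟩ : C[z]))) : Subgroup _) :
      Set (C[z] ⧸ zpowers (⟨z, hz1⟩ : C[z])))).comap (QuotientGroup.mk' _)
    have hK : ∀ k : C[z], k ∈ K ↔ ∀ x ∈ F, ⁅k, x⁆ = 1 ∨ ⁅k, x⁆ = ⟨z, hz1⟩ := fun k => by
      constructor
      · intro hk x hx
        have := comm_eq_one.2 (hk _ ⟨x, hx, rfl⟩).symm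
        rwa [← map_commutatorElement, ← MonoidHom.mem_ker, QuotientGroup.ker_mk',
          mem_zpowers_inv (Subtype.ext zz)] at this
      · rintro hk _ ⟨x, hx, rfl⟩
        symm
        rw [← comm_eq_one, ← map_commutatorElement, ← MonoidHom.mem_ker, QuotientGroup.ker_mk',
          mem_zpowers_inv (Subtype.ext zz)]
        exact hk x hx
    have hKp : IsPGroup 2 K := by
      rintro ⟨k, hk⟩
      have : k * k ∈ F := by
        apply H1.centralizer_gf_le
        intro x hx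
        rcases (hK k).1 hk x hx with e | e
        · rw [← mul_assoc, ← comm_eq_one.1 e, mul_assoc, ← comm_eq_one.1 e, mul_assoc]
        · have e1 : k * x = ⟨z, hz1⟩ * x * k := by rw [← e, commutatorElement_def]; group
          have e2 := mem_center_iff.1 hz2 k
          have e3 : (⟨z, hz1⟩ : C[z]) * ⟨z, hz1⟩ = 1 := Subtype.ext zz
          symm
          calc k * k * x = k * (⟨z, hz1⟩ * x * k) := by rw [mul_assoc, e1]
            _ = ⟨z, hz1⟩ * (k * x) * k := by rw [← mul_assoc, ← mul_assoc, e2]; group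
            _ = x * (k * k) := by rw [e1, ← mul_assoc, ← mul_assoc, e3]; group
      obtain ⟨n, hn⟩ := hQ.1 ⟨_, this⟩
      refine ⟨n + 1, Subtype.ext ?_⟩
      change k ^ 2 ^ (n + 1) = 1
      rw [pow_succ', pow_mul, pow_two]
      exact congrArg Subtype.val hn
    have hKF : K ≤ F := (H1.le_pCore inferInstance hKp).trans H1.pCore_le_gf
    refine ⟨⟨g, hg⟩, hKF ((hK _).2 fun x hx => ?_), rfl⟩
    exact (H _ ⟨x, hx, rfl⟩).imp Subtype.ext Subtype.ext

/-- Let G be a finite group and let z be an involution of G such that Q, the generalized Fitting subgroup of the centralizer C of z, is a 2-group of symplectic type (every characteristic abelian subgroup of Q is cyclic); suppose every element of Q has order dividing 4. Let g ∈ G with z' = g z g⁻¹ ≠ z and z' ∈ Q. Then z lies in the conjugate g Q g⁻¹, and the subgroup X generated by Q and g Q g⁻¹ induces every automorphism of the four-group generated by z and z': for any two distinct non-identity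 elements u, v of that four-group there is x ∈ X with x z x⁻¹ = u and x z' x⁻¹ = v. -/
theorem result {G : Type*} [Group G] [Finite G] (z : G) (hz : orderOf z = 2) (hQ : Cfsg.IsOfSymplecticType ↥(Cfsg.generalizedFittingSubgroup ↥(Subgroup.centralizer ({z} : Set G))))
    (h4 : ∀ q ∈ (Cfsg.generalizedFittingSubgroup ↥(Subgroup.centralizer ({z} : Set G))).map (Subgroup.centralizer ({z} : Set G)).subtype, q ^ 4 = 1) (g : G) (hne : g * z * g⁻¹ ≠ z) (hin : g * z * g⁻¹ ∈ (Cfsg.generalizedFittingSubgroup ↥(Subgroup.centralizer ({z} : Set G))).map (Subgroup.centralizer ({z} : Set G)).subtype) :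
    z ∈ ((Cfsg.generalizedFittingSubgroup ↥(Subgroup.centralizer ({z} : Set G))).map (Subgroup.centralizer ({z} : Set G)).subtype).map (MulAut.conj g).toMonoidHom ∧
      ∀ u ∈ Subgroup.closure ({z, g * z * g⁻¹} : Set G), ∀ v ∈ Subgroup.closure ({z, g * z * g⁻¹} : Set G),
        u ≠ 1 → v ≠ 1 → u ≠ v →
          ∃ x ∈ (Cfsg.generalizedFittingSubgroup ↥(Subgroup.centralizer ({z} : Set G))).map (Subgroup.centralizer ({z} : Set G)).subtype ⊔ ((Cfsg.generalizedFittingSubgroup ↥(Subgroup.centralizer ({z} : Set G))).map (Subgroup.centralizer ({z} : Set G)).subtype).map (MulAut.conj g).toMonoidHom, x * z * x⁻¹ = u ∧ x * (g * z * g⁻¹) * x⁻¹ = v := by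
  have h := sy_of z hz hQ h4
  have hs := h.symm hin hne
  refine ⟨hs, ?_⟩
  have h' := h.J g
  set Q := (Cfsg.generalizedFittingSubgroup C[z]).map C[z].subtype
  set t := g * z * g⁻¹
  have hc : t * z = z * t := h.cent t hin
  obtain ⟨a, ha, a1⟩ := h.exists_conj hin h'.zz h'.z1 hne
  obtain ⟨b, hb, b1⟩ := h'.exists_conj hs h.zz h.z1 hne.symm
  have a2 : a * z * a⁻¹ = z := mul_inv_eq_iff_eq_mul.2 (h.cent a ha)
  have b2 : b * t * b⁻¹ = t := mul_inv_eq_iff_eq_mul.2 (h'.cent b hb)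
  have a3 : a * (z * t) * a⁻¹ = t := by rw [← conj_mul, a1, a2, hc, ← mul_assoc, h.zz, one_mul]
  have b3 : b * (z * t) * b⁻¹ = z := by rw [← conj_mul, b1, b2, mul_assoc, h'.zz, mul_one]
  rw [hc] at a1
  have ha' : a ∈ Q ⊔ cj g Q := mem_sup_left ha
  have hb' : b ∈ Q ⊔ cj g Q := mem_sup_right hb
  have cm : ∀ x y w : G, x * y * w * (x * y)⁻¹ = x * (y * w * y⁻¹) * x⁻¹ := fun x y w => by group
  intro u hu v hv u1 v1 huv
  rw [closure_pair_eq, mem_four h.zz h'.zz hc.symm] at hu hv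
  rcases hu with rfl | rfl | rfl | rfl <;> rcases hv with rfl | rfl | rfl | rfl <;>
    first
    | exact absurd rfl u1
    | exact absurd rfl v1
    | exact absurd rfl huv
    | skip
  · exact ⟨1, one_mem _, by simp, by simp⟩
  · exact ⟨a, ha', a2, a1⟩
  · exact ⟨a * (b * a), mul_mem ha' (mul_mem hb' ha'), by rw [cm, cm, a2, b1, a3],
      by rw [cm, cm, a1, b3, a2]⟩
  · exact ⟨a * b, mul_mem ha' hb', by rw [cm, b1, a3], by rw [cm, b2, a1]⟩
  · exact ⟨b * a, mul_mem hb' ha', by rw [cm, a2, b1], by rw [cm, a1, b3]⟩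
  · exact ⟨b, hb', b1, b2⟩

end Cfsg.Agent.S1774
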