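import Cfsg.Statements.S1780
import Cfsg.Agent.H28.Sylow

set_option autoImplicit false
open Cfsg

namespace Cfsg.Agent.S1780

open H28 Subgroup


/-- Let A be a finite abelian 2-group and t an automorphism of A whose order is a power of 2. If every element of A fixed by t² is fixed by t, then t fixes every element of A. -/
theorem result {A : Type*} [CommGroup A] [Finite A]
    (hA : IsPGroup 2 A) (t : MulAut A) (ht : ∃ k : ℕ, orderOf t = 2 ^ k) (hC : ∀ a : A, t (t a) = a → t a = a) :
    ∀ a : A, t a = a := by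
  -- if `t ≠ 1`, pick `a` not fixed by `t` with `[a,t]` fixed, of order 2 modulo the fixed points
  obtain ⟨k, hk⟩ := ht
  by_contra hne
  -- fixed points `C` and the operator `d a = t a / a`
  let d : A →* A := (t : A →* A) / MonoidHom.id A
  have hd : ∀ a, d a = t a / a := fun a => rfl
  have htd : ∀ a, t a = a * d a := fun a => by rw [hd]; simp
  -- `d` is nilpotent: use a fixed point of `⟨t⟩` on `A / ker d`
  have hker : ∀ a ∈ d.ker, t a = a := fun a ha => by rw [htd, MonoidHom.mem_ker.1 ha, mul_one]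
  have hker' : ∀ a, t a = a → a ∈ d.ker := fun a ha => by rw [MonoidHom.mem_ker, hd, ha, div_self']
  have hR : d.range ≠ ⊥ := by
    intro h; apply hne; intro a
    have : d a ∈ d.range := ⟨a, rfl⟩
    rw [h, mem_bot] at this
    exact hker a this
  -- `⟨t⟩` acts on the elements of order dividing 2 of the range of `d`
  have hz : IsPGroup 2 (zpowers t) := isPGroup_zpowers_of_orderOf hk
  have htr : ∀ s : MulAut A, s ∈ zpowers t → ∀ a, s (d a) = d (s a) := by
    intro s hs a
    have hc : Commute s t := by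
      obtain ⟨n, rfl⟩ := hs; exact (Commute.refl t).zpow_left n
    rw [hd, hd, map_div, ← MulAut.mul_apply, hc.eq, MulAut.mul_apply]
  let X := {x : A // x ∈ d.range ∧ x ^ 2 = 1}
  letI : MulAction (zpowers t) X :=
    { smul := fun s x => ⟨(s : MulAut A) x.1, by
        obtain ⟨a, ha⟩ := x.2.1
        exact ⟨_, by rw [← htr s s.2, ha]⟩, by rw [← map_pow, x.2.2, map_one]⟩
      one_smul := fun x => rfl
      mul_smul := fun s s' x => rfl }
  let Y : Subgroup A := d.range ⊓ (powMonoidHom 2).ker
  have hY : Y ≠ ⊥ := by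
    obtain ⟨x, hx, hx2⟩ := exists_orderOf_eq_of_isPGroup (hA.to_subgroup _) hR
    intro h
    have : x ∈ Y := ⟨hx, by show x ^ 2 = 1; rw [← hx2, pow_orderOf_eq_one]⟩
    rw [h, mem_bot] at this
    rw [this, orderOf_one] at hx2; exact absurd hx2 (by decide)
  have hdiv : 2 ∣ Nat.card X := by
    have : Nat.card X = Nat.card Y := rfl
    rw [this]; exact dvd_card_of_isPGroup_ne_bot (hA.to_subgroup _) le_rfl hY
  obtain ⟨b, hb, hb1⟩ := hz.exists_fixed_point_of_prime_dvd_card_of_fixed_point X hdiv
    (a := ⟨1, one_mem _, one_pow _⟩) (fun s => Subtype.ext (map_one (s : MulAut A)))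
  obtain ⟨a, ha⟩ := b.2.1
  have h1 : t b.1 = b.1 := congrArg Subtype.val (hb ⟨t, mem_zpowers t⟩)
  have h2 : t (t a) = a := by
    rw [htd a, map_mul, htd a, ha, h1, mul_assoc, ← pow_two, b.2.2, mul_one]
  apply hb1
  apply Subtype.ext
  show 1 = b.1
  rw [← ha, hd, hC a h2, div_self']

end Cfsg.Agent.S1780
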