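import Cfsg.Statements.S1781
import Cfsg.Agent.H28.Comm
import Cfsg.Agent.H2.CoprimeAbelian
import Cfsg.Agent.S1780
import Cfsg.Agent.S1757

set_option autoImplicit false
open Cfsg

namespace Cfsg.Agent.S1781

open H28 Subgroup
open scoped IsMulCommutative


/-- Let A be an abelian 2-subgroup of the finite group G such that every conjugate of A equals A or meets A trivially, and let g ∈ G with g A g⁻¹ ≠ A. Then either the subgroup of those elements of A that normalize g A g⁻¹ is an elementary abelian 2-group, or A and g A g⁻¹ commute elementwise. -/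
theorem result {G : Type*} [Group G] [Finite G] (A : Subgroup G)
    (hA2 : IsPGroup 2 ↥A) (hAa : IsMulCommutative ↥A)
    (hti : ∀ h : G, A.map (MulAut.conj h).toMonoidHom = A ∨ A.map (MulAut.conj h).toMonoidHom ⊓ A = ⊥)
    (g : G) (hg : A.map (MulAut.conj g).toMonoidHom ≠ A) :
    Cfsg.IsElementaryAbelian 2 (A ⊓ Subgroup.normalizer ((A.map (MulAut.conj g).toMonoidHom : Subgroup G) : Set G)) ∨
      ⁅A, A.map (MulAut.conj g).toMonoidHom⁆ = ⊥ := by
  set B := cj g A with hB
  have hAB : B ⊓ A = ⊥ := (hti g).resolve_left hg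
  have hAc := le_centralizer_self_iff.2 hAa
  have hBti : ∀ h : G, cj h B = B ∨ cj h B ⊓ B = ⊥ := by
    intro h
    rcases hti (g⁻¹ * h * g) with h1 | h1
    · left; rw [hB, cj_cj]; conv_rhs => rw [← h1, cj_cj]
      congr 3; group
    · right
      have := congrArg (fun X => cj g X) h1
      simp only [cj_inf, cj_bot, cj_cj] at this
      rw [hB, cj_cj, ← this]; congr 4; group
  have hB2 : IsPGroup 2 B := isPGroup_cj g hA2
  have hBc : B ≤ 𝐂 B := by rw [hB, ← cj_centralizer]; exact cj_mono g hAc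
  have hC : ∀ a ∈ A, a ≠ 1 → centralizer {a} ≤ 𝐍 A := by
    intro a ha h1 b hb
    rcases hti b with h | h
    · exact mem_normalizer_iff_cj.2 h
    · have : a ∈ cj b A ⊓ A := ⟨by
        have := conj_mem_cj (g := b) ha
        rwa [mem_centralizer_singleton_iff.1 hb, mul_inv_cancel_right] at this, ha⟩
      rw [h, mem_bot] at this; exact (h1 this).elim
  by_cases he : ∀ t ∈ A ⊓ 𝐍 B, t ^ 2 = 1
  · exact Or.inl (isElementaryAbelian_iff.2 ⟨inf_le_left.trans (hAc.trans (centralizer_anti inf_le_left)), he⟩)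
  right
  push Not at he
  obtain ⟨t, ht, ht2⟩ := he
  haveI := le_centralizer_self_iff.1 hBc
  have hz : zpowers t ≤ 𝐍 B := zpowers_le.2 ht.2
  have h1 := S1780.result (A := B) hB2 (H2.conjAut hz ⟨t, mem_zpowers t⟩) ?_ ?_
  · have ht1 : t ≠ 1 := by rintro rfl; simp at ht2
    refine S1757.result 2 A B hA2 hB2 hti hBti (card_cj g A).ge (by rw [inf_comm, hAB]) fun b hb => hC t ht.1 ht1 ?_
    have := congrArg Subtype.val (h1 ⟨b, hb⟩)
    simp only [H2.coe_conjAut_apply] at this
    rw [mem_centralizer_singleton_iff]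
    calc b * t = t * b * t⁻¹ * t := by rw [this]
      _ = t * b := by group
  · have hp : IsPGroup 2 (zpowers t) := hA2.to_le (zpowers_le.2 ht.1)
    obtain ⟨k, hk⟩ := hp ⟨t, mem_zpowers t⟩
    have : orderOf (H2.conjAut hz ⟨t, mem_zpowers t⟩) ∣ 2 ^ k :=
      orderOf_dvd_of_pow_eq_one (by rw [← map_pow, hk, map_one])
    obtain ⟨j, -, hj⟩ := (Nat.dvd_prime_pow Nat.prime_two).1 this
    exact ⟨j, hj⟩
  · intro b hb
    have h2 := congrArg Subtype.val hb
    simp only [H2.coe_conjAut_apply] at h2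
    apply Subtype.ext
    simp only [H2.coe_conjAut_apply]
    have h3 : (b : G) ∈ 𝐍 A := hC _ (pow_mem ht.1 2) ht2 (mem_centralizer_singleton_iff.2 (by
      calc (b : G) * t ^ 2 = t * (t * b * t⁻¹) * t⁻¹ * t ^ 2 := by rw [h2]
        _ = t ^ 2 * b := by rw [pow_two]; group))
    have : t * b * t⁻¹ * (b : G)⁻¹ ∈ B ⊓ A := ⟨B.mul_mem (conj_mem_of_mem_normalizer ht.2 b.2) (B.inv_mem b.2), by
      have := A.mul_mem ht.1 (conj_mem_of_mem_normalizer h3 (A.inv_mem ht.1)); simpa [mul_assoc] using this⟩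
    rw [hAB, mem_bot, mul_inv_eq_one] at this
    exact this

end Cfsg.Agent.S1781
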