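import Cfsg.Statements.S1782
import Cfsg.Agent.H28.CharP
import Cfsg.Agent.H4.Basic
import Cfsg.Agent.H19.Amb1

set_option autoImplicit false
open Cfsg

namespace Cfsg.Agent.S1782

open H28 Subgroup

theorem exists_sq {G : Type*} [Group G] {T N : Subgroup G} (hT : IsPGroup 2 T) (h : ¬ T ≤ N) :
    ∃ t ∈ T, t ∉ N ∧ t * t ∈ N := by
  obtain ⟨t, ht, ht'⟩ := SetLike.not_le_iff_exists.1 h
  obtain ⟨k, hk⟩ := isPGroup_iff_mem.1 hT t ht
  induction k generalizing t with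
  | zero => exact (ht' (by rw [pow_zero, pow_one] at hk; exact hk ▸ N.one_mem)).elim
  | succ k ih =>
    by_cases h2 : t * t ∈ N
    · exact ⟨t, ht, ht', h2⟩
    · exact ih (t * t) (mul_mem ht ht) h2 (by rw [← sq, ← pow_mul, ← pow_succ', hk])


/-- Let S be a finite 2-group and Δ a set of subgroups of S closed under conjugation by S, all of the same order, each with nontrivial Frattini subgroup, and such that two distinct members of Δ meet trivially. Then any two distinct members of Δ commute elementwise. -/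
theorem result {S : Type*} [Group S] [Finite S] (hS : IsPGroup 2 S)
    (Δ : Set (Subgroup S)) (hinv : ∀ s : S, ∀ R ∈ Δ, R.map (MulAut.conj s).toMonoidHom ∈ Δ)
    (hΦ : ∀ R ∈ Δ, frattini ↥R ≠ ⊥) (hord : ∀ R ∈ Δ, ∀ T ∈ Δ, Nat.card ↥R = Nat.card ↥T)
    (hti : ∀ R ∈ Δ, ∀ T ∈ Δ, R = T ∨ R ⊓ T = ⊥) :
    ∀ R ∈ Δ, ∀ T ∈ Δ, R ≠ T → ⁅R, T⁆ = ⊥ := by
  haveI : Fact (Nat.Prime 2) := ⟨Nat.prime_two⟩
  haveI := hS.isNilpotent
  suffices h : ∀ n, ∀ R ∈ Δ, ∀ T ∈ Δ, Nat.card (R ⊔ T : Subgroup S) = n → R ≠ T → ⁅R, T⁆ = ⊥ from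
    fun R hR T hT => h _ R hR T hT rfl
  intro n
  induction n using Nat.strong_induction_on with
  | _ n ih =>
  have key : ∀ R ∈ Δ, ∀ T ∈ Δ, Nat.card (R ⊔ T : Subgroup S) = n → R ≠ T → ∀ s ∈ T, s ∉ 𝐍 R →
      cj s R ≤ 𝐂 R ∧ R ⊓ cj s R = ⊥ ∧ R ⊔ cj s R < R ⊔ T := by
    intro R hR T hT hn hne s hs hsn
    have h1 : R ≠ cj s R := fun e => hsn (mem_normalizer_iff_cj.2 e.symm)
    obtain ⟨L, h2, h3, h4⟩ := (subnIn_of_nilpotent (le_sup_left : R ≤ R ⊔ T)).eq_or_exists_lt.resolve_left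
      fun e => hsn (le_normalizer (e.ge (mem_sup_right hs)))
    have h5 : R ⊔ cj s R < R ⊔ T :=
      (sup_le h2.le (cj_le_of_mem_normalizer h2.le (h4 (mem_sup_right hs)))).trans_lt h3
    exact ⟨commutator_eq_bot_iff'.1 (ih _ (hn ▸ card_lt_of_lt h5) R hR _ (hinv s R hR) rfl h1),
      (hti R hR _ (hinv s R hR)).resolve_left h1, h5⟩
  have one : ∀ R ∈ Δ, ∀ T ∈ Δ, Nat.card (R ⊔ T : Subgroup S) = n → R ≠ T → R ≤ 𝐍 T → T ≤ 𝐍 R := by
    intro R hR T hT hn hne h s hs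
    by_contra hsn
    obtain ⟨h1, h2, h3⟩ := key R hR T hT hn hne s hs hsn
    have c1 := H19.card_sup_of_disjoint (le_normalizer_of_le_centralizer h1) h2
    have c2 := Nat.le_of_dvd (Nat.mul_pos Nat.card_pos Nat.card_pos) (H19.card_sup_dvd h)
    have c3 := card_lt_of_lt h3
    rw [c1, card_cj] at c3
    rw [sup_comm, hord T hT R hR] at c2
    omega
  intro R hR T hT hn hne
  have h0 := (hti R hR T hT).resolve_left hne
  by_cases h1 : R ≤ 𝐍 T
  · exact H1.commutator_eq_bot_of_inf_eq_bot h1 (one R hR T hT hn hne h1) h0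
  have hn' : Nat.card (T ⊔ R : Subgroup S) = n := by rwa [sup_comm]
  have h2 : ¬ T ≤ 𝐍 R := fun h => h1 (one T hT R hR hn' hne.symm h)
  exfalso
  obtain ⟨t, ht, htn, ht2⟩ := exists_sq (hS.to_subgroup T) h2
  obtain ⟨a1, a2, -⟩ := key R hR T hT hn hne t ht htn
  have sq1 : ∀ r ∈ R, r ∉ 𝐍 T → r * r = 1 := by
    intro r hr hrn
    have b1 := mem_centralizer'.1 ((key T hT R hR hn' hne.symm r hr hrn).1 (conj_mem_cj ht)) t ht
    have b2 := mem_centralizer'.1 (a1 (conj_mem_cj hr)) _ (conj_mem_of_mem_normalizer ht2 hr)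
    have b3 : t * r * t⁻¹ * (t * r * t⁻¹) = ((t * t) * r * (t * t)⁻¹) * r := by
      calc t * r * t⁻¹ * (t * r * t⁻¹) = (t * r * t⁻¹ * (t * t * r * (t * t)⁻¹)) * (t * r * t⁻¹)⁻¹ *
            (t * (r * t * r⁻¹)) * t⁻¹ * t⁻¹ * (t * r * t⁻¹) := by group
        _ = _ := by rw [← b2, b1]; group
    have b4 : t * (r * r) * t⁻¹ ∈ R ⊓ cj t R := ⟨by
      rw [show t * (r * r) * t⁻¹ = t * r * t⁻¹ * (t * r * t⁻¹) by group, b3]
      exact R.mul_mem (conj_mem_of_mem_normalizer ht2 hr) hr, conj_mem_cj (mul_mem hr hr)⟩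
    rw [a2, mem_bot] at b4
    exact conj_eq_one_iff.1 b4
  obtain ⟨r, hr, hrn⟩ := SetLike.not_le_iff_exists.1 h1
  have h3 : R ⊓ 𝐍 T ≠ ⊥ := by
    intro h
    refine hΦ R hR (le_bot_iff.1 (H4.frattini_le (p := 2) ?_ ?_))
    all_goals
      have e : ∀ x : R, x * x = 1 := fun x => Subtype.ext (by
        by_cases hx : (x : S) ∈ 𝐍 T
        · have : (x : S) ∈ R ⊓ 𝐍 T := ⟨x.2, hx⟩
          rw [h, mem_bot] at this
          simp [this]
        · exact sq1 x x.2 hx)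
    · rw [_root_.commutator_def, Subgroup.commutator_le]
      intro x _ y _
      rw [mem_bot, commutatorElement_def, inv_eq_of_mul_eq_one_right (e x), inv_eq_of_mul_eq_one_right (e y),
        mul_assoc (x * y), e]
    · intro x
      rw [sq, e]
      exact one_mem _
  obtain ⟨u, hu, hu2⟩ := exists_orderOf_eq_of_isPGroup (hS.to_subgroup _) h3
  have uu : u * u = 1 := by rw [← sq, ← hu2, pow_orderOf_eq_one]
  have ru : r * u * r⁻¹ = u := by
    have := sq1 (r * u) (mul_mem hr hu.1) fun h => hrn (((𝐍 T).mul_mem_cancel_right hu.2).1 h)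
    rw [inv_eq_of_mul_eq_one_right (sq1 r hr hrn), ← inv_eq_of_mul_eq_one_right uu, eq_inv_iff_mul_eq_one,
      inv_eq_of_mul_eq_one_right uu, mul_assoc (r * u), this]
  have c1 : t * u * t⁻¹ * u⁻¹ ∈ T := by
    have := mul_mem ht (conj_mem_of_mem_normalizer hu.2 (inv_mem ht))
    simpa [mul_assoc] using this
  have c2 : r * (t * u * t⁻¹ * u⁻¹) * r⁻¹ = t * u * t⁻¹ * u⁻¹ := by
    have b2 := mem_centralizer'.1 (a1 (conj_mem_cj hu.1)) r hr
    calc r * (t * u * t⁻¹ * u⁻¹) * r⁻¹ = (r * (t * u * t⁻¹)) * r⁻¹ * (r * u * r⁻¹)⁻¹ := by group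
      _ = _ := by rw [b2, ru]; group
  have c3 : t * u * t⁻¹ * u⁻¹ ∈ T ⊓ cj r T := ⟨c1, c2 ▸ conj_mem_cj c1⟩
  rw [(key T hT R hR hn' hne.symm r hr hrn).2.1, mem_bot, mul_inv_eq_one] at c3
  have c4 : u ∈ R ⊓ cj t R := ⟨hu.1, c3 ▸ conj_mem_cj hu.1⟩
  rw [a2, mem_bot] at c4
  rw [c4, orderOf_one] at hu2
  omega

end Cfsg.Agent.S1782
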