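import Cfsg.Statements.S1783
import Cfsg.Agent.S1782
import Cfsg.Agent.H29.CMod
import Cfsg.Agent.H4.Critical
import Cfsg.Agent.H1.GFitting
import Cfsg.Agent.H1.Frattini
import Cfsg.Agent.H2.Coprime

set_option autoImplicit false
open Cfsg

namespace Cfsg.Agent.S1783

open H28 H29 Subgroup
open scoped commutatorElement

theorem amb {G : Type*} [Group G] [Finite G] {S A : Subgroup G} (hS : IsPGroup 2 S) (hΦ : frattini A ≠ ⊥)
    (hti : ∀ h : G, cj h A = A ∨ cj h A ⊓ A = ⊥) {g h : G} (h1 : cj g A ≤ S) (h2 : cj h A ≤ S)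
    (hne : cj g A ≠ cj h A) : ⁅cj g A, cj h A⁆ = ⊥ := by
  have := S1782.result hS {R | ∃ g, R.map S.subtype = cj g A} ?_ ?_ ?_ ?_ ((cj g A).subgroupOf S)
    ⟨g, map_subgroupOf_eq_of_le h1⟩ ((cj h A).subgroupOf S) ⟨h, map_subgroupOf_eq_of_le h2⟩
    (fun e => hne (by rw [← map_subgroupOf_eq_of_le h1, e, map_subgroupOf_eq_of_le h2]))
  · rw [← map_subgroupOf_eq_of_le h1, ← map_subgroupOf_eq_of_le h2, ← map_commutator, this, Subgroup.map_bot]
  · rintro s R ⟨g, hg⟩
    refine ⟨s * g, ?_⟩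
    rw [← cj_cj, ← hg, Subgroup.map_map, Subgroup.map_map]
    rfl
  · rintro R ⟨g, hg⟩ h
    have e : R ≃* A := (R.equivMapOfInjective _ S.subtype_injective).trans
      ((MulEquiv.subgroupCongr hg).trans (cjEquiv g A).symm)
    exact hΦ (by rw [← H1.map_frattini_equiv e, h, Subgroup.map_bot])
  · rintro R ⟨g, hg⟩ T ⟨h, hh⟩
    rw [← card_subtype S R, ← card_subtype S T, hg, hh, card_cj, card_cj]
  · rintro R ⟨g, hg⟩ T ⟨h, hh⟩
    have inj := map_injective S.subtype_injective
    rcases hti (h⁻¹ * g) with e | e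
    · refine Or.inl (inj ?_)
      rw [← cj_cj, cj_eq_iff, inv_inv] at e
      rw [hg, hh, e]
    · refine Or.inr (inj ?_)
      rw [map_inf _ _ _ S.subtype_injective, hg, hh, Subgroup.map_bot, ← cj_eq_bot (g := h⁻¹), cj_inf, cj_cj,
        cj_inv_cj, e]

theorem frat_ne {G : Type*} [Group G] [Finite G] {A : Subgroup G} (hA : IsPGroup 2 A) {a : G} (ha : a ∈ A)
    (h : a ^ 2 ≠ 1) : frattini A ≠ ⊥ := fun e => by
  haveI : Fact (Nat.Prime 2) := ⟨Nat.prime_two⟩
  have := H4.pow_mem_map_frattini hA ha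
  rw [e, Subgroup.map_bot, mem_bot] at this
  exact h this


/-- Let X be a finite group whose generalized Fitting subgroup equals its largest normal 2-subgroup Q, and let A be an abelian 2-subgroup of X such that every conjugate of A equals A or meets A trivially. Let B be the subgroup generated by the squares of the elements of A. Then B lies in Q, and if B is not an elementary abelian 2-group then the normal closure of B in X is commutative. -/
theorem result {X : Type*} [Group X] [Finite X]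
    (hX : Cfsg.generalizedFittingSubgroup X = Cfsg.pCore 2 X) (A : Subgroup X) (hA2 : IsPGroup 2 ↥A) (hAa : IsMulCommutative ↥A)
    (hti : ∀ h : X, A.map (MulAut.conj h).toMonoidHom = A ∨ A.map (MulAut.conj h).toMonoidHom ⊓ A = ⊥) :
    Subgroup.closure ((fun a : X => a ^ 2) '' (A : Set X)) ≤ Cfsg.pCore 2 X ∧
      (¬ Cfsg.IsElementaryAbelian 2 (Subgroup.closure ((fun a : X => a ^ 2) '' (A : Set X))) →
        IsMulCommutative ↥(Subgroup.normalClosure ((fun a : X => a ^ 2) '' (A : Set X)))) := by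
  haveI : Fact (Nat.Prime 2) := ⟨Nat.prime_two⟩
  have hQ := isPGroup_pCore 2 X
  have hc := H1.gf_eq_pCore_iff.1 hX
  have hAA := le_centralizer_self_iff.2 hAa
  have N : ∀ (Y Z : Subgroup X) [Y.Normal], Z ≤ 𝐍 Y := fun Y Z _ g _ => mem_normalizer_of_normal Y g
  have hBA : Subgroup.closure ((fun a : X => a ^ 2) '' (A : Set X)) ≤ A := by
    rw [closure_le]
    rintro _ ⟨a, ha, rfl⟩
    exact A.pow_mem ha 2
  have h1 : Subgroup.closure ((fun a : X => a ^ 2) '' (A : Set X)) ≤ pCore 2 X := by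
    rw [closure_le]
    rintro _ ⟨a, ha, rfl⟩
    by_cases h : a ^ 2 = 1
    · change a ^ 2 ∈ pCore 2 X
      rw [h]; exact one_mem _
    have hD : IsPGroup 2 (cmod (pCore 2 X) ((frattini (pCore 2 X)).map (pCore 2 X).subtype)) := by
      refine isPGroup_of_forall_coprime fun x hx hcop => eq_one_of_coprime_of_mem hQ hcop (hc ?_)
      refine H2.le_centralizer_of_frattini (A := zpowers x) ?_ (mem_cmod_iff_zpowers.1 hx).2 (mem_zpowers x)
      rw [Nat.card_zpowers]
      exact H2.coprime_card_of_isPGroup (hQ.to_subgroup _) hcop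
    refine le_pCore hD (mem_cmod.2 ⟨N _ ⊤ (mem_top _), fun q hq => ?_⟩)
    have h2 : cj q A ≤ 𝐂 A := by
      by_cases e : cj q A = A
      · rwa [e]
      have := amb (isPGroup_sup_of_le_normalizer hA2 hQ (N _ _)) (frat_ne hA2 ha h) hti (g := q) (h := 1)
        (cj_le_of_mem le_sup_left (mem_sup_right hq)) (by rw [cj_one]; exact le_sup_left) (by rwa [cj_one])
      rw [cj_one] at this
      exact Subgroup.commutator_eq_bot_iff_le_centralizer.1 this
    have h3 := mem_centralizer'.1 (h2 (conj_mem_cj ha)) a⁻¹ (inv_mem ha)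
    have e : ⁅q, a ^ 2⁆ = ⁅q, a⁆ ^ 2 := by
      rw [sq, sq, commutatorElement_def, commutatorElement_def]
      symm
      calc _ = (q * a * q⁻¹) * (a⁻¹ * (q * a * q⁻¹)) * a⁻¹ := by group
        _ = _ := by rw [h3]; group
    rw [e]
    exact H4.pow_mem_map_frattini hQ (commutator_le_of_le_normalizer (N _ ⊤) (commutator_mem_commutator hq (mem_top a)))
  refine ⟨h1, fun h => ?_⟩
  have hn : 𝐍 A ≤ 𝐍 (Subgroup.closure ((fun a : X => a ^ 2) '' (A : Set X))) := fun g hg => by
    refine mem_normalizer_of_cj_le ?_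
    rw [MonoidHom.map_closure, closure_le]
    rintro _ ⟨_, ⟨a, ha, rfl⟩, rfl⟩
    exact subset_closure ⟨g * a * g⁻¹, conj_mem_of_mem_normalizer hg ha, by simp⟩
  rw [← normalClosure_closure_eq_normalClosure]
  generalize Subgroup.closure ((fun a : X => a ^ 2) '' (A : Set X)) = B at h h1 hn hBA
  have hBB : B ≤ 𝐂 B := hBA.trans (hAA.trans (centralizer_anti hBA))
  obtain ⟨b, hb, hb2⟩ : ∃ b ∈ B, b ^ 2 ≠ 1 := by
    by_contra h'
    push Not at h'
    exact h ⟨le_centralizer_self_iff.1 hBB, h'⟩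
  have hti' : ∀ h : X, cj h B = B ∨ cj h B ⊓ B = ⊥ := fun g => (hti g).imp
    (fun e => cj_eq_self (hn (mem_normalizer_iff_cj.2 e)))
    fun e => le_bot_iff.1 ((inf_le_inf (cj_mono g hBA) hBA).trans e.le)
  have key : ∀ g h : X, cj g B ≤ 𝐂 (cj h B) := fun g h => by
    by_cases e : cj g B = cj h B
    · rw [e, ← cj_centralizer]; exact cj_mono h hBB
    exact Subgroup.commutator_eq_bot_iff_le_centralizer.1 (amb hQ (frat_ne (hQ.to_le h1) hb hb2) hti'
      (cj_le_of_mem_normalizer h1 (N _ ⊤ (mem_top g))) (cj_le_of_mem_normalizer h1 (N _ ⊤ (mem_top h))) e)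
  have e : normalClosure (B : Set X) ≤ ⨆ g, cj g B := by
    haveI : (⨆ g, cj g B).Normal := normal_of_cj_le fun x => by
      rw [cj_iSup]
      exact iSup_le fun g => le_iSup_of_le (x * g) (cj_cj x g B).le
    exact normalClosure_le_normal fun x hx => (le_iSup_of_le (f := fun g => cj g B) 1 (cj_one B).ge) hx
  refine le_centralizer_self_iff.1 (e.trans (iSup_le fun g => le_centralizer_comm.1 (e.trans (iSup_le fun h => key h g))))

end Cfsg.Agent.S1783
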