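import Cfsg.Statements.S1784
import Cfsg.Agent.H0.ES3

set_option autoImplicit false
open Cfsg

open Subgroup H19 H12 H0 Module
open scoped commutatorElement

namespace Cfsg.Agent.S1784

/-- Let G be a finite group and let z be an involution of G such that Q, the generalized Fitting subgroup of the centralizer C of z, is a 2-group of symplectic type (every characteristic abelian subgroup of Q is cyclic); suppose Q is extraspecial, and view Q inside G. Let α be an involution of C that is not in Q, and let Q₀ be the subgroup of those q ∈ Q whose commutator with α lies in the subgroup generated by z. Then (a) the subgroup generated by the commutators α q α⁻¹ q⁻¹, q ∈ Q, equals the centre of Q₀; and (b) if Q₀ is not contained in the product of the centralizer of α in Q with the subgroup generated by z, then some element of Q conjugates α to α z. -/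
theorem result {G : Type*} [Group G] [Finite G] (z : G) (hz : orderOf z = 2) (hQ : Cfsg.IsOfSymplecticType ↥(Cfsg.generalizedFittingSubgroup ↥(Subgroup.centralizer ({z} : Set G)))) (hE : Cfsg.IsExtraspecial 2 ↥(Cfsg.generalizedFittingSubgroup ↥(Subgroup.centralizer ({z} : Set G))))
    (α : G) (hα : orderOf α = 2) (hαC : α ∈ Subgroup.centralizer ({z} : Set G)) (hαQ : α ∉ (Cfsg.generalizedFittingSubgroup ↥(Subgroup.centralizer ({z} : Set G))).map (Subgroup.centralizer ({z} : Set G)).subtype)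
    (Q₀ : Subgroup G) (hQ₀ : ∀ q : G, q ∈ Q₀ ↔ (q ∈ (Cfsg.generalizedFittingSubgroup ↥(Subgroup.centralizer ({z} : Set G))).map (Subgroup.centralizer ({z} : Set G)).subtype ∧ α * q * α⁻¹ * q⁻¹ ∈ Subgroup.zpowers z)) :
    Subgroup.closure ((fun q : G => α * q * α⁻¹ * q⁻¹) '' ((Cfsg.generalizedFittingSubgroup ↥(Subgroup.centralizer ({z} : Set G))).map (Subgroup.centralizer ({z} : Set G)).subtype : Set G)) = (Subgroup.center ↥Q₀).map Q₀.subtype ∧
      (¬ Q₀ ≤ ((Cfsg.generalizedFittingSubgroup ↥(Subgroup.centralizer ({z} : Set G))).map (Subgroup.centralizer ({z} : Set G)).subtype ⊓ Subgroup.centralizer ({α} : Set G)) ⊔ Subgroup.zpowers z →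
        ∃ q ∈ (Cfsg.generalizedFittingSubgroup ↥(Subgroup.centralizer ({z} : Set G))).map (Subgroup.centralizer ({z} : Set G)).subtype, q * α * q⁻¹ = α * z) := by
  set Q := (generalizedFittingSubgroup C[z]).map C[z].subtype with hQd
  have h : LE Q z := LE_of_gf hz (by
    obtain ⟨w, hw⟩ := exists_ES hE
    exact (hw.map C[z].subtype fun x _ e => Subtype.ext e).extraspecial) rfl
  have aa := mul_self_of_order hα
  have hN := h.norm hαC
  refine ⟨?_, fun hn => ?_⟩
  · obtain ⟨E, _, _, π, ρ, q, hm⟩ := h.es.exists_model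
    have e0 : Q₀ = hm.sec.grp (LinearMap.ker (ρ ⟨α, hN⟩ - 1)) := by
      ext x
      rw [hQ₀, hm.sec.mem_grp]
      exact and_congr_right fun hx => (hm.mem_ker ⟨α, hN⟩ hx).symm
    have e1 : Z(Q₀) = hm.sec.grp (LinearMap.range (ρ ⟨α, hN⟩ - 1)) := by
      rw [← inf_eq_right.2 (hm.range_le_ker ⟨α, hN⟩ (aa ▸ one_mem _)), hm.sec.grp_inf,
        ← hm.perp_ker, hm.grp_perp, ← e0, ← inf_assoc, inf_eq_left.2 (e0 ▸ hm.sec.grp_le _ : Q₀ ≤ Q)]
    rw [center_map_eq, e1]
    set D := closure ((fun q : G => α * q * α⁻¹ * q⁻¹) '' (Q : Set G))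
    have hD : ∀ x ∈ Q, ⁅α, x⁆ ∈ D := fun x hx => subset_closure ⟨x, hx, rfl⟩
    have hz : z ∈ D := by
      by_contra hz
      refine hαQ (h.mem_of_triv hαC fun x hx => ?_)
      by_contra hn
      obtain ⟨y, hy, e⟩ := h.es.exists_conj (comm_mem_right hN hx) hn
      have : y * ⁅α, x⁆ * y⁻¹ = ⁅α, y⁆⁻¹ * ⁅α, y * x⁆ := by simp only [commutatorElement_def]; group
      have h2 : ⁅α, x⁆ * z ∈ D := by
        rw [← e, this]; exact mul_mem (inv_mem (hD y hy)) (hD _ (mul_mem hy hx))
      exact hz ((mul_mem_cancel_left (hD x hx)).1 h2)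
    refine le_antisymm ((closure_le _).2 ?_) fun x hx => ?_
    · rintro _ ⟨x, hx, rfl⟩
      exact ⟨comm_mem_right hN hx, π x, (hm.pi_comm ⟨α, hN⟩ hx).symm⟩
    · obtain ⟨hx, e, he⟩ := hx
      obtain ⟨y, hy, rfl⟩ := hm.sec.surj e
      rw [← hm.pi_comm ⟨α, hN⟩ hy, hm.sec.eq_iff (comm_mem_right hN hy) hx] at he
      have := mul_mem (inv_mem (zpowers_le_of_mem hz he)) (hD y hy)
      rwa [mul_inv_rev, inv_inv, inv_mul_cancel_right] at this
  · obtain ⟨x, hx, hx'⟩ := SetLike.not_le_iff_exists.1 hn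
    obtain ⟨h1, h2⟩ := (hQ₀ x).1 hx
    rcases h.es.mem_zp.1 h2 with e | e
    · exact absurd (mem_sup_left (mem_inf.2 ⟨h1, mem_cent1.2 (comm_eq_one.1 e).symm⟩)) hx'
    · refine ⟨x, h1, ?_⟩
      rw [← e, ← mul_assoc, ← mul_assoc, ← mul_assoc, aa, one_mul,
        inv_eq_of_mul_eq_one_right aa]

end Cfsg.Agent.S1784
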