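import Cfsg.Statements.S1785
import Cfsg.Agent.H4.Klein
import Cfsg.Agent.H10.Four
import Cfsg.Agent.H1.Frattini
import Cfsg.Agent.H1.Balance
import Cfsg.Agent.H28.Comm
import Cfsg.Agent.H19.Amb5

set_option autoImplicit false
open Cfsg

namespace Cfsg.Agent.S1785

open H28 Subgroup


/-- Let X be a finite 2-group having a normal elementary abelian subgroup of order at least 32. Then (a) for any two elementary abelian subgroups A, B of X of order 8 there is a chain A = A₁, A₂, …, Aₙ = B of elementary abelian subgroups of order 8 in which consecutive members commute elementwise; and (b) every elementary abelian subgroup of X of order 4 is contained in an elementary abelian subgroup of order 8. -/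
theorem result {X : Type*} [Group X] [Finite X]
    (hX : IsPGroup 2 X) (E : Subgroup X) [E.Normal] (hE : Cfsg.IsElementaryAbelian 2 E) (hE32 : 32 ≤ Nat.card ↥E) :
    (∀ A B : Subgroup X, Cfsg.IsElementaryAbelian 2 A → Nat.card ↥A = 8 → Cfsg.IsElementaryAbelian 2 B → Nat.card ↥B = 8 →
        Relation.ReflTransGen
          (fun C D : Subgroup X => Cfsg.IsElementaryAbelian 2 C ∧ Nat.card ↥C = 8 ∧ Cfsg.IsElementaryAbelian 2 D ∧ Nat.card ↥D = 8 ∧ ⁅C, D⁆ = ⊥)
          A B) ∧
      (∀ V : Subgroup X, Cfsg.IsElementaryAbelian 2 V → Nat.card ↥V = 4 →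
        ∃ A : Subgroup X, V ≤ A ∧ Cfsg.IsElementaryAbelian 2 A ∧ Nat.card ↥A = 8) := by
  haveI : Fact (Nat.Prime 2) := ⟨Nat.prime_two⟩
  have hEE := ea_le_centralizer hE
  have pw : ∀ (A : Subgroup X) (k : ℕ), 2 ^ k < Nat.card A → 2 ^ (k + 1) ≤ Nat.card A := fun A k h => by
    obtain ⟨j, hj⟩ := IsPGroup.iff_card.1 (hX.to_subgroup A)
    rw [hj, Nat.pow_lt_pow_iff_right one_lt_two] at h
    rw [hj]
    exact Nat.pow_le_pow_right two_pos h
  have sub : ∀ (A : Subgroup X) (k : ℕ), 2 ^ k ≤ Nat.card A → ∃ C ≤ A, Nat.card C = 2 ^ k := fun A k h =>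
    H19.PiN.exists_card_pow (H19.pG_iff.2 (hX.to_subgroup A)) Nat.prime_two h
  have one : ∀ a : X, a ^ 2 = 1 → 8 ≤ Nat.card (E ⊓ centralizer {a} : Subgroup X) := fun a ha => by
    have := H4.card_le_sq_centralizer hE.2 (mem_normalizer_of_normal E a) (ha ▸ one_mem _)
    refine pw _ 2 ?_
    by_contra h
    have := Nat.pow_le_pow_left (not_lt.1 h) 2
    omega
  have two : ∀ V : Subgroup X, IsElementaryAbelian 2 V → Nat.card V = 4 → 4 ≤ Nat.card (E ⊓ 𝐂 V : Subgroup X) := by
    intro V hV hc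
    have hk := H4.isKleinFour_subgroup_iff.2 ⟨hc, hV.2⟩
    obtain ⟨a, ha, b, hb, h1, h2, h3⟩ := H10.kf_exists hk
    have h4 := H4.card_le_sq_centralizer (E := E ⊓ centralizer {a}) (fun x hx => hE.2 x hx.1) (v := b)
      (zpowers_le.1 (le_normalizer_inf (fun g _ => mem_normalizer_of_normal E g) (le_normalizer_of_le (zpowers_le.2
        (mem_centralizer_singleton_iff.2 (H10.kf_comm hk hb ha)))))) (hV.2 b hb ▸ one_mem _)
    rw [H10.kf_eq_sup hk ha hb h1 h2 h3, centralizer_sup, centralizer_zpowers, centralizer_zpowers, ← inf_assoc]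
    refine pw _ 1 ?_
    by_contra h
    have := Nat.pow_le_pow_left (not_lt.1 h) 2
    have := one a (hV.2 a ha)
    omega
  have ext : ∀ V : Subgroup X, IsElementaryAbelian 2 V → ∀ x ∈ 𝐂 V, x ∉ V → x ^ 2 = 1 →
      IsElementaryAbelian 2 (zpowers x ⊔ V : Subgroup X) ∧ Nat.card (zpowers x ⊔ V : Subgroup X) = 2 * Nat.card V :=
    fun V hV x h1 h2 h3 => ⟨ea_sup (H1.isElementaryAbelian_zpowers h3) hV (zpowers_le.2 h1),
      H1.card_sup_zpowers (centralizer_le_normalizer _ h1) h2 (h3 ▸ V.one_mem)⟩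
  refine ⟨?_, fun V hV hc => ?_⟩
  · let r := fun C D : Subgroup X => Cfsg.IsElementaryAbelian 2 C ∧ Nat.card ↥C = 8 ∧
      Cfsg.IsElementaryAbelian 2 D ∧ Nat.card ↥D = 8 ∧ ⁅C, D⁆ = ⊥
    haveI sy : Std.Symm r := ⟨fun C D h => ⟨h.2.2.1, h.2.2.2.1, h.1, h.2.1, (Subgroup.commutator_comm _ _).trans h.2.2.2.2⟩⟩
    have k1 : ∀ A : Subgroup X, IsElementaryAbelian 2 A → Nat.card A = 8 → A ⊓ E ≠ ⊥ →
        ∃ F ≤ E, Nat.card F = 8 ∧ Relation.ReflTransGen r A F := by
      intro A hA hc h0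
      by_cases hAE : A ≤ E
      · exact ⟨A, hAE, hc, .refl⟩
      obtain ⟨a, ha, haE⟩ := SetLike.not_le_iff_exists.1 hAE
      obtain ⟨e, he, he1⟩ := (A ⊓ E).bot_or_exists_ne_one.resolve_left h0
      obtain ⟨V, hV, hVc, heV⟩ : ∃ V ≤ A, Nat.card V = 4 ∧ e ∉ V := by
        obtain ⟨b, hb, hb'⟩ : ∃ b ∈ A, b ∉ zpowers a ⊔ zpowers e := by
          by_contra h
          push Not at h
          have h1 := (ext _ (H1.isElementaryAbelian_zpowers (hA.2 e he.1)) a
            (centralizer_anti (zpowers_le.2 he.1) (ea_le_centralizer hA ha))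
            (fun h => haE (zpowers_le.2 he.2 h)) (hA.2 a ha)).2
          rw [Nat.card_zpowers, orderOf_eq_prime (hA.2 e he.1) he1] at h1
          have := card_le_of_le' (show A ≤ zpowers a ⊔ zpowers e from h)
          omega
        have ha1 : a ≠ 1 := fun e => haE (e ▸ E.one_mem)
        have h1 := ext _ (H1.isElementaryAbelian_zpowers (hA.2 a ha)) b
            (centralizer_anti (zpowers_le.2 ha) (ea_le_centralizer hA hb))
            (fun h => hb' (mem_sup_left h)) (hA.2 b hb)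
        rw [Nat.card_zpowers, orderOf_eq_prime (hA.2 a ha) ha1] at h1
        refine ⟨_, sup_le (zpowers_le.2 hb) (zpowers_le.2 ha), h1.2, fun h => hb' ?_⟩
        have hk := H4.isKleinFour_subgroup_iff.2 ⟨h1.2, h1.1.2⟩
        rw [← H10.kf_eq_sup hk (mem_sup_right (mem_zpowers a)) h ha1 he1 (fun e => haE (e ▸ he.2))]
        exact mem_sup_left (mem_zpowers b)
      have h1 := ext V (ea_of_le hA hV) e (centralizer_anti hV (ea_le_centralizer hA he.1)) heV (hA.2 e he.1)
      have h2 : zpowers e ⊔ V = A := eq_of_le_of_card_le (sup_le (zpowers_le.2 he.1) hV) (by omega)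
      obtain ⟨D, hD, hDc⟩ := sub _ 2 (two V (ea_of_le hA hV) hVc)
      have hDA : D ≤ 𝐂 A := by
        rw [← h2, centralizer_sup]
        exact le_inf ((hD.trans inf_le_left).trans (hEE.trans (centralizer_anti (zpowers_le.2 he.2))))
          (hD.trans inf_le_right)
      have h3 := ext D (ea_of_le hE (hD.trans inf_le_left)) a (le_centralizer_comm.1 hDA ha)
        (fun h => haE (hD h).1) (hA.2 a ha)
      obtain ⟨F, hF, hFc⟩ := sub _ 3 (one a (hA.2 a ha))
      refine ⟨F, hF.trans inf_le_left, hFc, .head (b := zpowers a ⊔ D) ⟨hA, hc, h3.1, by omega,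
        commutator_eq_bot_iff'.2 (sup_le (zpowers_le.2 (ea_le_centralizer hA ha)) hDA)⟩
        (.single ⟨h3.1, by omega, ea_of_le hE (hF.trans inf_le_left), hFc, commutator_eq_bot_iff'.2 ?_⟩)⟩
      rw [centralizer_sup, centralizer_zpowers]
      exact le_inf (hF.trans inf_le_right) ((hF.trans inf_le_left).trans (hEE.trans
        (centralizer_anti (hD.trans inf_le_left))))
    have k2 : ∀ A : Subgroup X, IsElementaryAbelian 2 A → Nat.card A = 8 →
        ∃ F ≤ E, Nat.card F = 8 ∧ Relation.ReflTransGen r A F := by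
      intro A hA hc
      by_cases h0 : A ⊓ E ≠ ⊥
      · exact k1 A hA hc h0
      push Not at h0
      obtain ⟨e, he, he1⟩ := (E ⊓ 𝐂 A).bot_or_exists_ne_one.resolve_left (inf_centralizer_ne_bot (hX.to_subgroup A)
        (hX.to_subgroup E) (fun g _ => mem_normalizer_of_normal E g) (by
          rintro rfl
          rw [card_bot] at hE32
          omega))
      obtain ⟨V, hV, hVc⟩ := sub A 2 (by omega)
      have h1 := ext V (ea_of_le hA hV) e (centralizer_anti hV he.2)
        (fun h => he1 (mem_bot.1 (h0 ▸ ⟨hV h, he.1⟩))) (hE.2 e he.1)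
      obtain ⟨F, h2, h3, h4⟩ := k1 _ h1.1 (by omega)
        (fun h => he1 (mem_bot.1 (h ▸ ⟨mem_sup_left (mem_zpowers e), he.1⟩)))
      exact ⟨F, h2, h3, .head ⟨hA, hc, h1.1, by omega, commutator_eq_bot_iff'.2
        (sup_le (zpowers_le.2 he.2) (hV.trans (ea_le_centralizer hA)))⟩ h4⟩
    intro A B hA hAc hB hBc
    obtain ⟨F, h1, h2, h3⟩ := k2 A hA hAc
    obtain ⟨F', h4, h5, h6⟩ := k2 B hB hBc
    exact (h3.tail ⟨ea_of_le hE h1, h2, ea_of_le hE h4, h5, commutator_eq_bot_iff'.2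
      (h4.trans (hEE.trans (centralizer_anti h1)))⟩).trans (Relation.ReflTransGen.symmetric.symm _ _ h6)
  · obtain ⟨x, hx, hxV⟩ : ∃ x ∈ E ⊓ 𝐂 V, x ∉ V := by
      by_contra h
      push Not at h
      have h1 : E ⊓ 𝐂 V = V := eq_of_le_of_card_le h (hc ▸ two V hV hc)
      have h2 : E ≤ E ⊓ 𝐂 V := le_inf le_rfl (hEE.trans (centralizer_anti (h1.ge.trans inf_le_left)))
      have := card_le_of_le' (h2.trans h1.le)
      omega
    have h1 := ext V hV x hx.2 hxV (hE.2 x hx.1)
    exact ⟨_, le_sup_right, h1.1, by omega⟩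

end Cfsg.Agent.S1785
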