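import Cfsg.Statements.S1851
import Cfsg.Agent.H1.CompAct
import Cfsg.Agent.H1.PConstr
import Cfsg.Agent.H28.CharP

set_option autoImplicit false
open Cfsg

namespace Cfsg.Agent.S1851

open Subgroup H28
open scoped commutatorElement

variable {G : Type*} [Group G] [Finite G]

theorem pres {L : Subgroup G} (hL : ⁅L, L⁆ = L) : pResidualOf 2 L = L :=
  le_antisymm (pResidualOf_le _ _)
    (H1.le_of_perfect_of_forall_coprime Nat.prime_two hL fun _ hx h => mem_pResidualOf hx h)

theorem dir1 {K H : Subgroup G} (hK : ⁅K, K⁆ = K) (h : SubnIn K H)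
    (h0 : ⁅omegaOneCenter 2 (pCoreOf 2 K), K⁆ = ⊥) : ⁅omegaOneCenter 2 (pCoreOf 2 H), K⁆ = ⊥ := by
  have h1 : pCoreOf 2 H ≤ normalizer (K : Set G) := by
    have := h.pCoreOf_le_normalizer (p := 2)
    rwa [pres hK] at this
  have h2 : ⁅omegaOneCenter 2 (pCoreOf 2 H), K⁆ ≤ omegaOneCenter 2 (pCoreOf 2 H) :=
    commutator_le_of_le_normalizer (le_normalizer_omegaOneCenter
      (h.le.trans (le_normalizer_pCoreOf _ _)))
  have h3 : ⁅omegaOneCenter 2 (pCoreOf 2 H), K⁆ ≤ K :=
    commutator_le_of_le_normalizer' ((omegaOneCenter_le _ _).trans h1)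
  refine H1.commutator_eq_bot_of_perfect hK (eq_bot_iff.2 (le_trans (commutator_mono ?_ le_rfl) h0.le))
  refine le_omegaOneCenter ?_ ?_ fun a ha => (mem_omegaOneCenter.1 (h2 ha)).2.2
  · rw [h.pCoreOf_eq]; exact le_inf h3 (h2.trans (omegaOneCenter_le _ _))
  · exact (h2.trans (omegaOneCenter_le_centralizer _ _)).trans (centralizer_le h.pCoreOf_le)

theorem dir2 {K H : Subgroup G} (hK : ⁅K, K⁆ = K) (h : SubnIn K H)
    (h0 : ⁅omegaOneCenter 2 (pCoreOf 2 H), K⁆ = ⊥) : ⁅omegaOneCenter 2 (pCoreOf 2 K), K⁆ = ⊥ := by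
  set Q := pCoreOf 2 H with hQ
  set V := omegaOneCenter 2 (pCoreOf 2 K) with hV
  have h1 : Q ≤ normalizer (K : Set G) := by
    have := h.pCoreOf_le_normalizer (p := 2)
    rwa [pres hK] at this
  have hVQ : V ≤ Q := (omegaOneCenter_le _ _).trans h.pCoreOf_le
  have hQK : ⁅Q, K⁆ ≤ pCoreOf 2 K := by
    rw [h.pCoreOf_eq]
    exact le_inf (commutator_le_of_le_normalizer' h1)
      (commutator_le_of_le_normalizer (h.le.trans (le_normalizer_pCoreOf _ _)))
  have key : ∀ W : Subgroup G, W ≤ V → Q ≤ normalizer (W : Set G) → ⁅W, K⁆ = ⊥ := by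
    intro W
    induction W using WellFoundedLT.induction with
    | ind W ih =>
      intro hW hn
      by_cases hb : W = ⊥
      · simp [hb]
      have hle : ⁅W, Q⁆ ≤ W := commutator_le_of_le_normalizer hn
      have hlt : ⁅W, Q⁆ < W := lt_of_le_of_ne hle fun e => hb
        (H1.eq_bot_of_le_commutator_of_isNilpotent (isPGroup_pCoreOf 2 H).isNilpotent
          (hW.trans hVQ) e.ge)
      have a1 := ih _ hlt (hle.trans hW) (le_normalizer_commutator_right _ _)
      have a2 : ⁅⁅Q, K⁆, W⁆ = ⊥ := commutator_eq_bot_iff_le_centralizer.2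
        (hQK.trans ((le_centralizer_omegaOneCenter _ _).trans (centralizer_le hW)))
      have a3 : ⁅⁅K, W⁆, Q⁆ = ⊥ := commutator_commutator_eq_bot_of_rotate a1 a2
      rw [commutator_comm K W] at a3
      have a4 : ⁅W, K⁆ ≤ V := (commutator_mono hW le_rfl).trans (commutator_le_of_le_normalizer
        (le_normalizer_omegaOneCenter (le_normalizer_pCoreOf _ _)))
      refine H1.commutator_eq_bot_of_perfect hK
        (eq_bot_iff.2 (le_trans (commutator_mono ?_ le_rfl) h0.le))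
      exact le_omegaOneCenter (a4.trans hVQ) (commutator_eq_bot_iff_le_centralizer.1 a3)
        fun a ha => (mem_omegaOneCenter.1 (a4 ha)).2.2
  exact key V le_rfl (le_normalizer_omegaOneCenter (le_normalizer_pCoreOf' h1))

omit [Finite G] in
theorem of_calL {T K : Subgroup G} (h : K ∈ calL T) :
    K ≠ ⊥ ∧ ⁅K, K⁆ = K ∧ SubnIn K (K ⊔ T) := by
  obtain ⟨⟨h1, h2, h3, -⟩, -, -⟩ := h
  refine ⟨fun e => h1 (by rw [e]; simp), ?_, subnIn_of_subgroupOf le_sup_left h3⟩
  rw [← commutator_subgroupOf le_sup_left le_sup_left] at h2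
  exact (subgroupOf_inj' ((commutator_le_of_le_normalizer le_normalizer).trans le_sup_left)
    le_sup_left).1 h2

/-- Let G be a non-abelian finite simple QTKE-group and T a Sylow 2-subgroup of G, and let L be a member of ℒ_f(G, T) (a member of ℒ(G, T) that lies in 𝒳 — L ≠ 1, L = O²(L), F*(L) = O₂(L) — and acts nontrivially on Ω₁(Z(O₂(L)))). Then (1) every member K of ℒ(G, T) containing L is again in ℒ_f(G, T) (a sharper form of (1) also compares the modules [Ω₁(Z(R)), L] and [Ω₁(Z(R')), K] for suitable 2-subgroups R, R'; that comparison is not included); and (2) if L is maximal under inclusion among the members of ℒ_f(G, T), then L is a maximal member of ℒ(G, T), hence a member of ℒ_f*(G, T). -/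
theorem result {G : Type*} [Group G] [Finite G] [IsSimpleGroup G]
    (hG : ¬ IsMulCommutative G) (hQ : Cfsg.IsQTKE G) (T : Sylow 2 G) (L : Subgroup G)
    (hL : L ∈ Cfsg.calLf (T : Subgroup G)) :
    (∀ K ∈ Cfsg.calL (T : Subgroup G), L ≤ K → K ∈ Cfsg.calLf (T : Subgroup G)) ∧
    ((∀ K ∈ Cfsg.calLf (T : Subgroup G), L ≤ K → K = L) → L ∈ Cfsg.calLfMax (T : Subgroup G)) := by
  have key : ∀ K ∈ Cfsg.calL (T : Subgroup G), L ≤ K → K ∈ Cfsg.calLf (T : Subgroup G) := by
    intro K hK hLK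
    obtain ⟨k1, k2, k3⟩ := of_calL hK
    obtain ⟨l1, l2, l3⟩ := of_calL hL.1
    have hQ1 : pCoreOf 2 (K ⊔ T) ≠ ⊥ := fun h => hK.2.2 (pCoreOf_eq_bot_iff.1 h)
    have hM : IsCharP 2 (normalizer (pCoreOf 2 (K ⊔ T) : Set G)) :=
      isCharP_iff.2 (hQ.2.2 _ ⟨_, isPGroup_pCoreOf _ _, hQ1, rfl⟩
        ⟨T, le_sup_right.trans (le_normalizer_pCoreOf _ _)⟩)
    have hH : IsCharP 2 (K ⊔ T) := hM.of_sylow_le
      (isSylowIn_of_sylow_le T (le_sup_right.trans (le_normalizer_pCoreOf _ _)))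
      (le_normalizer_pCoreOf _ _) le_sup_right
    refine ⟨hK, ⟨k1, ?_, H1.gf_eq_pCore_iff.2 (isCharP_iff.1 (hH.of_subnIn k3))⟩, fun h0 => ?_⟩
    · have := pres k2
      rw [pResidualOf_eq] at this
      simpa [oddGenerated] using this
    · have h1 := dir1 k2 k3 h0
      refine hL.2.2 (dir2 l2 l3 (eq_bot_iff.2 (le_trans (commutator_mono ?_ hLK) h1.le)))
      have hle : L ⊔ T ≤ K ⊔ T := sup_le_sup_right hLK _
      have hQQ : pCoreOf 2 (K ⊔ T) ≤ pCoreOf 2 (L ⊔ T) := pCoreOf_le_pCoreOf_of_le hle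
        ((isSylowIn_of_sylow_le T le_sup_right).pCoreOf_le.trans le_sup_right)
      have hc := (omegaOneCenter_le_centralizer 2 (pCoreOf 2 (L ⊔ T))).trans (centralizer_le hQQ)
      exact le_omegaOneCenter (le_trans (le_inf (((omegaOneCenter_le _ _).trans
        (pCoreOf_le _ _)).trans hle) hc) (hH.centralizer_le le_rfl)) hc
        fun a ha => (mem_omegaOneCenter.1 ha).2.2
  exact ⟨key, fun h => ⟨⟨hL.1, fun K hK hLK => h K (key K hK hLK) hLK⟩, hL.2⟩⟩

end Cfsg.Agent.S1851
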