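import Cfsg.Statements.S1957
import Cfsg.Agent.H4.BG5a
import Cfsg.Agent.H9.FF1
import Cfsg.Agent.H10.Four
import Cfsg.Agent.H29.Sm1
import Cfsg.Agent.H29.CMod
import Cfsg.Agent.H28.CharP

set_option autoImplicit false
open Cfsg

namespace Cfsg.Agent.S1957

open H28 H29 Subgroup

theorem omega_eq {G : Type*} [Group G] [Finite G] {P U : Subgroup G} (hUP : U ≤ P) (hUn : P ≤ 𝐍 U)
    (hU : IsKleinFour U) (hc : IsCyclic ↥(P ⊓ 𝐂 P)) (hi : (P ⊓ 𝐂 U).relIndex P = 2) {w : G}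
    (hw : w ∈ P ⊓ 𝐂 U) (hw' : w ∈ 𝐂 (P ⊓ 𝐂 U)) (h2 : w * w = 1) : w ∈ U := by
  have hnl : ¬ P ≤ 𝐂 U := fun h => by
    rw [inf_eq_left.2 h, relIndex_self] at hi; omega
  obtain ⟨s, hs, hs'⟩ := SetLike.not_le_iff_exists.1 hnl
  have hs1 : s ∉ P ⊓ 𝐂 U := fun h => hs' h.2
  have hn : s ∈ 𝐍 (P ⊓ 𝐂 U) := le_normalizer_inf le_normalizer (le_normalizer_centralizer hUn) hs
  have hP : ∀ g ∈ P, g ∈ P ⊓ 𝐂 U ∨ s⁻¹ * g ∈ P ⊓ 𝐂 U := fun g hg => by
    have := mul_mem_iff_of_index_two hi (a := ⟨s⁻¹, inv_mem hs⟩) (b := ⟨g, hg⟩)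
    by_cases h : g ∈ P ⊓ 𝐂 U
    · exact Or.inl h
    · exact Or.inr (this.2 (iff_of_false (fun h => hs1 (inv_mem_iff.1 h)) h))
  have hss : s * s ∈ P ⊓ 𝐂 U := sq s ▸ sq_mem_of_index_two hi ⟨s, hs⟩
  have fix : ∀ w ∈ P ⊓ 𝐂 U, w ∈ 𝐂 (P ⊓ 𝐂 U) → s * w * s⁻¹ = w → w ∈ P ⊓ 𝐂 P := fun w hw hw' h =>
    ⟨hw.1, mem_centralizer'.2 fun g hg => (hP g hg).elim (mem_centralizer'.1 hw' g) fun h1 => by
      have := mem_centralizer'.1 hw' _ h1
      calc g * w = s * (s⁻¹ * g * w) := by group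
        _ = (s * w * s⁻¹) * g := by rw [this]; group
        _ = _ := by rw [h]⟩
  have tr : ∀ w ∈ P ⊓ 𝐂 U, w ∈ 𝐂 (P ⊓ 𝐂 U) → w * w = 1 →
      w * (s * w * s⁻¹) ∈ P ⊓ 𝐂 P ∧ (w * (s * w * s⁻¹)) * (w * (s * w * s⁻¹)) = 1 := fun w hw hw' h => by
    have h1 := conj_mem_of_mem_normalizer hn hw
    have h3 := mem_centralizer'.1 hw' _ h1
    refine ⟨fix _ (mul_mem hw h1) (mul_mem hw' (conj_mem_of_mem_normalizer
      (normalizer_le_normalizer_centralizer _ hn) hw')) ?_, ?_⟩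
    · calc s * (w * (s * w * s⁻¹)) * s⁻¹ = (s * w * s⁻¹) * ((s * s) * w * (s * s)⁻¹) := by group
        _ = _ := by rw [mem_centralizer'.1 hw' _ hss, ← h3]; group
    · calc w * (s * w * s⁻¹) * (w * (s * w * s⁻¹)) = w * (s * w * s⁻¹ * w) * (s * w * s⁻¹) := by group
        _ = (w * w) * (s * (w * w) * s⁻¹) := by rw [h3]; group
        _ = 1 := by rw [h]; group
  obtain ⟨u, hu, hus⟩ : ∃ u ∈ U, u * s ≠ s * u := by
    by_contra h
    push Not at h
    exact hs' (mem_centralizer'.2 h)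
  have hu1 : u ∈ P ⊓ 𝐂 U := ⟨hUP hu, H10.kf_le_centralizer hU hu⟩
  have hu2 : u ∈ 𝐂 (P ⊓ 𝐂 U) := le_centralizer_comm.1 inf_le_right hu
  obtain ⟨z1, z2⟩ := tr u hu1 hu2 (H10.kf_mul_self hU hu)
  have z3 : u * (s * u * s⁻¹) ≠ 1 := fun e => hus (by
    have := eq_inv_of_mul_eq_one_right e
    rw [inv_eq_of_mul_eq_one_right (H10.kf_mul_self hU hu)] at this
    exact (mul_inv_eq_iff_eq_mul.1 this).symm)
  have zU : u * (s * u * s⁻¹) ∈ U := mul_mem hu (conj_mem_of_mem_normalizer (hUn hs) hu)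
  have uq : ∀ y ∈ P ⊓ 𝐂 P, y * y = 1 → y = 1 ∨ y = u * (s * u * s⁻¹) := fun y hy h => by
    by_cases h1 : y = 1
    · exact Or.inl h1
    · exact Or.inr (invol_unique hc hy z1 (H10.orderOf_two_of h h1) (H10.orderOf_two_of z2 z3))
  have fin : ∀ w ∈ P ⊓ 𝐂 U, w ∈ 𝐂 (P ⊓ 𝐂 U) → w * w = 1 → w * (s * w * s⁻¹) = 1 → w ∈ U := fun w hw hw' h h1 => by
    have := eq_inv_of_mul_eq_one_right h1
    rw [inv_eq_of_mul_eq_one_right h] at this
    rcases uq w (fix w hw hw' this) h with e | e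
    · exact e ▸ U.one_mem
    · exact e ▸ zU
  have c := mem_centralizer'.1 hw' _ hu1
  rcases uq _ (tr w hw hw' h2).1 (tr w hw hw' h2).2 with e | e
  · exact fin w hw hw' h2 e
  · refine (U.mul_mem_cancel_right hu).1 (fin _ (mul_mem hw hu1) (mul_mem hw' hu2) ?_ ?_)
    · calc w * u * (w * u) = w * (u * w) * u := by group
        _ = (w * w) * (u * u) := by rw [c]; group
        _ = 1 := by rw [h2, H10.kf_mul_self hU hu, one_mul]
    · have c2 := mem_centralizer'.1 hu2 _ (conj_mem_of_mem_normalizer hn hw)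
      calc w * u * (s * (w * u) * s⁻¹) = w * (u * (s * w * s⁻¹)) * (s * u * s⁻¹) := by group
        _ = (w * (s * w * s⁻¹)) * (u * (s * u * s⁻¹)) := by rw [← c2]; group
        _ = 1 := by rw [e, z2]


/-- Let `G` be a finite non-abelian simple group in which every local subgroup is solvable and which is of characteristic 2 type. Let `P` be a Sylow 2-subgroup of `G` and `U` a normal subgroup of `P` that is a four-group, with `U` central in `P` if the centre of `P` is not cyclic. Then `U` centralizes every subgroup of odd order of `G` that it normalizes. -/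
theorem result {G : Type*} [Group G] [Finite G]
    [IsSimpleGroup G] (hna : ¬ IsMulCommutative G) (hN : Cfsg.IsNGroup G) (h2 : Cfsg.IsCharacteristicTwoType G)
    (P : Sylow 2 G) (U : Subgroup G) (hUP : U ≤ (P : Subgroup G)) (hUn : (P : Subgroup G) ≤ Subgroup.normalizer (U : Set G))
    (hU4 : IsKleinFour ↥U)
    (hUZ : ¬ IsCyclic ↥((P : Subgroup G) ⊓ Subgroup.centralizer ((P : Subgroup G) : Set G)) →
      U ≤ Subgroup.centralizer ((P : Subgroup G) : Set G))
    (K : Subgroup G) (hK : Odd (Nat.card K)) (hUK : U ≤ Subgroup.normalizer (K : Set G)) :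
    U ≤ Subgroup.centralizer (K : Set G) := by
  haveI : Fact (Nat.Prime 2) := ⟨Nat.prime_two⟩
  have hUU := H10.kf_le_centralizer hU4
  have hUe : IsElementaryAbelian 2 U := ⟨le_centralizer_self_iff.1 hUU, fun a ha => H10.kf_sq hU4 ha⟩
  have hi : (P ⊓ 𝐂 U : Subgroup G).relIndex P ≤ 2 := by
    rw [inf_relIndex_left]
    exact H4.relIndex_cent_le_prime (H19.pG_iff.2 P.isPGroup') ⟨hUP, hUn⟩ hU4.card_four.le
  refine le_centralizer_comm.1 (H9.le_of_hyperplanes hUe hUK (Nat.coprime_two_right.2 hK) fun B hB hc => ?_)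
  obtain ⟨u, hu, hu1⟩ := B.bot_or_exists_ne_one.resolve_left (by
    rintro rfl
    rw [hU4.card_four, card_bot] at hc
    omega)
  have huU := zpowers_le.2 (hB hu)
  refine (inf_le_inf_left K (centralizer_anti (zpowers_le.2 hu))).trans ?_
  have hH : IsCharP 2 (𝐂 (zpowers u)) := (isCharP_iff.2 (h2.2 _ ((H10.kf_isPGroup hU4).to_le huU)
    (by rwa [Ne, zpowers_eq_bot]))).of_normal (centralizer_le_normalizer _) (normalizer_le_normalizer_centralizer _)
  have hUH : U ≤ 𝐂 (zpowers u) := hUU.trans (centralizer_anti huU)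
  obtain ⟨T, hT, hPT⟩ := exists_isSylowIn_ge (P.isPGroup'.to_le (inf_le_left : (P : Subgroup G) ⊓ 𝐂 U ≤ P))
    (inf_le_right.trans (centralizer_anti huU))
  have hc1 := (isSylowIn_top P).card_le hT.isPGroup le_top
  have hTU : T ≤ 𝐍 U := by
    by_cases h : (P : Subgroup G) ≤ 𝐂 U
    · rw [inf_eq_left.2 h] at hPT
      rw [← eq_of_le_of_card_le hPT hc1]
      exact hUn
    have hi2 : (P ⊓ 𝐂 U : Subgroup G).relIndex P = 2 := by
      have h0 : (P ⊓ 𝐂 U : Subgroup G).relIndex P ≠ 0 := index_ne_zero_of_finite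
      have h1 : (P ⊓ 𝐂 U : Subgroup G).relIndex P ≠ 1 := fun e => h ((relIndex_eq_one.1 e).trans inf_le_right)
      omega
    have hn : T ≤ 𝐍 ((P : Subgroup G) ⊓ 𝐂 U) := by
      have e1 := ((P ⊓ 𝐂 U : Subgroup G).subgroupOf P).index_mul_card
      have e2 := ((P ⊓ 𝐂 U : Subgroup G).subgroupOf T).index_mul_card
      rw [Nat.card_congr (subgroupOfEquivOfLe inf_le_left).toEquiv] at e1
      rw [Nat.card_congr (subgroupOfEquivOfLe hPT).toEquiv] at e2
      have h3 : ((P ⊓ 𝐂 U : Subgroup G).subgroupOf T).index ≤ 2 := by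
        rw [← e1, ← e2] at hc1
        exact (Nat.le_of_mul_le_mul_right hc1 Nat.card_pos).trans hi
      have h0 : ((P ⊓ 𝐂 U : Subgroup G).subgroupOf T).index ≠ 0 := index_ne_zero_of_finite
      rcases (by omega : ((P ⊓ 𝐂 U : Subgroup G).subgroupOf T).index = 1 ∨
        ((P ⊓ 𝐂 U : Subgroup G).subgroupOf T).index = 2) with e | e
      · exact le_normalizer_of_le (relIndex_eq_one.1 e)
      · exact (normal_subgroupOf_iff_le_normalizer hPT).1 (normal_of_index_eq_two e)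
    intro t ht
    refine H2.mem_normalizer_of_conj_mem fun w hw => omega_eq hUP hUn hU4
      (by_contra fun hc => h (le_centralizer_comm.1 (hUZ hc))) hi2
      (conj_mem_of_mem_normalizer (hn ht) ⟨hUP hw, hUU hw⟩)
      (conj_mem_of_mem_normalizer (normalizer_le_normalizer_centralizer _ (hn ht))
        (le_centralizer_comm.1 inf_le_right hw)) ?_
    calc t * w * t⁻¹ * (t * w * t⁻¹) = t * (w * w) * t⁻¹ := by group
      _ = 1 := by rw [H10.kf_mul_self hU4 hw]; group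
  have hO := hT.pCoreOf_le
  have hUT : ⁅T, U⁆ ≤ zpowers u := by
    rw [Subgroup.commutator_le]
    intro t ht w hw
    have := mul_mem_iff_of_index_two (H10.kf_relIndex_zpowers hU4 (hB hu) hu1)
      (a := ⟨_, conj_mem_of_mem_normalizer (hTU ht) hw⟩) (b := ⟨_, inv_mem hw⟩)
    refine this.2 ⟨fun h => (zpowers u).inv_mem ?_, fun h => ?_⟩
    · have := conj_mem_of_mem_normalizer' (centralizer_le_normalizer _ (hT.le ht)) (show t * w * t⁻¹ ∈ _ from h)
      simpa [mul_assoc] using this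
    · exact conj_mem_of_mem_normalizer (centralizer_le_normalizer _ (hT.le ht)) ((zpowers u).inv_mem_iff.1 h)
  have hn : 𝐂 (zpowers u) ≤ 𝐍 (zpowers u) := centralizer_le_normalizer _
  have hD : IsPGroup 2 (𝐂 (zpowers u) ⊓ cmod (pCoreOf 2 (𝐂 (zpowers u))) (zpowers u) : Subgroup G) := by
    refine isPGroup_of_pResidualOf_eq_bot (hH.pResidualOf_eq_bot_of_iter inf_le_left (n := 2) ?_)
    rw [iterCommutator_succ, iterCommutator_succ, iterCommutator_zero, eq_bot_iff]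
    exact (Subgroup.commutator_mono (commutator_le_of_le_cmod inf_le_right) inf_le_left).trans
      (commutator_eq_bot_iff'.2 le_rfl).le
  have hUO : U ≤ pCoreOf 2 (𝐂 (zpowers u)) :=
    (le_inf hUH (le_cmod (hUH.trans hn) ((Subgroup.commutator_mono hO le_rfl).trans hUT))).trans
      (le_pCoreOf hD inf_le_left (le_normalizer_inf le_normalizer (le_normalizer_cmod (le_normalizer_pCoreOf _ _) hn)))
  refine Subgroup.commutator_eq_bot_iff_le_centralizer.1 (le_bot_iff.1 (le_trans (le_inf ?_ ?_)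
    (eq_bot_of_isPGroup_of_not_dvd ((isPGroup_pCoreOf 2 (𝐂 (zpowers u))).to_le inf_le_left) (inf_le_right : _ ≤ K)
      hK.not_two_dvd_nat).le))
  · exact (Subgroup.commutator_mono inf_le_right hUO).trans (commutator_le_of_le_normalizer' (le_normalizer_pCoreOf _ _))
  · exact (Subgroup.commutator_mono inf_le_left le_rfl).trans (commutator_le_of_le_normalizer hUK)

end Cfsg.Agent.S1957
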