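import Cfsg.Statements.S1958
import Cfsg.Agent.H28.Core
import Cfsg.Agent.H1.CompAct

set_option autoImplicit false
open Cfsg

namespace Cfsg.Agent.S1958

open H28 Subgroup


/-- Let `G` be a finite group, `p` a prime, and `x, y` commuting elements of order `p` whose centralizers `C_G(x)` and `C_G(y)` are both solvable. Then `O_{p'}(C_G(x)) ∩ C_G(y) = O_{p'}(C_G(y)) ∩ C_G(x)` (balance). -/
theorem result {G : Type*} [Group G] [Finite G]
    (p : ℕ) [Fact p.Prime] (x y : G) (hx : orderOf x = p) (hy : orderOf y = p) (hxy : x * y = y * x)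
    (hCx : Group.IsSolvable ↥(Subgroup.centralizer ({x} : Set G))) (hCy : Group.IsSolvable ↥(Subgroup.centralizer ({y} : Set G))) :
    Cfsg.centralizerPPrimeCore p x ⊓ Subgroup.centralizer {y} = Cfsg.centralizerPPrimeCore p y ⊓ Subgroup.centralizer {x} := by
  have key : ∀ x y : G, orderOf x = p → x * y = y * x → Group.IsSolvable ↥(Subgroup.centralizer ({y} : Set G)) →
      centralizerPPrimeCore p x ⊓ centralizer {y} ≤ centralizerPPrimeCore p y ⊓ centralizer {x} := by
    intro x y hx hxy hC
    refine le_inf ?_ (inf_le_left.trans (Subgroup.map_subtype_le _))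
    have hx' : x ∈ centralizer {y} := mem_centralizer_singleton_iff.2 hxy
    have h1 := H1.centralizerPPrimeCore_subgroupOf_le (p := p) (⟨x, hx'⟩ : centralizer {y})
    have h2 := H1.centralizerPPrimeCore_le (H1.isPConstrained_of_isSolvable (p := p) hC)
      (H1.isPGroup_zpowers_of_orderOf_eq (x := (⟨x, hx'⟩ : centralizer {y})) (by rw [← hx]; simp))
    intro g hg
    exact ⟨⟨g, hg.2⟩, h2 (h1 hg.1), rfl⟩
  exact le_antisymm (key x y hx hxy hCy) (key y x hy hxy.symm hCx)

end Cfsg.Agent.S1958
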