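import Cfsg.Statements.S1964
import Cfsg.Agent.H29.WellPlaced

set_option autoImplicit false
open Cfsg

namespace Cfsg.Agent.S1964

open H28 H29




/-- Let p be a prime, G a finite group with Sylow p-subgroup S and W a conjugacy functor for p on G. Then the subgroups of S that are well placed in S with respect to W form a conjugation family for S in G. -/
theorem result {G : Type*} [Group G] [Finite G] {p : ℕ} [Fact p.Prime] (S : Sylow p G) (W : Subgroup G → Subgroup G) (hW : Cfsg.IsConjugacyFunctor p W) : Cfsg.IsConjugationFamily {T : Subgroup G | Cfsg.IsWellPlaced p W (S : Subgroup G) T} (S : Subgroup G) := by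
  have hS := isSylowIn_top S
  refine isConjugationFamily_of_cf (fun T hT => hT.1) fun A hA g hg => ?_
  refine cf_of_ext hS _ (fun T hT => ?_) A hA g trivial hg
  obtain ⟨h, hh, hw⟩ := exists_wp_conj hW hS (S.isPGroup'.to_le hT) le_top
  exact ⟨h, hh, (isWellPlaced_iff hW S.isPGroup').2 hw, hw.ext⟩

end Cfsg.Agent.S1964
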