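import Cfsg.Statements.S1981
import Cfsg.Agent.H29.KInf

set_option autoImplicit false
open Cfsg

namespace Cfsg.Agent.S1981

open H28 H29 Subgroup




/-- Let P be a finite p-group generated by its abelian normal subgroups. Then both K-infinity subgroups of P equal P. -/
theorem result {P : Type*} [Group P] [Finite P] {p : ℕ} [Fact p.Prime] (hP : IsPGroup p P) (hgen : ⨆ A ∈ {A : Subgroup P | A.Normal ∧ IsMulCommutative ↥A}, A = ⊤) : Cfsg.kInfLower P = ⊤ ∧ Cfsg.kInfUpper P = ⊤ := by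
  refine ⟨eq_top_iff.2 (hgen.ge.trans (iSup₂_le ?_)), eq_top_iff.2 (hgen.ge.trans (iSup₂_le ?_))⟩
  · rintro A ⟨h1, h2⟩
    exact (abelian_le_kSeqEven (le_centralizer_iff_isMulCommutative.2 h2) 0).trans
      (le_iSup (kSeqEven P) 0)
  · rintro A ⟨h1, h2⟩
    exact le_iInf fun n => abelian_le_kSeqOdd (le_centralizer_iff_isMulCommutative.2 h2) n

end Cfsg.Agent.S1981
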