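import Cfsg.Statements.S1985
import Cfsg.Agent.H29.WeakCl

set_option autoImplicit false
universe u
open Cfsg

namespace Cfsg.Agent.S1985

open H28 H29 Subgroup




/-- Let p be an odd prime and G a finite group. Then the lower K-infinity subgroup controls weak closure of elements in G: the lower K-infinity subgroup of every p-subgroup P of G contains Z(P), and for some (equivalently, every) Sylow p-subgroup S of G, with K the lower K-infinity subgroup of S, every element of S commuting with all of N_G(K) is weakly closed in S with respect to G (every G-conjugate of it lying in S equals it). -/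
theorem result {G : Type u} [Group G] [Finite G] {p : ℕ} [Fact p.Prime] (hp : p ≠ 2) : Cfsg.ControlsWeakClosureOfElementsIn p (Cfsg.inducedFunctor (G := G) Cfsg.kInfLower) ⊤ := by
  refine weak_closure_elements (isConj_induced isCharPFunctor_kInfLower)
    (fun P hP => center_le_induced_kInfLower hP) (fun H T hT h => ?_) ⊤
  obtain ⟨g, h1, h2, h3⟩ := kinf_sub hT (Or.inl h)
  refine ⟨g, h1, h2, fun U V hc hU => ?_⟩
  have := hc.2.1
  have h4 : 2 ≤ p - 1 := by
    have := (Fact.out : p.Prime).two_le
    omega
  refine (iter_anti ((zpowers_le.2 (hT.le h1)).trans (le_normalizer_map_subtype U)) h4).trans ?_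
  exact ((iterCommutator_mono hU le_rfl 2).trans h3.le).trans bot_le

end Cfsg.Agent.S1985
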