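import Cfsg.Statements.S1989
import Cfsg.Agent.H9.Qd3
import Cfsg.Agent.H29.Stable

set_option autoImplicit false
universe u
open Cfsg

namespace Cfsg.Agent.S1989

open H28 H29 Subgroup


/-- Let p be an odd prime and G a finite group. Then Qd(p) (the natural semidirect product of an elementary abelian group of order p² by SL₂(p)) is not involved in G if and only if, in every section K/R of G and for every Sylow p-subgroup T of K/R, the lower K-infinity subgroup of T controls strong fusion in K/R. -/
theorem result {G : Type u} [Group G] [Finite G] {p : ℕ} [Fact p.Prime] (hp : p ≠ 2) : ¬ Cfsg.Involves ↥(Cfsg.qd p) G ↔ ∀ (K R : Subgroup G) [hR : (R.subgroupOf K).Normal], ∀ T : Sylow p (↥K ⧸ R.subgroupOf K), Cfsg.ControlsStrongFusion p (Cfsg.inducedFunctor (G := (↥K ⧸ R.subgroupOf K)) Cfsg.kInfLower (T : Subgroup (↥K ⧸ R.subgroupOf K))) := by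
  constructor
  · intro h K R _ T
    rw [← fc_singleton_iff isCharPFunctor_kInfLower]
    refine fc_kInfLower fun X _ hX => ?_
    haveI := involves_finite hX
    exact H9.isNormalizerPStable_of_not_involves_qd hp fun h' =>
      h (involves_trans (involves_trans (H9.involves_top_iff.1 h') hX) (involves_section K R))
  · rintro h ⟨K, R, hR, ⟨e⟩⟩
    exact H9.Qd.not_controls (F := ZMod p) p e isCharPFunctor_kInfLower _ (h K R default)

end Cfsg.Agent.S1989
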