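import Cfsg.Statements.S1996
import Cfsg.Agent.H29.Bridge

set_option autoImplicit false
universe u
open Cfsg

namespace Cfsg.Agent.S1996

open H28 H29 Subgroup




/-- Let p be a prime, G a finite group and W₁, W₂ two isomorphism-invariant p-group functors (W assigns to every group Q a subgroup W(Q), nontrivial whenever Q is a nontrivial finite p-group, and every isomorphism from a finite p-group Q onto a group R carries W(Q) onto W(R)). Suppose that G* = N_{G*}(W₁(S*)) N_{G*}(W₂(S*)) whenever G* = K/R is a section of G with C_{G*}(O_p(G*)) ≤ O_p(G*) and S* is a Sylow p-subgroup of G*. Then the pair {W₁, W₂} controls strong fusion in G. -/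
theorem result {G : Type u} [Group G] [Finite G] {p : ℕ} [Fact p.Prime] (W₁ W₂ : ∀ (Q : Type u) [Group Q], Subgroup Q) (hW₁ : Cfsg.IsCharPFunctor.{u} p W₁) (hW₂ : Cfsg.IsCharPFunctor.{u} p W₂) (hfac : ∀ (K R : Subgroup G) [hR : (R.subgroupOf K).Normal], Subgroup.centralizer ((Cfsg.pCore p (↥K ⧸ R.subgroupOf K) : Subgroup (↥K ⧸ R.subgroupOf K)) : Set (↥K ⧸ R.subgroupOf K)) ≤ Cfsg.pCore p (↥K ⧸ R.subgroupOf K) → ∀ T : Sylow p (↥K ⧸ R.subgroupOf K), ∀ x : (↥K ⧸ R.subgroupOf K), ∃ a ∈ Subgroup.normalizer ((Cfsg.inducedFunctor (G := (↥K ⧸ R.subgroupOf K)) W₁ (T : Subgroup (↥K ⧸ R.subgroupOf K)) : Subgroup (↥K ⧸ R.subgroupOf K)) : Set (↥K ⧸ R.subgroupOf K)), ∃ b ∈ Subgroup.normalizer ((Cfsg.inducedFunctor (G := (↥K ⧸ R.subgroupOf K)) W₂ (T : Subgroup (↥K ⧸ R.subgroupOf K)) : Subgroup (↥K ⧸ R.subgroupOf K)) : Set (↥K ⧸ R.subgroupOf K)), x = a * b) : Cfsg.FamilyControlsStrongFusionIn p {Cfsg.inducedFunctor (G := G) W₁, Cfsg.inducedFunctor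 (G := G) W₂} ⊤ := by
  have h𝓦 : ∀ W ∈ ({W₁, W₂} : Set (∀ (Q : Type u) [Group Q], Subgroup Q)),
      IsCharPFunctor.{u} p W := by
    rintro W (rfl | rfl) <;> assumption
  have := fc_of_constrained h𝓦 (fun K R _ _ hc => ?_) G involves_refl
  · rwa [FC, ind, Set.image_pair] at this
  obtain ⟨T⟩ : Nonempty (Sylow p (K ⧸ R.subgroupOf K)) := inferInstance
  refine familyControlsStrongFusionIn_iff_exists.2 ⟨T, isSylowIn_top T, fun A hA g _ hle => ?_⟩
  obtain ⟨a, ha, b, hb, rfl⟩ := hfac K R hc T g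
  refine fus_of_mul (isSylowIn_top T) (le_normalizer_functor (isConj_induced hW₁) T.isPGroup')
    (le_normalizer_functor (isConj_induced hW₂) T.isPGroup')
    (fun x hx => ?_) (fun x hx => ?_) hA ha hb hle
  · exact ⟨_, ⟨W₁, Or.inl rfl, rfl⟩, trivial, hx⟩
  · exact ⟨_, ⟨W₂, Or.inr rfl, rfl⟩, trivial, hx⟩

end Cfsg.Agent.S1996
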