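import Cfsg.Statements.S2004
import Cfsg.Agent.H9.Qd3
import Cfsg.Agent.H29.Stable

set_option autoImplicit false
open Cfsg

namespace Cfsg.Agent.S2004

open H28 H29 Subgroup

open H28 H29 Subgroup

theorem aux {G X : Type*} [Group G] [Finite G] [Group X] {p : ℕ} [Fact p.Prime] (K : Subgroup G)
    (f : K →* X) (hf : Function.Surjective f) {P : Subgroup X} (hP : IsPGroup p P) (h0 : P ≠ ⊥) :
    ∃ Q : Subgroup G, IsPGroup p Q ∧ Q ≠ ⊥ ∧ Involves (𝐍 P) (𝐍 Q) := by
  obtain ⟨T, hT⟩ := exists_isSylowIn p (P.comap f)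
  have hm : T.map f = P := by
    have h1 := hT.map f
    rw [map_comap_eq_self_of_surjective hf] at h1
    exact (h1.max P hP h1.le le_rfl).symm
  have hn : 𝐍 P ≤ (𝐍 T).map f := by
    intro g hg
    obtain ⟨g, rfl⟩ := hf g
    have hg' : g ∈ 𝐍 (P.comap f) := by
      rw [mem_normalizer_iff] at hg ⊢
      intro x
      simpa [mem_comap] using hg (f x)
    obtain ⟨k, hk, n, hn, rfl⟩ := hT.frattini hg'
    rw [map_mul]
    refine mul_mem ?_ (mem_map_of_mem f hn)
    have : f k ∈ T.map f := by rw [hm]; exact hk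
    exact map_mono (le_normalizer_of_le le_rfl) this
  refine ⟨T.map K.subtype, hT.isPGroup.map _, ?_, ?_⟩
  · intro h
    rw [Subgroup.map_eq_bot_iff, K.ker_subtype, le_bot_iff] at h
    rw [h, Subgroup.map_bot] at hm
    exact h0 hm.symm
  · exact involves_trans (involves_of_le hn) (involves_trans
      (involves_of_surjective (f.subgroupMap (𝐍 T)) (f.subgroupMap_surjective _))
      (involves_trans (involves_of_equiv ((𝐍 T).equivMapOfInjective K.subtype
        K.subtype_injective).symm) (involves_of_le (map_normalizer_le K.subtype T))))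


/-- Let p be an odd prime and G a finite group such that SL₂(p) is not involved in N_G(P) for any nonidentity p-subgroup P of G. Then every section of G is p-stable in the normalizer form: in each section, whenever an element of the normalizer of a p-subgroup Q acts quadratically on Q, its image in N(Q)/C(Q) lies in O_p(N(Q)/C(Q)). -/
theorem result {G : Type*} [Group G] [Finite G] {p : ℕ} [Fact p.Prime] (hp : p ≠ 2) (h : ∀ P : Subgroup G, IsPGroup p ↥P → P ≠ ⊥ → ¬ Cfsg.Involves (Matrix.SpecialLinearGroup (Fin 2) (ZMod p)) ↥(Subgroup.normalizer ((P : Subgroup G) : Set G))) : ∀ (K R : Subgroup G) [hR : (R.subgroupOf K).Normal], Cfsg.IsNormalizerPStable p (↥K ⧸ R.subgroupOf K) := by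
  intro K R _ P hP g hg hq
  by_cases h0 : P = ⊥
  · subst h0
    have : (QuotientGroup.mk (s := (𝐂 (⊥ : Subgroup (K ⧸ R.subgroupOf K))).subgroupOf 
      (𝐍 (⊥ : Subgroup (K ⧸ R.subgroupOf K)))) ⟨g, hg⟩) = 1 := by
      rw [QuotientGroup.eq_one_iff, mem_subgroupOf, H28.centralizer_bot]; trivial
    rw [this]; exact one_mem _
  obtain ⟨Q, hQ, hQ0, hi⟩ := aux K (QuotientGroup.mk' (R.subgroupOf K))
    (QuotientGroup.mk'_surjective _) hP h0
  exact (H9.stabAt_of_not_involves_SL2 hp (fun h' => h Q hQ hQ0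
    (involves_trans (H9.involves_iff.1 h') hi)) hP le_rfl ((zpowers_le).2 hg) hq).mem_pCore
      ⟨g, hg⟩ (mem_zpowers g)

end Cfsg.Agent.S2004
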