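import Cfsg.Statements.S2009
import Cfsg.Agent.H28.Sylow

set_option autoImplicit false
open Cfsg

namespace Cfsg.Agent.S2009

open H28 Subgroup

theorem inverts {H : Type*} [Group H] [Finite H] {N : Subgroup H} [hN : N.Normal] {e : H} (he : e * e = 1)
    (h : N ⊓ centralizer {e} = ⊥) : ∀ x ∈ N, e * x * e⁻¹ = x⁻¹ := by
  let f : N → N := fun n => ⟨(n : H)⁻¹ * (e * n * e⁻¹), mul_mem (inv_mem n.2) (hN.conj_mem _ n.2 e)⟩
  have hf : Function.Injective f := by
    intro a b hab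
    have h1 : (a : H)⁻¹ * (e * a * e⁻¹) = (b : H)⁻¹ * (e * b * e⁻¹) := congrArg Subtype.val hab
    have h2 : (b : H) * (a : H)⁻¹ ∈ N ⊓ centralizer {e} := by
      refine ⟨N.mul_mem b.2 (N.inv_mem a.2), mem_centralizer_singleton_iff.2 ?_⟩
      calc (b : H) * (a : H)⁻¹ * e = b * ((a : H)⁻¹ * (e * a * e⁻¹)) * e * (a : H)⁻¹ := by group
        _ = e * (b * (a : H)⁻¹) := by rw [h1]; group
    rw [h, mem_bot, mul_inv_eq_one] at h2
    exact Subtype.ext h2.symm
  intro x hx
  obtain ⟨n, hn⟩ := Finite.surjective_of_injective hf ⟨x, hx⟩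
  have h1 : (n : H)⁻¹ * (e * n * e⁻¹) = x := congrArg Subtype.val hn
  have h2 : e⁻¹ = e := inv_eq_of_mul_eq_one_right he
  rw [← h1]
  calc e * ((n : H)⁻¹ * (e * n * e⁻¹)) * e⁻¹ = e * (n : H)⁻¹ * e * n * (e * e)⁻¹ := by group
    _ = ((n : H)⁻¹ * (e * n * e⁻¹))⁻¹ := by rw [he, h2]; simp [h2, mul_assoc]

theorem exists_other {H : Type*} [Group H] {z : H} {E : Subgroup H} (hE : IsKleinFour ↥E) :
    ∃ e ∈ E, e ≠ 1 ∧ e ≠ z := by
  classical
  by_contra h
  push Not at h
  have : (E : Set H) ⊆ {1, z} := fun e he => by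
    by_cases h1 : e = 1
    · exact Or.inl h1
    · exact Or.inr (h e he h1)
  have h2 := Set.ncard_le_ncard this
  have h3 : (E : Set H).ncard = 4 := hE.card_four
  have := Set.ncard_insert_le (1 : H) {z}
  rw [Set.ncard_singleton] at this
  omega


/-- Let H be a finite group and z an involution such that every proper normal subgroup of H meets the centralizer of z trivially, and suppose z lies in a Klein four-subgroup E of H all three of whose involutions are conjugate to z in H. Then H is simple. -/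
theorem result {H : Type*} [Group H] [Finite H] (z : H) (hz : orderOf z = 2) (hN : ∀ N : Subgroup H, N.Normal → N ≠ ⊤ → N ⊓ Subgroup.centralizer ({z} : Set H) = ⊥) (E : Subgroup H) (hE : IsKleinFour ↥E) (hzE : z ∈ E) (hc : ∀ e ∈ E, e ≠ 1 → IsConj z e) : IsSimpleGroup H := by
  have hz1 : z ≠ 1 := by rintro rfl; simp at hz
  haveI : Nontrivial H := ⟨⟨z, 1, hz1⟩⟩
  refine ⟨fun N hNn => ?_⟩
  by_cases h : N = ⊤
  · exact Or.inr h
  left
  have h2 : ∀ e ∈ E, e * e = 1 := fun e he =>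
    congrArg Subtype.val (IsKleinFour.mul_self (⟨e, he⟩ : E))
  have h1 : ∀ e ∈ E, e ≠ 1 → N ⊓ centralizer {e} = ⊥ := by
    intro e he he1
    obtain ⟨g, rfl⟩ := isConj_iff.1 (hc e he he1)
    rw [← cj_centralizer_singleton, ← cj_eq_self_of_normal g N, ← cj_inf, hN N hNn h, cj_bot]
  obtain ⟨e, he, he1, hez⟩ := exists_other (z := z) hE
  have h3 : e * z ≠ 1 := fun h => hez (by rw [eq_inv_of_mul_eq_one_left h, inv_eq_of_mul_eq_one_right (h2 z hzE)])
  rw [eq_bot_iff, ← h1 _ (mul_mem he hzE) h3]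
  refine le_inf le_rfl fun x hx => mem_centralizer_singleton_iff.2 ?_
  have a1 := inverts (h2 z hzE) (h1 z hzE hz1) x hx
  have a2 := inverts (h2 e he) (h1 e he he1) _ (inv_mem hx)
  rw [inv_inv] at a2
  calc x * (e * z) = e * x⁻¹ * e⁻¹ * (e * z) := by rw [a2]
    _ = e * z * x := by rw [← a1]; group

end Cfsg.Agent.S2009
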