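import Cfsg.Statements.S2087
import Cfsg.Agent.H11.SL2Schur

set_option autoImplicit false
open Cfsg

namespace Cfsg.Agent.S2087

/-- Exceptional Schur multiplier: over the field with 2 elements, PSL₃ has Schur multiplier cyclic of order 2 (here the Schur multiplier is described through stem extensions, as in the definitions). -/
theorem result {F : Type*} [Field F] [Fintype F] (hF : Fintype.card F = 2) : Cfsg.HasCyclicSchurMultiplier (Matrix.ProjectiveSpecialLinearGroup (Fin 3) F) 2 := by
  haveI : Fact (Nat.Prime 7) := ⟨by norm_num⟩
  obtain ⟨e⟩ := H11.nonempty_psl2_seven_equiv (F := ZMod 7) (K := F) (by simp) hF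
  haveI : IsCyclic (Subgroup.center (Matrix.SpecialLinearGroup (Fin 2) (ZMod 7))) :=
    isCyclic_of_prime_card (p := 2) (by rw [H11.card_center_sl]; simp)
  exact H23.schur_congr_left (H11.hasCyclicSchur_quot_center (H11.sl2_perfect (by simp))
    (H11.sl2_schur_one (by simp) (by simp)) (by rw [H11.card_center_sl]; simp)) e

end Cfsg.Agent.S2087
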