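import Cfsg.Statements.S2143
import Cfsg.Agent.H22.MIO10

set_option autoImplicit false
open Cfsg

namespace Cfsg.Agent.S2143

/-- Minimal index of a proper subgroup of the odd-dimensional orthogonal groups: for m ≥ 3 and a field F with q elements, q odd and q ≥ 5, every proper subgroup of PΩ_(2m+1)(F) (for the form x₀² + Σ xᵢyᵢ) has index at least (q^(2m) − 1)/(q − 1), and that index is attained. -/
theorem result {F : Type*} [Field F] [Fintype F] {q : ℕ} (hF : Fintype.card F = q) (hodd : Odd q) (h5 : 5 ≤ q) (m : ℕ) (hm : 3 ≤ m) : (∀ H : Subgroup (Cfsg.POmega F (Cfsg.quadFormOdd m F)), H ≠ ⊤ → (q ^ (2 * m) - 1) / (q - 1) ≤ H.index) ∧ (∃ H : Subgroup (Cfsg.POmega F (Cfsg.quadFormOdd m F)), H.index = (q ^ (2 * m) - 1) / (q - 1)) := by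
  have hq : Nat.card F = q := by rw [← hF, Nat.card_eq_fintype_card]
  subst hq
  obtain ⟨s, rfl⟩ : ∃ s, m = s + 3 := ⟨m - 3, by omega⟩
  have h2 : (2 : F) ≠ 0 := Ring.two_ne_zero fun h => by
    have := FiniteField.even_card_of_char_two h
    obtain ⟨_, e⟩ := hodd
    omega
  have h1 : 1 ≤ Nat.card F ^ (2 * (s + 3)) := Nat.one_le_pow _ _ (by omega)
  have hd : (Nat.card F ^ (2 * (s + 3)) - 1) / (Nat.card F - 1) * (Nat.card F - 1) = _ :=
    Nat.div_mul_cancel (by simpa using Nat.sub_dvd_pow_sub_pow (Nat.card F) 1 _)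
  generalize (Nat.card F ^ (2 * (s + 3)) - 1) / (Nat.card F - 1) = N at hd ⊢
  zify [h1, (by omega : 1 ≤ Nat.card F)] at hd
  have h0 : H22.dev (H11.qOdd (s + 3) F) 0 = 0 := by rw [H22.dev_odd]; simp
  obtain ⟨d, hN⟩ := H22.numO_odd5 (N := N) h5 s h0 (fun c => by
    rw [H22.dev_odd]
    have : (0 : ℤ) ≤ (Nat.card F : ℤ) ^ (s + 2 + 1) * Nat.card {t : F // t * t = c} := by positivity
    linarith) hd.le
  refine H22.omega_final _ (H11.coe_qOdd _) (H11.qOdd_nondeg h2 _) (by simp; omega) (by omega) hN 0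
    (by simp) (.inl ⟨rfl, ?_⟩)
  rw [h0, add_mul, hd, show 2 * s + 4 + 2 = 2 * (s + 3) from rfl]
  omega

end Cfsg.Agent.S2143
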