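import Cfsg.Statements.S2145
import Cfsg.Agent.H22.MIO10

set_option autoImplicit false
open Cfsg

namespace Cfsg.Agent.S2145

/-- Minimal index of a proper subgroup of the even-dimensional orthogonal groups of plus type: for m ≥ 4 and a field F with q ≥ 4 elements, every proper subgroup of PΩ⁺_2m(F) (for the form Σ xᵢyᵢ) has index at least (q^m − 1)(q^(m−1) + 1)/(q − 1), and that index is attained (the singular points). -/
theorem result {F : Type*} [Field F] [Fintype F] {q : ℕ} (hF : Fintype.card F = q) (hq : 4 ≤ q) (m : ℕ) (hm : 4 ≤ m) : (∀ H : Subgroup (Cfsg.POmega F (Cfsg.quadFormPlus m F)), H ≠ ⊤ → (q ^ m - 1) * (q ^ (m - 1) + 1) / (q - 1) ≤ H.index) ∧ (∃ H : Subgroup (Cfsg.POmega F (Cfsg.quadFormPlus m F)), H.index = (q ^ m - 1) * (q ^ (m - 1) + 1) / (q - 1)) := by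
  classical
  have hq' : Nat.card F = q := by rw [← hF, Nat.card_eq_fintype_card]
  subst hq'
  obtain ⟨s, rfl⟩ : ∃ s, m = s + 4 := ⟨m - 4, by omega⟩
  have h1 : 1 ≤ Nat.card F ^ (s + 4) := Nat.one_le_pow _ _ (by omega)
  have hd : (Nat.card F ^ (s + 4) - 1) * (Nat.card F ^ (s + 4 - 1) + 1) / (Nat.card F - 1) * (Nat.card F - 1) = _ :=
    Nat.div_mul_cancel (Dvd.dvd.mul_right (by simpa using Nat.sub_dvd_pow_sub_pow (Nat.card F) 1 _) _)
  generalize (Nat.card F ^ (s + 4) - 1) * (Nat.card F ^ (s + 4 - 1) + 1) / (Nat.card F - 1) = N at hd ⊢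
  zify [h1, (by omega : 1 ≤ Nat.card F)] at hd
  have h0 : H22.dev (H11.qPlus (s + 4) F) 0 = (Nat.card F : ℤ) ^ (s + 4) - (Nat.card F : ℤ) ^ (s + 3) := by
    rw [H22.dev_plus]; simp
  have h2 : N * ((Nat.card F : ℤ) - 1) = (Nat.card F : ℤ) ^ (2 * s + 5 + 2) + H22.dev (H11.qPlus (s + 4) F) 0 - 1 := by
    rw [hd, h0, show s + 4 - 1 = s + 3 from rfl]; ring
  obtain ⟨d, hN⟩ := H22.numO_plus (N := N) hq s h0 (fun c hc => by rw [H22.dev_plus]; simp [hc]) h2.le
  refine H22.omega_final _ (H11.coe_qPlus _) (H11.qPlus_nondeg _) (by simp; omega) (by omega) hN 0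
    (by simp) (.inl ⟨rfl, ?_⟩)
  rw [add_mul, h2]
  omega

end Cfsg.Agent.S2145
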