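import Cfsg.Statements.S2146
import Cfsg.Agent.H22.MIO10

set_option autoImplicit false
open Cfsg

namespace Cfsg.Agent.S2146

/-- Minimal index of a proper subgroup of the even-dimensional orthogonal groups of plus type over the field with 2 elements: for m ≥ 4, every proper subgroup of Ω⁺_2m(2) (for the form Σ xᵢyᵢ) has index at least 2^(m−1)(2^m − 1), and that index is attained. -/
theorem result {F : Type*} [Field F] [Fintype F] (hF : Fintype.card F = 2) (m : ℕ) (hm : 4 ≤ m) : (∀ H : Subgroup (Cfsg.POmega F (Cfsg.quadFormPlus m F)), H ≠ ⊤ → 2 ^ (m - 1) * (2 ^ m - 1) ≤ H.index) ∧ (∃ H : Subgroup (Cfsg.POmega F (Cfsg.quadFormPlus m F)), H.index = 2 ^ (m - 1) * (2 ^ m - 1)) := by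
  classical
  have hq : Nat.card F = 2 := by rw [← hF, Nat.card_eq_fintype_card]
  obtain ⟨s, rfl⟩ : ∃ s, m = s + 4 := ⟨m - 4, by omega⟩
  have h1 : 1 ≤ 2 ^ (s + 4) := Nat.one_le_pow _ _ (by omega)
  have h0 : H22.dev (H11.qPlus (s + 4) F) 0 = (Nat.card F : ℤ) ^ (s + 4) - (Nat.card F : ℤ) ^ (s + 3) := by
    rw [H22.dev_plus]; simp
  have h2 : ∀ c, c ≠ 0 → H22.dev (H11.qPlus (s + 4) F) c = -(Nat.card F : ℤ) ^ (s + 3) := fun c hc => by
    rw [H22.dev_plus]; simp [hc]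
  have h3 : ((2 ^ (s + 4 - 1) * (2 ^ (s + 4) - 1) : ℕ) : ℤ) =
      2 * (Nat.card F : ℤ) ^ (2 * s + 5 + 1) - (Nat.card F : ℤ) ^ (s + 3) := by
    rw [hq, show s + 4 - 1 = s + 3 from rfl]; push_cast [h1]; ring
  refine H22.omega_final _ (H11.coe_qPlus _) (H11.qPlus_nondeg _) (by simp; omega) (by omega)
    (H22.numO_plus2 hq s h0 h2 h3) 1
    (fun t ht => by rw [(H22.card_two_cases hq t).resolve_left ht]; simp) (.inr ?_)
  rw [h2 1 one_ne_zero, h3, hq]
  push_cast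
  ring_nf
  omega

end Cfsg.Agent.S2146
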