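import Cfsg.Statements.S2151
import Cfsg.Agent.H22.MU6

set_option autoImplicit false
open Cfsg

namespace Cfsg.Agent.S2151

/-- Minimal index of a proper subgroup of the unitary groups of odd dimension n ≥ 5: for a field F with q² elements, every proper subgroup of PSU_n(q) has index at least (q^n + 1)(q^(n−1) − 1)/(q² − 1), and that index is attained. -/
theorem result {F : Type*} [Field F] [Fintype F] (q : ℕ) (hF : Fintype.card F = q ^ 2) (hq : 2 ≤ q) (n : ℕ) (hn : 5 ≤ n) (hodd : Odd n) : (∀ H : Subgroup (Cfsg.PSU n F q), H ≠ ⊤ → (q ^ n + 1) * (q ^ (n - 1) - 1) / (q ^ 2 - 1) ≤ H.index) ∧ (∃ H : Subgroup (Cfsg.PSU n F q), H.index = (q ^ n + 1) * (q ^ (n - 1) - 1) / (q ^ 2 - 1)) := by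
  obtain ⟨k, rfl⟩ : ∃ k, n = 2 * k + 2 + 3 := let ⟨k, h⟩ := hodd; ⟨k - 2, by omega⟩
  have h1 : 1 ≤ q ^ (2 * k + 2 + 3 - 1) := Nat.one_le_pow _ _ (by omega)
  have h2 : 1 ≤ q ^ 2 := Nat.one_le_pow _ _ (by omega)
  have hd : (q ^ (2 * k + 2 + 3) + 1) * (q ^ (2 * k + 2 + 3 - 1) - 1) / (q ^ 2 - 1) * (q ^ 2 - 1) = _ :=
    Nat.div_mul_cancel (Dvd.dvd.mul_left (by
      have := Nat.sub_dvd_pow_sub_pow (q ^ 2) 1 (k + 2)
      rwa [one_pow, ← pow_mul] at this) _)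
  generalize (q ^ (2 * k + 2 + 3) + 1) * (q ^ (2 * k + 2 + 3 - 1) - 1) / (q ^ 2 - 1) = N at hd ⊢
  zify [h1, h2] at hd hq
  have h3 : (N : ℤ) * (q ^ 2 - 1) = H22.uI q (2 * k + 2 + 2) := hd.trans (by
    rw [H22.uI, Even.neg_one_pow (⟨k + 2, by ring⟩ : Even (2 * k + 2 + 2))]; rfl)
  have h4 : (0 : ℤ) < q ^ 2 - 1 := by nlinarith
  refine H22.su_final (H12.suEquivSisom hF _) (H11.hermC_nondeg hF) (by simp) h3.le
    (le_of_mul_le_mul_right (a := (q : ℤ) - 1) ?_ (by omega)) 0 (by simp; omega) (by simp) (by simp; linarith)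
  rw [mul_assoc, show ((q : ℤ) + 1) * (q - 1) = q ^ 2 - 1 by ring, hd, H22.uM]
  have : (0 : ℤ) < q ^ (2 * k + 2 + 2) := by positivity
  have : (0 : ℤ) < q ^ (2 * k + 2 + 3) + 1 := by positivity
  simp only [Nat.add_succ_sub_one, Even.neg_one_pow (⟨k + 2, by ring⟩ : Even (2 * k + 2 + 2))]
  nlinarith [mul_nonneg this.le (by nlinarith : (0 : ℤ) ≤ q ^ (2 * k + 2 + 2) * (q - 2) + 1)]

end Cfsg.Agent.S2151
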