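import Cfsg.Statements.S2153
import Cfsg.Agent.H22.MU6

set_option autoImplicit false
open Cfsg

namespace Cfsg.Agent.S2153

/-- Minimal index of a proper subgroup of the unitary groups PSU_n(2) with n divisible by 6, realised over the field with 4 elements: every proper subgroup has index at least 2^(n−1)(2^n − 1)/3, and that index is attained. -/
theorem result {F : Type*} [Field F] [Fintype F] (hF : Fintype.card F = 4) (n : ℕ) (hn : 6 ∣ n) (hpos : 6 ≤ n) : (∀ H : Subgroup (Cfsg.PSU n F 2), H ≠ ⊤ → 2 ^ (n - 1) * (2 ^ n - 1) / 3 ≤ H.index) ∧ (∃ H : Subgroup (Cfsg.PSU n F 2), H.index = 2 ^ (n - 1) * (2 ^ n - 1) / 3) := by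
  obtain ⟨k, rfl⟩ : ∃ k, n = 2 * k + 1 + 2 + 3 := let ⟨k, h⟩ := hn; ⟨3 * k - 3, by omega⟩
  have h1 : 1 ≤ 2 ^ (2 * k + 1 + 2 + 3) := Nat.one_le_two_pow
  have hd : 2 ^ (2 * k + 1 + 2 + 3 - 1) * (2 ^ (2 * k + 1 + 2 + 3) - 1) / 3 * 3 = _ :=
    Nat.div_mul_cancel (Dvd.dvd.mul_left (by
      have := Nat.sub_dvd_pow_sub_pow (2 ^ 2) 1 (k + 3)
      rwa [one_pow, ← pow_mul] at this) _)
  generalize 2 ^ (2 * k + 1 + 2 + 3 - 1) * (2 ^ (2 * k + 1 + 2 + 3) - 1) / 3 = N at hd ⊢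
  zify [h1] at hd
  have h0 := Odd.neg_one_pow (α := ℤ) (⟨k + 2, by ring⟩ : Odd (2 * k + 1 + 2 + 2))
  have h3 : (N : ℤ) * 3 = H22.uM 2 (2 * k + 1 + 2 + 2) := hd.trans (by rw [H22.uM, h0]; simp [sub_eq_add_neg])
  have hF' : Fintype.card F = 2 ^ 2 := hF
  refine H22.su_final (H12.suEquivSisom hF' _) (H11.hermC_nondeg hF') (by simp) ?_ h3.le 1 (by simp) (fun t ht => ?_)
    (by simp; linarith)
  · rw [H22.uM, h0] at h3
    rw [H22.uI, h0]
    push_cast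
    linarith [one_le_pow₀ (n := 2 * k + 1 + 2 + 2 + 1) (one_le_two (α := ℤ))]
  · simpa [hF, pow_succ'] using FiniteField.pow_card_sub_one_eq_one t ht

end Cfsg.Agent.S2153
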