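import Cfsg.Statements.S2154
import Cfsg.Agent.H14.Cen2

set_option autoImplicit false
open Cfsg

namespace Cfsg.Agent.S2154

/-- The Borel–Tits property of the finite Chevalley groups of types G₂, B₂, D₄, F₄, E₆, E₇, E₈ over a finite field of characteristic p: for every non-trivial p-subgroup U of the group G there are an element g of G and a proper set J of fundamental roots such that the normaliser of U in G lies in the conjugate by g of the standard parabolic subgroup P_J and U lies in the conjugate by g of its unipotent radical U_J. -/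
theorem result {F : Type*} [Field F] [Fintype F] (p : ℕ) [Fact p.Prime] [CharP F p] (D : Cfsg.Lie.ChevalleyDatum) (hD : D ∈ [Cfsg.Lie.chevG2, Cfsg.Lie.chevB2, Cfsg.Lie.chevD4, Cfsg.Lie.chevF4, Cfsg.Lie.chevE6, Cfsg.Lie.chevE7, Cfsg.Lie.chevE8]) (U : Subgroup (GL D.Idx F)) (hUG : U ≤ D.group F) (hU : IsPGroup p ↥U) (hne : U ≠ ⊥) : ∃ g ∈ D.group F, ∃ J : Set ℕ, (∃ i, i < D.rank ∧ i ∉ J) ∧ Subgroup.normalizer (U : Set (GL D.Idx F)) ⊓ D.group F ≤ (D.parabolicSubgroup F J).map (MulAut.conj g).toMonoidHom ∧ U ≤ (D.unipotentRadical F J).map (MulAut.conj g).toMonoidHom := by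
  obtain ⟨G⟩ := H14.good_of_mem hD
  have hS := G.SG_sep F
  obtain ⟨g, J, h1, h2, h3⟩ := H14.St.borel_tits hS (G.SG_top F) (X := U.subgroupOf (D.group F))
    (H14.St.exists_conj_U p hS (G.SG_hmul F) (G.SG_top F) hU.comap_subtype)
    (by rwa [Ne, Subgroup.subgroupOf_eq_bot, disjoint_iff, inf_eq_left.2 hUG])
  obtain ⟨i, hi⟩ := (Set.ne_univ_iff_exists_notMem J).1 h1
  refine ⟨g, g.2, Fin.val '' J, ⟨i, i.2, by simpa [Fin.val_inj] using hi⟩, fun k hk => ?_, fun x hx => ?_⟩
  · rw [Subgroup.mem_map_equiv, G.parabolicSubgroup_eq, Set.preimage_image_eq _ Fin.val_injective]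
    exact G.mem_SG_P (h2 ⟨k, hk.2⟩ (Subgroup.mem_normalizer_iff.2 fun x => Subgroup.mem_normalizer_iff.1 hk.1 x.1))
  · rw [Subgroup.mem_map_equiv, G.unipotentRadical_eq, Set.preimage_image_eq _ Fin.val_injective]
    exact G.mem_SG_U.1 (h3 ⟨x, hUG hx⟩ hx)

end Cfsg.Agent.S2154
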