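import Cfsg.Statements.S2155
import Cfsg.Agent.H14.Cen2
import Cfsg.Agent.H1.GFitting

set_option autoImplicit false
open Cfsg

namespace Cfsg.Agent.S2155

/-- In a Chevalley group of type G₂, B₂, D₄, F₄, E₆, E₇ or E₈ over a finite field of characteristic p (for types G₂ and B₂ the field is assumed to have at least 3 elements, so that the group is simple), the generalized Fitting subgroup of every proper standard parabolic subgroup P_J is a p-group (P_J is p-constrained with trivial largest normal subgroup of order prime to p). -/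
theorem result {F : Type*} [Field F] [Fintype F] (p : ℕ) [Fact p.Prime] [CharP F p] (D : Cfsg.Lie.ChevalleyDatum) (hD : D ∈ [Cfsg.Lie.chevG2, Cfsg.Lie.chevB2, Cfsg.Lie.chevD4, Cfsg.Lie.chevF4, Cfsg.Lie.chevE6, Cfsg.Lie.chevE7, Cfsg.Lie.chevE8]) (hq : (D = Cfsg.Lie.chevG2 ∨ D = Cfsg.Lie.chevB2) → 3 ≤ Fintype.card F) (J : Set ℕ) (hJ : ∃ i, i < D.rank ∧ i ∉ J) : IsPGroup p ↥(Cfsg.generalizedFittingSubgroup ↥(D.parabolicSubgroup F J)) := by
  obtain ⟨G⟩ := H14.good_of_mem hD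
  obtain ⟨i, h1, h2⟩ := hJ
  rw [G.parabolicSubgroup_eq]
  have hp := H14.St.isPGroup_U p (G.sep F)
  have hn := H14.St.P_le_normalizer (S := G.S F) (Fin.val ⁻¹' J)
  have := Subgroup.normal_subgroupOf_of_le_normalizer hn
  refine H1.isPGroup_gf_iff.2 (H1.gf_eq_pCore_of_isPGroup_centralizer
    (Q := ((G.S F).U {r | G.R.pos r ∧ ¬ G.R.InJ (Fin.val ⁻¹' J) r}).subgroupOf _) (hp.to_le (H14.PreSt.U_mono fun _ h => h.1)).comap_subtype (hp.comap_subtype.to_le fun g hg => ?_))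
  refine H14.St.cent_radical (G.sep F) (G.hmul F) G.conn G.tor_eq_one (i := ⟨i, h1⟩) h2 g.2 fun r hr => ?_
  have h3 := H14.PreSt.x_mem_U (S := (G.S F).toPreSt) (A := {r | G.R.pos r ∧ ¬ G.R.InJ (Fin.val ⁻¹' J) r}) hr 1
  exact (congrArg Subtype.val (hg ⟨_, (H14.St.radical_sup_levi _).le (Subgroup.mem_sup_left h3)⟩ h3)).symm

end Cfsg.Agent.S2155
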