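import Cfsg.Statements.S2298
import Cfsg.Agent.H13.GL2Deg

set_option autoImplicit false
open Cfsg

namespace Cfsg.Agent.S2298

open H13.GL2

/-- Over a finite field F with q elements, every irreducible complex character of GL₂ has degree 1, q − 1, q or q + 1; and when q ≥ 3 (so that these four numbers are distinct) there are exactly q − 1 irreducible characters of degree 1, exactly q − 1 of degree q, exactly (q − 1)(q − 2)/2 of degree q + 1 and exactly q(q − 1)/2 of degree q − 1. -/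
theorem result {F : Type*} [Field F] [Fintype F] :
    (∀ χ : Matrix.GeneralLinearGroup (Fin 2) F → ℂ, Cfsg.IsIrrCharacter (Matrix.GeneralLinearGroup (Fin 2) F) χ →
      χ 1 = 1 ∨ χ 1 = (Fintype.card F : ℂ) - 1 ∨ χ 1 = (Fintype.card F : ℂ) ∨ χ 1 = (Fintype.card F : ℂ) + 1) ∧
    (3 ≤ Fintype.card F →
      Nat.card {χ : Cfsg.IrrCharacter (Matrix.GeneralLinearGroup (Fin 2) F) // (χ : Matrix.GeneralLinearGroup (Fin 2) F → ℂ) 1 = 1} = Fintype.card F - 1 ∧
      Nat.card {χ : Cfsg.IrrCharacter (Matrix.GeneralLinearGroup (Fin 2) F) // (χ : Matrix.GeneralLinearGroup (Fin 2) F → ℂ) 1 = (Fintype.card F : ℂ)} = Fintype.card F - 1 ∧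
      Nat.card {χ : Cfsg.IrrCharacter (Matrix.GeneralLinearGroup (Fin 2) F) // (χ : Matrix.GeneralLinearGroup (Fin 2) F → ℂ) 1 = (Fintype.card F : ℂ) + 1} = (Fintype.card F - 1) * (Fintype.card F - 2) / 2 ∧
      Nat.card {χ : Cfsg.IrrCharacter (Matrix.GeneralLinearGroup (Fin 2) F) // (χ : Matrix.GeneralLinearGroup (Fin 2) F → ℂ) 1 = (Fintype.card F : ℂ) - 1} = Fintype.card F * (Fintype.card F - 1) / 2) := by
  classical
  refine ⟨fun χ h => ?_, fun hq => ⟨?_, ?_, ?_, ?_⟩⟩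
  · rcases irr_cases h with ⟨α, rfl⟩ | ⟨α, rfl⟩ | ⟨α, β, -, rfl⟩ | ⟨θ, -, rfl⟩
    · exact Or.inl (lin_one α)
    · exact Or.inr (Or.inr (Or.inl (St_one α)))
    · exact Or.inr (Or.inr (Or.inr (R_one α β)))
    · exact Or.inr (Or.inl (C_one θ))
  · rw [← card_mc]
    refine (Nat.card_eq_of_bijective (fun α => ⟨⟨lin α, irr_lin α⟩, lin_one α⟩) ⟨fun α β h =>
      lin_injective (congrArg (fun χ => χ.1.1) h), fun χ => ?_⟩).symm
    obtain ⟨α, h⟩ := eq_lin χ.1.2 hq χ.2
    exact ⟨α, Subtype.ext (Subtype.ext h.symm)⟩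
  · rw [← card_mc]
    refine (Nat.card_eq_of_bijective (fun α => ⟨⟨St α, irr_St α⟩, St_one α⟩) ⟨fun α β h =>
      St_injective (congrArg (fun χ => χ.1.1) h), fun χ => ?_⟩).symm
    obtain ⟨α, h⟩ := eq_St χ.1.2 χ.2
    exact ⟨α, Subtype.ext (Subtype.ext h.symm)⟩
  · have := card_eq_two_mul (A := {p : MulChar F ℂ × MulChar F ℂ // p.1 ≠ p.2})
      (B := {χ : IrrCharacter (GL (Fin 2) F) // χ.1 1 = (Fintype.card F : ℂ) + 1})
      (fun p => ⟨⟨Rf p.1.1 p.1.2, irr_R p.2⟩, R_one _ _⟩) (fun p => ⟨p.1.swap, p.2.symm⟩)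
      (fun p h => p.2 (congrArg (fun x => x.1.2) h))
      (fun p p' => by simp only [Subtype.ext_iff, R_eq_iff, Prod.ext_iff, Prod.fst_swap, Prod.snd_swap])
      (fun χ => by
        obtain ⟨α, β, h1, h⟩ := eq_R χ.1.2 χ.2
        exact ⟨⟨(α, β), h1⟩, Subtype.ext (Subtype.ext h.symm)⟩)
    have h2 : Nat.card {p : MulChar F ℂ × MulChar F ℂ // p.1 ≠ p.2} =
        (Fintype.card F - 1) * (Fintype.card F - 2) := by
      rw [Nat.card_eq_fintype_card, Fintype.card_of_subtype Finset.univ.offDiag (by simp),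
        Finset.offDiag_card, Finset.card_univ,
        ← Nat.card_eq_fintype_card, card_mc, ← Nat.mul_sub_one]
      rfl
    omega
  · have := card_eq_two_mul (A := {θ : MulChar (EE F) ℂ // θ ≠ bar θ})
      (B := {χ : IrrCharacter (GL (Fin 2) F) // χ.1 1 = (Fintype.card F : ℂ) - 1})
      (fun p => ⟨⟨Cf p.1, irr_C p.2⟩, C_one _⟩) (fun p => ⟨bar p.1, by simpa using p.2.symm⟩)
      (fun p h => p.2 (congrArg (fun x => x.1) h).symm)
      (fun p p' => by simp only [Subtype.ext_iff, C_eq_iff])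
      (fun χ => by
        obtain ⟨θ, h1, h⟩ := eq_C χ.1.2 hq χ.2
        exact ⟨⟨θ, h1⟩, Subtype.ext (Subtype.ext h.symm)⟩)
    have h3 : Nat.card {θ : MulChar (EE F) ℂ // θ = bar θ} = Fintype.card F - 1 := by
      rw [← card_mc]
      refine (Nat.card_eq_of_bijective (fun α => ⟨nrm α, (bar_nrm α).symm⟩) ⟨fun α β h =>
        nrm_injective (congrArg Subtype.val h), fun θ => ?_⟩).symm
      obtain ⟨α, h⟩ := eq_bar_iff.1 θ.2
      exact ⟨α, Subtype.ext h.symm⟩
    have h2 : Nat.card {θ : MulChar (EE F) ℂ // θ ≠ bar θ} =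
        Fintype.card F * (Fintype.card F - 1) := by
      rw [Nat.card_eq_fintype_card, Fintype.card_subtype_compl, ← Nat.card_eq_fintype_card,
        ← Nat.card_eq_fintype_card, h3, card_mc, H11.card_quadAlg, Nat.mul_sub_one, sq]
      omega
    omega

end Cfsg.Agent.S2298
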