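import Cfsg.Statements.S2300
import Cfsg.Agent.H13.SL2Deg

set_option autoImplicit false
open Cfsg

namespace Cfsg.Agent.S2300

open H13.GL2 H5

/-- Over a finite field F with q elements, q even, every irreducible complex character of SL₂ has degree 1, q − 1, q or q + 1; and when q ≥ 4 (so that these four numbers are distinct) there are exactly one irreducible character of degree 1, one of degree q, (q − 2)/2 of degree q + 1 and q/2 of degree q − 1. -/
theorem result {F : Type*} [Field F] [Fintype F] [CharP F 2] :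
    (∀ χ : Matrix.SpecialLinearGroup (Fin 2) F → ℂ, Cfsg.IsIrrCharacter (Matrix.SpecialLinearGroup (Fin 2) F) χ →
      χ 1 = 1 ∨ χ 1 = (Fintype.card F : ℂ) - 1 ∨ χ 1 = (Fintype.card F : ℂ) ∨ χ 1 = (Fintype.card F : ℂ) + 1) ∧
    (4 ≤ Fintype.card F →
      Nat.card {χ : Cfsg.IrrCharacter (Matrix.SpecialLinearGroup (Fin 2) F) // (χ : Matrix.SpecialLinearGroup (Fin 2) F → ℂ) 1 = 1} = 1 ∧
      Nat.card {χ : Cfsg.IrrCharacter (Matrix.SpecialLinearGroup (Fin 2) F) // (χ : Matrix.SpecialLinearGroup (Fin 2) F → ℂ) 1 = (Fintype.card F : ℂ)} = 1 ∧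
      Nat.card {χ : Cfsg.IrrCharacter (Matrix.SpecialLinearGroup (Fin 2) F) // (χ : Matrix.SpecialLinearGroup (Fin 2) F → ℂ) 1 = (Fintype.card F : ℂ) + 1} = (Fintype.card F - 2) / 2 ∧
      Nat.card {χ : Cfsg.IrrCharacter (Matrix.SpecialLinearGroup (Fin 2) F) // (χ : Matrix.SpecialLinearGroup (Fin 2) F → ℂ) 1 = (Fintype.card F : ℂ) - 1} = Fintype.card F / 2) := by
  classical
  have he : Even (Fintype.card F) :=
    Nat.even_iff.2 (FiniteField.even_card_of_char_two (ringChar.eq F 2))
  refine ⟨fun χ h => ?_, fun hq => ⟨card_deg_one hq, card_deg_q, ?_, ?_⟩⟩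
  · obtain ⟨n, hn, H⟩ := irr_cases_SL h
    rw [hn]
    obtain ⟨k, hk⟩ := he
    rcases H with H | H | H | H | H | H
    · simp [H.1]
    · simp [H.1]
    · simp [H.1]
    · simp [← H.1]
    · omega
    · omega
  · have := card_deg_R (F := F)
    rw [H27.gcd_two_of_even he Fintype.card_pos] at this
    omega
  · have := card_deg_C (F := F) hq
    rw [Nat.coprime_two_left.2 he.add_one] at this
    omega

end Cfsg.Agent.S2300
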