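import Cfsg.Statements.S2301
import Cfsg.Agent.H13.SL2Cls

set_option autoImplicit false
open Cfsg

namespace Cfsg.Agent.S2301

open H13.GL2 H5 Matrix.SpecialLinearGroup

/-- Over a finite field with q elements of odd characteristic p, the elements of order p of SL₂ (the non-identity unipotent elements) fall into exactly two conjugacy classes, each of size (q² − 1)/2; two upper unitriangular matrices with non-zero off-diagonal entries b and b′ are conjugate exactly when bb′ is a square. -/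
theorem result {F : Type*} [Field F] [Fintype F] (p : ℕ) [Fact p.Prime] [CharP F p] (hp : p ≠ 2) :
    Nat.card {C : ConjClasses (Matrix.SpecialLinearGroup (Fin 2) F) // ∃ g : Matrix.SpecialLinearGroup (Fin 2) F, orderOf g = p ∧ ConjClasses.mk g = C} = 2 ∧
    (∀ g : Matrix.SpecialLinearGroup (Fin 2) F, orderOf g = p → Nat.card (ConjClasses.mk g).carrier = (Fintype.card F ^ 2 - 1) / 2) ∧
    ∀ g h : Matrix.SpecialLinearGroup (Fin 2) F, (g : Matrix (Fin 2) (Fin 2) F) 0 0 = 1 → (g : Matrix (Fin 2) (Fin 2) F) 1 1 = 1 → (g : Matrix (Fin 2) (Fin 2) F) 1 0 = 0 → (g : Matrix (Fin 2) (Fin 2) F) 0 1 ≠ 0 →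
      (h : Matrix (Fin 2) (Fin 2) F) 0 0 = 1 → (h : Matrix (Fin 2) (Fin 2) F) 1 1 = 1 → (h : Matrix (Fin 2) (Fin 2) F) 1 0 = 0 → (h : Matrix (Fin 2) (Fin 2) F) 0 1 ≠ 0 →
      (IsConj g h ↔ IsSquare ((g : Matrix (Fin 2) (Fin 2) F) 0 1 * (h : Matrix (Fin 2) (Fin 2) F) 0 1)) := by
  classical
  have hodd : Odd (Fintype.card F) :=
    Nat.odd_iff.2 (FiniteField.odd_card_of_char_ne_two (by rwa [ringChar.eq F p]))
  have key : ∀ g : Matrix.SpecialLinearGroup (Fin 2) F, orderOf g = p → IsConj (toGL g) (par 1) :=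
    fun g hg => isConj_par_one_of_orderOf p (by rw [orderOf_injective toGL toGL_injective, hg])
  refine ⟨?_, fun g hg => ?_, fun g h g1 g2 g3 g4 h1 h2 h3 h4 => ?_⟩
  · obtain ⟨ν, hν⟩ := exists_nonsq hodd
    rw [Nat.card_eq_two_iff]
    refine ⟨⟨_, upS 1 1, orderOf_upS p one_ne_zero, rfl⟩, ⟨_, upS 1 ν, orderOf_upS p ν.ne_zero, rfl⟩,
      fun e => hν ?_, Set.eq_univ_iff_forall.2 ?_⟩
    · simpa using (isConj_upS_iff one_ne_zero ν.ne_zero).1
        (ConjClasses.mk_eq_mk_iff_isConj.1 (congrArg Subtype.val e))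
    · rintro ⟨_, g, hg, rfl⟩
      obtain ⟨-, b, hb, h1⟩ := exists_conj_upS (key g hg)
      by_cases hs : IsSquare b
      · exact Or.inl (Subtype.ext (ConjClasses.mk_eq_mk_iff_isConj.2 (h1.trans
          ((isConj_upS_iff hb one_ne_zero).2 (by simpa using hs)))))
      · exact Or.inr (Subtype.ext (ConjClasses.mk_eq_mk_iff_isConj.2 (h1.trans
          ((isConj_upS_iff hb ν.ne_zero).2 (isSquare_mul hs hν)))))
  · have := (Subgroup.centralizer {g}).card_mul_index
    rw [card_cent_par (key g hg), H27.gcd_two_of_odd hodd, H11.card_sl_two, mul_comm 2,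
      mul_assoc] at this
    rw [card_carrier, ← Nat.eq_of_mul_eq_mul_left Fintype.card_pos this]
    omega
  · obtain ⟨x, b, rfl⟩ := exists_upS g3
    obtain ⟨y, c, rfl⟩ := exists_upS h3
    obtain rfl : x = 1 := Units.ext g1
    obtain rfl : y = 1 := Units.ext h1
    exact isConj_upS_iff g4 h4

end Cfsg.Agent.S2301
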