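import Cfsg.Statements.S2302
import Cfsg.Agent.H13.SL2Cls

set_option autoImplicit false
open Cfsg

namespace Cfsg.Agent.S2302

open H13.GL2 H5 Matrix.SpecialLinearGroup

/-- Over a finite field with q elements of characteristic 2, the involutions of SL₂ (the non-identity unipotent elements) form a single conjugacy class, of size q² − 1. -/
theorem result {F : Type*} [Field F] [Fintype F] [CharP F 2] (g h : Matrix.SpecialLinearGroup (Fin 2) F) (hg : orderOf g = 2) (hh : orderOf h = 2) :
    IsConj g h ∧ Nat.card (ConjClasses.mk g).carrier = Fintype.card F ^ 2 - 1 := by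
  classical
  have he : Even (Fintype.card F) :=
    Nat.even_iff.2 (FiniteField.even_card_of_char_two (ringChar.eq F 2))
  have key : ∀ g : Matrix.SpecialLinearGroup (Fin 2) F, orderOf g = 2 → IsConj (toGL g) (par 1) :=
    fun g hg => isConj_par_one_of_orderOf 2 (by rw [orderOf_injective toGL toGL_injective, hg])
  constructor
  · obtain ⟨-, b, hb, h1⟩ := exists_conj_upS (key g hg)
    obtain ⟨-, c, hc, h2⟩ := exists_conj_upS (key h hh)
    exact h1.trans (((isConj_upS_iff hb hc).2
      (FiniteField.isSquare_of_char_two (ringChar.eq F 2) _)).trans h2.symm)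
  · have := (Subgroup.centralizer {g}).card_mul_index
    rw [card_cent_par (key g hg), H27.gcd_two_of_even he Fintype.card_pos, one_mul,
      H11.card_sl_two] at this
    rw [card_carrier]
    exact Nat.eq_of_mul_eq_mul_left Fintype.card_pos this

end Cfsg.Agent.S2302
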