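import Cfsg.Statements.S2303
import Cfsg.Agent.H13.GL2Deg

set_option autoImplicit false
open Cfsg

namespace Cfsg.Agent.S2303

open H13.GL2

/-- Over a finite field with q elements: a diagonal element of GL₂ with two distinct diagonal entries has centralizer of order (q − 1)² (so q(q + 1) conjugates), and an element of GL₂ with no eigenvector in F² has centralizer of order q² − 1 (so q(q − 1) conjugates). -/
theorem result {F : Type*} [Field F] [Fintype F] (g : Matrix.GeneralLinearGroup (Fin 2) F) :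
    ((g : Matrix (Fin 2) (Fin 2) F) 0 1 = 0 → (g : Matrix (Fin 2) (Fin 2) F) 1 0 = 0 → (g : Matrix (Fin 2) (Fin 2) F) 0 0 ≠ (g : Matrix (Fin 2) (Fin 2) F) 1 1 →
      Nat.card (Subgroup.centralizer ({g} : Set (Matrix.GeneralLinearGroup (Fin 2) F))) = (Fintype.card F - 1) ^ 2) ∧
    ((∀ (c : F) (v : Fin 2 → F), v ≠ 0 → (g : Matrix (Fin 2) (Fin 2) F).mulVec v ≠ c • v) →
      Nat.card (Subgroup.centralizer ({g} : Set (Matrix.GeneralLinearGroup (Fin 2) F))) = Fintype.card F ^ 2 - 1) := by
  classical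
  have h := (Subgroup.centralizer ({g} : Set (GL (Fin 2) F))).index_mul_card
  rw [H11.card_gl_two] at h
  obtain ⟨n, hn⟩ : ∃ n, Fintype.card F = n + 2 := ⟨_, (Nat.sub_add_cancel two_le_q).symm⟩
  have e : (n + 2) ^ 2 - 1 = (n + 1) * (n + 3) := Nat.sub_eq_of_eq_add (by ring)
  constructor
  · intro h1 h2 h3
    obtain ⟨x, y, rfl⟩ := exists_dg h1 h2
    rw [index_dg (fun e => h3 (by rw [e]; rfl)), hn, e] at h
    rw [hn]
    apply Nat.eq_of_mul_eq_mul_left (show 0 < (n + 2) * (n + 2 + 1) by positivity)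
    rw [h]; simp; ring
  · intro h1
    rw [((ell_iff g).2 h1).index] at h
    exact Nat.eq_of_mul_eq_mul_left (by rw [hn]; simp) h

end Cfsg.Agent.S2303
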