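import Cfsg.Statements.S2306
import Cfsg.Agent.H13.SL2Deg

set_option autoImplicit false
open Cfsg

namespace Cfsg.Agent.S2306

open H13.GL2 H5

/-- Over a finite field F, for a multiplicative character α of F, the function induced to SL₂ from the linear character b ↦ α(b₁₁) of the upper triangular subgroup is an irreducible character if and only if α² ≠ 1. -/
theorem result {F : Type*} [Field F] [Fintype F] [DecidableEq F] (α : MulChar F ℂ) :
    Cfsg.IsIrrCharacter (Matrix.SpecialLinearGroup (Fin 2) F) (Cfsg.indFun ((Cfsg.upperTriangularGL 2 F).comap Matrix.SpecialLinearGroup.toGL) (fun b => α (((b : Matrix.SpecialLinearGroup (Fin 2) F) : Matrix (Fin 2) (Fin 2) F) 0 0))) ↔ α ^ 2 ≠ 1 := by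
  have := ind_eq_RS α
  erw [this]
  refine ⟨fun h e => ?_, irr_RS⟩
  have := h.classInner_self
  rw [ip_RS, if_pos rfl, if_pos (by rwa [← mul_eq_one_iff_eq_inv, ← sq])] at this
  norm_num at this

end Cfsg.Agent.S2306
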