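import Cfsg.Statements.S2308
import Cfsg.Agent.H13.GL2Deg

set_option autoImplicit false
open Cfsg

namespace Cfsg.Agent.S2308

open H13.GL2 H5

/-- Values of the permutation character of GL₂ over a finite field F with q elements on the cosets of its upper triangular subgroup (equivalently, the number of lines of F² that an element maps to themselves): q + 1 at a scalar matrix, 2 at a diagonal matrix with two different diagonal entries, 0 at an element with no eigenvector in F², and 1 at an upper triangular matrix with equal diagonal entries and non-zero upper right entry. -/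
theorem result {F : Type*} [Field F] [Fintype F] (g : Matrix.GeneralLinearGroup (Fin 2) F) :
    ((∃ a : F, (g : Matrix (Fin 2) (Fin 2) F) = a • (1 : Matrix (Fin 2) (Fin 2) F)) → Cfsg.fixedPointCharacter (Cfsg.upperTriangularGL 2 F) g = Fintype.card F + 1) ∧
    ((g : Matrix (Fin 2) (Fin 2) F) 0 1 = 0 → (g : Matrix (Fin 2) (Fin 2) F) 1 0 = 0 → (g : Matrix (Fin 2) (Fin 2) F) 0 0 ≠ (g : Matrix (Fin 2) (Fin 2) F) 1 1 →
      Cfsg.fixedPointCharacter (Cfsg.upperTriangularGL 2 F) g = 2) ∧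
    ((∀ (c : F) (v : Fin 2 → F), v ≠ 0 → (g : Matrix (Fin 2) (Fin 2) F).mulVec v ≠ c • v) → Cfsg.fixedPointCharacter (Cfsg.upperTriangularGL 2 F) g = 0) ∧
    ((g : Matrix (Fin 2) (Fin 2) F) 1 0 = 0 → (g : Matrix (Fin 2) (Fin 2) F) 0 0 = (g : Matrix (Fin 2) (Fin 2) F) 1 1 → (g : Matrix (Fin 2) (Fin 2) F) 0 1 ≠ 0 →
      Cfsg.fixedPointCharacter (Cfsg.upperTriangularGL 2 F) g = 1) := by
  classical
  have key : Cfsg.fixedPointCharacter (Cfsg.upperTriangularGL 2 F) g = Rf 1 1 g := by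
    rw [← ind_eq_R, Cfsg.fixedPointCharacter, ← H5.indFun_one_eq_card_fixedBy]
    congr 1
    funext b
    obtain ⟨x, y, c, h⟩ := exists_up (mem_B.1 b.2)
    rw [h]; simp
  rw [key]
  refine ⟨?_, fun h1 h2 h3 => ?_, fun h => R_ell _ _ ((ell_iff g).2 h), fun h1 h2 h3 => ?_⟩
  · rintro ⟨a, ha⟩
    have : Sc g := by
      refine ⟨?_, ?_, ?_⟩ <;> simp [ha]
    obtain ⟨x, rfl⟩ := this.exists_dg
    rw [R_sc]; simp
  · obtain ⟨x, y, rfl⟩ := exists_dg h1 h2
    rw [R_dg _ _ (fun e => h3 (by rw [e]; rfl))]; simp; norm_num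
  · obtain ⟨x, y, b, rfl⟩ := exists_up h1
    obtain rfl : x = y := Units.ext h2
    rw [(cf_R 1 1).eq_of_isConj (isConj_up_par x (b := b) h3), R_par]; simp

end Cfsg.Agent.S2308
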