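import Cfsg.Statements.S2315
import Cfsg.Agent.H14.StCh2
import Cfsg.Agent.H11.Cl7

set_option autoImplicit false
open Cfsg

namespace Cfsg.Agent.S2315

/-- Steinberg's count of unipotent elements for the general linear group: over a finite field with q elements of characteristic p, the number of elements of GL_n of p-power order (the unipotent matrices) is q^(n(n−1)). -/
theorem result {F : Type*} [Field F] [Fintype F] (p : ℕ) [Fact p.Prime] [CharP F p] (n : ℕ) :
    Nat.card {g : Matrix.GeneralLinearGroup (Fin n) F // ∃ k : ℕ, orderOf g = p ^ k} = Fintype.card F ^ (n * (n - 1)) := by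
  cases n with
  | zero => simpa using Nat.card_eq_one_iff_unique.2 ⟨inferInstance, ⟨1, 0, by simp⟩⟩
  | succ n =>
    have h := H14.St.card_unip (H11.slSt_sep n F) (H11.slSt_top n F) p (H11.slSt_hmul n F)
    have h1 : Fintype.card (H11.wdA n).Rt = (n + 1) * n := by
      rw [← Fintype.card_of_bijective (f := fun p : {p // p ∈ (Finset.univ : Finset (Fin (n + 1))).offDiag} =>
        H11.rtA (Finset.mem_offDiag.1 p.2).2.2) ⟨fun a b e => Subtype.ext (Prod.ext_iff.2
          (H11.uniqA (congrArg Subtype.val e) (Finset.mem_offDiag.1 b.2).2.2)), fun r => by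
            obtain ⟨a, b, h, rfl⟩ := H11.exists_rtA r
            exact ⟨⟨(a, b), by simpa using h⟩, rfl⟩⟩, Fintype.card_coe, Finset.offDiag_card]
      simp [Nat.mul_succ]
    rw [H14.RootSys.two_mul_len_w0, h1, Nat.card_eq_fintype_card (α := F)] at h
    refine Eq.trans (Nat.card_eq_of_bijective (β := {g : GL (Fin (n + 1)) F // ∃ k : ℕ, orderOf g = p ^ k})
      (fun g : {g : Matrix.SpecialLinearGroup (Fin (n + 1)) F // ∃ k : ℕ, orderOf g = p ^ k} =>
        ⟨Matrix.SpecialLinearGroup.toGL g.1, by
      rw [orderOf_injective _ Matrix.SpecialLinearGroup.toGL_injective]; exact g.2⟩) ⟨fun a b e => Subtype.ext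
        (Matrix.SpecialLinearGroup.toGL_injective (congrArg Subtype.val e)), fun ⟨g, k, hk⟩ => ?_⟩).symm h
    have h2 : g.1.det = 1 := by
      have := congrArg (fun g : GL (Fin (n + 1)) F => g.1.det) (pow_orderOf_eq_one g)
      simp only [hk, Units.val_pow_eq_pow_val, Matrix.det_pow, Units.val_one, Matrix.det_one] at this
      exact sub_eq_zero.1 (pow_eq_zero_iff (pow_pos (Fact.out : p.Prime).pos k).ne' |>.1 (by rw [sub_pow_char_pow, this]; simp))
    have e : Matrix.SpecialLinearGroup.toGL (⟨g.1, h2⟩ : Matrix.SpecialLinearGroup _ F) = g := Units.ext rfl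
    exact ⟨⟨⟨g.1, h2⟩, k, (orderOf_injective _ Matrix.SpecialLinearGroup.toGL_injective _).symm.trans ((congrArg orderOf e).trans hk)⟩, Subtype.ext e⟩

end Cfsg.Agent.S2315
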