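import Cfsg.Statements.S2316
import Cfsg.Agent.H14.StCh2
import Cfsg.Agent.H11.Cl7
import Cfsg.Agent.H11.Order3

set_option autoImplicit false
open Cfsg

namespace Cfsg.Agent.S2316

/-- Steinberg's count of unipotent elements for the symplectic group: over a finite field with q elements of characteristic p, the number of elements of Sp_{2m} of p-power order is q^(2m²). -/
theorem result {F : Type*} [Field F] [Fintype F] (p : ℕ) [Fact p.Prime] [CharP F p] (m : ℕ) :
    Nat.card {g : ↥(Matrix.symplecticGroup (Fin m) F) // ∃ k : ℕ, orderOf g = p ^ k} = Fintype.card F ^ (2 * m ^ 2) := by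
  rw [H14.St.card_unip (H11.spSt_sep m F) (H11.spSt_top m F) p (H11.spSt_hmul m F),
    H14.St.len_w0_of_card (H11.spSt_sep m F) (H11.spSt_top m F) p (H11.spSt_hmul m F)
      (by rw [H11.card_sp, Nat.card_eq_fintype_card]) fun h => by
        obtain ⟨i, -, h⟩ := ((Fact.out : p.Prime).prime.dvd_finsetProd_iff _).1 h
        exact H11.not_dvd_card_pow_sub_one F p (by omega) h, Nat.card_eq_fintype_card]

end Cfsg.Agent.S2316
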