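import Cfsg.Statements.S2317
import Cfsg.Agent.H22.GLc2

set_option autoImplicit false
open Cfsg

namespace Cfsg.Agent.S2317

/-- Over a finite field of characteristic p, the conjugacy classes of GL_n consisting of elements of p-power order (the unipotent classes) are as many as the partitions of n. -/
theorem result {F : Type*} [Field F] [Fintype F] (p : ℕ) [Fact p.Prime] [CharP F p] (n : ℕ) :
    Nat.card {C : ConjClasses (Matrix.GeneralLinearGroup (Fin n) F) //
      ∃ g : Matrix.GeneralLinearGroup (Fin n) F, (∃ k : ℕ, orderOf g = p ^ k) ∧ ConjClasses.mk g = C} =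
      Fintype.card (Nat.Partition n) := by
  have key : ∀ (g : GL (Fin n) F) k, g ^ p ^ k = 1 ↔ (H22.glE g - 1) ^ p ^ k = 0 := fun g k => by
    rw [H22.sub_one_pow_char F, sub_eq_zero, ← map_pow, ← map_one H22.glE, H22.glE_injective.eq_iff]
  simp only [and_comm]
  refine (H22.card_classes_unip H22.glE (n := n) (by simp) (fun _ => True)
    (fun g ⟨k, h⟩ => ⟨_, (key g k).1 (h ▸ pow_orderOf_eq_one g)⟩) (fun _ _ _ _ => trivial)
    (fun μ _ => ?_) fun _ _ _ _ => H22.gl_isConj_iff.2).trans (by simp)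
  obtain ⟨g, hg⟩ := H22.exists_gl_nType (ι := Fin n) (F := F) (μ := μ.parts) (by simp [μ.parts_sum])
  obtain ⟨j, -, e⟩ := (Nat.dvd_prime_pow Fact.out).1 (orderOf_dvd_of_pow_eq_one ((key g n).2
    ((hg.pow_eq_zero_iff _).2 fun k hk => ((Multiset.single_le_sum (by simp) k hk).trans
      μ.parts_sum.le).trans (Nat.lt_pow_self (Fact.out : p.Prime).one_lt).le)))
  exact ⟨g, ⟨j, e⟩, hg⟩

end Cfsg.Agent.S2317
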