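import Cfsg.Statements.S2320
import Cfsg.Agent.H13.GL2Deg

set_option autoImplicit false
open Cfsg

namespace Cfsg.Agent.S2320

open H13.GL2

/-- Over a finite field F with q elements, every irreducible complex character of GL₂ of degree q takes a value of absolute value 1 at every diagonal matrix with two different diagonal entries and at every element with no eigenvector in F². -/
theorem result {F : Type*} [Field F] [Fintype F] (χ : Matrix.GeneralLinearGroup (Fin 2) F → ℂ) (hχ : Cfsg.IsIrrCharacter (Matrix.GeneralLinearGroup (Fin 2) F) χ) (hdeg : χ 1 = (Fintype.card F : ℂ)) (g : Matrix.GeneralLinearGroup (Fin 2) F) :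
    ((g : Matrix (Fin 2) (Fin 2) F) 0 1 = 0 → (g : Matrix (Fin 2) (Fin 2) F) 1 0 = 0 → (g : Matrix (Fin 2) (Fin 2) F) 0 0 ≠ (g : Matrix (Fin 2) (Fin 2) F) 1 1 → ‖χ g‖ = 1) ∧
    ((∀ (c : F) (v : Fin 2 → F), v ≠ 0 → (g : Matrix (Fin 2) (Fin 2) F).mulVec v ≠ c • v) → ‖χ g‖ = 1) := by
  classical
  obtain ⟨α, rfl⟩ := eq_St hχ hdeg
  refine ⟨fun h1 h2 h3 => ?_, fun h1 => ?_⟩
  · obtain ⟨x, y, rfl⟩ := exists_dg h1 h2
    rw [St_dg _ (fun e => h3 (by rw [e]; rfl)), norm_mul, norm_mc, norm_mc, mul_one]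
  · rw [St_ell _ ((ell_iff g).2 h1), norm_neg]
    exact norm_mc α (Units.mk0 _ (H27.dt_ne g))

end Cfsg.Agent.S2320
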