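import Cfsg.Statements.S2322
import Cfsg.Agent.H13.SL2Cls

set_option autoImplicit false
open Cfsg

namespace Cfsg.Agent.S2322

open H13.GL2 H5

/-- Over a finite field F with q elements, q odd: every irreducible complex character of SL₂ of degree q − 1 or (q − 1)/2 vanishes at every diagonal matrix whose diagonal entry a has a² ≠ 1, and every irreducible complex character of degree q + 1 or (q + 1)/2 vanishes at every element with no eigenvector in F². -/
theorem result {F : Type*} [Field F] [Fintype F] (hodd : Odd (Fintype.card F)) (χ : Matrix.SpecialLinearGroup (Fin 2) F → ℂ) (hχ : Cfsg.IsIrrCharacter (Matrix.SpecialLinearGroup (Fin 2) F) χ) (g : Matrix.SpecialLinearGroup (Fin 2) F) :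
    ((χ 1 = (Fintype.card F : ℂ) - 1 ∨ χ 1 = (((Fintype.card F - 1) / 2 : ℕ) : ℂ)) →
      (g : Matrix (Fin 2) (Fin 2) F) 0 1 = 0 → (g : Matrix (Fin 2) (Fin 2) F) 1 0 = 0 → (g : Matrix (Fin 2) (Fin 2) F) 0 0 ^ 2 ≠ 1 → χ g = 0) ∧
    ((χ 1 = (Fintype.card F : ℂ) + 1 ∨ χ 1 = (((Fintype.card F + 1) / 2 : ℕ) : ℂ)) →
      (∀ (c : F) (v : Fin 2 → F), v ≠ 0 → (g : Matrix (Fin 2) (Fin 2) F).mulVec v ≠ c • v) → χ g = 0) := by
  classical
  refine ⟨fun h h1 h2 h3 => ?_, fun h h1 => ?_⟩
  · obtain ⟨x, hx, e, e'⟩ := exists_dS h1 h2 h3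
    have hq : 4 ≤ Fintype.card F := by
      have : ({1, -1, x} : Finset Fˣ).card ≤ Fintype.card Fˣ := Finset.card_le_univ _
      rw [Finset.card_eq_three.2 ⟨1, -1, x, (neg_one_ne hodd).symm, by rintro rfl; simp at hx,
        by rintro rfl; simp at hx, rfl⟩, Fintype.card_units] at this
      omega
    rcases h with h | h
    · obtain ⟨θ, -, rfl⟩ := eq_CS hχ hq h
      rw [CS, rs, e, C_dg _ hx]
    · obtain ⟨θ, χ', -, -, H⟩ := eq_HC hχ hodd hq h
      rw [H.eq_half (e ▸ not_isConj_dg_par hx), e, C_dg _ hx, zero_div]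
  · have he := (ell_iff (Matrix.SpecialLinearGroup.toGL g)).2 h1
    rcases h with h | h
    · obtain ⟨α, -, rfl⟩ := eq_RS hχ h
      exact R_ell _ _ he
    · obtain ⟨n, hn, H⟩ := irr_cases_SL hχ
      have : n = (Fintype.card F + 1) / 2 := by rw [hn] at h; exact_mod_cast h
      have := two_le_q (F := F)
      obtain ⟨k, hk⟩ := hodd
      rcases H with H | H | H | ⟨H, θ, hθ, rfl⟩ | ⟨-, α, χ', -, -, H⟩ | H
      · omega
      · omega
      · omega
      · have hq : Fintype.card F = 3 := by omega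
        obtain ⟨z, h1, h2, h3⟩ := exists_eS he
        rw [CS, rs, (cf_C θ).eq_of_isConj h3, C_el _ h1]
        exact neg_eq_zero.2 (C_three hq hθ h1 h2)
      · rw [H.eq_half he.not_isConj_par, R_ell _ _ he, zero_div]
      · omega

end Cfsg.Agent.S2322
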