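import Cfsg.Statements.S2324
import Cfsg.Agent.H13.SL2Deg

set_option autoImplicit false
open Cfsg

namespace Cfsg.Agent.S2324

open H13.GL2 H5

/-- Over a finite field F with q elements, q odd and q ≥ 5, let u be the upper unitriangular matrix of SL₂ with off-diagonal entry 1 and let δ = (−1)^((q−1)/2). Every irreducible complex character χ of SL₂ of degree (q + 1)/2 satisfies (2χ(u) − 1)² = δq, and every irreducible complex character χ of degree (q − 1)/2 satisfies (2χ(u) + 1)² = δq; that is, χ(u) = (1 ± √(δq))/2 in the first case and χ(u) = (−1 ± √(δq))/2 in the second. Moreover two different irreducible characters of degree (q + 1)/2 take the two different values (their values at u add up to 1), and likewise for degree (q − 1)/2 (values adding up to −1). -/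
theorem result {F : Type*} [Field F] [Fintype F] (hodd : Odd (Fintype.card F)) (hq : 5 ≤ Fintype.card F)
    (u : Matrix.SpecialLinearGroup (Fin 2) F) (hu : (u : Matrix (Fin 2) (Fin 2) F) = !![1, 1; 0, 1]) :
    (∀ χ : Matrix.SpecialLinearGroup (Fin 2) F → ℂ, Cfsg.IsIrrCharacter (Matrix.SpecialLinearGroup (Fin 2) F) χ → χ 1 = (((Fintype.card F + 1) / 2 : ℕ) : ℂ) → (2 * χ u - 1) ^ 2 = (-1 : ℂ) ^ ((Fintype.card F - 1) / 2) * (Fintype.card F : ℂ)) ∧
    (∀ χ : Matrix.SpecialLinearGroup (Fin 2) F → ℂ, Cfsg.IsIrrCharacter (Matrix.SpecialLinearGroup (Fin 2) F) χ → χ 1 = (((Fintype.card F - 1) / 2 : ℕ) : ℂ) → (2 * χ u + 1) ^ 2 = (-1 : ℂ) ^ ((Fintype.card F - 1) / 2) * (Fintype.card F : ℂ)) ∧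
    (∀ χ₁ χ₂ : Matrix.SpecialLinearGroup (Fin 2) F → ℂ, Cfsg.IsIrrCharacter (Matrix.SpecialLinearGroup (Fin 2) F) χ₁ → Cfsg.IsIrrCharacter (Matrix.SpecialLinearGroup (Fin 2) F) χ₂ → χ₁ ≠ χ₂ →
      χ₁ 1 = (((Fintype.card F + 1) / 2 : ℕ) : ℂ) → χ₂ 1 = (((Fintype.card F + 1) / 2 : ℕ) : ℂ) → χ₁ u + χ₂ u = 1) ∧
    (∀ χ₁ χ₂ : Matrix.SpecialLinearGroup (Fin 2) F → ℂ, Cfsg.IsIrrCharacter (Matrix.SpecialLinearGroup (Fin 2) F) χ₁ → Cfsg.IsIrrCharacter (Matrix.SpecialLinearGroup (Fin 2) F) χ₂ → χ₁ ≠ χ₂ →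
      χ₁ 1 = (((Fintype.card F - 1) / 2 : ℕ) : ℂ) → χ₂ 1 = (((Fintype.card F - 1) / 2 : ℕ) : ℂ) → χ₁ u + χ₂ u = -1) := by
  classical
  have e : Matrix.SpecialLinearGroup.toGL u = par 1 := Units.ext hu
  obtain rfl : u = upS 1 1 := Matrix.SpecialLinearGroup.toGL_injective (by simp [e, par])
  refine ⟨fun χ hχ h => ?_, fun χ hχ h => ?_, fun χ₁ χ₂ h1 h2 hne d1 d2 => ?_,
    fun χ₁ χ₂ h1 h2 hne d1 d2 => ?_⟩
  · obtain ⟨α, χ', -, -, H⟩ := eq_HR hχ hodd (by omega) h
    have := congrFun H.sum (upS 1 1)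
    simp only [rs, e, R_par, Units.val_one, map_one, mul_one, Pi.add_apply] at this
    rw [← H.diff_sq, this]; ring
  · obtain ⟨α, χ', -, -, H⟩ := eq_HC hχ hodd (by omega) h
    have := congrFun H.sum (upS 1 1)
    simp only [rs, e, C_par, Units.val_one, map_one, Pi.add_apply] at this
    rw [← H.diff_sq]; congr 1; linear_combination -this
  · obtain ⟨α, χ', a1, a2, H⟩ := eq_HR h1 hodd (by omega) d1
    obtain ⟨β, χ'', b1, b2, H'⟩ := eq_HR h2 hodd (by omega) d2
    obtain rfl := quad_unique a1 a2 b1 b2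
    obtain rfl := (H.cases h2 (by rw [H'.inner]; exact one_ne_zero)).resolve_left hne.symm
    have := congrFun H.sum (upS 1 1)
    simp only [rs, e, R_par, Units.val_one, map_one, mul_one, Pi.add_apply] at this
    exact this.symm
  · obtain ⟨α, χ', a1, a2, H⟩ := eq_HC h1 hodd (by omega) d1
    obtain ⟨β, χ'', b1, b2, H'⟩ := eq_HC h2 hodd (by omega) d2
    obtain rfl := (H.cases h2 (by
      rw [← CS, (quadE_unique a1 a2 b1 b2).CS_eq, CS, H'.inner]; exact one_ne_zero)).resolve_left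
      hne.symm
    have := congrFun H.sum (upS 1 1)
    simp only [rs, e, C_par, Units.val_one, map_one, Pi.add_apply] at this
    exact this.symm

end Cfsg.Agent.S2324
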