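import Cfsg.Statements.S2329
import Cfsg.Agent.H13.GL2Deg

set_option autoImplicit false
open Cfsg

namespace Cfsg.Agent.S2329

open H13.GL2 H27

theorem aux {F : Type*} [Field F] [Fintype F] (p : ℕ) [hp : Fact p.Prime] [CharP F p]
    (g : GL (Fin 2) F) (hg : orderOf g = p) : IsConj g (par 1) := by
  have h1 : ((g : Matrix (Fin 2) (Fin 2) F) - 1) ^ p = 0 := by
    haveI : CharP (Matrix (Fin 2) (Fin 2) F) p := Matrix.charP p
    rw [sub_pow_char_of_commute _ (Commute.one_right _), one_pow, ← Units.val_pow_eq_pow_val,
      ← hg, pow_orderOf_eq_one, Units.val_one, sub_self]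
  have hn : IsNilpotent ((g : Matrix (Fin 2) (Fin 2) F) - 1) := ⟨p, h1⟩
  have ht := (Matrix.isNilpotent_trace_of_isNilpotent hn).eq_zero
  have hd : ((g : Matrix (Fin 2) (Fin 2) F) - 1).det = 0 := by
    have := congrArg Matrix.det h1
    rw [Matrix.det_pow, Matrix.det_zero] at this
    exact pow_eq_zero_iff hp.out.ne_zero |>.1 this
  simp [Matrix.trace_fin_two, Matrix.det_fin_two] at ht hd
  refine isConj_of (fun hs => ?_) (by simp) (by simp [tc]; linear_combination ht)
    (by simp [dt]; linear_combination hd + ht)
  obtain ⟨x, rfl⟩ := hs.exists_dg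
  simp at hd
  have : x = 1 := Units.ext (by simpa [sub_eq_zero] using hd)
  rw [this, dg_one, orderOf_one] at hg
  exact hp.out.one_lt.ne hg

/-- Over a finite field of characteristic p, any two elements of order p of GL₂ are conjugate: there is a single conjugacy class of non-identity unipotent elements. -/
theorem result {F : Type*} [Field F] [Fintype F] (p : ℕ) [Fact p.Prime] [CharP F p] (g h : Matrix.GeneralLinearGroup (Fin 2) F)
    (hg : orderOf g = p) (hh : orderOf h = p) : IsConj g h := by
  exact (aux p g hg).trans (aux p h hh).symm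

end Cfsg.Agent.S2329
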