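import Cfsg.Statements.S2362
import Cfsg.Agent.H27.Spec13
-- import your own Cfsg.Agent.* helpers here

set_option autoImplicit false
open Cfsg

namespace Cfsg.Agent.S2362


/-- Let F be a finite field of odd order and n ≥ 3. The simple orthogonal group PΩ(2n+1, F) (type B_n) and the projective symplectic group PSp(2n, F) (type C_n), which have the same order, do not have the same set of element orders. -/
theorem result {F : Type*} [Field F] [Fintype F] (hodd : Odd (Fintype.card F)) (n : ℕ) (hn : 3 ≤ n) :
    Set.range (orderOf : Cfsg.POmega F (Cfsg.quadFormOdd n F) → ℕ) ≠ Set.range (orderOf : Cfsg.PSp n F → ℕ) := by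
  have hq : Odd (Nat.card F) := by rwa [Nat.card_eq_fintype_card]
  have := Fact.mk (CharP.char_is_prime F (ringChar F))
  obtain ⟨n, rfl⟩ : ∃ m, n = m + 1 := ⟨n - 1, by omega⟩
  exact (H27.Sp.om_pomega (H12.odd_card_iff.1 hodd) (by omega)).trans_ne
    (H27.Sp.og_ne_sp (ringChar F) hq (by omega))

end Cfsg.Agent.S2362
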