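import Cfsg.Statements.S2363
import Cfsg.Agent.H8.LieNum
import Cfsg.Agent.H11.OmegaOrder
import Cfsg.Agent.H11.OmegaBridge
import Cfsg.Agent.H11.SUBasic
import Cfsg.Agent.H11.SpSimple
import Cfsg.Agent.S1059
import Cfsg.Agent.S1062
import Cfsg.Agent.S1063
import Cfsg.Agent.S1064
import Cfsg.Agent.S1065
import Cfsg.Agent.S1066
import Cfsg.Agent.S1067
import Cfsg.Agent.S1068
import Cfsg.Agent.S1069
import Cfsg.Agent.S1163

set_option autoImplicit false
open Cfsg

namespace Cfsg.Agent.S2363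

open H8

/-- Let G be a finite simple group of Lie type in characteristic p and let p^k be the exact power of p dividing the order of G. Then the order of G is less than p^(3k); and unless G is isomorphic to PSL(2, F) for the field F with p^k elements, the cube of the order of G is less than p^(8k) (that is, the order is below p^(8k/3)). -/
theorem result {G : Type*} [Group G] [Finite G] (p : ℕ) (hp : p.Prime) (hG : Cfsg.IsLieTypeChar p G) :
    Nat.card G < p ^ (3 * (Nat.card G).factorization p) ∧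
      ((¬ ∃ (F : Type) (_ : Field F) (_ : Fintype F), Fintype.card F = p ^ (Nat.card G).factorization p ∧
          Nonempty (G ≃* Matrix.ProjectiveSpecialLinearGroup (Fin 2) F)) →
        Nat.card G ^ 3 < p ^ (8 * (Nat.card G).factorization p)) := by
  have hg : Nat.card G ≠ 0 := Nat.card_pos.ne'
  suffices h : OrdBd p (Nat.card G) ∨ (Nat.card G < p ^ (3 * (Nat.card G).factorization p) ∧
      ∃ (F : Type) (_ : Field F) (_ : Fintype F), Fintype.card F = p ^ (Nat.card G).factorization p ∧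
          Nonempty (G ≃* Matrix.ProjectiveSpecialLinearGroup (Fin 2) F)) by
    rcases h with h | h
    · exact ⟨h.1, fun _ => h.2⟩
    · exact ⟨h.1, fun h' => absurd h.2 h'⟩
  have h1 : ¬ p ∣ 1 := fun h => hp.one_lt.ne' (Nat.dvd_one.1 h)
  rcases hG with ⟨F, _, _, _, n, hn, -, ⟨φ⟩⟩ | ⟨F, _, _, _, m, hm, -, ⟨φ⟩⟩ | ⟨F, _, _, _, n, q, hF, hn, -, ⟨φ⟩⟩ |
    ⟨F, _, _, _, m, hm, ho, ⟨φ⟩⟩ | ⟨F, _, _, _, m, hm, ⟨φ⟩⟩ | ⟨F, _, _, _, m, a, b, hm, hab, ⟨φ⟩⟩ |
    ⟨F, _, _, _, h⟩ | ⟨F, _, _, _, q, hq, h⟩ | ⟨rfl, F, _, _, m, hm, hF, ⟨φ⟩⟩ | ⟨rfl, F, _, _, m, hm, hF, ⟨φ⟩⟩ |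
    ⟨rfl, F, _, _, m, hm, hF, ⟨φ⟩⟩
  · obtain ⟨e, he, hq⟩ := exists_pow_of_card hp F (pow_one _).symm one_ne_zero
    have h2 : 2 ≤ Fintype.card F := Fintype.one_lt_card
    obtain ⟨n, rfl⟩ : ∃ k, n = k + 2 := ⟨n - 2, by omega⟩
    have hd : ¬ p ∣ (Fintype.card F - 1) * Nat.gcd (n + 2) (Fintype.card F - 1) := by
      rw [hp.dvd_mul, not_or]
      exact ⟨by simpa using not_dvd_sub hp hq he 1 one_ne_zero,
        by simpa using not_dvd_gcd_sub hp hq he (n + 2) 1 one_ne_zero⟩
    have hc : (Fintype.card F - 1) * Nat.gcd (n + 2) (Fintype.card F - 1) * Nat.card G =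
        Fintype.card F ^ ((n + 2) * (n + 2 - 1) / 2) * ∏ i ∈ Finset.range (n + 2), (Fintype.card F ^ (i + 1) - 1) := by
      have a1 := H11.card_psl (ι := Fin (n + 2)) (F := F)
      rw [Fintype.card_fin] at a1
      rw [Nat.card_congr φ.toEquiv, mul_assoc, a1, H11.card_units_mul_card_sl, Matrix.card_GL_field,
        Fin.prod_univ_eq_prod_range (fun i => Fintype.card F ^ (n + 2) - Fintype.card F ^ i), prod_gl_eq]
    have hM : ∏ i ∈ Finset.range (n + 2), (Fintype.card F ^ (i + 1) - 1) <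
        (Fintype.card F - 1) * Nat.gcd (n + 2) (Fintype.card F - 1) * Fintype.card F ^ ((n + 1) * (n + 4) / 2) :=
      (prod_gl_lt h2 n).trans_le (Nat.mul_le_mul_right _ (Nat.le_mul_of_pos_right _
        (Nat.gcd_pos_of_pos_left _ (by omega))))
    rcases Nat.eq_zero_or_pos n with rfl | hn0
    · right
      have a1 := lt_of_mul_lt (by omega) hc hM
      have a2 : (Nat.card G).factorization p = e := by
        have a3 := congrArg (fun k => k.factorization p) hc
        have n1 : ¬ p ∣ ∏ i ∈ Finset.range (0 + 2), (Fintype.card F ^ (i + 1) - 1) := by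
          rw [Prime.dvd_finset_prod_iff hp.prime]
          rintro ⟨i, -, hi⟩
          exact not_dvd_sub hp hq he _ (by omega) hi
        generalize (∏ i ∈ Finset.range (0 + 2), (Fintype.card F ^ (i + 1) - 1)) = M at a3 n1
        generalize (Fintype.card F - 1) * Nat.gcd (0 + 2) (Fintype.card F - 1) = d at a3 hd
        have hd0 : d ≠ 0 := fun h => hd (by rw [h]; exact dvd_zero p)
        have hM0 : M ≠ 0 := fun h => n1 (by rw [h]; exact dvd_zero p)
        rw [Nat.factorization_mul hd0 hg, Nat.factorization_mul (pow_ne_zero _ (by omega)) hM0, Finsupp.add_apply,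
          Finsupp.add_apply, Nat.factorization_eq_zero_of_not_dvd hd, Nat.factorization_eq_zero_of_not_dvd n1,
          hq, ← pow_mul, hp.factorization_pow] at a3
        simpa using a3
      rw [a2]
      refine ⟨?_, F, inferInstance, inferInstance, hq, ⟨φ⟩⟩
      rw [mul_comm, pow_mul, ← hq]
      exact a1
    · exact Or.inl (ordBd_of hp hq hd hg hc hM (gl_exp hn0))
  · obtain ⟨e, he, hq⟩ := exists_pow_of_card hp F (pow_one _).symm one_ne_zero
    refine Or.inl (ordBd_of (a := m * (m + 1)) hp hq (d := Nat.gcd 2 (Fintype.card F - 1))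
      (by simpa using not_dvd_gcd_sub hp hq he 2 1 one_ne_zero) hg
      (by rw [Nat.card_congr φ.toEquiv]; exact H11.card_psp (by omega))
      ((prod_even_lt Fintype.card_pos (by omega)).trans_le
        (Nat.le_mul_of_pos_left _ (Nat.gcd_pos_of_pos_left _ two_pos))) (by nlinarith))
  · obtain ⟨e, he, hq⟩ := exists_pow_of_card hp F hF two_ne_zero
    have h2 : 2 ≤ q := hq ▸ Nat.one_lt_pow he hp.one_lt
    obtain ⟨a, ha, hM⟩ := prod_uf_lt h2 hn
    refine Or.inl (ordBd_of (a := a) hp hq (d := Nat.gcd n (q + 1) * (q + 1)) ?_ hg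
      (by rw [Nat.card_congr φ.toEquiv, mul_assoc]; exact H11.card_psu hF (by omega))
      (hM.trans_le (Nat.mul_le_mul_right _ (Nat.le_mul_of_pos_left _ (Nat.gcd_pos_of_pos_left _ (by omega))))) ha)
    rw [hp.dvd_mul, not_or]
    exact ⟨by simpa using not_dvd_gcd_add hp hq he n 1 one_ne_zero,
      by simpa using not_dvd_add hp hq he 1 one_ne_zero⟩
  · obtain ⟨e, he, hq⟩ := exists_pow_of_card hp F (pow_one _).symm one_ne_zero
    have hp2 : ¬ p ∣ 2 := fun h => by
      have := (Nat.prime_dvd_prime_iff_eq hp Nat.prime_two).1 h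
      subst this
      rw [hq] at ho
      exact Nat.not_even_iff_odd.2 ho (Nat.even_pow.2 ⟨even_two, he⟩)
    have h2 : (2 : F) ≠ 0 := fun h => hp2 ((CharP.cast_eq_zero_iff F p 2).1 (by exact_mod_cast h))
    refine Or.inl (ordBd_of (a := m * (m + 1)) hp hq hp2 hg
      (by rw [Nat.card_congr φ.toEquiv]; exact H11.card_pomegaOdd h2 (by omega))
      ((prod_even_lt Fintype.card_pos (by omega)).trans_le (Nat.le_mul_of_pos_left _ two_pos)) (by nlinarith))
  · obtain ⟨e, he, hq⟩ := exists_pow_of_card hp F (pow_one _).symm one_ne_zero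
    obtain ⟨m, rfl⟩ : ∃ k, m = k + 1 := ⟨m - 1, by omega⟩
    refine Or.inl (ordBd_of (a := (m + 1) + m * (m + 1)) hp hq
      (not_dvd_gcd_sub hp hq he 4 (m + 1) (by omega)) hg
      (by rw [Nat.card_congr φ.toEquiv, H11.card_pomegaPlus (by omega) (Or.inr (by omega)), mul_assoc])
      (lt_of_lt_of_le ?_ (Nat.le_mul_of_pos_left _ (Nat.gcd_pos_of_pos_left _ four_pos))) (by nlinarith))
    rw [pow_add _ (m + 1) (m * (m + 1))]
    exact Nat.mul_lt_mul'' (pow_sub_lt Fintype.card_pos _) (prod_even_lt Fintype.card_pos (by omega))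
  · obtain ⟨e, he, hq⟩ := exists_pow_of_card hp F (pow_one _).symm one_ne_zero
    obtain ⟨m, rfl⟩ : ∃ k, m = k + 1 := ⟨m - 1, by omega⟩
    refine Or.inl (ordBd_of (a := (m + 1 + 1) + m * (m + 1)) hp hq
      (not_dvd_gcd_add hp hq he 4 (m + 1) (by omega)) hg
      (by rw [Nat.card_congr φ.toEquiv, Nat.add_sub_cancel,
        H11.card_pomegaMinus (by omega) (Or.inr (by omega)) hab, mul_assoc])
      (lt_of_lt_of_le ?_ (Nat.le_mul_of_pos_left _ (Nat.gcd_pos_of_pos_left _ four_pos))) (by nlinarith))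
    rw [pow_add _ (m + 1 + 1) (m * (m + 1))]
    exact Nat.mul_lt_mul_of_le_of_lt (pow_add_le Fintype.one_lt_card _) (prod_even_lt Fintype.card_pos (by omega))
      (pow_pos Fintype.card_pos _)
  · obtain ⟨e, he, hq⟩ := exists_pow_of_card hp F (pow_one _).symm one_ne_zero
    have lt := pow_sub_lt (Fintype.card_pos (α := F))
    have d3 : ∀ c, ¬ p ∣ Nat.gcd c (Fintype.card F - 1) := fun c => by
      simpa using not_dvd_gcd_sub hp hq he c 1 one_ne_zero
    left
    rcases h with ⟨-, ⟨φ⟩⟩ | ⟨⟨φ⟩⟩ | ⟨⟨φ⟩⟩ | ⟨⟨φ⟩⟩ | ⟨⟨φ⟩⟩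
    · refine ordBd_of (a := 2 + 6) (N := 6) hp hq h1 hg
        (by rw [Nat.card_congr φ.toEquiv, S1059.result rfl, one_mul, mul_assoc]) ?_ (by norm_num)
      simp only [pow_add, one_mul]
      exact Nat.mul_lt_mul'' (lt _) (lt _)
    · refine ordBd_of (a := 2 + (6 + (8 + 12))) (N := 24) hp hq h1 hg
        (by rw [Nat.card_congr φ.toEquiv, S1062.result rfl, one_mul]; simp only [mul_assoc]; rfl) ?_ (by norm_num)
      simp only [pow_add, one_mul]
      repeat' first | exact lt _ | apply Nat.mul_lt_mul''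
    · refine ordBd_of (a := 2 + (5 + (6 + (8 + (9 + 12))))) (N := 36) hp hq (d3 3) hg
        (by rw [Nat.card_congr φ.toEquiv, S1063.result rfl]; simp only [mul_assoc]; rfl)
        (lt_of_lt_of_le ?_ (Nat.le_mul_of_pos_left _ (Nat.gcd_pos_of_pos_left _ three_pos))) (by norm_num)
      simp only [pow_add]
      repeat' first | exact lt _ | apply Nat.mul_lt_mul''
    · refine ordBd_of (a := 2 + (6 + (8 + (10 + (12 + (14 + 18)))))) (N := 63) hp hq (d3 2) hg
        (by rw [Nat.card_congr φ.toEquiv, S1064.result rfl]; simp only [mul_assoc]; rfl)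
        (lt_of_lt_of_le ?_ (Nat.le_mul_of_pos_left _ (Nat.gcd_pos_of_pos_left _ two_pos))) (by norm_num)
      simp only [pow_add]
      repeat' first | exact lt _ | apply Nat.mul_lt_mul''
    · refine ordBd_of (a := 2 + (8 + (12 + (14 + (18 + (20 + (24 + 30))))))) (N := 120) hp hq h1 hg
        (by rw [Nat.card_congr φ.toEquiv, S1065.result rfl, one_mul]; simp only [mul_assoc]; rfl) ?_ (by norm_num)
      simp only [pow_add, one_mul]
      repeat' first | exact lt _ | apply Nat.mul_lt_mul''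
  · left
    rcases h with ⟨hF, ⟨φ⟩⟩ | ⟨hF, ⟨φ⟩⟩
    · obtain ⟨e, he, hq'⟩ := exists_pow_of_card hp F hF two_ne_zero
      have h2 : 2 ≤ q := hq.two_le
      have lt := pow_sub_lt (q := q) (by omega)
      refine ordBd_of (a := 2 + (6 + (6 + (8 + (10 + 12))))) (N := 36) hp hq'
        (by simpa using not_dvd_gcd_add hp hq' he 3 1 one_ne_zero) hg
        (by rw [Nat.card_congr φ.toEquiv, S1066.result hq hF]; simp only [mul_assoc]; rfl)
        (lt_of_lt_of_le ?_ (Nat.le_mul_of_pos_left _ (Nat.gcd_pos_of_pos_left _ three_pos))) (by norm_num)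
      simp only [pow_add]
      exact Nat.mul_lt_mul_of_lt_of_le (lt _) (Nat.mul_le_mul (pow_add_le h2 5) (Nat.mul_le_mul (lt _).le
        (Nat.mul_le_mul (lt _).le (Nat.mul_le_mul (pow_add_le h2 9) (lt _).le)))) (by positivity)
    · obtain ⟨e, he, hq'⟩ := exists_pow_of_card hp F hF three_ne_zero
      have h2 : 2 ≤ q := hq.two_le
      have lt := pow_sub_lt (q := q) (by omega)
      refine ordBd_of (a := 2 + (6 + 10)) (N := 12) hp hq' h1 hg
        (by rw [Nat.card_congr φ.toEquiv, S1067.result hq hF, one_mul]; simp only [mul_assoc]; rfl) ?_ (by norm_num)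
      simp only [pow_add, one_mul]
      refine Nat.mul_lt_mul_of_lt_of_le (lt _) (Nat.mul_le_mul (lt _).le ?_) (by positivity)
      have a1 : q ^ 4 + 1 ≤ q ^ 8 := (pow_add_le h2 4).trans (Nat.pow_le_pow_right (by omega) (by norm_num))
      have a2 : 4 ≤ q ^ 2 := by nlinarith
      rw [show q ^ 10 = q ^ 2 * q ^ 8 by ring]
      have a3 := Nat.mul_le_mul_right (q ^ 8) a2
      omega
  · left
    have h2 : 2 ≤ 2 ^ (2 * m + 1) := Nat.one_lt_two_pow (by omega)
    refine ordBd_of (a := 3) (N := 2) hp rfl h1 hg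
      (by rw [Nat.card_congr φ.toEquiv, (S1163.result hm hF).1, one_mul, mul_assoc]) ?_ (by norm_num)
    generalize 2 ^ (2 * m + 1) = q at h2
    obtain ⟨x, rfl⟩ : ∃ x, q = x + 1 := ⟨q - 1, by omega⟩
    rw [Nat.add_sub_cancel]
    nlinarith [Nat.zero_le (x ^ 2), Nat.zero_le x]
  · left
    have h2 : 2 ≤ 2 ^ (2 * m + 1) := Nat.one_lt_two_pow (by omega)
    refine ordBd_of (a := 1 + (4 + (4 + 7))) (N := 12) hp rfl h1 hg
      (by rw [Nat.card_congr φ.toEquiv, S1068.result hF, one_mul]; simp only [mul_assoc]; rfl) ?_ (by norm_num)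
    generalize 2 ^ (2 * m + 1) = q at h2
    have lt := pow_sub_lt (q := q) (by omega)
    simp only [pow_add, one_mul]
    exact Nat.mul_lt_mul_of_lt_of_le (by simpa using lt 1) (Nat.mul_le_mul (pow_add_le h2 3)
      (Nat.mul_le_mul (lt _).le (pow_add_le h2 6))) (by positivity)
  · left
    have h2 : 2 ≤ 3 ^ (2 * m + 1) := Nat.one_lt_pow (by omega) (by norm_num)
    refine ordBd_of (a := 1 + 4) (N := 3) hp rfl h1 hg
      (by rw [Nat.card_congr φ.toEquiv, S1069.result hF, one_mul]; simp only [mul_assoc]; rfl) ?_ (by norm_num)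
    generalize 3 ^ (2 * m + 1) = q at h2
    have lt := pow_sub_lt (q := q) (by omega)
    simp only [pow_add, one_mul]
    exact Nat.mul_lt_mul_of_lt_of_le (by simpa using lt 1) (pow_add_le h2 3) (by positivity)

end Cfsg.Agent.S2363
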