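import Cfsg.Statements.S2365
import Cfsg.Agent.H27.Spec7
-- import your own Cfsg.Agent.* helpers here

set_option autoImplicit false
open Cfsg

namespace Cfsg.Agent.S2365


/-- Let q be a power of the prime p, F the field with q² elements, m ≥ 4, and let a, b be commuting elements of PSU(m, q) with a of order p. Then every prime divisor of the order of b divides the order of SU(m − 2, q). -/
theorem result {F : Type*} [Field F] [Fintype F] (p : ℕ) [Fact p.Prime] [CharP F p] (m q : ℕ) (hm : 4 ≤ m) (hF : Fintype.card F = q ^ 2)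
    (a b : Cfsg.PSU m F q) (ha : orderOf a = p) (hab : Commute a b) :
    (orderOf b).primeFactors ⊆ (Nat.card ↥(Cfsg.SU (m - 2) F q)).primeFactors := by
  intro r hr
  obtain ⟨h1, h2, -⟩ := Nat.mem_primeFactors.1 hr
  have hQ := H27.Sp.qp_neg (p := p) hF
  obtain ⟨x, hx⟩ := H27.Sp.prime_mem hQ (H27.Sp.psu_spec F (AlgebraicClosure F) (n := m - 2) hF (by omega)) h1
    (by omega) (H27.Sp.commute_prime hQ (H27.Sp.psu_spec F (AlgebraicClosure F) hF (by omega)) ha hab h1 h2)
  exact Nat.mem_primeFactors.2 ⟨h1, (hx ▸ orderOf_dvd_natCard x).trans (Subgroup.card_quotient_dvd_card _),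
    Nat.card_pos.ne'⟩

end Cfsg.Agent.S2365
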