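import Cfsg.Statements.S2367
import Cfsg.Agent.H12.Unip
-- import your own Cfsg.Agent.* helpers here

set_option autoImplicit false
set_option maxHeartbeats 400000
open Cfsg

namespace Cfsg.Agent.S2367

set_option synthInstance.maxSize 2000 in
theorem aux : ∀ N ∈ [7920, 95040, 443520, 10200960, 244823040, 175560, 604800, 50232960,
    86775571046077562880, 4157776806543360000, 42305421312000, 495766656000, 64561751654400,
    4089470473293004800, 1255205709190661721292800, 44352000, 898128000, 4030387200, 145926144000,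
    448345497600, 460815505920, 273030912000000, 51765179004000000, 90745943887872000,
    4154781481226426191177580544000000, 808017424794512875886459904961710757005754368000000000],
    N ∣ Nat.factorial 71 ^ 2 ∧ ∀ p < 72, p.Prime → p ≠ 2 → p ^ 3 ∣ N → p ^ 4 ∣ N ∨
      ∃ a < 47, 2 ^ a ∣ N ∧ p ^ 3 < 2 ^ a := by decide +kernel

/-- Let G be an alternating group of degree at least 5 or a simple group with the order of one of the 26 sporadic groups, and let p be an odd prime such that p³ is the exact power of p dividing the order of G. Then p³ is less than the 2-part of the order of G. -/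
theorem result {G : Type*} [Group G] [Finite G] (hG : Cfsg.IsAlternating G ∨ Cfsg.IsSporadic G)
    (p : ℕ) (hp : p.Prime) (hodd : p ≠ 2) (h3 : (Nat.card G).factorization p = 3) :
    p ^ 3 < 2 ^ (Nat.card G).factorization 2 := by
  have h0 := (Nat.card_pos (α := G)).ne'
  have h1 := (hp.pow_dvd_iff_le_factorization h0).2 h3.ge
  suffices h : ∃ a, 2 ^ a ∣ Nat.card G ∧ p ^ 3 < 2 ^ a from let ⟨a, h4, h5⟩ := h
    h5.trans_le (Nat.pow_le_pow_right two_pos ((Nat.prime_two.pow_dvd_iff_le_factorization h0).1 h4))
  rcases hG with ⟨n, hn, ⟨e⟩⟩ | hG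
  · have : Nontrivial (Fin n) := Fin.nontrivial_iff_two_le.2 (by omega)
    have h2 : 2 * Nat.card G = n.factorial := by
      rw [Nat.card_congr e.toEquiv, two_mul_nat_card_alternatingGroup];
        simp [Fintype.card_perm]
    have h4 := hp.two_le
    have h5 : 3 * p ≤ n := by
      by_contra h
      have := (hp.pow_dvd_factorial_iff (b := 2) (Nat.log_lt_of_lt_pow (by omega)
        (show n < p ^ 2 by nlinarith [show 3 ≤ p by omega]))).1 (h2 ▸ h1.mul_left 2)
      simp only [Nat.Ico_succ_singleton, Finset.sum_singleton, pow_one] at this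
      exact h ((Nat.le_div_iff_mul_le hp.pos).1 this)
    obtain ⟨k, h6, h7⟩ : ∃ k, 2 * (2 * (k + 2)) ≤ n ∧ n ≤ 4 * k + 11 := ⟨n / 4 - 2, by omega⟩
    have h8 : 2 ^ (3 * k + 6) ∣ 2 * Nat.card G := h2 ▸ .trans (padicValNat_dvd_iff_le
      (Nat.factorial_ne_zero _) |>.2 (by
        rw [padicValNat_factorial_mul, padicValNat_factorial_mul]; omega))
      (Nat.factorial_dvd_factorial h6)
    refine ⟨3 * k + 5, Nat.dvd_of_mul_dvd_mul_left two_pos (pow_succ' 2 _ ▸ h8), ?_⟩
    obtain _ | k := k
    · obtain rfl : p = 3 := by omega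
      decide
    have h9 : k < 2 ^ k := Nat.lt_two_pow_self
    have h10 := Nat.pow_le_pow_left (show p ≤ 6 * 2 ^ k by omega) 3
    rw [mul_pow, ← pow_mul] at h10
    rw [show 3 * (k + 1) + 5 = k * 3 + 8 by ring, pow_add]
    have := Nat.two_pow_pos (k * 3)
    omega
  obtain ⟨h4, h5⟩ := aux (Nat.card G) (by
    rcases hG with h | h | h | h | h | h | h | h | h | h | h | h | h | h | h | h | h | h | h | h |
      h | h | h | h | h | h <;> rw [h.2] <;> decide)
  rcases h5 p (Nat.lt_succ_of_le (hp.dvd_factorial.1 (hp.dvd_of_dvd_pow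
    (((dvd_pow_self p (by decide)).trans h1).trans h4))))
    hp hodd h1 with h | ⟨a, -, h⟩
  · exact absurd ((hp.pow_dvd_iff_le_factorization h0).1 h) (by omega)
  · exact ⟨a, h⟩

end Cfsg.Agent.S2367
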