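import Cfsg.Statements.S2368
import Cfsg.Agent.H12.Unip
-- import your own Cfsg.Agent.* helpers here

set_option autoImplicit false
set_option maxHeartbeats 400000
open Cfsg

namespace Cfsg.Agent.S2368

open Polynomial

/-- Let F be a finite field of characteristic p and m ≥ 1. Every element of GL(m, F) of p-power order has order less than p·m, and GL(m, F) has an element of p-power order at least m; so the largest order of a p-element of GL(m, F) is the least power of p that is at least m. -/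
theorem result {F : Type*} [Field F] [Fintype F] (p : ℕ) [Fact p.Prime] [CharP F p] (m : ℕ) (hm : 1 ≤ m) :
    (∀ g : Matrix.GeneralLinearGroup (Fin m) F, (∃ j : ℕ, orderOf g = p ^ j) → orderOf g < p * m) ∧
      ∃ g : Matrix.GeneralLinearGroup (Fin m) F, (∃ j : ℕ, orderOf g = p ^ j) ∧ m ≤ orderOf g := by
  have hp : p.Prime := Fact.out
  refine ⟨fun g ⟨j, hj⟩ => ?_, ?_⟩
  · rw [hj]
    obtain _ | j := j
    · simpa using Nat.lt_of_lt_of_le hp.one_lt (Nat.le_mul_of_pos_right p hm)
    rw [pow_succ']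
    refine Nat.mul_lt_mul_of_pos_left (lt_of_not_ge fun h => ?_) hp.pos
    have h1 := H12.sub_one_pow_eq_zero p (T := Matrix.toLinAlgEquiv' g.1) (j := j + 1) (k := p ^ j)
      (by rw [← map_pow, ← hj, ← Units.val_pow_eq_pow_val, pow_orderOf_eq_one]; simp) (by simpa)
    rw [H12.sub_one_pow_char_pow (F := F), sub_eq_zero, ← map_pow, map_eq_one_iff _
      (AlgEquiv.injective _), ← Units.val_pow_eq_pow_val, Units.val_eq_one,
      ← orderOf_dvd_iff_pow_eq_one, hj, Nat.pow_dvd_pow_iff_le_right hp.one_lt] at h1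
    omega
  let b := (AdjoinRoot.powerBasis (pow_ne_zero m (X_ne_zero (R := F)))).basis.reindex
    (finCongr (natDegree_X_pow m))
  let T := Algebra.leftMulMatrix b (AdjoinRoot.mk _ X + 1)
  have h1 : ∀ j, T ^ p ^ j = 1 ↔ m ≤ p ^ j := fun j => by
    rw [← sub_eq_zero, ← H12.sub_one_pow_char_pow (F := F), ← map_one (Algebra.leftMulMatrix b),
      ← map_sub, ← map_pow, map_eq_zero_iff _ (Algebra.leftMulMatrix_injective b), add_sub_cancel_right,
      ← map_pow, AdjoinRoot.mk_eq_zero, pow_dvd_pow_iff X_ne_zero not_isUnit_X]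
  have h2 := (h1 m).2 (Nat.lt_pow_self hp.one_lt).le
  obtain ⟨g, hg⟩ := IsUnit.of_pow_eq_one h2 (pow_ne_zero _ hp.ne_zero)
  obtain ⟨j, -, hj⟩ := (Nat.dvd_prime_pow hp).1 (orderOf_dvd_of_pow_eq_one (x := g)
    (Units.ext (by rw [Units.val_pow_eq_pow_val, hg, h2]; rfl)))
  exact ⟨g, ⟨j, hj⟩, hj ▸ (h1 j).1 (by
    rw [← hg, ← Units.val_pow_eq_pow_val, ← hj, pow_orderOf_eq_one]; rfl)⟩

end Cfsg.Agent.S2368
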