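import Cfsg.Statements.S2369
import Cfsg.Agent.H14.TwBT

set_option autoImplicit false
open Cfsg

namespace Cfsg.Agent.S2369

/-- Let q = 2^(2m+1) with m ≥ 1 and let a, b be commuting elements of the large Ree group ²F₄(q) with a an involution. Then every prime divisor of the order of b divides q(q⁴ − 1). -/
theorem result {K : Type*} [Field K] [Fintype K] (m : ℕ) (hm : 1 ≤ m) (hK : Fintype.card K = 2 ^ (2 * m + 1))
    (a b : ↥(Cfsg.Lie.twistedF4 K (2 ^ m))) (ha : orderOf a = 2) (hab : Commute a b) :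
    (orderOf b).primeFactors ⊆ (2 ^ (2 * m + 1) * ((2 ^ (2 * m + 1)) ^ 4 - 1)).primeFactors := by
  obtain ⟨_, φ, h2, hφ⟩ := H14.exists_tits Nat.prime_two hK
  have h := (H14.F4.isTw (h2 := h2) hφ).emb
  set e := Subgroup.inclusion (H14.F4.isTw (h2 := h2) hφ).le
  set T := H14.F4.T φ h2
  have hh := H14.goodF4.SG_hmul K
  obtain ⟨g, hg, J, h3, h4, h5, -⟩ := T.borel_tits 2 hh h.ex (T.injective (H14.goodF4.center_eq_bot K))
    (X := Subgroup.zpowers (e a)) (.of_card (n := 1) (by rw [Nat.card_zpowers, orderOf_injective e h.inj, ha, pow_one]))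
    (by rw [MonoidHom.map_zpowers, H14.St.Tw.mem_fix.1 (h.mem a)])
    (fun h0 => by simp [h.inj ((Subgroup.zpowers_eq_bot.1 h0).trans (map_one e).symm)] at ha)
  obtain ⟨i, hi⟩ : ∃ i, J ⊆ T.orb i := by
    obtain ⟨j, hj⟩ := (Set.ne_univ_iff_exists_notMem J).1 h3
    obtain ⟨i, hi⟩ := (by decide : ∀ j, ∃ i, ∀ k, H14.okgrF4.pi.SameCycle j k ∨ H14.okgrF4.pi.SameCycle i k) j
    exact ⟨i, fun k hk => (hi k).resolve_left fun c =>
      H14.St.Tw.orb_induction (P := (· ∉ J)) (fun j a c => a ((h4 j).1 c)) hj k c hk⟩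
  have h6 := Subgroup.orderOf_dvd_natCard _ (Subgroup.mem_inf.2 ⟨H14.St.P_mono hi (h5 (e b)
    (Subgroup.centralizer_le_normalizer _ (by rintro _ ⟨n, rfl⟩; exact ((hab.map e).zpow_left n).eq))), mul_mem (mul_mem (inv_mem hg) (h.mem b)) hg⟩)
  obtain ⟨k, hk⟩ := ((H14.St.isPGroup_U 2 T.sep).to_inf_left (K := T.fix)).exists_card_eq
  obtain ⟨l, h7, h8⟩ := H14.F4.card_Up (h2 := h2) i
  have h9 : l = 1 ∨ l = 2 := by
    have := T.forall_orb (P := fun J => H14.goodF4.R.len (H14.goodF4.R.w0 J) = 2 ∨ H14.goodF4.R.len (H14.goodF4.R.w0 J) = 4)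
      _ H14.F4.reps (by simpa using ⟨.inl H14.F4.P0.len_w0, .inr H14.F4.P1.len_w0⟩) i
    rw [show H14.goodF4.R.len (H14.goodF4.R.w0 (T.orb i)) = 2 * l from h7] at this
    omega
  rw [show g⁻¹ * e b * g = MulAut.conj g⁻¹ (e b) by simp, MulEquiv.orderOf_eq, orderOf_injective e h.inj,
    H14.St.Tw.card_P_orb h.ex, H14.St.Tw.card_B_fix, hk, H14.F4.card_H, h8, Nat.card_units, Nat.card_eq_fintype_card, hK] at h6
  obtain ⟨q, hq⟩ : ∃ q, 2 ^ (2 * m + 1) = q + 1 := ⟨_, (Nat.succ_pred_eq_of_pos (by positivity)).symm⟩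
  have hq' : 2 ∣ q + 1 := hq ▸ dvd_pow_self 2 (by omega)
  rw [hq] at h6 ⊢
  rw [show (q + 1) ^ 4 - 1 = q * ((1 + (q + 1) ^ 1) * (1 + (q + 1) ^ 2)) from Nat.sub_eq_of_eq_add (by ring)]
  intro r hr
  have hp := Nat.prime_of_mem_primeFactors hr
  refine Nat.mem_primeFactors.2 ⟨hp, ?_, by have : q ≠ 0 := by omega
                                            positivity⟩
  rcases (hp.dvd_mul.1 ((Nat.dvd_of_mem_primeFactors hr).trans h6)) with c | c
  · rcases hp.dvd_mul.1 c with c | c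
    · exact ((hp.dvd_of_dvd_pow c).trans hq').mul_right _
    · exact ((hp.dvd_of_dvd_pow c).mul_right _).mul_left _
  · rcases h9 with rfl | rfl
    exacts [((c.mul_right _).mul_left _).mul_left _, ((c.mul_left _).mul_left _).mul_left _]

end Cfsg.Agent.S2369
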