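import Cfsg.Statements.S2370
import Cfsg.Agent.H14.Cen2
import Cfsg.Agent.H14.TwF4

set_option autoImplicit false
open Cfsg

namespace Cfsg.Agent.S2370

/-- Let q = 2^(2m+1) with m ≥ 1. Every element of 2-power order of the large Ree group ²F₄(q) has order at most 32. -/
theorem result {K : Type*} [Field K] [Fintype K] (m : ℕ) (hm : 1 ≤ m) (hK : Fintype.card K = 2 ^ (2 * m + 1))
    (x : ↥(Cfsg.Lie.twistedF4 K (2 ^ m))) (hx : ∃ j : ℕ, orderOf x = 2 ^ j) : orderOf x ≤ 32 := by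
  obtain ⟨_, φ, h2, h3⟩ := H14.exists_tits Nat.prime_two hK
  have h := (H14.F4.isTw (h2 := h2) h3).emb
  obtain ⟨P, hP⟩ := h.exists_sylow 2 (H14.goodF4.SG_hmul K)
  obtain ⟨j, hj⟩ := hx
  obtain ⟨Q, hQ⟩ := (IsPGroup.of_card (p := 2) ((Nat.card_zpowers x).trans hj)).exists_le_sylow
  obtain ⟨g, rfl⟩ := MulAction.exists_smul_eq (Cfsg.Lie.twistedF4 K (2 ^ m)) P Q
  have h4 := hQ (Subgroup.mem_zpowers x)
  rw [Sylow.coe_subgroup_smul, Subgroup.mem_pointwise_smul_iff_inv_smul_mem, hP] at h4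
  have h5 := H14.goodF4.C.ad_pow_eq_zero (H14.goodF4.mem_SG_U.1 h4) (m := 11) (n := 2 ^ 5) (by decide +kernel) (by norm_num)
  rw [sub_pow_char_pow_of_commute _ _ (Commute.one_right _), one_pow, sub_eq_zero] at h5
  have h6 : ((MulAut.conj g)⁻¹ x) ^ 2 ^ 5 = 1 := Subtype.ext (Units.ext h5)
  rw [← map_pow, map_eq_one_iff _ (MulEquiv.injective _)] at h6
  exact orderOf_le_of_pow_eq_one (by norm_num) h6

end Cfsg.Agent.S2370
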