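import Cfsg.Statements.S2372
import Cfsg.Agent.H14.CycT

set_option autoImplicit false
open Cfsg

namespace Cfsg.Agent.S2372

/-- The group F₄(q) contains a cyclic subgroup of order q⁴ + 1 which is its own centralizer. -/
theorem result {F : Type*} [Field F] [Fintype F] (q : ℕ) (hF : Fintype.card F = q) :
    ∃ H : Subgroup ↥(Cfsg.Lie.chevF4.group F), IsCyclic ↥H ∧ Nat.card ↥H = q ^ 4 + 1 ∧
      Subgroup.centralizer (H : Set ↥(Cfsg.Lie.chevF4.group F)) = H := by
  simpa using H14.goodF4.cyc_split F (H14.goodF4.stb_tor_inj H14.kerF4) H14.cmF4 (g := 1) H14.cycOkF4 hF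
    (hF ▸ Fintype.one_lt_card) (n := q ^ 4 + 1) (by simp; ring)

end Cfsg.Agent.S2372
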