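import Cfsg.Statements.S2374
import Cfsg.Agent.H14.CycT

set_option autoImplicit false
open Cfsg

namespace Cfsg.Agent.S2374

/-- The group E₇(q) (the simple Chevalley group of type E₇) contains a cyclic subgroup of order (q⁴ − q² + 1)(q³ + 1)/gcd(2, q − 1) which is its own centralizer. -/
theorem result {F : Type*} [Field F] [Fintype F] (q : ℕ) (hF : Fintype.card F = q) :
    ∃ H : Subgroup ↥(Cfsg.Lie.chevE7.group F), IsCyclic ↥H ∧ Nat.card ↥H = (q ^ 4 - q ^ 2 + 1) * (q ^ 3 + 1) / Nat.gcd 2 (q - 1) ∧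
      Subgroup.centralizer (H : Set ↥(Cfsg.Lie.chevE7.group F)) = H := by
  have h : 1 < q := hF ▸ Fintype.one_lt_card
  exact H14.goodE7.cyc_split F (H14.stb_tor_injectiveE7 _) H14.cmE7 (g := 2) H14.cycOkE7 hF h
    (by zify [Nat.pow_le_pow_right h.le (by decide : 2 ≤ 4)]; simp; ring)

end Cfsg.Agent.S2374
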