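import Cfsg.Statements.S2375
import Cfsg.Agent.H14.CycT

set_option autoImplicit false
open Cfsg

namespace Cfsg.Agent.S2375

/-- The group E₈(q) contains a cyclic subgroup of order q⁸ + q⁷ − q⁵ − q⁴ − q³ + q + 1 which is its own centralizer. -/
theorem result {F : Type*} [Field F] [Fintype F] (q : ℕ) (hF : Fintype.card F = q) :
    ∃ H : Subgroup ↥(Cfsg.Lie.chevE8.group F), IsCyclic ↥H ∧ Nat.card ↥H = q ^ 8 + q ^ 7 - q ^ 5 - q ^ 4 - q ^ 3 + q + 1 ∧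
      Subgroup.centralizer (H : Set ↥(Cfsg.Lie.chevE8.group F)) = H := by
  have h : 1 < q := hF ▸ Fintype.one_lt_card
  have h1 : ∀ n, 2 * q ^ n ≤ q ^ (n + 1) := fun n => by rw [pow_succ']; exact Nat.mul_le_mul_right _ h
  have : 2 * q ^ 3 ≤ q ^ 4 := h1 3
  have : 2 * q ^ 4 ≤ q ^ 5 := h1 4
  have : 2 * q ^ 5 ≤ q ^ 6 := h1 5
  have : 2 * q ^ 6 ≤ q ^ 7 := h1 6
  simpa using H14.goodE8.cyc_split F (H14.goodE8.stb_tor_inj H14.kerE8) H14.cmE8 (g := 1) H14.cycOkE8 hF h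
    (n := q ^ 8 + q ^ 7 - q ^ 5 - q ^ 4 - q ^ 3 + q + 1) (by
      rw [Nat.cast_add, Nat.cast_add, Nat.cast_sub (by omega), Nat.cast_sub (by omega), Nat.cast_sub (by omega)]
      simp; ring)

end Cfsg.Agent.S2375
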