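import Cfsg.Statements.S2391
import Cfsg.Agent.H12.Unip
-- import your own Cfsg.Agent.* helpers here

set_option autoImplicit false
set_option maxHeartbeats 400000
open Cfsg

namespace Cfsg.Agent.S2391

open Matrix

/-- The Borel–Tits property of `SL_n(q)` in flag form: for a field `F` of characteristic `p` with finitely many elements and a non-trivial `p`-subgroup `U` of `SL_n(F)`, there is a flag `0 = V₀ < V₁ < ⋯ < V_{k+1} = F^n` with at least one proper non-zero member such that every element of the normaliser of `U` maps each `V_i` onto itself and every element of `U` acts trivially on each quotient `V_{i+1}/V_i` (so the normaliser lies in the parabolic subgroup of the flag and `U` in its unipotent radical). -/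
theorem result {F : Type*} [Field F] [Fintype F] (p : ℕ) [Fact p.Prime] [CharP F p] (n : ℕ)
    (U : Subgroup (Matrix.SpecialLinearGroup (Fin n) F)) (hU : IsPGroup p ↥U) (hne : U ≠ ⊥) :
    ∃ (k : ℕ) (V : Fin (k + 2) → Submodule F (Fin n → F)), 1 ≤ k ∧ StrictMono V ∧ V 0 = ⊥ ∧ V (Fin.last (k + 1)) = ⊤ ∧
      (∀ g ∈ Subgroup.normalizer (U : Set (Matrix.SpecialLinearGroup (Fin n) F)), ∀ i, (V i).map (Matrix.mulVecLin (g : Matrix (Fin n) (Fin n) F)) = V i) ∧
      (∀ u ∈ U, ∀ i : Fin (k + 1), ∀ v ∈ V i.succ, (u : Matrix (Fin n) (Fin n) F).mulVec v - v ∈ V (Fin.castSucc i)) := by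
  let ρ : SpecialLinearGroup (Fin n) F →* Module.End F (Fin n → F) :=
    toLinAlgEquiv'.toMonoidHom.comp SpecialLinearGroup.coeMonoidHom
  let W : ℕ → Submodule F (Fin n → F) := fun i => Nat.rec ⊥ (fun _ X => ⨅ u ∈ U, X.comap (ρ u - 1)) i
  have hW : ∀ i v, v ∈ W (i + 1) ↔ ∀ u ∈ U, ρ u v - v ∈ W i := fun i v => by
    simp [W, Submodule.mem_iInf]
  have h1 : ∀ g ∈ Subgroup.normalizer (U : Set (SpecialLinearGroup (Fin n) F)), ∀ i,
      W i ≤ (W i).comap (ρ g) := fun g hg i => by
    induction i with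
    | zero => exact bot_le
    | succ i ih =>
      refine fun v hv => (hW i _).2 fun u hu => ?_
      have := ih ((hW i v).1 hv _ ((Subgroup.mem_normalizer_iff''.1 hg u).1 hu))
      rwa [Submodule.mem_comap, map_sub, ← Module.End.mul_apply, ← map_mul, ← mul_assoc,
        mul_inv_cancel_left, map_mul] at this
  have h2 : ∀ i, W i ≠ ⊤ → W i < W (i + 1) := fun i h => by
    have := Submodule.Quotient.nontrivial_iff.2 h
    obtain ⟨v, hv, h3⟩ := H12.exists_fixed_of_isPGroup p hU (Representation.quotient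
      (ρ.comp U.subtype) (W i) fun u => h1 _ (Subgroup.le_normalizer u.2) i)
    obtain ⟨v, rfl⟩ := Submodule.Quotient.mk_surjective _ v
    refine SetLike.lt_iff_le_and_exists.2 ⟨fun w hw => (hW i w).2 fun u hu =>
      sub_mem (h1 _ (Subgroup.le_normalizer hu) i hw) hw, v, (hW i v).2 fun u hu =>
        (Submodule.Quotient.eq _).1 (h3 ⟨u, hu⟩), mt (Submodule.Quotient.mk_eq_zero _).2 hv⟩
  have h3 : ∃ i, W i = ⊤ := by
    by_contra h
    push Not at h
    exact not_injective_infinite_finite _ (strictMono_nat_of_lt_succ fun i => h2 i (h i)).injective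
  obtain ⟨m, hm, hm'⟩ : ∃ m, W m = ⊤ ∧ ∀ i < m, W i ≠ ⊤ :=
    by classical exact ⟨_, Nat.find_spec h3, fun _ => Nat.find_min h3⟩
  have h4 : ¬ m ≤ 1 := fun h => hne (eq_bot_iff.2 fun u hu => by
    have h5 : W 1 = ⊤ := by
      rcases Nat.le_one_iff_eq_zero_or_eq_one.1 h with e | e
      · exact eq_top_iff.2 fun v _ => (hW 0 v).2 fun _ _ => (e ▸ hm : W 0 = ⊤).ge trivial
      · exact e ▸ hm
    exact Subtype.ext (toLin'.injective (LinearMap.ext fun v => by
      simpa using sub_eq_zero.1 (show u.1 *ᵥ v - v = 0 from (hW 0 v).1 (h5.ge trivial) u hu))))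
  obtain ⟨k, rfl⟩ : ∃ k, m = k + 1 := ⟨m - 1, by omega⟩
  refine ⟨k, fun i => W i, by omega, Fin.strictMono_iff_lt_succ.2 fun i =>
    h2 _ (hm' _ i.2), rfl, hm, fun g hg i =>
    le_antisymm (Submodule.map_le_iff_le_comap.2 (h1 g hg i)) fun v hv =>
      ⟨_, h1 _ (inv_mem hg) i hv, show ρ g (ρ g⁻¹ v) = v by
        rw [← Module.End.mul_apply, ← map_mul]; simp⟩, fun u hu i v hv => (hW _ v).1 hv u hu⟩

end Cfsg.Agent.S2391
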