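import Cfsg.Statements.S2392
import Cfsg.Agent.H11.LS3

set_option autoImplicit false
open scoped MatrixGroups
open Cfsg

namespace Cfsg.Agent.S2392

/-- A lower bound for representations in cross characteristic: for `n ≥ 3` and a field `F` with `q` elements, every homomorphism from `SL_n(F)` to `GL_d(K)`, `K` a field of characteristic different from that of `F`, whose kernel is central has `d ≥ q^(n-1) - 1`. -/
theorem result {F : Type*} [Field F] [Fintype F] {q : ℕ} (hq : Fintype.card F = q) (n : ℕ) (hn : 3 ≤ n)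
    {K : Type*} [Field K] (hK : ringChar K ≠ ringChar F) {d : ℕ}
    (ρ : Matrix.SpecialLinearGroup (Fin n) F →* GL (Fin d) K) (hker : ρ.ker ≤ Subgroup.center (Matrix.SpecialLinearGroup (Fin n) F)) :
    q ^ (n - 1) - 1 ≤ d := by
  classical
  obtain ⟨m, rfl⟩ : ∃ m, n = m + 1 := ⟨n - 1, by omega⟩
  let e : Fin m ⊕ Unit ≃ Fin (m + 1) := Fintype.equivOfCardEq (by simp)
  let φ := H11.slCongr e (RingEquiv.refl F)
  have := H11.LS.sl_bound ((H11.LS.bc ρ).comp φ.toMonoidHom) (H11.LS.char_ne hK) (by simp; omega)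
    (e := Pi.single ⟨0, by omega⟩ 1) fun h => ?_
  · simpa [hq] using this
  have h1 := (H11.mem_center_equiv φ _).1 (hker (H11.LS.bc_eq_one ρ h))
  obtain ⟨r, -, h2⟩ := Matrix.SpecialLinearGroup.mem_center_iff.1 h1
  have := congrFun (congrFun h2 (Sum.inl ⟨0, by omega⟩)) (Sum.inr ())
  simp [H11.LS.slX] at this

end Cfsg.Agent.S2392
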