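import Cfsg.Statements.S2393
import Cfsg.Agent.H11.LS3

set_option autoImplicit false
set_option maxHeartbeats 200000
open scoped MatrixGroups
open Cfsg

namespace Cfsg.Agent.S2393

/-- A lower bound for representations in cross characteristic: for `n ≥ 2` and a field `F` with `q` elements, `q` odd, every homomorphism from the symplectic group `Sp_{2n}(F)` to `GL_d(K)`, `K` a field of characteristic different from that of `F`, whose kernel is central has `d ≥ q^(n-1)(q-1)/2`. -/
theorem result {F : Type*} [Field F] [Fintype F] {q : ℕ} (hq : Fintype.card F = q) (hodd : Odd q) (n : ℕ) (hn : 2 ≤ n)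
    {K : Type*} [Field K] (hK : ringChar K ≠ ringChar F) {d : ℕ}
    (ρ : ↥(Matrix.symplecticGroup (Fin n) F) →* GL (Fin d) K) (hker : ρ.ker ≤ Subgroup.center ↥(Matrix.symplecticGroup (Fin n) F)) :
    q ^ (n - 1) * (q - 1) / 2 ≤ d := by
  have h2 : (2 : F) ≠ 0 := Ring.two_ne_zero fun h => by
    have := FiniteField.even_card_iff_char_two.1 h
    rw [hq] at this
    exact absurd (Nat.odd_iff.1 hodd) (by omega)
  have h3 := H11.LS.spSieg_not_center (ι := Fin n) h2 ⟨0, by omega⟩
  have h4 : 2 ≤ Fintype.card (Fin n) := by simpa using hn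
  have := H11.LS.sp_bound (H11.LS.bc ρ) (H11.LS.char_ne hK) h4
    fun h => h3 (hker (H11.LS.bc_eq_one ρ h))
  rw [hq, Fintype.card_fin, Module.finrank_fintype_fun_eq_card, Fintype.card_fin] at this
  refine Nat.div_le_of_le_mul (le_trans ?_ this)
  obtain ⟨m, hm⟩ : ∃ m, n = m + 1 := ⟨n - 1, by omega⟩
  rw [hm, Nat.add_sub_cancel, Nat.mul_sub_one, pow_succ]
  exact Nat.sub_le_sub_left (Nat.one_le_pow _ _ hodd.pos) _

end Cfsg.Agent.S2393
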