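import Cfsg.Statements.S2394
import Cfsg.Agent.H11.Order3
import Cfsg.Agent.H12.Zsig

set_option autoImplicit false
open scoped MatrixGroups
open Cfsg

namespace Cfsg.Agent.S2394

/-- The smallest degree of a faithful representation of the symplectic group `Sp_{2n}(q)` over its own field `F_q` is `2n`: every injective homomorphism from `Sp_{2n}(F)` to `GL_d(F)`, `F` the field with `q` elements, has `d ≥ 2n`. -/
theorem result {F : Type*} [Field F] [Fintype F] (n : ℕ) {d : ℕ}
    (ρ : ↥(Matrix.symplecticGroup (Fin n) F) →* GL (Fin d) F) (hρ : Function.Injective ρ) : 2 * n ≤ d := by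
  have h := Subgroup.card_dvd_of_injective ρ hρ
  rw [H11.card_sp, Matrix.card_GL_field] at h
  have q1 : 1 < Fintype.card F := Fintype.one_lt_card
  generalize Fintype.card F = q at h q1
  by_contra! hd
  obtain ⟨n, rfl⟩ : ∃ m, n = m + 1 := ⟨n - 1, by omega⟩
  by_cases h1 : n = 0
  · subst h1
    have := Nat.le_of_dvd (Finset.prod_pos fun i _ => Nat.sub_pos_of_lt (Nat.pow_lt_pow_right q1 i.2)) h
    obtain ⟨q, rfl⟩ := Nat.exists_eq_add_of_lt q1
    have e : (1 + q + 1) ^ 2 - 1 = q ^ 2 + 4 * q + 3 := Nat.sub_eq_of_eq_add (by ring)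
    interval_cases d <;> simp [e] at this <;> nlinarith
  by_cases h6 : q = 2 ∧ 2 * (n + 1) = 6
  · obtain ⟨rfl, h6⟩ := h6
    obtain rfl : n = 2 := by omega
    revert h
    interval_cases d <;> decide +kernel
  obtain ⟨r, r1, r2, r3⟩ := H12.zsigmondy' q1 (by omega) h6 (by omega)
  obtain ⟨i, -, e⟩ := (r1.prime.dvd_finset_prod_iff _).1 ((r2.trans (Dvd.dvd.mul_left
    (Finset.dvd_prod_of_mem _ (Finset.self_mem_range_succ n)) _)).trans h)
  have := i.2
  rw [show q ^ d - q ^ i.val = q ^ i.val * (q ^ (d - i) - 1) by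
    rw [Nat.mul_sub, ← pow_add, mul_one, Nat.add_sub_cancel' this.le], r1.dvd_mul] at e
  refine e.elim (fun e => r1.one_lt.ne' (Nat.eq_one_of_dvd_one ?_)) (r3 _ (by omega) (by omega))
  exact (Nat.dvd_sub_iff_right (Nat.one_le_pow _ _ (by omega)) ((r1.dvd_of_dvd_pow e).trans (dvd_pow_self q (by omega)))).1 r2

end Cfsg.Agent.S2394
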