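import Cfsg.Statements.S2398
import Cfsg.Agent.H11.PLift
import Cfsg.Agent.H11.StGood

set_option autoImplicit false
open Cfsg

namespace Cfsg.Agent.S2398

/-- Universality of the group Δ presented by Steinberg's generators with relators (R1), (R2), over a field with more than four elements (types G₂, B₂, D₄, F₄, E₆, E₇, E₈): for every central extension `π₁ : E → G₁` (surjective, central kernel) and every homomorphism `σ : Δ → G₁` there is exactly one homomorphism `τ : Δ → E` with `π₁ ∘ τ = σ`. In particular every central extension of Δ splits; together with the fact that Δ maps onto the Chevalley group with central kernel, this makes Δ the universal central extension of the Chevalley group. -/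
theorem result {K : Type*} [Field K] (hK5 : ∃ s : Finset K, 4 < s.card) (D : Cfsg.Lie.ChevalleyDatum) (hD : D ∈ [Cfsg.Lie.chevG2, Cfsg.Lie.chevB2, Cfsg.Lie.chevD4, Cfsg.Lie.chevF4, Cfsg.Lie.chevE6, Cfsg.Lie.chevE7, Cfsg.Lie.chevE8])
    {G₁ E : Type*} [Group G₁] [Group E] (π₁ : E →* G₁) (hπ : Function.Surjective π₁) (hc : π₁.ker ≤ Subgroup.center E)
    (σ : D.SteinbergCover K →* G₁) : ∃! τ : D.SteinbergCover K →* E, π₁.comp τ = σ := by
  obtain ⟨G⟩ := H14.good_of_mem hD
  haveI := G.nontrivial_rank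
  obtain ⟨c, h0, h1⟩ : ∃ c : K, c ≠ 0 ∧ c ^ (1 : ℤ) ≠ 1 := H11.exists_zpow_ne_one hK5 one_pos (by omega)
  have hp : Group.IsPerfect (D.SteinbergCover K) := ⟨S2395.result D hD fun _ => ⟨c, h0, by simpa using h1⟩⟩
  obtain ⟨Γ, _, ξ, β, h2, h3, -⟩ := H11.exists_stem_pullback hp π₁ hπ hc σ
  obtain ⟨θ, hθ⟩ := G.cov_lift (G.SG K).toPreSt
  have h4 := H14.St.ker_le_center (G.SG_sep K) (G.pres_top _) hθ
  obtain ⟨S', h5⟩ := H11.exists_lift_big G.conn (H23.comp_ker_le_center (H23.perfect_of_stem hp h2) h2.1 h2.2.1 h4)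
    ((hθ.surjective (G.SG_top K)).comp h2.1) (G.SG_sep K) (G.SG_hmul K) hK5
  obtain ⟨τ, hτ⟩ := G.cov_lift S'
  have h6 : ξ.comp τ = MonoidHom.id _ := H23.lift_unique_of_perfect hp θ h4
    (H14.PreSt.hom_ext (G.pres_top _) fun r t => ((congrArg (θ.comp ξ) (hτ r t)).trans (h5 r t)).trans (hθ r t).symm)
  have h7 : π₁.comp (β.comp τ) = σ := by rw [← MonoidHom.comp_assoc, h3, MonoidHom.comp_assoc, h6, MonoidHom.comp_id]
  exact ⟨β.comp τ, h7, fun τ' h => H23.lift_unique_of_perfect hp π₁ hc (h.trans h7.symm)⟩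

end Cfsg.Agent.S2398
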