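import Cfsg.Statements.S2399
import Cfsg.Agent.H11.PLift
import Cfsg.Agent.H11.StGood
import Cfsg.Agent.S2398

set_option autoImplicit false
open scoped MatrixGroups
open Cfsg

namespace Cfsg.Agent.S2399

/-- Projective representations in the natural characteristic lift: for each of the types G₂, B₂, D₄, F₄, E₆, E₇, E₈ over any field `K` (for types B₂ and G₂ the field must have more than two elements — the cases where the Chevalley group is not simple are set aside), every homomorphism from the Chevalley group to `PGL_n(L) = GL_n(L)/Z`, `L` a field of the same characteristic as `K`, lifts uniquely to a homomorphism from the group Δ presented by (R1), (R2) to `GL_n(L)`, compatibly with the projection Δ → Chevalley group sending x̄_r(t) to x_r(t). -/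
theorem result {K : Type*} [Field K] (D : Cfsg.Lie.ChevalleyDatum) (hD : D ∈ [Cfsg.Lie.chevG2, Cfsg.Lie.chevB2, Cfsg.Lie.chevD4, Cfsg.Lie.chevF4, Cfsg.Lie.chevE6, Cfsg.Lie.chevE7, Cfsg.Lie.chevE8]) (hK : D ∈ [Cfsg.Lie.chevB2, Cfsg.Lie.chevG2] → ∃ x : K, x ≠ 0 ∧ x ≠ 1)
    (θ : D.SteinbergCover K →* ↥(D.group K))
    (hθ : ∀ (r : ℕ) (t : K), r < D.nroots → ((θ (D.scGen K r t) : GL D.Idx K) : Matrix D.Idx D.Idx K) = D.x K r t)
    {L : Type*} [Field L] (hL : ringChar L = ringChar K) {n : ℕ}
    (φ : ↥(D.group K) →* GL (Fin n) L ⧸ Subgroup.center (GL (Fin n) L)) :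
    ∃! ψ : D.SteinbergCover K →* GL (Fin n) L, (QuotientGroup.mk' (Subgroup.center (GL (Fin n) L))).comp ψ = φ.comp θ := by
  by_cases hK5 : ∃ s : Finset K, 4 < s.card
  · exact S2398.result hK5 D hD _ (QuotientGroup.mk'_surjective _) (by simp) _
  haveI : Finite K := by
    by_contra h
    haveI := not_finite_iff_infinite.1 h
    obtain ⟨s, hs⟩ := Infinite.exists_subset_card_eq K 5
    exact hK5 ⟨s, by omega⟩
  obtain ⟨G⟩ := H14.good_of_mem hD
  have hθ' : (G.cov K).toPreSt.IsHom (G.SG K).toPreSt θ := fun r t => G.eq_SG_x.1 (hθ r t r.2)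
  have hp : Group.IsPerfect (D.SteinbergCover K) := ⟨S2395.result D hD hK⟩
  haveI := H11.finite_of_st (G.cov_sep K) (G.pres_top _)
  obtain ⟨Γ, _, ξ, β, h2, h3, h4⟩ := H11.exists_stem_pullback hp _ (QuotientGroup.mk'_surjective _)
    (by simp) (φ.comp θ)
  haveI := H23.finite_of_stem h2
  haveI : Fact (ringChar K).Prime := ⟨CharP.char_is_prime K _⟩
  haveI : CharP L (ringChar K) := hL ▸ ringChar.charP L
  obtain ⟨S', h5⟩ := H11.exists_lift_coprime (G.cov_sep K) (ringChar K) h2.2.1 h2.1 fun z hz h => h4 z hz (by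
    have h6 : β z ∈ Subgroup.center (GL (Fin n) L) := by
      rw [← QuotientGroup.eq_one_iff]
      exact (DFunLike.congr_fun h3 z).trans (by simp [show ξ z = 1 from hz])
    have h7 : β z ^ ringChar K = 1 := by rw [← map_pow, h, map_one]
    obtain ⟨a, ha⟩ := Matrix.GeneralLinearGroup.mem_center_iff_val_mem_range_scalar.1 h6
    have h8 := congrArg Units.val h7
    rw [Units.val_pow_eq_pow_val, ← ha, ← map_pow] at h8
    ext i j
    have h9 : a = 1 := frobenius_inj L (ringChar K) (by simpa [frobenius_def] using congrFun (congrFun h8 i) i)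
    rw [← ha, h9]; simp)
  obtain ⟨τ, hτ⟩ := G.cov_lift S'
  have h6 : ξ.comp τ = MonoidHom.id _ :=
    H14.PreSt.hom_ext (G.pres_top _) fun r t => (congrArg ξ (hτ r t)).trans (h5 r t)
  have h7 : (QuotientGroup.mk' _).comp (β.comp τ) = φ.comp θ := by
    rw [← MonoidHom.comp_assoc, h3, MonoidHom.comp_assoc, h6, MonoidHom.comp_id]
  exact ⟨β.comp τ, h7, fun τ' h => H23.lift_unique_of_perfect hp _ (by simp) (h.trans h7.symm)⟩

end Cfsg.Agent.S2399
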