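import Cfsg.Statements.S2401
import Cfsg.Agent.H11.SLPres

set_option autoImplicit false
open Cfsg

namespace Cfsg.Agent.S2401

/-- The Steinberg presentation of `SL_n` over a finite field for `n ≥ 3`: the group generated by symbols `x_ij(t)` (`i ≠ j`, `t` in the field) subject to `x_ij(t) x_ij(u) = x_ij(t + u)` and, for `i ≠ l`, `x_ij(t) x_kl(u) x_ij(t)⁻¹ x_kl(u)⁻¹ = x_il(tu)` if `j = k` and `= 1` if `j ≠ k`, is isomorphic to `SL_n` by an isomorphism sending `x_ij(t)` to the elementary matrix `1 + t E_ij`. -/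
theorem result {K : Type*} [Field K] [Finite K] (n : ℕ) (hn : 3 ≤ n) :
    ∃ e : PresentedGroup
        ({g : FreeGroup ({ij : Fin n × Fin n // ij.1 ≠ ij.2} × K) | ∃ (a : {ij : Fin n × Fin n // ij.1 ≠ ij.2}) (t u : K),
            g = FreeGroup.of (a, t) * FreeGroup.of (a, u) * (FreeGroup.of (a, t + u))⁻¹} ∪
          {g | ∃ (a b : {ij : Fin n × Fin n // ij.1 ≠ ij.2}) (t u : K), a.1.1 ≠ b.1.2 ∧ a.1.2 ≠ b.1.1 ∧
            g = FreeGroup.of (a, t) * FreeGroup.of (b, u) * (FreeGroup.of (a, t))⁻¹ * (FreeGroup.of (b, u))⁻¹} ∪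
          {g | ∃ (a b : {ij : Fin n × Fin n // ij.1 ≠ ij.2}) (h : a.1.1 ≠ b.1.2) (t u : K), a.1.2 = b.1.1 ∧
            g = FreeGroup.of (a, t) * FreeGroup.of (b, u) * (FreeGroup.of (a, t))⁻¹ * (FreeGroup.of (b, u))⁻¹ *
              (FreeGroup.of (⟨(a.1.1, b.1.2), h⟩, t * u))⁻¹}) ≃* Matrix.SpecialLinearGroup (Fin n) K,
      ∀ (a : {ij : Fin n × Fin n // ij.1 ≠ ij.2}) (t : K), ((e (PresentedGroup.of (a, t)) : Matrix (Fin n) (Fin n) K)) = Matrix.transvection a.1.1 a.1.2 t := by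
  obtain ⟨n, rfl⟩ : ∃ k, n = k + 1 := ⟨n - 1, by omega⟩
  generalize_proofs
  set rels : Set (FreeGroup ({ij : Fin (n + 1) × Fin (n + 1) // ij.1 ≠ ij.2} × K)) := _ ∪ _ ∪ _ with hr
  have one : ∀ g ∈ rels, PresentedGroup.mk rels g = 1 := fun g => PresentedGroup.one_of_mem
  obtain ⟨f, hf⟩ := H11.exists_hom_sl (K := K) (G := PresentedGroup rels) (by omega)
    (fun a b h t => PresentedGroup.of (⟨(a, b), h⟩, t))
    (fun a b h t u => (mul_inv_eq_one.1 (one _ (.inl (.inl ⟨⟨(a, b), h⟩, t, u, rfl⟩)))).symm)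
    (fun a b h c d h' h1 h2 t u => commutatorElement_eq_one_iff_commute.1
      (one _ (.inl (.inr ⟨⟨(a, b), h⟩, ⟨(c, d), h'⟩, t, u, h1, h2, rfl⟩))))
    fun a b h d h' h'' t u => by
      have := one _ (.inr ⟨⟨(a, b), h⟩, ⟨(b, d), h'⟩, h'', t, u, rfl, rfl⟩)
      simp only [map_mul, map_inv, mul_inv_eq_one, mul_inv_eq_iff_eq_mul, one_mul] at this
      exact this
  let g : PresentedGroup rels →* Matrix.SpecialLinearGroup (Fin (n + 1)) K :=
    PresentedGroup.toGroup (f := fun p => Matrix.SpecialLinearGroup.transvection p.1.2 p.2) (by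
      rintro _ ((⟨a, t, u, rfl⟩ | ⟨a, b, t, u, h1, h2, rfl⟩) | ⟨⟨⟨a, b⟩, h⟩, ⟨⟨c, d⟩, h'⟩, h1, t, u, rfl, rfl⟩) <;>
        simp only [map_mul, map_inv, FreeGroup.lift_apply_of, mul_inv_eq_one]
      · exact Subtype.ext (Matrix.transvection_mul_transvection_same _ _ a.2 _ _)
      · rw [mul_inv_eq_iff_eq_mul]
        apply Subtype.ext
        change Matrix.transvection _ _ _ * Matrix.transvection _ _ _ = Matrix.transvection _ _ _ * Matrix.transvection _ _ _
        simp [Matrix.transvection, mul_add, add_mul, h2, h1.symm]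
        abel
      · exact H11.commutator_transvection h1 h h' t u)
  refine ⟨MonoidHom.toMulEquiv g f (PresentedGroup.ext fun p => by simp [g, hf]) (MonoidHom.eq_of_eqOn_dense
    (s := {x | ∃ a b h t, x = Matrix.SpecialLinearGroup.transvection (i := a) (j := b) h t})
    (H11.sl_subgroup_eq_top _ fun a b h t => Subgroup.subset_closure ⟨a, b, h, t, rfl⟩) ?_), fun a t => by simp [g]; rfl⟩
  rintro _ ⟨a, b, h, t, rfl⟩
  simp [g, hf]

end Cfsg.Agent.S2401
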