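import Cfsg.Statements.S2409
import Cfsg.Agent.H14.TwGen

set_option autoImplicit false
open Cfsg

namespace Cfsg.Agent.S2409

/-- The small Ree group ²G₂(3^(2m+1)) with `m ≥ 1` is generated by two of its elements. -/
theorem result {K : Type*} [Field K] [Fintype K] {m : ℕ} (hm : 1 ≤ m) (hK : Fintype.card K = 3 ^ (2 * m + 1)) :
    ∃ a b : ↥(Cfsg.Lie.twistedG2 K (3 ^ m)), Subgroup.closure ({a, b} : Set ↥(Cfsg.Lie.twistedG2 K (3 ^ m))) = ⊤ := by
  obtain ⟨_, φ, h2, -, -, h⟩ := H14.G2.exists_hom hK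
  obtain ⟨R, -⟩ := H14.G2.exists_ree h.emb
  refine R.two_gen ?_ ?_ <;> rw [Nat.card_eq_fintype_card, hK]
  · simp [pow_succ, pow_mul, Nat.mul_mod, Nat.pow_mod]
  · exact (by norm_num : 3 < 3 ^ 2).trans_le (Nat.pow_le_pow_right (by norm_num) (by omega))

end Cfsg.Agent.S2409
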