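import Cfsg.Statements.S2410
import Cfsg.Agent.H23.SzFin

set_option autoImplicit false
open Cfsg

namespace Cfsg.Agent.S2410

open H23.Sz Subgroup in
theorem aux {F : Type*} [Field F] [H23.Tits F] [Finite F] [Big F] {G : Type*} [Group G] [Model F G] :
    ∃ a b : G, closure {a, b} = ⊤ := by
  obtain ⟨k, hk⟩ := IsCyclic.exists_generator (α := Fˣ)
  have hk1 : k ≠ 1 := by
    rintro rfl
    obtain ⟨l, hl⟩ := exists_unit_ne_one (F := F)
    exact hl (by simpa using hk l)
  refine ⟨M k, T (1 : F) 0 * W F, ?_⟩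
  set K := closure ({M k, T (1 : F) 0 * W F} : Set G)
  have h1 : M k ∈ K := subset_closure (by simp)
  have h2 : T (1 : F) 0 * W F ∈ K := subset_closure (by simp)
  have h3 : ∀ l : Fˣ, M l ∈ K := fun l => by
    obtain ⟨n, rfl⟩ := hk l
    rw [map_zpow]; exact zpow_mem h1 n
  have h4 := mul_mem (mul_mem (mul_mem h2 (h3 k⁻¹)) (inv_mem h2)) (inv_mem h1)
  have e : (T (1 : F) 0 * W F * M k⁻¹ * (T (1 : F) 0 * W F)⁻¹ * (M k)⁻¹ : G) =
      T (1 : F) 0 * (M k * (T (1 : F) 0)⁻¹ * (M k)⁻¹) := by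
    rw [mul_inv_rev, W_inv, mul_assoc (T _ _), W_M, inv_inv]
    have := W_W (F := F) (G := G)
    calc _ = T (1 : F) 0 * M k * (W F * W F) * (T (1 : F) 0)⁻¹ * (M k)⁻¹ := by group
      _ = _ := by rw [this]; group
  rw [e, T_inv, M_T_conj, T_mul] at h4
  have h5 : Q F G ≤ K := Q_le_of (fun l x hx => mul_mem (mul_mem (h3 l) hx) (inv_mem (h3 l)))
    (by have := dl_ne_one hk1; grind) h4
  exact eq_top_of_Q_le h5 h2 (by simp [mul_smul])

/-- The Suzuki group over the field with `2^(2m+1)` elements, `m ≥ 1` (realised as the stabiliser in `SL₄` of the Suzuki–Tits ovoid), is generated by two of its elements. -/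
theorem result {F : Type*} [Field F] [Fintype F] {m : ℕ} (hm : 1 ≤ m) (hF : Fintype.card F = 2 ^ (2 * m + 1)) :
    ∃ a b : ↥(Cfsg.Sz F m), Subgroup.closure ({a, b} : Set ↥(Cfsg.Sz F m)) = ⊤ := by
  letI := H23.Sz.titsOfCard hF
  haveI := H23.Sz.big_of_card_eq hm hF
  letI := H23.Sz.ovoidModel hm hF
  have hq : Nat.card F = 2 ^ (2 * m + 1) := by rw [Nat.card_eq_fintype_card, hF]
  exact aux (F := F)

end Cfsg.Agent.S2410
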