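import Cfsg.Statements.S2415
import Cfsg.Agent.H11.Gen8

set_option autoImplicit false
open Cfsg

namespace Cfsg.Agent.S2415

/-- The simple orthogonal group `PΩ⁻_{2m}(q)` with `m ≥ 4` (commutator subgroup, modulo its centre, of the orthogonal group of `Σ_{i<m−1} x_i y_i + z₁² + a z₁z₂ + b z₂²` with the binary part anisotropic) is generated by two of its elements. -/
theorem result {F : Type*} [Field F] [Fintype F] (m : ℕ) (hm : 4 ≤ m) (a b : F)
    (hab : ∀ z₁ z₂ : F, z₁ ^ 2 + a * z₁ * z₂ + b * z₂ ^ 2 = 0 → z₁ = 0 ∧ z₂ = 0) :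
    ∃ g h : Cfsg.POmega F (Cfsg.quadFormMinus (m - 1) F a b),
      Subgroup.closure ({g, h} : Set (Cfsg.POmega F (Cfsg.quadFormMinus (m - 1) F a b))) = ⊤ := by
  open H11 H11.TM H11.Mn H14 H14.St H8 H8.OmT H12 in
  classical
  obtain ⟨m, rfl⟩ : ∃ k, m = k + 1 := ⟨m - 1, by omega⟩
  rw [add_tsub_cancel_right]
  have := fact_of_aniso hab
  have hm' : 2 ≤ m + 1 := by omega
  let φ := starRingEnd (QuadraticAlgebra F (-b) a)
  have h2 : ∀ t, φ (φ t) = t := by simp [φ]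
  have hF' : ∀ t, φ t = t ↔ ∃ c, t = algebraMap F _ c := fun t => ⟨fun h => ⟨_, eq_algebraMap_of_star h⟩, by
    rintro ⟨c, rfl⟩; ext <;> simp [φ, starRingEnd_apply]⟩
  have hω : φ ⟨0, 1⟩ ≠ ⟨0, 1⟩ := fun e => by simpa using congrArg QuadraticAlgebra.im (eq_algebraMap_of_star e)
  have ha : ⟨0, 1⟩ + φ ⟨0, 1⟩ = algebraMap F _ a := by ext <;> simp [φ, starRingEnd_apply]
  have hb : ⟨0, 1⟩ * φ ⟨0, 1⟩ = algebraMap F _ b := by ext <;> simp [φ, starRingEnd_apply]
  have hQ := qMinus_nondeg m (disc_ne_zero_of_aniso hab)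
  have h := twE hm' h2 hF' hω ha hb
  let E := (omegaEquiv _ (coe_qMinus m a b)).trans (MulEquiv.subgroupCongr (eichGroup_eq_commutator hQ
    (.inr (by simp; omega)) (by simp; omega) ⟨Pi.single (.inl (.inl ⟨0, by omega⟩)) 1, by simp, by
      simp [quadFormMinus]⟩).symm)
  have tc := tcM hm' (by omega)
  have D : OD (T hm' φ) 2 φ := ⟨tc.hd, tc.aut, two_pos, tc.pow, tc.orth, h2, fun _ _ => rfl, fun _ _ _ => map_mul φ _ _,
    fun _ _ => map_one φ, exists_tr_ne (.inl rfl) hω⟩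
  have hp := omega_perfect' hQ (by simp; omega) (coe_qMinus m a b)
  have X : OM.Cx (.inl (Fin.last m)) (T hm' φ) φ (Fintype.card F) :=
    ⟨D, rfl, fun t => (quadAlg_pow_card t).symm, card_quadAlg (-b) a, Fintype.one_lt_card, by omega, rfl⟩
  obtain ⟨x, hx, y, hy, H⟩ := X.two_gen
  have e := range_eq_gen h.ex h.hh (e := MonoidHom.comp _ E.toMonoidHom) (by
    rw [MonoidHom.range_comp, MonoidHom.range_eq_top.2 E.surjective, ← MonoidHom.range_eq_map]; exact h.big)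
    (fun g => h.fix (E g)) hp
  obtain ⟨x, rfl⟩ := e.ge hx
  obtain ⟨y, rfl⟩ := e.ge hy
  refine G2.two_gen_map _ (QuotientGroup.mk'_surjective _) ⟨x, y, top_unique fun g _ => ?_⟩
  obtain ⟨k, hk, e'⟩ := (H ((Subgroup.closure {x, y}).map _) ⟨x, Subgroup.subset_closure (by simp), rfl⟩
    ⟨y, Subgroup.subset_closure (by simp), rfl⟩).gen_le (e.le ⟨g, rfl⟩)
  rwa [← (h.inj.comp E.injective) e']

end Cfsg.Agent.S2415
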