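import Cfsg.Statements.S2416
import Cfsg.Agent.H14.Misc1

set_option autoImplicit false
open scoped MatrixGroups
open Cfsg

namespace Cfsg.Agent.S2416

/-- A Chevalley group of type G₂, B₂, D₄, F₄, E₆, E₇ or E₈ over a finite field lies in (indeed equals) the subgroup generated by its monomial subgroup `N` and a single fundamental root subgroup `X_p`, where `p` is a short fundamental root if there are two root lengths (any fundamental root otherwise), provided the characteristic is not 2 for types B₂, F₄ and not 3 for type G₂ (and the field has more than two elements for B₂, G₂). -/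
theorem result {K : Type*} [Field K] [Finite K] (D : Cfsg.Lie.ChevalleyDatum) (hD : D ∈ [Cfsg.Lie.chevG2, Cfsg.Lie.chevB2, Cfsg.Lie.chevD4, Cfsg.Lie.chevF4, Cfsg.Lie.chevE6, Cfsg.Lie.chevE7, Cfsg.Lie.chevE8])
    (hK : D ∈ [Cfsg.Lie.chevB2, Cfsg.Lie.chevG2] → ∃ x : K, x ≠ 0 ∧ x ≠ 1)
    (h2 : D ∈ [Cfsg.Lie.chevB2, Cfsg.Lie.chevF4] → ringChar K ≠ 2) (h3 : D = Cfsg.Lie.chevG2 → ringChar K ≠ 3)
    (i : ℕ) (hi : i < D.rank) (hshort : D.isLong (D.simple i) = false) :
    D.group K ≤ D.monomialSubgroup K ⊔ D.rootSubgroup K (D.simple i) := by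
  lift i to Fin D.rank using hi
  have key : ∀ G : H14.Good D, (∀ M : Subgroup (GL D.Idx K), (G.S K).N ≤ M → (∀ t, (G.S K).x (G.R.simple i) t ∈ M) →
      ∀ j t, (G.S K).x (G.R.simple j) t ∈ M) →
      D.group K ≤ D.monomialSubgroup K ⊔ D.rootSubgroup K (D.simple i) := fun G h => by
    rw [G.group_eq, G.monomialSubgroup_eq, ← G.simple, G.rootSubgroup_eq]
    exact H14.St.U_le_of_N le_sup_left (h _ le_sup_left fun t => Subgroup.mem_sup_right (H14.PreSt.mem_U_singleton.2 ⟨t, rfl⟩))
  have key2 : ∀ G : H14.Good D, (∀ i j, H14.adj D i j → i = j ∨ [i, j].foldr G.R.sref (G.R.simple i) = G.R.simple j) →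
      D.group K ≤ D.monomialSubgroup K ⊔ D.rootSubgroup K (D.simple i) := fun G h => key G fun M h1 h2 j =>
    G.conn (fun j => ∀ t, (G.S K).x (G.R.simple j) t ∈ M) (fun a b h3 h4 => (h a b (by rwa [G.A_eq] at h3)).elim (· ▸ h4)
      (H14.St.x_mem_wprod h1 h4 _)) i j h2
  have hp : ∀ p : ℕ, p.Prime → ringChar K ≠ p → ((p : ℤ) : K) ≠ 0 := fun p h1 h2 h3 =>
    h2 (CharP.ringChar_of_prime_eq_zero h1 (by simpa using h3))
  simp only [List.mem_cons, List.not_mem_nil, or_false] at hD
  rcases hD with rfl | rfl | rfl | rfl | rfl | rfl | rfl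
  · obtain rfl : i = 0 := by clear key key2; revert i; decide +kernel
    refine key H14.goodG2 fun M h4 h5 j => ?_
    obtain rfl | rfl : j = 0 ∨ j = 1 := by revert j; decide
    · exact h5
    exact H14.St.x_mem_wprod h4 (H14.St.x_mem_comm (r := 8) (s := 9) (k := 11) (m := 3)
      (H14.St.x_mem_wprod h4 h5 [1] (by decide +kernel)) (H14.St.x_mem_wprod h4 h5 [0, 1] (by decide +kernel))
      (by decide +kernel) (H14.goodG2.terms_eq (by decide +kernel)) (hp 3 Nat.prime_three (h3 rfl))) [0, 1]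
      (by decide +kernel)
  · obtain rfl : i = 0 := by clear key key2; revert i; decide +kernel
    refine key H14.goodB2 fun M h4 h5 j => ?_
    obtain rfl | rfl : j = 0 ∨ j = 1 := by revert j; decide
    · exact h5
    exact H14.St.x_mem_wprod h4 (H14.St.x_mem_comm (r := 5) (s := 6) (k := 7) (m := 2)
      (H14.St.x_mem_wprod h4 h5 [] (by decide +kernel)) (H14.St.x_mem_wprod h4 h5 [1] (by decide +kernel))
      (by decide +kernel) (H14.goodB2.terms_eq (by decide +kernel)) (hp 2 Nat.prime_two (h2 (by simp)))) [0]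
      (by decide +kernel)
  · exact key2 H14.goodD4 (by decide +kernel)
  · refine key H14.goodF4 fun M h4 h5 j => ?_
    have h6 : ∀ t, (H14.goodF4.S K).x 27 t ∈ M := by
      obtain rfl | rfl : i = 0 ∨ i = 1 := by clear key key2 h5; revert i; decide +kernel
      exacts [H14.St.x_mem_wprod h4 h5 [0, 1] (by decide +kernel), H14.St.x_mem_wprod h4 h5 [] (by decide +kernel)]
    have h7 := H14.St.x_mem_comm (s := 28) (k := 30) (m := 2) h6 (H14.St.x_mem_wprod h4 h6 [2] (by decide +kernel))
      (by decide +kernel) (H14.goodF4.terms_eq (by decide +kernel)) (hp 2 Nat.prime_two (h2 (by simp)))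
    obtain rfl | rfl | rfl | rfl : j = 0 ∨ j = 1 ∨ j = 2 ∨ j = 3 := by revert j; decide
    exacts [H14.St.x_mem_wprod h4 h6 [1, 0] (by decide +kernel), H14.St.x_mem_wprod h4 h6 [] (by decide +kernel),
      H14.St.x_mem_wprod h4 h7 [1] (by decide +kernel), H14.St.x_mem_wprod h4 h7 [2, 3, 1] (by decide +kernel)]
  · exact key2 H14.goodE6 (by decide +kernel)
  · exact key2 H14.goodE7 (by decide +kernel)
  · exact key2 H14.goodE8 (by decide +kernel)

end Cfsg.Agent.S2416
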