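import Cfsg.Statements.S2417
import Cfsg.Agent.H14.Misc1

set_option autoImplicit false
open scoped MatrixGroups
open Cfsg

namespace Cfsg.Agent.S2417

/-- In the characteristics with an exceptional graph symmetry — type B₂ or F₄ in characteristic 2 (field of more than two elements for B₂) and type G₂ in characteristic 3 — the Chevalley group lies in the subgroup generated by its monomial subgroup `N` and the two fundamental root subgroups `X_a`, `X_b` of a short root `a` and a long root `b` joined in the Dynkin diagram. -/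
theorem result {K : Type*} [Field K] [Finite K] (e : Cfsg.Lie.ChevalleyDatum × ℕ)
    (he : e ∈ [(Cfsg.Lie.chevB2, 2), (Cfsg.Lie.chevF4, 2), (Cfsg.Lie.chevG2, 3)]) [CharP K e.2]
    (hK : e.1 = Cfsg.Lie.chevB2 → ∃ x : K, x ≠ 0 ∧ x ≠ 1)
    (i j : ℕ) (hi : i < e.1.rank) (hj : j < e.1.rank) (hshort : e.1.isLong (e.1.simple i) = false)
    (hlong : e.1.isLong (e.1.simple j) = true) (hbond : e.1.bonds i j ≠ 0) :
    e.1.group K ≤ e.1.monomialSubgroup K ⊔ e.1.rootSubgroup K (e.1.simple i) ⊔ e.1.rootSubgroup K (e.1.simple j) := by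
  obtain ⟨D, p⟩ := e
  dsimp only at *
  lift i to Fin D.rank using hi
  lift j to Fin D.rank using hj
  have key : ∀ G : H14.Good D, (∀ k, ∃ L ∈ [[], [i, k], [j, k]], L.foldr G.R.sref (G.R.simple i) = G.R.simple k ∨
      L.foldr G.R.sref (G.R.simple j) = G.R.simple k) →
      D.group K ≤ D.monomialSubgroup K ⊔ D.rootSubgroup K (D.simple i) ⊔ D.rootSubgroup K (D.simple j) := fun G h => by
    rw [G.group_eq, G.monomialSubgroup_eq, ← G.simple, ← G.simple, G.rootSubgroup_eq, G.rootSubgroup_eq]
    refine H14.St.U_le_of_N (le_sup_of_le_left le_sup_left) fun k => ?_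
    obtain ⟨L, -, h | h⟩ := h k
    · exact H14.St.x_mem_wprod (le_sup_of_le_left le_sup_left) (fun t => Subgroup.mem_sup_left
        (Subgroup.mem_sup_right (H14.PreSt.mem_U_singleton.2 ⟨t, rfl⟩))) L h
    · exact H14.St.x_mem_wprod (le_sup_of_le_left le_sup_left) (fun t => Subgroup.mem_sup_right
        (H14.PreSt.mem_U_singleton.2 ⟨t, rfl⟩)) L h
  simp only [List.mem_cons, List.not_mem_nil, or_false, Prod.mk.injEq] at he
  rcases he with ⟨rfl, -⟩ | ⟨rfl, -⟩ | ⟨rfl, -⟩
  · exact key H14.goodB2 (by clear key; revert i j; decide +kernel)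
  · exact key H14.goodF4 (by clear key; revert i j; decide +kernel)
  · exact key H14.goodG2 (by clear key; revert i j; decide +kernel)

end Cfsg.Agent.S2417
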