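import Cfsg.Statements.S2418
import Cfsg.Agent.H22.CoxW

set_option autoImplicit false
open Cfsg

namespace Cfsg.Agent.S2418

/-- For the Coxeter groups of types B₂, G₂, D₄, F₄, E₇, E₈ the centre has order 2 (the element acting as −1 on the root system) and is generated by a power of the Coxeter element `s₁ s₂ ⋯ s_l`; the Coxeter group of type E₆ has trivial centre. -/
theorem result (c : (Σ n : ℕ, CoxeterMatrix (Fin n)) × ℕ)
    (hc : c ∈ [(⟨2, CoxeterMatrix.B 2⟩, 2), (⟨2, CoxeterMatrix.G₂⟩, 2), (⟨4, Cfsg.Lie.coxeterD4⟩, 2), (⟨4, CoxeterMatrix.F₄⟩, 2),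
      (⟨6, CoxeterMatrix.E₆⟩, 1), (⟨7, CoxeterMatrix.E₇⟩, 2), (⟨8, CoxeterMatrix.E₈⟩, 2)]) :
    Nat.card (Subgroup.center c.1.2.Group) = c.2 ∧
      Subgroup.center c.1.2.Group ≤ Subgroup.zpowers ((List.finRange c.1.1).map c.1.2.simple).prod := by
  simp only [List.mem_cons, List.not_mem_nil, or_false] at hc
  rcases hc with rfl | rfl | rfl | rfl | rfl | rfl | rfl
  · obtain ⟨e, he⟩ := H14.coxB2
    exact H22.CoxW.cent_two (n := 2) he (by decide +kernel) (by decide +kernel) 2 0 (by decide +kernel)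
  · obtain ⟨e, he⟩ := H14.coxG2
    exact H22.CoxW.cent_two (n := 2) he (by decide +kernel) (by decide +kernel) 3 0 (by decide +kernel)
  · obtain ⟨e, he⟩ := H14.coxD4
    exact H22.CoxW.cent_two (n := 4) he (by decide +kernel) (by decide +kernel) 3 0 (by decide +kernel)
  · obtain ⟨e, he⟩ := H14.coxF4
    exact H22.CoxW.cent_two (n := 4) he (by decide +kernel) (by decide +kernel) 6 0 (by decide +kernel)
  · obtain ⟨e, he⟩ := H14.coxE6
    rw [H22.CoxW.cent_one (n := 6) he (by decide +kernel) (by decide +kernel) [0, 1, 2, 0, 3, 1, 2, 0, 3, 2, 4, 3, 1, 2,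
      0, 3, 2, 4, 3, 1, 5, 4, 3, 1, 2, 0, 3, 2, 4, 3, 1, 5, 4, 3, 2, 0] ![5, 1, 4, 3, 2, 0] (by decide +kernel) 0
      (by decide +kernel)]
    simp
  · obtain ⟨e, he⟩ := H14.coxE7
    exact H22.CoxW.cent_two (n := 7) he (by decide +kernel) (by decide +kernel) 9 0 (by decide +kernel)
  · obtain ⟨e, he⟩ := H14.coxE8
    exact H22.CoxW.cent_two (n := 8) he (by decide +kernel) (by decide +kernel) 15 0 (by decide +kernel)

end Cfsg.Agent.S2418
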