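import Cfsg.Statements.S2419
import Cfsg.Agent.H22.CoxW

set_option autoImplicit false
open Cfsg

namespace Cfsg.Agent.S2419

/-- The Coxeter groups of types B₂, G₂, E₆, E₇, E₈ are generated by the Coxeter element `s₁ s₂ ⋯ s_l` together with one suitable reflection (a conjugate of a simple reflection); for types D₄ and F₄ the Coxeter element together with two suitable reflections suffices. -/
theorem result (c : (Σ n : ℕ, CoxeterMatrix (Fin n)) × ℕ)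
    (hc : c ∈ [(⟨2, CoxeterMatrix.B 2⟩, 1), (⟨2, CoxeterMatrix.G₂⟩, 1), (⟨4, Cfsg.Lie.coxeterD4⟩, 2), (⟨4, CoxeterMatrix.F₄⟩, 2),
      (⟨6, CoxeterMatrix.E₆⟩, 1), (⟨7, CoxeterMatrix.E₇⟩, 1), (⟨8, CoxeterMatrix.E₈⟩, 1)]) :
    ∃ T : Finset c.1.2.Group, T.card = c.2 ∧ (∀ t ∈ T, ∃ (g : c.1.2.Group) (i : Fin c.1.1), t = g * c.1.2.simple i * g⁻¹) ∧
      Subgroup.closure (({((List.finRange c.1.1).map c.1.2.simple).prod} : Set c.1.2.Group) ∪ ↑T) = ⊤ := by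
  simp only [List.mem_cons, List.not_mem_nil, or_false] at hc
  rcases hc with rfl | rfl | rfl | rfl | rfl | rfl | rfl
  · obtain ⟨e, he⟩ := H14.coxB2
    exact H22.CoxW.gen (n := 2) he [0] (by decide) (fun i => ([[2], [2, 0]] : List (List ℕ)).getD i []) (by decide +kernel)
  · obtain ⟨e, he⟩ := H14.coxG2
    exact H22.CoxW.gen (n := 2) he [0] (by decide) (fun i => ([[2], [2, 0]] : List (List ℕ)).getD i []) (by decide +kernel)
  · obtain ⟨e, he⟩ := H14.coxD4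
    exact H22.CoxW.gen (n := 4) he [1, 2] (by decide) (fun i => ([[1, 2, 0], [2], [3], [0, 3, 2, 3, 1]] : List (List ℕ)).getD i []) (by decide +kernel)
  · obtain ⟨e, he⟩ := H14.coxF4
    exact H22.CoxW.gen (n := 4) he [0, 2] (by decide) (fun i => ([[2], [0, 2, 1], [3], [0, 3, 1]] : List (List ℕ)).getD i []) (by decide +kernel)
  · obtain ⟨e, he⟩ := H14.coxE6
    exact H22.CoxW.gen (n := 6) he [3] (by decide) (fun i => ([[1, 1, 1, 1, 1, 2, 0, 0, 0, 0, 0], [2, 1, 1, 1, 2, 0, 0, 0, 2], [1, 1, 1, 1, 2, 0, 0, 0, 0], [2], [0, 2, 1], [0, 0, 2, 1, 1]] : List (List ℕ)).getD i []) (by decide +kernel)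
  · obtain ⟨e, he⟩ := H14.coxE7
    exact H22.CoxW.gen (n := 7) he [3] (by decide) (fun i => ([[1, 2, 1, 1, 1, 1, 2, 0, 0, 0, 0, 2, 0], [2, 0, 2, 1, 1, 1, 1, 2, 0, 0, 0, 0, 2, 1, 2], [2, 1, 1, 1, 1, 2, 0, 0, 0, 0, 2], [2], [0, 2, 1], [0, 0, 2, 1, 1], [0, 0, 0, 2, 1, 1, 1]] : List (List ℕ)).getD i []) (by decide +kernel)
  · obtain ⟨e, he⟩ := H14.coxE8
    exact H22.CoxW.gen (n := 8) he [3] (by decide) (fun i => ([[1, 2, 0, 0, 0, 0, 0, 0, 2, 1, 1, 1, 1, 1, 1, 2, 0], [2, 0, 2, 0, 0, 0, 0, 0, 0, 2, 1, 1, 1, 1, 1, 1, 2, 1, 2], [2, 0, 0, 0, 0, 0, 0, 2, 1, 1, 1, 1, 1, 1, 2], [2], [0, 2, 1], [0, 0, 2, 1, 1], [0, 0, 0, 2, 1, 1, 1], [0, 0, 0, 0, 2, 1, 1, 1, 1]] : List (List ℕ)).getD i []) (by decide +kernel)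

end Cfsg.Agent.S2419
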