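import Cfsg.Statements.S2426
import Cfsg.Agent.H11.SL2Schur

set_option autoImplicit false
open Cfsg

namespace Cfsg.Agent.S2426

open H13.SL2

/-- The rank-one Steinberg presentation of `SL₂` over a finite field `K`: generators `x(t)`, `y(t)` (`t ∈ K`; the two opposite root subgroups) subject to additivity `x(t)x(u) = x(t+u)`, `y(t)y(u) = y(t+u)` and, with `w(t) = x(t) y(−t⁻¹) x(t)` and `w'(t) = y(t) x(−t⁻¹) y(t)` for `t ≠ 0`, the relations `w(t) x(u) w(t)⁻¹ = y(−t⁻² u)` and `w'(t) y(u) w'(t)⁻¹ = x(−t⁻² u)`, present `SL₂(K)`, with `x(t) ↦ (1 t; 0 1)` and `y(t) ↦ (1 0; t 1)`. -/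
theorem result {K : Type*} [Field K] [Finite K] :
    ∃ e : PresentedGroup
        ({g : FreeGroup (Bool × K) | ∃ (b : Bool) (t u : K), g = FreeGroup.of (b, t) * FreeGroup.of (b, u) * (FreeGroup.of (b, t + u))⁻¹} ∪
          {g | ∃ (b : Bool) (t u : K), t ≠ 0 ∧
            g = (FreeGroup.of (b, t) * FreeGroup.of (!b, -t⁻¹) * FreeGroup.of (b, t)) * FreeGroup.of (b, u) *
                  (FreeGroup.of (b, t) * FreeGroup.of (!b, -t⁻¹) * FreeGroup.of (b, t))⁻¹ * (FreeGroup.of (!b, -(t⁻¹ ^ 2 * u)))⁻¹})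
        ≃* Matrix.SpecialLinearGroup (Fin 2) K,
      (∀ t : K, ((e (PresentedGroup.of (true, t)) : Matrix (Fin 2) (Fin 2) K)) = !![1, t; 0, 1]) ∧
      (∀ t : K, ((e (PresentedGroup.of (false, t)) : Matrix (Fin 2) (Fin 2) K)) = !![1, 0; t, 1]) := by

  set R : Set (FreeGroup (Bool × K)) := _ ∪ _ with hR
  have h : H11.R1 (fun t => (PresentedGroup.of (true, t) : PresentedGroup R))
      (fun t => PresentedGroup.of (false, t)) := by
    have a : ∀ b s t, (PresentedGroup.of (b, s + t) : PresentedGroup R) =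
        PresentedGroup.of (b, s) * PresentedGroup.of (b, t) := fun b s t => by
      have := PresentedGroup.one_of_mem (rels := R) (Or.inl ⟨b, s, t, rfl⟩)
      rw [map_mul, map_mul, map_inv, mul_inv_eq_one] at this
      exact this.symm
    refine ⟨a true, a false, fun t ht u => ?_⟩
    have := PresentedGroup.one_of_mem (rels := R) (Or.inr ⟨true, t, u, ht, rfl⟩)
    simp only [map_mul, map_inv] at this
    exact mul_inv_eq_one.1 this
  obtain ⟨φ, h1, h2⟩ := h.exists_hom
  let f : Bool × K → Matrix.SpecialLinearGroup (Fin 2) K := fun p => cond p.1 (x p.2) (y p.2)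
  have hf : ∀ r ∈ R, FreeGroup.lift f r = 1 := by
    rintro _ (⟨b, t, u, rfl⟩ | ⟨b, t, u, ht, rfl⟩)
    · cases b <;> simp [f, x_add, y_add]
    · simp only [map_mul, map_inv, FreeGroup.lift_apply_of, mul_inv_eq_one]
      cases b
      · have := H11.r1_sl2.W_Y (neg_ne_zero.2 (inv_ne_zero ht)) u
        rw [H11.r1_sl2.W_eq (neg_ne_zero.2 (inv_ne_zero ht))] at this
        simp only [f, Bool.not_false, cond_true, cond_false]
        rw [mul_inv_eq_iff_eq_mul]
        simpa using this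
      · exact H11.r1_sl2.conj t ht u
  refine ⟨MonoidHom.toMulEquiv (PresentedGroup.toGroup hf) φ ?_ ?_, fun t => ?_, fun t => ?_⟩
  · ext ⟨b, t⟩
    cases b <;> simp [f, h1, h2]
  · refine MonoidHom.eq_of_eqOn_dense (s := upperUnipotentSL2 K ∪ lowerUnipotentSL2 K) ?_ ?_
    · rw [Subgroup.closure_union, Subgroup.closure_eq, Subgroup.closure_eq, upper_sup_lower]
    · rintro g (hg | hg)
      · obtain ⟨t, rfl⟩ := mem_upper.1 hg; simp [f, h1]
      · obtain ⟨t, rfl⟩ := mem_lower.1 hg; simp [f, h2]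
  · exact congrArg Subtype.val (PresentedGroup.toGroup.of hf (x := (true, t)))
  · exact congrArg Subtype.val (PresentedGroup.toGroup.of hf (x := (false, t)))

end Cfsg.Agent.S2426
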