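import Cfsg.Statements.S2427
import Cfsg.Agent.H13.SL2Tet

set_option autoImplicit false
open Cfsg

namespace Cfsg.Agent.S2427

open H13.GL2 Subgroup H27 H24
open scoped commutatorElement

theorem tri : ∀ x : SL23, (x = 1 ∨ x = -1) ∨ (∃ g, g * x * g⁻¹ = stA) ∨
    ∃ g, g * x ^ 2 * g⁻¹ = stB ∨ g * x ^ 4 * g⁻¹ = stB := by decide +kernel

theorem exA : ∃ x : SL23, ⁅x, stB⁆ = stA := by decide +kernel

/-- The group SL₂ over the field with 3 elements has order 24 and centre of order 2; its commutator subgroup has order 8, is isomorphic to the quaternion group of order 8 and is complemented by every Sylow 3-subgroup (so the group is a semidirect product of a quaternion group of order 8 by a cyclic group of order 3); and its only normal subgroups besides the trivial subgroup and the whole group are the centre and the commutator subgroup. -/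
theorem result :
    Nat.card (Matrix.SpecialLinearGroup (Fin 2) (ZMod 3)) = 24 ∧
    Nat.card (Subgroup.center (Matrix.SpecialLinearGroup (Fin 2) (ZMod 3))) = 2 ∧
    Nat.card (commutator (Matrix.SpecialLinearGroup (Fin 2) (ZMod 3))) = 8 ∧
    Nonempty (commutator (Matrix.SpecialLinearGroup (Fin 2) (ZMod 3)) ≃* QuaternionGroup 2) ∧
    (∀ P : Sylow 3 (Matrix.SpecialLinearGroup (Fin 2) (ZMod 3)),
      Subgroup.IsComplement' (commutator (Matrix.SpecialLinearGroup (Fin 2) (ZMod 3)))
        (P : Subgroup (Matrix.SpecialLinearGroup (Fin 2) (ZMod 3)))) ∧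
    ∀ N : Subgroup (Matrix.SpecialLinearGroup (Fin 2) (ZMod 3)), N.Normal →
      N = ⊥ ∨ N = ⊤ ∨ N = Subgroup.center (Matrix.SpecialLinearGroup (Fin 2) (ZMod 3)) ∨
        N = commutator (Matrix.SpecialLinearGroup (Fin 2) (ZMod 3)) := by
  obtain ⟨x, hx⟩ := exA
  obtain ⟨e⟩ := equiv_q8 (F := ZMod 3) (by decide) (x := stA) (y := stB * stA * stB⁻¹) (by decide)
    (by decide +kernel) (by decide +kernel)
  have h8 := Nat.card_congr e.toEquiv
  rw [Nat.card_eq_fintype_card (α := QuaternionGroup 2), QuaternionGroup.card] at h8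
  have hle : ∀ N : Subgroup SL23, N.Normal → stA ∈ N →
      zpowers stA ⊔ zpowers (stB * stA * stB⁻¹) ≤ N := fun N hN h =>
    sup_le (zpowers_le.2 h) (zpowers_le.2 (hN.conj_mem _ h _))
  have hA : stA ∈ commutator SL23 := hx ▸ commutator_mem_commutator (mem_top _) (mem_top _)
  obtain ⟨P⟩ : Nonempty (Sylow 2 SL23) := inferInstance
  obtain ⟨hP, hP8⟩ := sylow_SL23 P
  have h1 : zpowers stA ⊔ zpowers (stB * stA * stB⁻¹) = commutator SL23 :=
    eq_of_le_of_card_ge (hle _ inferInstance hA) (le_of_le_of_eq (card_le_of_le (by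
      have := P.1.index_mul_card
      rw [hP8, card_SL23] at this
      have : Fact (Nat.Prime 3) := ⟨Nat.prime_three⟩
      have := isCyclic_of_prime_card (α := SL23 ⧸ P.1) (p := 3) (by rw [← index]; omega)
      exact Normal.quotient_commutative_iff_commutator_le.1 inferInstance)) (hP8.trans h8.symm))
  rw [h1] at e h8 hle
  have hZ : Nat.card (center SL23) = 2 := by rw [card_center_SL, ZMod.card]; rfl
  refine ⟨card_SL23, hZ, h8, ⟨e⟩, fun Q => ?_, fun N hN => ?_⟩
  · have : Nat.card Q = 3 := by
      rw [Q.card_eq_multiplicity, card_SL23, Nat.factorization_def _ Nat.prime_three,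
        show padicValNat 3 24 = 1 by decide +kernel, pow_one]
    exact isComplement'_of_coprime (by rw [h8, this, card_SL23]) (by rw [h8, this]; norm_num)
  by_cases hB : stB ∈ N
  · refine Or.inr (Or.inl (top_le_iff.1 (closure_stAB ▸ (closure_le _).2 (Set.pair_subset ?_ hB))))
    rw [← hx, commutatorElement_def]
    exact mul_mem (hN.conj_mem _ hB _) (inv_mem hB)
  have key : ∀ y ∈ N, (y = 1 ∨ y = -1) ∨ ∃ g, g * y * g⁻¹ = stA := fun y hy =>
    (or_assoc.2 (tri y)).resolve_right fun ⟨g, h⟩ => hB (by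
      rcases h with h | h <;> exact h ▸ hN.conj_mem _ (pow_mem hy _) g)
  by_cases h : stA ∈ N
  · refine Or.inr (Or.inr (Or.inr (le_antisymm (fun y hy => ?_) (hle N hN h))))
    rcases key y hy with (rfl | rfl) | ⟨g, hg⟩
    · exact one_mem _
    · exact (show stA ^ 2 = -1 by decide) ▸ pow_mem hA 2
    · simpa [← hg, mul_assoc] using (inferInstance : (commutator SL23).Normal).conj_mem _ hA g⁻¹
  have h2 : N ≤ center _ := fun y hy => mem_center_SL.2 ((key y hy).resolve_right fun ⟨g, hg⟩ =>
    h (hg ▸ hN.conj_mem _ hy g))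
  rcases (Nat.dvd_prime Nat.prime_two).1 (hZ ▸ card_dvd_of_le h2) with a | a
  · exact Or.inl (card_eq_one.1 a)
  · exact Or.inr (Or.inr (Or.inl (eq_of_le_of_card_ge h2 (by rw [a, hZ]))))

end Cfsg.Agent.S2427
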