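import Cfsg.Statements.S2428
import Cfsg.Agent.H13.SL2Tor

set_option autoImplicit false
open Cfsg

namespace Cfsg.Agent.S2428

open H13.GL2 Subgroup

/-- Let F be a finite field with q elements, q odd, and let d be a diagonal element of SL₂ over F whose diagonal entry a has a² ≠ 1 (such d exist exactly when q > 3). Then the centraliser of d is precisely the diagonal subgroup T; the normaliser of T has order 2(q − 1) and exactly (q + 5)/2 conjugacy classes; and every element of that normaliser outside T has square equal to −1. -/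
theorem result {F : Type*} [Field F] [Fintype F] (hodd : Odd (Fintype.card F))
    (d : Matrix.SpecialLinearGroup (Fin 2) F) (hd01 : (d : Matrix (Fin 2) (Fin 2) F) 0 1 = 0) (hd10 : (d : Matrix (Fin 2) (Fin 2) F) 1 0 = 0) (hda : (d : Matrix (Fin 2) (Fin 2) F) 0 0 ^ 2 ≠ 1) :
    (∀ g : Matrix.SpecialLinearGroup (Fin 2) F, g ∈ Subgroup.centralizer ({d} : Set (Matrix.SpecialLinearGroup (Fin 2) F)) ↔ ((g : Matrix (Fin 2) (Fin 2) F) 0 1 = 0 ∧ (g : Matrix (Fin 2) (Fin 2) F) 1 0 = 0)) ∧
    Nat.card (Subgroup.normalizer ((Subgroup.centralizer ({d} : Set (Matrix.SpecialLinearGroup (Fin 2) F))) : Set (Matrix.SpecialLinearGroup (Fin 2) F))) = 2 * (Fintype.card F - 1) ∧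
    Nat.card (ConjClasses (Subgroup.normalizer ((Subgroup.centralizer ({d} : Set (Matrix.SpecialLinearGroup (Fin 2) F))) : Set (Matrix.SpecialLinearGroup (Fin 2) F)))) = (Fintype.card F + 5) / 2 ∧
    ∀ g : Matrix.SpecialLinearGroup (Fin 2) F, g ∈ Subgroup.normalizer ((Subgroup.centralizer ({d} : Set (Matrix.SpecialLinearGroup (Fin 2) F))) : Set (Matrix.SpecialLinearGroup (Fin 2) F)) →
      g ∉ Subgroup.centralizer ({d} : Set (Matrix.SpecialLinearGroup (Fin 2) F)) → ((g * g) : Matrix (Fin 2) (Fin 2) F) = -1 := by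
  classical
  obtain ⟨x, rfl⟩ := mem_range_dS.2 ⟨hd01, hd10⟩
  have hc : dS x ∉ center _ := fun h => hda (by
    rcases mem_center_SL.1 h with e | e <;> simp [e])
  have h := sTor_dS (F := F)
  have ht : dS x ∈ dS.range := ⟨x, rfl⟩
  rw [h.cent _ ht hc]
  refine ⟨fun g => mem_range_dS, by rw [h.card_norm ht hc, card_range_dS], ?_, fun g hg hg' => ?_⟩
  · have := h.card_classes hodd ht hc
    have := two_le_q (F := F)
    rw [card_range_dS] at *
    omega
  · exact congrArg Subtype.val
      (h.sq_of_not_mem (((h.norm_iff le_rfl ht hc g).1 hg).resolve_left hg'))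

end Cfsg.Agent.S2428
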