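import Cfsg.Statements.S2429
import Cfsg.Agent.H13.SL2Tor

set_option autoImplicit false
open Cfsg

namespace Cfsg.Agent.S2429

open H13.GL2 Subgroup

/-- Let F be a finite field with q elements, q odd. Then SL₂ over F contains a cyclic subgroup T′ of order q + 1 (a non-split torus) with the following properties: T′ is its own centraliser, and indeed the centraliser of each element of T′ other than 1 and −1 is exactly T′; every element of SL₂ having no eigenvector in F² is conjugate to an element of T′; the normaliser of T′ has order 2(q + 1) and exactly (q + 7)/2 conjugacy classes; and every element of that normaliser outside T′ has square −1. -/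
theorem result {F : Type*} [Field F] [Fintype F] (hodd : Odd (Fintype.card F)) :
    ∃ T' : Subgroup (Matrix.SpecialLinearGroup (Fin 2) F), IsCyclic T' ∧ Nat.card T' = Fintype.card F + 1 ∧
      Subgroup.centralizer ((T' : Set (Matrix.SpecialLinearGroup (Fin 2) F))) = T' ∧
      (∀ g : Matrix.SpecialLinearGroup (Fin 2) F, g ∈ T' → (g : Matrix (Fin 2) (Fin 2) F) ≠ 1 → (g : Matrix (Fin 2) (Fin 2) F) ≠ -1 → Subgroup.centralizer ({g} : Set (Matrix.SpecialLinearGroup (Fin 2) F)) = T') ∧
      (∀ g : Matrix.SpecialLinearGroup (Fin 2) F, (∀ (c : F) (v : Fin 2 → F), v ≠ 0 → (g : Matrix (Fin 2) (Fin 2) F).mulVec v ≠ c • v) → ∃ h : Matrix.SpecialLinearGroup (Fin 2) F, h * g * h⁻¹ ∈ T') ∧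
      Nat.card (Subgroup.normalizer (T' : Set (Matrix.SpecialLinearGroup (Fin 2) F))) = 2 * (Fintype.card F + 1) ∧
      Nat.card (ConjClasses (Subgroup.normalizer (T' : Set (Matrix.SpecialLinearGroup (Fin 2) F)))) = (Fintype.card F + 7) / 2 ∧
      ∀ g : Matrix.SpecialLinearGroup (Fin 2) F, g ∈ Subgroup.normalizer (T' : Set (Matrix.SpecialLinearGroup (Fin 2) F)) → g ∉ T' → ((g * g) : Matrix (Fin 2) (Fin 2) F) = -1 := by
  classical
  obtain ⟨w, h⟩ := exists_sTor_eS (F := F)
  have := two_le_q (F := F)
  obtain ⟨t, ht, hc⟩ := h.exists_noncentral (by rw [card_range_eS]; omega)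
  refine ⟨eS.range, h.cyc, card_range_eS, h.cent_eq le_rfl ht hc, fun g hg h1 h2 => h.cent g hg
    fun e => ?_, fun g hg => exists_conj_mem_eS ((ell_iff _).2 hg),
    by rw [h.card_norm ht hc, card_range_eS], ?_, fun g hg hg' => ?_⟩
  · rcases mem_center_SL.1 e with rfl | rfl
    exacts [h1 rfl, h2 rfl]
  · have := h.card_classes hodd ht hc
    rw [card_range_eS] at *
    omega
  · exact congrArg Subtype.val
      (h.sq_of_not_mem (((h.norm_iff le_rfl ht hc g).1 hg).resolve_left hg'))

end Cfsg.Agent.S2429
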