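import Cfsg.Statements.S2430
import Cfsg.Agent.H13.SL2Tor

set_option autoImplicit false
open Cfsg

namespace Cfsg.Agent.S2430

open H13.GL2 Subgroup H27

/-- Let F be a finite field with q elements, q odd, ℓ an odd prime, and P a Sylow ℓ-subgroup of SL₂ over F. If ℓ divides q − 1, the centraliser of P is cyclic of order q − 1 (a split torus) and the normaliser of P has order 2(q − 1); if ℓ divides q + 1, the centraliser of P is cyclic of order q + 1 (a non-split torus) and the normaliser of P has order 2(q + 1). -/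
theorem result {F : Type*} [Field F] [Fintype F] (hodd : Odd (Fintype.card F)) (ℓ : ℕ) [Fact ℓ.Prime] (hℓ : ℓ ≠ 2)
    (P : Sylow ℓ (Matrix.SpecialLinearGroup (Fin 2) F)) :
    (ℓ ∣ Fintype.card F - 1 →
      Nat.card (Subgroup.centralizer ((P : Subgroup (Matrix.SpecialLinearGroup (Fin 2) F)) : Set (Matrix.SpecialLinearGroup (Fin 2) F))) = Fintype.card F - 1 ∧
      IsCyclic (Subgroup.centralizer ((P : Subgroup (Matrix.SpecialLinearGroup (Fin 2) F)) : Set (Matrix.SpecialLinearGroup (Fin 2) F))) ∧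
      Nat.card (Subgroup.normalizer ((P : Subgroup (Matrix.SpecialLinearGroup (Fin 2) F)) : Set (Matrix.SpecialLinearGroup (Fin 2) F))) = 2 * (Fintype.card F - 1)) ∧
    (ℓ ∣ Fintype.card F + 1 →
      Nat.card (Subgroup.centralizer ((P : Subgroup (Matrix.SpecialLinearGroup (Fin 2) F)) : Set (Matrix.SpecialLinearGroup (Fin 2) F))) = Fintype.card F + 1 ∧
      IsCyclic (Subgroup.centralizer ((P : Subgroup (Matrix.SpecialLinearGroup (Fin 2) F)) : Set (Matrix.SpecialLinearGroup (Fin 2) F))) ∧
      Nat.card (Subgroup.normalizer ((P : Subgroup (Matrix.SpecialLinearGroup (Fin 2) F)) : Set (Matrix.SpecialLinearGroup (Fin 2) F))) = 2 * (Fintype.card F + 1)) := by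
  classical
  have key : ∀ T w, STor T w → ℓ ∣ Nat.card T → Nat.card (centralizer (P.1 : Set (Matrix.SpecialLinearGroup (Fin 2) F))) = Nat.card T ∧
      IsCyclic (centralizer (P.1 : Set (Matrix.SpecialLinearGroup (Fin 2) F))) ∧
      Nat.card (normalizer (P.1 : Set (Matrix.SpecialLinearGroup (Fin 2) F))) = 2 * Nat.card T := fun T w h hT => by
    obtain ⟨c, hc, t, ht, ht'⟩ := h.sylow hℓ hT P
    have h' := h.cjg c
    rw [h'.cent_eq hc ht ht', h'.norm_eq hc ht ht', h'.card_norm (hc ht) ht', card_cj]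
    exact ⟨rfl, h'.cyc, rfl⟩
  obtain ⟨w, h⟩ := exists_sTor_eS (F := F)
  exact ⟨by simpa only [card_range_dS] using key _ _ sTor_dS,
    by simpa only [card_range_eS] using key _ _ h⟩

end Cfsg.Agent.S2430
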