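import Cfsg.Statements.S2434
import Cfsg.Agent.H13.SL2Tor

set_option autoImplicit false
open Cfsg

namespace Cfsg.Agent.S2434

open H13.GL2 Subgroup H27 H5
open Matrix.SpecialLinearGroup (toGL)

/-- Let F be a finite field with q elements, q odd, and C a cyclic subgroup of order q + 1 of SL₂ over F (a non-split torus; it contains the centre). For every homomorphism θ from C to the non-zero complex numbers with θ² ≠ 1 there is an irreducible complex character χ of degree q − 1 such that χ(c) = −θ(c) − θ(c)⁻¹ for every non-central c in C, χ(zg) = θ(z)χ(g) for central z in C, χ vanishes at diagonal elements with entry a, a² ≠ 1, and χ takes the value −1 at every upper unitriangular element other than 1. Conversely every irreducible character of degree q − 1 has, for some such θ, the values −θ(c) − θ(c)⁻¹ at the non-central elements c of C (for q ≥ 5 these are exactly the cuspidal characters of degree q − 1). -/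
theorem result {F : Type*} [Field F] [Fintype F] (hodd : Odd (Fintype.card F))
    (C : Subgroup (Matrix.SpecialLinearGroup (Fin 2) F)) (hC : IsCyclic C) (hcard : Nat.card C = Fintype.card F + 1) :
    (∀ θ : C →* ℂˣ, (∃ c : C, θ c ^ 2 ≠ 1) →
      ∃ χ : Matrix.SpecialLinearGroup (Fin 2) F → ℂ, Cfsg.IsIrrCharacter (Matrix.SpecialLinearGroup (Fin 2) F) χ ∧ χ 1 = (Fintype.card F : ℂ) - 1 ∧
        (∀ c : C, (c : Matrix.SpecialLinearGroup (Fin 2) F) ∉ Subgroup.center (Matrix.SpecialLinearGroup (Fin 2) F) → χ c = -((θ c).val + (θ c)⁻¹.val)) ∧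
        (∀ c : C, (c : Matrix.SpecialLinearGroup (Fin 2) F) ∈ Subgroup.center (Matrix.SpecialLinearGroup (Fin 2) F) → ∀ g : Matrix.SpecialLinearGroup (Fin 2) F, χ ((c : Matrix.SpecialLinearGroup (Fin 2) F) * g) = (θ c).val * χ g) ∧
        (∀ g : Matrix.SpecialLinearGroup (Fin 2) F, (g : Matrix (Fin 2) (Fin 2) F) 0 1 = 0 → (g : Matrix (Fin 2) (Fin 2) F) 1 0 = 0 → (g : Matrix (Fin 2) (Fin 2) F) 0 0 ^ 2 ≠ 1 → χ g = 0) ∧
        (∀ g : Matrix.SpecialLinearGroup (Fin 2) F, (g : Matrix (Fin 2) (Fin 2) F) 1 0 = 0 → (g : Matrix (Fin 2) (Fin 2) F) 0 0 = 1 → (g : Matrix (Fin 2) (Fin 2) F) 1 1 = 1 → (g : Matrix (Fin 2) (Fin 2) F) 0 1 ≠ 0 → χ g = -1)) ∧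
    (∀ χ : Matrix.SpecialLinearGroup (Fin 2) F → ℂ, Cfsg.IsIrrCharacter (Matrix.SpecialLinearGroup (Fin 2) F) χ → χ 1 = (Fintype.card F : ℂ) - 1 →
      ∃ θ : C →* ℂˣ, (∃ c : C, θ c ^ 2 ≠ 1) ∧
        ∀ c : C, (c : Matrix.SpecialLinearGroup (Fin 2) F) ∉ Subgroup.center (Matrix.SpecialLinearGroup (Fin 2) F) → χ c = -((θ c).val + (θ c)⁻¹.val)) := by
  classical
  obtain ⟨c, rfl⟩ := exists_eq_cj_eS hC hcard
  let e := (MonoidHom.ofInjective (eS_injective (F := F))).trans (cjEquiv c _)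
  have he : ∀ z, IsConj (toGL (e z).1) (el z.1) := fun z =>
    toGL_eS z ▸ toGL.map_isConj (isConj_iff.2 ⟨c, rfl⟩).symm
  have hz : ∀ z, (e z).1 ∈ center _ ↔ z.1.1.im = 0 := fun z => by
    rw [← sc_toGL_iff, sc_of_isConj (he z), sc_el]
  have hE : ∀ (Θ) (θ : cj c (eS (F := F)).range →* ℂˣ), resT Θ = θ.comp e.toMonoidHom →
      ((∃ c, θ c ^ 2 ≠ 1) ↔ ¬ E1 Θ (bar Θ)) ∧ ∀ z : T1 F, Θ z.1 = θ (e z) ∧
        Θ (star z.1.1) = (θ (e z))⁻¹.1 := fun Θ θ h => by
    refine ⟨?_, fun z => ⟨?_, ?_⟩⟩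
    · rw [E1_iff_resT, resT_bar, hom_eq_inv_self, h, e.surjective.exists, MonoidHom.ext_iff,
        not_forall]
      rfl
    · rw [← resT_apply, h]; rfl
    · rw [← bar_apply, ← resT_apply, resT_bar, h]; rfl
  have hv : ∀ (Θ) (θ : cj c (eS (F := F)).range →* ℂˣ), resT Θ = θ.comp e.toMonoidHom →
      ∀ z, (e z).1 ∉ center _ → CS Θ (e z) = -((θ (e z)).1 + (θ (e z))⁻¹.1) := fun Θ θ h z h1 => by
    rw [CS, rs, (cf_C _).eq_of_isConj (he z), C_el _ (mt (hz z).2 h1), ((hE Θ θ h).2 z).1,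
      ((hE Θ θ h).2 z).2]
  have hr : ∀ Θ, resT Θ = ((resT Θ).comp e.symm.toMonoidHom).comp e.toMonoidHom := fun Θ => by
    ext z; simp
  refine ⟨fun θ hθ => ?_, fun χ hχ h1 => ?_⟩
  · obtain ⟨Θ, h⟩ := resT_surjective (θ.comp e.toMonoidHom)
    have hi := irr_CS ((hE Θ θ h).1.1 hθ)
    refine ⟨CS Θ, hi, CS_apply_one Θ, e.surjective.forall.2 (hv Θ θ h),
      e.surjective.forall.2 fun z h1 g => ?_, fun g h1 h2 h3 => ?_, fun g h1 h2 h3 h4 => ?_⟩
    · rw [hi.apply_mul_of_mem_charCenter (hi.center_le_charCenter h1), CS_apply_one,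
        ← ((hE Θ θ h).2 z).1, CS, rs, (cf_C _).eq_of_isConj (he z)]
      obtain ⟨x, hx⟩ := exists_au ((hz z).1 h1)
      rw [hx, el_au, C_sc, au_val]
      field_simp [q_sub_ne]
    · obtain ⟨x, hx, e, -⟩ := exists_dS h1 h2 h3
      rw [CS, rs, e, C_dg _ hx]
    · obtain ⟨x, -, e, e'⟩ := exists_pS h1 (h2.trans h3.symm) h4
      rw [CS, rs, (cf_C _).eq_of_isConj e, C_par, ← e', h2]; simp
  · obtain ⟨n, hn, H⟩ := irr_cases_SL hχ
    have : n + 1 = Fintype.card F := by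
      apply Nat.cast_injective (R := ℂ); push_cast; linear_combination h1 - hn
    have := two_le_q (F := F)
    have := Nat.odd_iff.1 hodd
    rcases H with H | H | H | ⟨-, Θ, h, rfl⟩ | ⟨h3, α, χ', -, -, H⟩ | H
    · omega
    · omega
    · omega
    · exact ⟨_, (hE Θ _ (hr Θ)).1.2 h, e.surjective.forall.2 (hv Θ _ (hr Θ))⟩
    · have hq : Fintype.card F = 3 := by omega
      have := card_CS (F := F)
      rw [hq] at this
      obtain ⟨-, Θ, h, -⟩ := (Nat.card_ne_zero.1 (by intro e; rw [e] at this; simp at this)).1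
      refine ⟨_, (hE Θ _ (hr Θ)).1.2 h, e.surjective.forall.2 fun z h1 => ?_⟩
      have h2 := mt (hz z).2 h1
      have h4 := (ell_of_isConj (he z)).2 (ell_el h2)
      rw [H.eq_half h4.not_isConj_par, R_ell _ _ h4, ← ((hE Θ _ (hr Θ)).2 z).1,
        ← ((hE Θ _ (hr Θ)).2 z).2, C_three hq h h2 (mem_T1.1 z.2)]
      simp
    · omega

end Cfsg.Agent.S2434
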