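import Cfsg.Statements.S2435
import Cfsg.Agent.H13.SL2Deg

set_option autoImplicit false
open Cfsg

namespace Cfsg.Agent.S2435

open H13.GL2 H5

/-- Let F be a finite field with q elements, q odd and q ≥ 5, and χ an irreducible complex character of SL₂ over F. If χ has degree (q + 1)/2, then at a diagonal element with entry a, a² ≠ 1, χ takes the value 1 when a is a square in F and −1 otherwise. If χ has degree (q − 1)/2, then at an element g with no eigenvector in F² (so g has order dividing q + 1), χ takes the value −1 when g raised to the power (q + 1)/2 is the identity and the value 1 otherwise. -/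
theorem result {F : Type*} [Field F] [Fintype F] (hodd : Odd (Fintype.card F)) (hq : 5 ≤ Fintype.card F)
    (χ : Matrix.SpecialLinearGroup (Fin 2) F → ℂ) (hχ : Cfsg.IsIrrCharacter (Matrix.SpecialLinearGroup (Fin 2) F) χ) (g : Matrix.SpecialLinearGroup (Fin 2) F) :
    (χ 1 = (((Fintype.card F + 1) / 2 : ℕ) : ℂ) → (g : Matrix (Fin 2) (Fin 2) F) 0 1 = 0 → (g : Matrix (Fin 2) (Fin 2) F) 1 0 = 0 → (g : Matrix (Fin 2) (Fin 2) F) 0 0 ^ 2 ≠ 1 →
      (IsSquare ((g : Matrix (Fin 2) (Fin 2) F) 0 0) → χ g = 1) ∧ (¬ IsSquare ((g : Matrix (Fin 2) (Fin 2) F) 0 0) → χ g = -1)) ∧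
    (χ 1 = (((Fintype.card F - 1) / 2 : ℕ) : ℂ) → (∀ (c : F) (v : Fin 2 → F), v ≠ 0 → (g : Matrix (Fin 2) (Fin 2) F).mulVec v ≠ c • v) →
      (((g ^ ((Fintype.card F + 1) / 2)) : Matrix (Fin 2) (Fin 2) F) = 1 → χ g = -1) ∧ (((g ^ ((Fintype.card F + 1) / 2)) : Matrix (Fin 2) (Fin 2) F) ≠ 1 → χ g = 1)) := by
  classical
  refine ⟨fun h h1 h2 h3 => ?_, fun h h1 => ?_⟩
  · obtain ⟨x, hx, e, e'⟩ := exists_dS h1 h2 h3
    obtain ⟨α, χ', a1, a2, H⟩ := eq_HR hχ hodd (by omega) h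
    rw [H.eq_half (e ▸ not_isConj_dg_par hx), e, R_dg _ _ hx, e']
    refine ⟨fun hs => ?_, fun hs => ?_⟩
    · rw [quad_sq a1 x.ne_zero hs, quad_sq a1 x⁻¹.ne_zero (by simpa using hs)]
      simp [-Units.val_inv_eq_inv_val]
    · rw [quad_nonsq a1 a2 hs, quad_nonsq a1 a2 (x := x⁻¹.1) (by simpa using hs)]
      simp [-Units.val_inv_eq_inv_val]
  · have he := (ell_iff (Matrix.SpecialLinearGroup.toGL g)).2 h1
    obtain ⟨θ, χ', a1, a2, H⟩ := eq_HC hχ hodd (by omega) h
    obtain ⟨z, z1, z2, z3⟩ := exists_eS he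
    have key : ((g : Matrix (Fin 2) (Fin 2) F) ^ ((Fintype.card F + 1) / 2)) = 1 ↔
        z ^ ((Fintype.card F + 1) / 2) = 1 := by
      rw [← el_injective.eq_iff, show el (z ^ _) = _ from elHom.map_pow z _,
        show el 1 = 1 from elHom.map_one, ← orderOf_dvd_iff_pow_eq_one (x := elHom z),
        show orderOf (elHom z) = _ from (H10.orderOf_eq_of_isConj z3).symm,
        orderOf_dvd_iff_pow_eq_one, Units.ext_iff]
      rfl
    rw [H.eq_half he.not_isConj_par, (cf_C θ).eq_of_isConj z3, C_el _ z1, ← bar_apply, ← a1 _ z2,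
      Ne, key]
    exact ⟨fun e => by rw [(quadE a1 a2 z2).1 e]; norm_num,
      fun e => by rw [(quadE a1 a2 z2).2 e]; norm_num⟩

end Cfsg.Agent.S2435
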