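import Cfsg.Statements.S2436
import Cfsg.Agent.H13.SL2Tet
import Cfsg.Agent.S2427

set_option autoImplicit false
open Cfsg

namespace Cfsg.Agent.S2436

open H13.GL2 Subgroup H27 H5
open Matrix.SpecialLinearGroup (toGL)
open scoped MatrixGroups

/-- number of irreducible characters of degree prime to `l` -/
noncomputable def cnt (l : ℕ) (G : Type*) [Group G] : ℕ :=
  Nat.card {χ : IrrCharacter G // ¬ l ∣ charDegree χ.1}

/-- number of irreducible characters of degree `n` -/
noncomputable def cd (G : Type*) [Group G] (n : ℕ) : ℕ :=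
  Nat.card {χ : IrrCharacter G // χ.1 1 = n}

section
variable {G H : Type*} [Group G] [Group H] [Finite G] {l : ℕ}

theorem cnt_congr (e : G ≃* H) : cnt l G = cnt l H := by
  have := Finite.of_equiv _ e.toEquiv
  exact Nat.card_congr ⟨fun χ => ⟨⟨_, χ.1.2.comp_equiv e.symm⟩, by simpa [charDegree] using χ.2⟩,
    fun χ => ⟨⟨_, χ.1.2.comp_equiv e⟩, by simpa [charDegree] using χ.2⟩,
    fun χ => by ext; simp, fun χ => by ext; simp⟩

theorem cnt_eq_sum (s : Finset ℕ) (h : ∀ χ : IrrCharacter G, ∀ n : ℕ, χ.1 1 = n →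
    (¬ l ∣ n ↔ n ∈ s)) : cnt l G = ∑ n ∈ s, cd G n := by
  classical
  have key : ∀ χ : IrrCharacter G, χ.1 1 = charDegree χ.1 := fun χ => by
    obtain ⟨n, -, hn⟩ := χ.2.exists_apply_one
    rw [charDegree_eq hn, hn]
  simp only [cnt, cd, Nat.card_eq_fintype_card, Fintype.card_subtype]
  rw [Finset.card_eq_sum_card_fiberwise (f := fun χ => charDegree χ.1) (t := s)
    fun χ hχ => (h χ _ (key χ)).1 (Finset.mem_filter.1 hχ).2]
  refine Finset.sum_congr rfl fun n hn => congrArg _ (Finset.ext fun χ => ?_)
  simp only [Finset.mem_filter, Finset.mem_univ, true_and, key, Nat.cast_inj, h χ _ (key χ)]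
  exact ⟨fun e => e.2, fun e => ⟨e ▸ hn, e⟩⟩

theorem cnt_of_comm [Fact l.Prime] (S : Sylow l G) (h : ∀ a ∈ S, ∀ b ∈ S, a * b = b * a) :
    cnt l (normalizer (S.1 : Set G)) = Nat.card (ConjClasses (normalizer (S.1 : Set G))) := by
  rw [← card_irr]
  refine Nat.card_congr (Equiv.subtypeUnivEquiv fun χ e => ?_)
  obtain ⟨n, -, hn⟩ := χ.2.exists_apply_one
  exact S.not_dvd_index ((charDegree_eq hn ▸ e).trans ((H6.ito χ.2 (A := S.1.subgroupOf _)
    (fun a ha b hb => Subtype.ext (h _ ha _ hb)) hn).trans (relIndex_dvd_index_of_le le_normalizer)))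

theorem cnt_two (T : Subgroup G) (w : G) (hw : w ∉ T) (hi : ∀ g, g ∈ T ∨ w⁻¹ * g ∈ T)
    (hinv : ∀ t ∈ T, w * t * w⁻¹ = t⁻¹) (hc : ∀ a ∈ T, ∀ b ∈ T, a * b = b * a) (h2 : T.index = 2)
    (h1 : Nat.card {t : T // t ^ 2 = 1} = 2) : cnt 2 G = 4 := by
  classical
  have := normal_of_index_eq_two h2
  have a := card_conjClasses_of_inverting T w hw hi hinv
  have b := sum_irr_one_sq G
  have c := T.index_mul_card
  have d : ∀ χ : IrrCharacter G, χ.1 1 ^ 2 + 3 * (if ¬ 2 ∣ charDegree χ.1 then 1 else 0) = 4 :=
    fun χ => by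
    obtain ⟨n, -, hn⟩ := χ.2.exists_apply_one
    rcases (Nat.dvd_prime Nat.prime_two).1 (h2 ▸ H6.ito χ.2 hc hn) with rfl | rfl <;>
      simp [hn, charDegree_eq hn] <;> norm_num
  have e := Finset.sum_congr (rfl (a := Finset.univ)) fun χ _ => d χ
  rw [Finset.sum_add_distrib, b, ← Finset.mul_sum, Finset.sum_boole, ← Fintype.card_subtype,
    Finset.sum_const, Finset.card_univ, ← Nat.card_eq_fintype_card, ← Nat.card_eq_fintype_card,
    card_irr, nsmul_eq_mul] at e
  norm_cast at e
  rw [h2] at c
  unfold cnt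
  omega
end

variable {F : Type*} [Field F] [Fintype F] [DecidableEq F]

theorem deg_cases (χ : IrrCharacter SL(2, F)) {n : ℕ} (h : χ.1 1 = n) : n = 1 ∨ n = Fintype.card F ∨
    n = Fintype.card F + 1 ∨ n + 1 = Fintype.card F ∨ 2 * n = Fintype.card F + 1 ∨
    2 * n + 1 = Fintype.card F := by
  obtain ⟨m, hm, H⟩ := irr_cases_SL χ.2
  obtain rfl : m = n := by rw [hm] at h; exact_mod_cast h
  tauto

theorem cnt_SL23 : cnt 2 SL(2, ZMod 3) = 4 := by
  rw [cnt_eq_sum {1, 3} fun χ n h => by
    have := deg_cases χ h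
    simp only [ZMod.card, Finset.mem_insert, Finset.mem_singleton] at *
    omega, Finset.sum_pair (by norm_num)]
  have a := card_deg_q (F := ZMod 3)
  have b := (commutator SL(2, ZMod 3)).index_mul_card
  rw [← card_linear, S2427.result.2.2.1, H24.card_SL23] at b
  rw [ZMod.card] at a
  simp only [cd, Nat.cast_one, a]
  omega

theorem card_classes_B (hodd : Odd (Fintype.card F)) : Nat.card (ConjClasses
    ((upperTriangularGL 2 F).comap (toGL (n := Fin 2) (R := F)))) = Fintype.card F + 3 := by
  set B := (upperTriangularGL 2 F).comap (toGL (n := Fin 2) (R := F))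
  have := Fintype.ofFinite B
  have key : ∀ g : B, (∀ k : SL(2, F), k * g = g * k → k 1 0 = 0) →
      Nat.card (centralizer {g}) = Nat.card (centralizer {g.1}) := fun g h => by
    rw [← card_map_of_injective B.subtype_injective]
    congr 3
    ext k
    simp only [mem_map, mem_centralizer_singleton_iff, Subtype.ext_iff]
    exact ⟨fun ⟨x, e, e'⟩ => e' ▸ e, fun e => ⟨⟨k, mem_B.2 (h k e)⟩, e, rfl⟩⟩
  have h1 : ∀ x b, (Nat.card (centralizer {bEquivS (F := F) (x, b)}) : ℂ) = (if (x : F) * x = 1 then
      (Fintype.card F + 1 + if b = 0 then ((Fintype.card F : ℂ) - 3) * Fintype.card F else 0) else 0)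
        + (Fintype.card F - 1 : ℂ) := fun x b => by
    by_cases hx : (x : F) * x = 1
    · have e : x⁻¹ = x := inv_eq_of_mul_eq_one_right (Units.ext hx)
      by_cases hb : b = 0
      · have : bEquivS (x, b) ∈ center _ := mem_center_iff.2 fun k =>
          Subtype.ext (mem_center_iff.1 ((sc_toGL_iff (g := upS x b)).1 (by simp [hb, e])) k.1)
        rw [centralizer_eq_top_iff_subset.2 (Set.singleton_subset_iff.2 this), card_top, card_BS]
        simp [hx, hb, Nat.cast_sub (Fintype.card_pos (α := F))]; ring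
      · rw [key _ fun k h => ((comm_up x hb (toGL k)).1 (by
          simpa [e] using congrArg toGL (show k * upS x b = upS x b * k from h))).1]
        erw [card_cent_upS e hb, gcd_two_of_odd hodd]
        simp [hx, hb]; ring
    · have e : x ≠ x⁻¹ := fun e => hx (congrArg Units.val (mul_eq_one_iff_eq_inv.2 e))
      rw [key _ fun k h => ?_, card_cent_dg e (by
        erw [toGL_upS]; exact isConj_up_dg e b), Nat.cast_sub Fintype.card_pos]
      · simp [hx]
      have := congrArg (fun m : SL(2, F) => toGL m 1 0) (show k * upS x b = upS x b * k from h)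
      simp only [map_mul, gl_mul_apply, toGL_upS, up_00, up_10, up_11, toGL_apply] at this
      exact mul_left_cancel₀ (sub_ne_zero.2 (Units.ext_iff.not.1 e)) (by linear_combination this)
  have h2 := congrArg (Nat.cast (R := ℂ)) (sum_card_centralizer (G := B))
  rw [Nat.cast_sum, ← bEquivS.sum_comp, Fintype.sum_prod_type, Finset.sum_comm] at h2
  simp only [h1, Finset.sum_add_distrib, sum_sq_one', gcd_two_of_odd hodd, ← Finset.mul_sum,
    Finset.sum_ite_eq', Finset.mem_univ, if_true, Finset.sum_const, Finset.card_univ,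
    nsmul_eq_mul, Fintype.card_units, card_BS, B, Nat.cast_mul,
    Nat.cast_sub (Fintype.card_pos (α := F))] at h2
  apply Nat.cast_injective (R := ℂ)
  apply mul_left_cancel₀ (mul_ne_zero (q_ne (F := F)) (q_sub_ne (F := F)))
  push_cast at h2 ⊢
  linear_combination -h2

/-- Let F be a finite field with q elements, q odd, ℓ any prime and S a Sylow ℓ-subgroup of SL₂ over F with normaliser N. Then SL₂ and N have the same number of irreducible complex characters of degree not divisible by ℓ (the McKay equality holds for SL₂ over F at every prime). -/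
theorem result {F : Type*} [Field F] [Fintype F] (hodd : Odd (Fintype.card F)) (ℓ : ℕ) [Fact ℓ.Prime] (S : Sylow ℓ (Matrix.SpecialLinearGroup (Fin 2) F)) :
    Nat.card {χ : Cfsg.IrrCharacter (Matrix.SpecialLinearGroup (Fin 2) F) // ¬ ℓ ∣ Cfsg.charDegree (χ : Matrix.SpecialLinearGroup (Fin 2) F → ℂ)} =
      Nat.card {ψ : Cfsg.IrrCharacter (Subgroup.normalizer ((S : Subgroup (Matrix.SpecialLinearGroup (Fin 2) F)) : Set (Matrix.SpecialLinearGroup (Fin 2) F))) //
        ¬ ℓ ∣ Cfsg.charDegree (ψ : Subgroup.normalizer ((S : Subgroup (Matrix.SpecialLinearGroup (Fin 2) F)) : Set (Matrix.SpecialLinearGroup (Fin 2) F)) → ℂ)} := by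
  classical
  change cnt ℓ _ = cnt ℓ _
  have pp : ℓ.Prime := Fact.out
  by_cases hN : S.1.Normal
  · rw [normalizer_eq_top_iff.2 hN]; exact cnt_congr topEquiv.symm
  have ho := Nat.odd_iff.1 hodd
  have hq := two_le_q (F := F)
  have g1 := gcd_two_of_odd hodd
  have g2 : Nat.gcd 2 (Fintype.card F + 1) = 2 := Nat.gcd_eq_left (by omega)
  have c1 : 4 ≤ Fintype.card F → cd SL(2, F) 1 = 1 := fun h => by simpa [cd] using card_deg_one h
  have c2 : cd SL(2, F) (Fintype.card F) = 1 := card_deg_q
  have c3 : 2 * cd SL(2, F) (Fintype.card F + 1) = Fintype.card F - 1 - 2 := by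
    simpa [cd, g1] using card_deg_R (F := F)
  have c4 : 4 ≤ Fintype.card F → 2 * cd SL(2, F) (Fintype.card F - 1) = Fintype.card F + 1 - 2 :=
    fun h => by simpa [cd, g2, Nat.cast_sub (Fintype.card_pos (α := F))] using card_deg_C h
  have c5 : 4 ≤ Fintype.card F → cd SL(2, F) ((Fintype.card F + 1) / 2) = 2 := card_deg_HR hodd
  have c6 : 4 ≤ Fintype.card F → cd SL(2, F) ((Fintype.card F - 1) / 2) = 2 := card_deg_HC hodd
  by_cases h2 : ℓ = 2
  · subst h2
    obtain ⟨T, w, t, h⟩ := exists_syl2 hodd S
    have h4 : 4 ≤ Fintype.card F := by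
      by_contra e
      have := h.tor.card
      have := h.four
      refine hN (normalizer_eq_top_iff.1 (eq_top_of_card_eq _ ?_))
      rw [h.card_norm (by omega), card_SL_nat, show Fintype.card F = 3 by omega]
    trans 4
    · by_cases e : Fintype.card F % 4 = 1
      · rw [cnt_eq_sum {1, Fintype.card F, (Fintype.card F + 1) / 2} fun χ n h => by
          have := deg_cases χ h
          simp only [Finset.mem_insert, Finset.mem_singleton]; omega,
          Finset.sum_insert (by simp; omega), Finset.sum_pair (by omega), c1 h4, c2, c5 h4]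
        rfl
      · rw [cnt_eq_sum {1, Fintype.card F, (Fintype.card F - 1) / 2} fun χ n h => by
          have := deg_cases χ h
          simp only [Finset.mem_insert, Finset.mem_singleton]; omega,
          Finset.sum_insert (by simp; omega), Finset.sum_pair (by omega), c1 h4, c2, c6 h4]
        rfl
    by_cases h8 : 8 ∣ Nat.card T
    · rw [h.norm_eq h8]
      refine (cnt_two (T.subgroupOf S) ⟨w, h.w_mem⟩ h.w_not (fun g => h.cases g.2)
        (fun t ht => Subtype.ext (h.tor.inv _ ht)) (fun a ha b hb => Subtype.ext (h.tor.comm ha hb))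
        ?_ ?_).symm
      · have a := relIndex_le_of_le_right (H := T) h.le (by
          rw [h.tor.index_norm h.t_mem h.nc]; norm_num)
        rw [h.tor.index_norm h.t_mem h.nc] at a
        have b : T.relIndex S ≠ 1 := fun e => h.w_not (relIndex_eq_one.1 e h.w_mem)
        have c : T.relIndex S ≠ 0 := index_ne_zero_of_finite
        change T.relIndex S = 2
        omega
      · refine Eq.trans ?_ (h.tor.card_sq_one hodd)
        exact Nat.card_congr ⟨fun x => ⟨⟨x.1.1.1, x.1.2⟩, Subtype.ext
          (congrArg (fun y => y.1.1) x.2)⟩, fun x => ⟨⟨⟨x.1.1, h.mem_of_pow x.1.2 (k := 1)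
          (congrArg Subtype.val x.2)⟩, x.1.2⟩, Subtype.ext (Subtype.ext
          (congrArg (fun y : T => y.1) x.2))⟩, fun _ => rfl, fun _ => rfl⟩
    · rw [cnt_congr (h.equiv_norm h8).some, cnt_SL23]
  rw [cnt_of_comm S fun a ha b hb => comm_of_isPGroup (fun e => absurd e h2) S.isPGroup' ha hb]
  have n1 := pp.not_dvd_one
  have n2 : ¬ ℓ ∣ 2 := mt (Nat.prime_dvd_prime_iff_eq pp Nat.prime_two).1 h2
  have n3 : ∀ n, ℓ ∣ 2 * n ↔ ℓ ∣ n := fun n => by simp [pp.dvd_mul, n2]
  have l3 : 3 ≤ ℓ := by have := pp.two_le; omega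
  have tor : ∀ T w, STor (F := F) T w → ℓ ∣ Nat.card T → 2 * Nat.card (ConjClasses
      (normalizer (S.1 : Set SL(2, F)))) = Nat.card T + 6 := fun T w h hT => by
    obtain ⟨c, hc, t, ht, ht'⟩ := h.sylow h2 hT S
    rw [(h.cjg c).norm_eq hc ht ht', (h.cjg c).card_classes hodd (hc ht) ht', card_cj]
  have hd : ℓ ∣ Nat.card SL(2, F) := by
    by_contra e
    exact hN (by rw [card_eq_one.1 ((S.isPGroup'.card_eq_or_dvd).resolve_right
      fun a => e (a.trans (card_subgroup_dvd_card _)))]; infer_instance)
  rw [card_SL_nat, pp.dvd_mul, pp.dvd_mul] at hd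
  rcases hd with hd | hd | hd
  · have : CharP F ℓ := (CharP.charP_iff_prime_eq_zero pp).2 (by
      obtain ⟨n, h1, h2⟩ := FiniteField.card F (ringChar F)
      rw [(Nat.prime_dvd_prime_iff_eq pp h1).1 (pp.dvd_of_dvd_pow (h2 ▸ hd))]
      exact ringChar.Nat.cast_ringChar)
    have a : cnt ℓ SL(2, F) = Fintype.card F + 3 := by
      have b := card_conjClasses_SL (F := F)
      rw [← card_irr, g1, Nat.card_eq_fintype_card] at b
      rw [cnt, Nat.card_congr (Equiv.subtypeEquivRight (q := fun χ => ¬ χ = ⟨StS, irr_StS⟩) fun χ => by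
        obtain ⟨n, -, hn⟩ := χ.2.exists_apply_one
        rw [charDegree_eq hn]
        refine ⟨fun e => ?_, fun e => not_dvd_deg ℓ χ.2 (fun a => e (Subtype.ext a)) hn⟩
        rintro rfl
        exact e (Nat.cast_injective (StS_apply_one.symm.trans hn) ▸ hd)),
        Nat.card_eq_fintype_card, Fintype.card_subtype_compl, Fintype.card_subtype_eq, b]
      omega
    let u : Multiplicative F →* SL(2, F) :=
      MonoidHom.mk' (fun b => upS 1 b.toAdd) fun a b => by simp [upS_mul, add_comm]
    have hu : Nat.card u.range = Fintype.card F := by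
      rw [← Nat.card_eq_fintype_card]
      exact Nat.card_congr (MonoidHom.ofInjective (f := u) fun a b e => (upS_inj.1 e).2).toEquiv.symm
    obtain ⟨n, -, hn⟩ := FiniteField.card F ℓ
    let P := (IsPGroup.of_card (hu.trans hn)).toSylow (by
      have := u.range.card_mul_index
      rw [hu, card_SL_nat, mul_right_inj' (by omega)] at this
      rw [this, pp.dvd_mul]
      exact fun e => e.elim (not_dvd_sub ℓ) (not_dvd_add ℓ))
    obtain ⟨g, rfl⟩ := MulAction.exists_smul_eq SL(2, F) P S
    have hB : normalizer (P.1 : Set SL(2, F)) =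
        (upperTriangularGL 2 F).comap (toGL (n := Fin 2) (R := F)) := by
      ext k
      rw [mem_comap, mem_B]
      constructor
      · intro hk
        obtain ⟨b, hb⟩ := (mem_normalizer_iff.1 hk (upS 1 1)).1 ⟨Multiplicative.ofAdd 1, rfl⟩
        have e := congrArg (fun m => toGL m 1 1) (eq_mul_inv_iff_mul_eq.1 hb)
        simpa [u, gl_mul_apply, -Units.val_mul] using e
      · intro hk
        obtain ⟨x, c, rfl⟩ := exists_upS hk
        refine mem_normalizer_fintype ?_
        rintro _ ⟨b, rfl⟩
        refine ⟨Multiplicative.ofAdd (x * x * b.toAdd), eq_mul_inv_iff_mul_eq.2 ?_⟩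
        simp only [u, MonoidHom.mk'_apply, upS_mul, upS_inj]
        simp; field_simp; ring
    have := cnt_congr (l := ℓ) (cjEquiv g (normalizer (P.1 : Set SL(2, F))))
    rw [cj_normalizer, cnt_of_comm P fun a ha b hb => comm_of_isPGroup (fun e => absurd e h2)
      P.isPGroup' ha hb, hB, card_classes_B hodd, ← a] at this
    exact this.trans (cnt_of_comm (g • P) fun a ha b hb => comm_of_isPGroup (fun e => absurd e h2)
      (g • P).isPGroup' ha hb)
  · have := tor _ _ sTor_dS (by rwa [card_range_dS])
    have h4 : 4 ≤ Fintype.card F := by have := Nat.le_of_dvd (by omega) hd; omega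
    obtain ⟨m, hm⟩ : ∃ m, Fintype.card F = m + 1 := ⟨_, (Nat.sub_add_cancel Fintype.card_pos).symm⟩
    rw [cnt_eq_sum {1, Fintype.card F, Fintype.card F + 1, (Fintype.card F + 1) / 2} fun χ n h => by
      have a : ¬ ℓ ∣ m + 1 := by rwa [Nat.dvd_add_right (by simpa [hm] using hd)]
      have b : ¬ ℓ ∣ m + 2 := by rwa [Nat.dvd_add_right (by simpa [hm] using hd)]
      simp only [Finset.mem_insert, Finset.mem_singleton]
      rcases deg_cases χ h with e | e | e | e | e | e
      · simp [e, n1]
      · simp [e, hm, a]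
      · simp [e, hm, b]
      · exact iff_of_false (by rwa [not_not, show n = Fintype.card F - 1 by omega]) (by omega)
      · exact iff_of_true (by rwa [← n3, e, hm]) (by omega)
      · exact iff_of_false (by rwa [not_not, ← n3, show 2 * n = Fintype.card F - 1 by omega]) (by omega),
      Finset.sum_insert (by simp; omega), Finset.sum_insert (by simp; omega),
      Finset.sum_pair (by omega), c1 h4, c2, c5 h4]
    rw [card_range_dS] at this
    omega
  · obtain ⟨w, hw⟩ := exists_sTor_eS (F := F)
    have := tor _ _ hw (by rwa [card_range_eS])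
    have h4 : 4 ≤ Fintype.card F := by
      by_contra e
      rw [show Fintype.card F + 1 = 2 * 2 by omega, n3] at hd
      exact n2 hd
    rw [cnt_eq_sum {1, Fintype.card F, Fintype.card F - 1, (Fintype.card F - 1) / 2} fun χ n h => by
      have a : ¬ ℓ ∣ Fintype.card F := fun e => n1 ((Nat.dvd_add_right e).1 hd)
      have b : ¬ ℓ ∣ Fintype.card F - 1 := fun e => n2 ((Nat.dvd_add_right e).1
        (by rwa [show Fintype.card F - 1 + 2 = Fintype.card F + 1 by omega]))
      simp only [Finset.mem_insert, Finset.mem_singleton]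
      rcases deg_cases χ h with e | e | e | e | e | e
      · simp [e, n1]
      · simp [e, a]
      · exact iff_of_false (by rwa [not_not, e]) (by omega)
      · exact iff_of_true (by rwa [show n = Fintype.card F - 1 by omega]) (by omega)
      · exact iff_of_false (by rwa [not_not, ← n3, e]) (by omega)
      · exact iff_of_true (by rwa [← n3, show 2 * n = Fintype.card F - 1 by omega]) (by omega),
      Finset.sum_insert (by simp; omega), Finset.sum_insert (by simp; omega),
      Finset.sum_pair (by omega), c1 h4, c2, c6 h4]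
    have := c4 h4
    rw [card_range_eS] at *
    omega

end Cfsg.Agent.S2436
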