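import Cfsg.Statements.S2437
import Cfsg.Agent.H13.SL2Cls

set_option autoImplicit false
open Cfsg

namespace Cfsg.Agent.S2437

open H13.GL2 H5 Matrix.SpecialLinearGroup

/-- Over a finite field F with q elements, q odd, the upper triangular subgroup of SL₂ (a Borel subgroup, of order q(q − 1)) has exactly q + 3 conjugacy classes. -/
theorem result {F : Type*} [Field F] [Fintype F] (hodd : Odd (Fintype.card F)) :
    Nat.card (ConjClasses ((Cfsg.upperTriangularGL 2 F).comap Matrix.SpecialLinearGroup.toGL)) = Fintype.card F + 3 := by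
  classical
  have h := card_comm_eq_card_conjClasses_mul_card
    ((upperTriangularGL 2 F).comap (toGL (n := Fin 2) (R := F)))
  rw [card_BS, ← Nat.card_congr ((bEquivS.prodCongr bEquivS).subtypeEquiv
    (p := fun p => p.1.2 * ((p.2.1 : F) - (p.2.1⁻¹).1) = p.2.2 * ((p.1.1 : F) - (p.1.1⁻¹).1)) (by
      rintro ⟨⟨x, b⟩, y, c⟩
      rw [commute_iff_eq, Subtype.ext_iff]
      change _ ↔ upS x b * upS y c = upS y c * upS x b
      rw [upS_mul, upS_mul, upS_inj, and_iff_right (mul_comm _ _)]
      constructor <;> intro h <;> linear_combination -h)),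
    Nat.card_eq_fintype_card, Fintype.card_subtype, Finset.card_filter] at h
  have k1 : ∀ u v : F, ∑ b : F, ∑ c : F, (if b * u = c * v then (1 : ℂ) else 0) =
      Fintype.card F + if v = 0 then (if u = 0 then (Fintype.card F : ℂ) ^ 2 - Fintype.card F
        else 0) else 0 := fun u v => by
    split_ifs with hv hu
    · simp [hu, hv, sq]
    · simp [hu, hv, Finset.sum_comm (γ := F)]
    · rw [Finset.sum_congr rfl (g := fun _ => 1)]
      · simp
      · intro b _
        rw [Finset.sum_eq_single (b * u / v), if_pos (by field_simp)]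
        · exact fun c _ hc => if_neg fun e => hc (by rw [e]; field_simp)
        · simp
  have k2 : ∀ x : Fˣ, (x : F) - (x⁻¹).1 = 0 ↔ (x : F) * x = 1 := fun x => by
    rw [sub_eq_zero, ← Units.ext_iff, ← Units.val_mul, Units.val_eq_one, mul_eq_one_iff_eq_inv]
  have h' := congrArg (Nat.cast : ℕ → ℂ) h
  simp only [Nat.cast_sum, Nat.cast_ite, Nat.cast_one, Nat.cast_zero, Fintype.sum_prod_type,
    Nat.cast_mul, Nat.cast_sub (Fintype.card_pos (α := F))] at h'
  simp only [Finset.sum_comm (s := (Finset.univ : Finset F)) (t := (Finset.univ : Finset Fˣ)), k1,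
    k2, Finset.sum_add_distrib, sum_sq_one', Finset.sum_ite_irrel, Finset.sum_const_zero,
    Finset.sum_const, Finset.card_univ, Fintype.card_units, H27.gcd_two_of_odd hodd, nsmul_eq_mul,
    Nat.cast_sub (Fintype.card_pos (α := F))] at h'
  apply Nat.cast_injective (R := ℂ)
  apply mul_right_cancel₀ (mul_ne_zero (q_sub_ne (F := F)) (q_ne (F := F)))
  push_cast at h' ⊢
  linear_combination -h'

end Cfsg.Agent.S2437
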