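import Cfsg.Statements.S2439
import Cfsg.Agent.H13.SL2Deg2
import Cfsg.Agent.H7.LocalRing

set_option autoImplicit false
open Cfsg

namespace Cfsg.Agent.S2439

open H13.GL2 H5 H7 Matrix.SpecialLinearGroup
open scoped MatrixGroups ComplexConjugate

theorem memI_sub_one {G : Type*} [Group G] [Finite G] {p : ℕ} {M : Ideal AlgInt} [M.IsMaximal]
    (hM : IsPModular p M) {χ : G → ℂ} (h : IsCharacter G χ) {u : G} (hu : u ^ p = 1) :
    MemLocalIdeal M (χ u - χ 1) := by
  obtain ⟨s, h1, h2, h3⟩ := h.exists_eigenvalues u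
  have h4 := h3 1
  simp only [zpow_one] at h4
  have : χ u - χ 1 = (s.map fun ω : ℂˣ => (ω : ℂ) - 1).sum := by
    rw [h4, ← h1, Multiset.sum_map_sub]; simp
  rw [this]
  refine Multiset.sum_induction _ _ (fun _ _ => memI_add) (memI_zero M) fun z hz => ?_
  obtain ⟨ω, hω, rfl⟩ := Multiset.mem_map.1 hz
  have e : (ω : ℂ) ^ p ^ 1 = 1 := by
    obtain ⟨k, hk⟩ := orderOf_dvd_of_pow_eq_one hu
    rw [pow_one, hk, pow_mul, ← Units.val_pow_eq_pow_val, h2 ω hω]; simp
  rw [memI_sub_iff (mem_O_of_pow_eq_one (pow_ne_zero _ hM.1.ne_zero) e) (one_mem _),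
    res_eq_one_of_pow_eq_one hM e, res_one]

theorem eps {F : Type*} [Field F] [Fintype F] [DecidableEq F] {χ : SL(2, F) → ℂ} (h : IsIrrCharacter _ χ) :
    χ (-1) = χ 1 ∨ χ (-1) = -χ 1 := by
  have a := h.apply_mul_of_mem_charCenter (h.center_le_charCenter neg_one_mem_center) (-1)
  rw [neg_mul_neg, one_mul] at a
  have := h.apply_one_ne_zero
  field_simp at a
  exact sq_eq_sq_iff_eq_or_eq_neg.1 a.symm

theorem index_neg_one {F : Type*} [Field F] [Fintype F] [DecidableEq F] :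
    (Subgroup.centralizer {(-1 : SL(2, F))}).index = 1 := by
  rw [Subgroup.index_eq_one, Subgroup.centralizer_eq_top_iff_subset]
  simpa using neg_one_mem_center

theorem same {F : Type*} [Field F] [Fintype F] [DecidableEq F] (p : ℕ) [Fact p.Prime] [CharP F p]
    {M : Ideal AlgInt} [M.IsMaximal] (hM : IsPModular p M) {χ ψ : SL(2, F) → ℂ}
    (h : IsIrrCharacter _ χ) (h' : IsIrrCharacter _ ψ) (e : χ ≠ StS) (e' : ψ ≠ StS)
    (H : χ (-1) / χ 1 = ψ (-1) / ψ 1) : SameBlock M χ ψ := by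
  have hq : p ∣ Fintype.card F := (CharP.cast_eq_zero_iff F p _).1 (FiniteField.cast_card_eq_zero F)
  have inv : ∀ {χ : SL(2, F) → ℂ}, IsIrrCharacter _ χ → χ ≠ StS → (χ 1)⁻¹ ∈ O M := fun h e => by
    obtain ⟨n, -, hn⟩ := h.exists_apply_one
    rw [hn]; exact inv_natCast_mem_O hM (not_dvd_deg p h e hn)
  have ss : ∀ {χ : SL(2, F) → ℂ}, IsIrrCharacter _ χ → χ ≠ StS → ∀ g : SL(2, F),
      ¬ p ∣ Nat.card (Subgroup.centralizer {g}) → MemLocalIdeal M (centralChar χ g) :=
    fun h e g hg => by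
      have := (Subgroup.centralizer {g}).card_mul_index
      rw [H11.card_sl_two] at this
      rw [centralChar, mul_div_assoc]
      exact memI_mul_right ((memI_natCast_iff hM _).2 ((hM.1.dvd_mul.1 (this ▸ hq.mul_right _)
        ).resolve_left hg)) (mul_mem (mem_O_of_isIntegral M (h.isCharacter.isIntegral_apply g))
        (inv h e))
  have un : ∀ {χ : SL(2, F) → ℂ}, IsIrrCharacter _ χ → χ ≠ StS → ∀ b : F,
      MemLocalIdeal M (χ (upS 1 b) / χ 1 - 1) := fun {χ} h e b => by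
    rw [div_sub_one h.apply_one_ne_zero]
    exact memI_mul_right (memI_sub_one hM h.isCharacter (by rw [upS_pow]; simp [upS_one])) (inv h e)
  intro g
  rcases trich (toGL g) with ⟨x, hx⟩ | ⟨x, hx⟩ | ⟨x, y, hxy, hx⟩ | hx
  · rcases sc_toGL_iff'.1 (hx ▸ (sc_dg x x).2 rfl) with rfl | rfl
    · simp only [centralChar, mul_div_assoc, div_self h.apply_one_ne_zero,
        div_self h'.apply_one_ne_zero, sub_self]
      exact memI_zero M
    · simp only [centralChar, mul_div_assoc, H, sub_self]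
      exact memI_zero M
  · obtain ⟨h1, b, hb, h2⟩ := exists_conj_upS hx
    rw [centralChar, centralChar, mul_div_assoc, mul_div_assoc, ← mul_sub,
      h.isClassFunction.eq_of_isConj h2, h'.isClassFunction.eq_of_isConj h2]
    refine memI_mul_left (natCast_mem _ _) ?_
    have : (x : F) * x = 1 := by rw [← Units.val_mul, mul_eq_one_iff_inv_eq.2 h1, Units.val_one]
    rcases mul_self_eq_one_iff.1 this with e1 | e1
    · obtain rfl : x = 1 := Units.ext e1
      simpa using memI_sub (un h e b) (un h' e' b)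
    · obtain rfl : x = -1 := Units.ext e1
      rw [← neg_neg b, ← neg_one_mul_upS,
        h.apply_mul_of_mem_charCenter (h.center_le_charCenter neg_one_mem_center),
        h'.apply_mul_of_mem_charCenter (h'.center_le_charCenter neg_one_mem_center), ← H,
        mul_div_assoc, mul_div_assoc, ← mul_sub]
      refine memI_mul_left (mul_mem (mem_O_of_isIntegral M (h.isCharacter.isIntegral_apply _))
        (inv h e)) ?_
      simpa using memI_sub (un h e (-b)) (un h' e' (-b))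
  · have : ¬ p ∣ Nat.card (Subgroup.centralizer {g}) := by
      rw [card_cent_dg hxy hx]
      exact fun e => hM.1.one_lt.ne' (Nat.dvd_one.1 ((Nat.dvd_sub_iff_right Fintype.card_pos hq).1 e))
    exact memI_sub (ss h e g this) (ss h' e' g this)
  · have : ¬ p ∣ Nat.card (Subgroup.centralizer {g}) := by
      rw [card_cent_ell hx]
      exact fun e => hM.1.one_lt.ne' (Nat.dvd_one.1 ((Nat.dvd_add_right hq).1 e))
    exact memI_sub (ss h e g this) (ss h' e' g this)

theorem not_same_St {F : Type*} [Field F] [Fintype F] [DecidableEq F] (p : ℕ) [Fact p.Prime]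
    [CharP F p] {M : Ideal AlgInt} [M.IsMaximal] (hM : IsPModular p M) {χ : SL(2, F) → ℂ}
    (h : IsIrrCharacter _ χ) (e : χ ≠ StS) : ¬ MemLocalIdeal M (centralChar χ (upS 1 1)) := by
  have hq : p ∣ Fintype.card F := (CharP.cast_eq_zero_iff F p _).1 (FiniteField.cast_card_eq_zero F)
  obtain ⟨n, -, hn⟩ := h.exists_apply_one
  have h1 := memI_sub_one hM h.isCharacter (u := upS 1 1) (by rw [upS_pow]; simp [upS_one])
  intro H
  have h2 := memI_sub (memI_mul_right H (hn ▸ natCast_mem _ n)) (memI_mul_left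
    (natCast_mem _ (Subgroup.centralizer {upS (1 : Fˣ) 1}).index) h1)
  rw [centralChar, div_mul_cancel₀ _ h.apply_one_ne_zero, ← mul_sub, sub_sub_cancel, hn,
    ← Nat.cast_mul, memI_natCast_iff hM, hM.1.dvd_mul] at h2
  refine h2.elim (fun h3 => ?_) (not_dvd_deg p h e hn)
  have := (Subgroup.centralizer {upS (1 : Fˣ) 1}).card_mul_index
  rw [H11.card_sl_two, card_cent_upS inv_one one_ne_zero, mul_comm _ (Fintype.card F),
    mul_assoc] at this
  have h4 := h3.mul_left (Nat.gcd 2 (Fintype.card F - 1))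
  rw [Nat.eq_of_mul_eq_mul_left Fintype.card_pos this, Nat.dvd_sub_iff_right
    (Nat.one_le_pow _ _ Fintype.card_pos) (hq.trans (dvd_pow_self _ two_ne_zero))] at h4
  exact hM.1.one_lt.ne' (Nat.dvd_one.1 h4)

/-- Let F be a finite field with q elements of odd characteristic p, and M a maximal ideal of the algebraic integers containing p. Then SL₂ over F has exactly three p-blocks relative to M: the irreducible character of degree q (the Steinberg character) alone; the other irreducible characters taking the same value at −1 as at 1 (the principal block); and the irreducible characters χ with χ(−1) = −χ(1). Every Sylow p-subgroup is a defect group of each of the last two blocks. -/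
theorem result {F : Type*} [Field F] [Fintype F] (p : ℕ) [Fact p.Prime] [CharP F p] (hp : p ≠ 2)
    (M : Ideal Cfsg.AlgInt) (hM : Cfsg.IsPModular p M) :
    (∀ B : Set (Cfsg.IrrCharacter (Matrix.SpecialLinearGroup (Fin 2) F)), Cfsg.IsPBlock M B ↔
      (B = {χ : Cfsg.IrrCharacter (Matrix.SpecialLinearGroup (Fin 2) F) | (χ : Matrix.SpecialLinearGroup (Fin 2) F → ℂ) 1 = (Fintype.card F : ℂ)} ∨
       B = {χ : Cfsg.IrrCharacter (Matrix.SpecialLinearGroup (Fin 2) F) | (χ : Matrix.SpecialLinearGroup (Fin 2) F → ℂ) (-1) = (χ : Matrix.SpecialLinearGroup (Fin 2) F → ℂ) 1 ∧ (χ : Matrix.SpecialLinearGroup (Fin 2) F → ℂ) 1 ≠ (Fintype.card F : ℂ)} ∨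
       B = {χ : Cfsg.IrrCharacter (Matrix.SpecialLinearGroup (Fin 2) F) | (χ : Matrix.SpecialLinearGroup (Fin 2) F → ℂ) (-1) = -(χ : Matrix.SpecialLinearGroup (Fin 2) F → ℂ) 1})) ∧
    Nat.card {B : Set (Cfsg.IrrCharacter (Matrix.SpecialLinearGroup (Fin 2) F)) // Cfsg.IsPBlock M B} = 3 ∧
    ∀ P : Sylow p (Matrix.SpecialLinearGroup (Fin 2) F),
      Cfsg.IsDefectGroup p M {χ : Cfsg.IrrCharacter (Matrix.SpecialLinearGroup (Fin 2) F) | (χ : Matrix.SpecialLinearGroup (Fin 2) F → ℂ) (-1) = (χ : Matrix.SpecialLinearGroup (Fin 2) F → ℂ) 1 ∧ (χ : Matrix.SpecialLinearGroup (Fin 2) F → ℂ) 1 ≠ (Fintype.card F : ℂ)} (P : Subgroup (Matrix.SpecialLinearGroup (Fin 2) F)) ∧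
      Cfsg.IsDefectGroup p M {χ : Cfsg.IrrCharacter (Matrix.SpecialLinearGroup (Fin 2) F) | (χ : Matrix.SpecialLinearGroup (Fin 2) F → ℂ) (-1) = -(χ : Matrix.SpecialLinearGroup (Fin 2) F → ℂ) 1} (P : Subgroup (Matrix.SpecialLinearGroup (Fin 2) F)) := by
  classical
  haveI := hM.2.1
  have hq : p ∣ Fintype.card F := (CharP.cast_eq_zero_iff F p _).1 (FiniteField.cast_card_eq_zero F)
  have h2 : ¬ p ∣ 2 := fun h => hp ((Nat.prime_dvd_prime_iff_eq hM.1 Nat.prime_two).1 h)
  have hodd : Odd (Fintype.card F) :=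
    Nat.odd_iff.2 (FiniteField.odd_card_of_char_ne_two (by rwa [ringChar.eq F p]))
  have hSt : ∀ χ : IrrCharacter SL(2, F), χ.1 1 = Fintype.card F ↔ χ.1 = StS := fun χ =>
    ⟨eq_StS χ.2, fun h => by rw [h, StS_apply_one]⟩
  have hSt0 : centralChar StS (upS (1 : Fˣ) 1) = 0 := by
    rw [centralChar, StS, rs, toGL_upS, inv_one, ← par, St_par]; simp
  have hne : ∀ χ : IrrCharacter SL(2, F), χ.1 (-1) = -χ.1 1 → χ.1 (-1) ≠ χ.1 1 := fun χ h e =>
    χ.2.apply_one_ne_zero (by linear_combination (h - e) / 2)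
  have hne' : ∀ χ : IrrCharacter SL(2, F), χ.1 (-1) = -χ.1 1 → χ.1 ≠ StS := fun χ h e =>
    hne χ h (by rw [e, StS_neg_one, StS_apply_one])
  have hd : ∀ χ ψ : IrrCharacter SL(2, F), χ.1 (-1) = χ.1 1 → ψ.1 (-1) = -ψ.1 1 →
      ¬ MemLocalIdeal M (centralChar χ.1 (-1) - centralChar ψ.1 (-1)) := fun χ ψ a b => by
    rw [centralChar, centralChar, index_neg_one, a, b, Nat.cast_one, one_mul, one_mul, neg_div,
      div_self χ.2.apply_one_ne_zero, div_self ψ.2.apply_one_ne_zero]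
    rwa [show (1 : ℂ) - -1 = (2 : ℕ) by norm_num, memI_natCast_iff hM]
  have b1 : ∀ χ : IrrCharacter SL(2, F), χ.1 = StS →
      blockOf M χ.1 = {χ : IrrCharacter SL(2, F) | χ.1 1 = Fintype.card F} := fun χ h => by
    ext ψ
    rw [Set.mem_ofPred_eq, hSt, h]
    refine ⟨fun H => by_contra fun e => not_same_St p hM ψ.2 e ?_, fun H g => ?_⟩
    · simpa [hSt0, memI_neg_iff] using H (upS 1 1)
    · rw [H, sub_self]; exact memI_zero M
  have b2 : ∀ χ : IrrCharacter SL(2, F), χ.1 (-1) = χ.1 1 → χ.1 ≠ StS → blockOf M χ.1 =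
      {χ : IrrCharacter SL(2, F) | χ.1 (-1) = χ.1 1 ∧ χ.1 1 ≠ Fintype.card F} := fun χ h h' => by
    ext ψ
    rw [Set.mem_ofPred_eq, Ne, hSt]
    refine ⟨fun H => ⟨(eps ψ.2).resolve_right fun e => hd χ ψ h e (H _), fun e => ?_⟩, fun H =>
      same p hM χ.2 ψ.2 h' H.2 (by
        rw [h, H.1, div_self χ.2.apply_one_ne_zero, div_self ψ.2.apply_one_ne_zero])⟩
    exact not_same_St p hM χ.2 h' (by simpa [e, hSt0] using H (upS 1 1))
  have b3 : ∀ χ : IrrCharacter SL(2, F), χ.1 (-1) = -χ.1 1 → blockOf M χ.1 =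
      {χ : IrrCharacter SL(2, F) | χ.1 (-1) = -χ.1 1} := fun χ h => by
    ext ψ
    refine ⟨fun H => (eps ψ.2).resolve_left fun e => hd ψ χ e h (memI_sub_comm.1 (H _)), fun H =>
      same p hM χ.2 ψ.2 (hne' χ h) (hne' ψ H) (by
        rw [h, H, neg_div, neg_div, div_self χ.2.apply_one_ne_zero, div_self ψ.2.apply_one_ne_zero])⟩
  obtain ⟨ψ, hψ, hψ'⟩ := exists_irr_not_mem_charKer (g := (-1 : SL(2, F))) (fun e =>
    neg_one_ne hodd (Units.ext (by simpa using congrArg (fun m : SL(2, F) => m 0 0) e)))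
  replace hψ' := (eps hψ).resolve_left (mt hψ.isCharacter.mem_charKer_iff.2 hψ')
  have h1St : (fun _ => 1) ≠ StS (F := F) := fun e => deg_ne1 (StS_apply_one.symm.trans
    (congrFun e 1).symm)
  have main : ∀ B : Set (IrrCharacter SL(2, F)), IsPBlock M B ↔
      (B = {χ : IrrCharacter SL(2, F) | χ.1 1 = Fintype.card F} ∨
       B = {χ : IrrCharacter SL(2, F) | χ.1 (-1) = χ.1 1 ∧ χ.1 1 ≠ Fintype.card F} ∨
       B = {χ : IrrCharacter SL(2, F) | χ.1 (-1) = -χ.1 1}) := fun B => by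
    constructor
    · rintro ⟨χ, rfl⟩
      by_cases e : χ.1 = StS
      · exact Or.inl (b1 χ e)
      · exact Or.inr ((eps χ.2).imp (fun h => b2 χ h e) (b3 χ))
    · rintro (rfl | rfl | rfl)
      · exact ⟨⟨StS, irr_StS⟩, (b1 _ rfl).symm⟩
      · exact ⟨⟨_, isIrrCharacter_one⟩, (b2 _ rfl h1St).symm⟩
      · exact ⟨⟨ψ, hψ⟩, (b3 _ hψ').symm⟩
  refine ⟨main, ?_, fun P => ?_⟩
  · refine Set.ncard_eq_three.2 ⟨_, _, _, fun e => ?_, fun e => ?_, fun e => ?_,
      Set.ext fun B => main B⟩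
    · exact ((Set.ext_iff.1 e ⟨StS, irr_StS⟩).1 StS_apply_one).2 StS_apply_one
    · exact hne' _ ((Set.ext_iff.1 e ⟨StS, irr_StS⟩).1 StS_apply_one) rfl
    · exact hne _ hψ' ((Set.ext_iff.1 e ⟨ψ, hψ⟩).2 hψ').1
  have hP : (P : Subgroup SL(2, F)) ≤ Subgroup.centralizer {1} := fun g _ =>
    Subgroup.mem_centralizer_singleton_iff.2 (by simp)
  have dg : ∀ B : Set (IrrCharacter SL(2, F)), res M (blockCoeff B 1) ≠ 0 →
      IsDefectGroup p M B P := fun B hB =>
    ⟨1, ⟨(res_ne_zero_iff.1 hB).1, (res_ne_zero_iff.1 hB).2, fun χ _ => by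
      rw [centralChar, mul_div_assoc, div_self χ.2.apply_one_ne_zero, Subgroup.index_eq_one.2
        (Subgroup.centralizer_eq_top_iff_subset.2 (by simp))]
      simpa using not_memI_one M⟩, P.subtype hP, by
      rw [Sylow.coe_subtype, Subgroup.map_subgroupOf_eq_of_le hP]⟩
  have s1 := sum_irr_one_mul_apply (1 : SL(2, F))
  have s2 := sum_irr_one_mul_apply (-1 : SL(2, F))
  rw [regChar_one] at s1
  rw [regChar_of_ne_one (fun e => hne ⟨ψ, hψ⟩ hψ' (by rw [e]))] at s2
  have hc : ∀ χ : IrrCharacter SL(2, F), conj (χ.1 1) = χ.1 1 := fun χ => by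
    obtain ⟨n, -, hn⟩ := χ.2.exists_apply_one
    rw [hn, map_natCast]
  have r2 : res M ((2 : ℕ) : ℂ)⁻¹ ≠ 0 := by
    rw [res_inv_natCast hM h2]
    exact inv_ne_zero (mt (natCast_F_eq_zero_iff hM 2).1 h2)
  have hG := card_ne_zero_complex SL(2, F)
  refine ⟨dg _ ?_, dg _ ?_⟩
  · have : blockCoeff {χ : IrrCharacter SL(2, F) | χ.1 (-1) = χ.1 1 ∧ χ.1 1 ≠ Fintype.card F} 1 =
        ((2 : ℕ) : ℂ)⁻¹ - Fintype.card F * ((Fintype.card F ^ 2 - 1 : ℕ) : ℂ)⁻¹ := by
      rw [blockCoeff, finsum_mem_def, finsum_eq_sum_of_fintype, Finset.sum_congr rfl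
        (g := fun χ => (χ.1 1 * χ.1 1 + χ.1 1 * χ.1 (-1)) / 2 -
          if χ = ⟨StS, irr_StS⟩ then (Fintype.card F : ℂ) ^ 2 else 0)]
      · rw [Finset.sum_sub_distrib, ← Finset.sum_div, Finset.sum_add_distrib, s1, s2,
          Finset.sum_ite_eq', if_pos (Finset.mem_univ _), card_SL,
          Nat.cast_sub (Nat.one_le_pow _ _ Fintype.card_pos)]
        push_cast
        field_simp [q_ne, q_sq_ne]
        ring
      · intro χ _
        rw [Set.indicator_apply, hc]
        by_cases e : χ.1 = StS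
        · rw [if_neg (fun h => h.2 ((hSt χ).2 e)), if_pos (Subtype.ext e), e, StS_neg_one,
            StS_apply_one]; ring
        · rw [if_neg (mt (congrArg Subtype.val) e)]
          rcases eps χ.2 with h | h
          · rw [if_pos ⟨h, mt (hSt χ).1 e⟩, h]; ring
          · rw [if_neg fun h' => hne χ h h'.1, h]; ring
    have h3 : ¬ p ∣ Fintype.card F ^ 2 - 1 := by
      rw [Nat.dvd_sub_iff_right (Nat.one_le_pow _ _ Fintype.card_pos)
        (hq.trans (dvd_pow_self _ two_ne_zero)), Nat.dvd_one]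
      exact hM.1.one_lt.ne'
    rwa [this, res_sub (inv_natCast_mem_O hM h2) (mul_mem (natCast_mem _ _)
      (inv_natCast_mem_O hM h3)), res_mul (natCast_mem _ _) (inv_natCast_mem_O hM h3), res_natCast,
      (natCast_F_eq_zero_iff hM _).2 hq, zero_mul, sub_zero]
  · have : blockCoeff {χ : IrrCharacter SL(2, F) | χ.1 (-1) = -χ.1 1} 1 = ((2 : ℕ) : ℂ)⁻¹ := by
      rw [blockCoeff, finsum_mem_def, finsum_eq_sum_of_fintype, Finset.sum_congr rfl
        (g := fun χ => (χ.1 1 * χ.1 1 - χ.1 1 * χ.1 (-1)) / 2)]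
      · rw [← Finset.sum_div, Finset.sum_sub_distrib, s1, s2]
        push_cast
        field_simp
        ring
      · intro χ _
        rw [Set.indicator_apply, hc]
        rcases eps χ.2 with h | h
        · rw [if_neg (by exact fun h' => hne χ h' h), h]; ring
        · rw [if_pos (by exact h), h]; ring
    rwa [this]

end Cfsg.Agent.S2439
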