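import Cfsg.Statements.S2441
import Cfsg.Agent.H8.LieSt

set_option autoImplicit false
open Cfsg

namespace Cfsg.Agent.S2441

open H8

/-- For a prime p, the Chevalley groups of types G₂, F₄ and E₈ over the field with p elements (types for which the simply connected and adjoint groups coincide, so the group has trivial centre) each have exactly two p-blocks relative to any maximal ideal of the algebraic integers containing p (only the count is asserted; it arises as the defect-zero block of the Steinberg character plus a single block of maximal defect). -/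
theorem result (p : ℕ) [Fact p.Prime] (M : Ideal Cfsg.AlgInt) (hM : Cfsg.IsPModular p M) :
    Nat.card {B : Set (Cfsg.IrrCharacter (Cfsg.Lie.chevG2.group (ZMod p))) // Cfsg.IsPBlock M B} = 2 ∧
    Nat.card {B : Set (Cfsg.IrrCharacter (Cfsg.Lie.chevF4.group (ZMod p))) // Cfsg.IsPBlock M B} = 2 ∧
    Nat.card {B : Set (Cfsg.IrrCharacter (Cfsg.Lie.chevE8.group (ZMod p))) // Cfsg.IsPBlock M B} = 2 := by
  refine ⟨?_, ?_, ?_⟩
  · rw [(lieSZ_good (ZMod p) p H14.goodG2).card_blocks hM, H14.goodG2.center_eq_bot, Subgroup.card_bot]
  · rw [(lieSZ_good (ZMod p) p H14.goodF4).card_blocks hM, H14.goodF4.center_eq_bot, Subgroup.card_bot]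
  · rw [(lieSZ_good (ZMod p) p H14.goodE8).card_blocks hM, H14.goodE8.center_eq_bot, Subgroup.card_bot]

end Cfsg.Agent.S2441
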