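import Cfsg.Statements.S2442
import Cfsg.Agent.H6.GC6

set_option autoImplicit false
open scoped MatrixGroups
open Cfsg

namespace Cfsg.Agent.S2442

open H6.GC Module Finset Polynomial H5
open scoped ComplexConjugate

section

open scoped Classical

variable {F : Type*} [Field F] [Fintype F] [DecidableEq F] {n : ℕ}

/-- natural representation -/
noncomputable def rho (n : ℕ) (F : Type*) [Field F] : GL (Fin n) F →* End F (Fin n → F) :=
  (Units.coeHom _).comp Matrix.GeneralLinearGroup.toLin.toMonoidHom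

theorem sum_rho {T : Finset (End F (Fin n → F))} (hT : ∀ g, g ∈ T ↔ IsUnit g)
    (f : End F (Fin n → F) → ℂ) : ∑ g : GL (Fin n) F, f (rho n F g) = ∑ g ∈ T, f g := by
  refine sum_bij (fun g _ => rho n F g) (fun g _ => (hT _).2 ((Group.isUnit g).map (rho n F)))
    (fun g _ h _ e => Matrix.GeneralLinearGroup.toLin.injective (Units.ext e)) (fun g hg => ?_)
    fun _ _ => rfl
  obtain ⟨u, rfl⟩ := (hT g).1 hg
  exact ⟨Matrix.GeneralLinearGroup.toLin.symm u, mem_univ _, by simp [rho]⟩

theorem cusp_sum {S : F[X] → ℂ} (hS : Ad S) {m : ℕ} (h0 : 0 < m) (h1 : m < n) :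
    (∑ g : GL (Fin n) F, if (∀ i j : Fin n, ¬ (i.val < m ∧ m ≤ j.val) →
      (g : Matrix (Fin n) (Fin n) F) i j = (1 : Matrix (Fin n) (Fin n) F) i j)
      then J S (rho n F g) ⊤ else 0) = 0 := by
  obtain ⟨B, hB⟩ : ∃ B : Submodule F (Fin n → F), ∀ v, v ∈ B ↔ ∀ i : Fin n, m ≤ i.val → v i = 0 :=
    ⟨{ carrier := {v | ∀ i : Fin n, m ≤ i.val → v i = 0}
       add_mem' := fun h h' i hi => by simp [h i hi, h' i hi]
       zero_mem' := fun _ _ => rfl
       smul_mem' := fun c v h i hi => by simp [h i hi] }, fun _ => Iff.rfl⟩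
  have hB0 : B ≠ ⊥ := fun h => by
    have h2 := (hB (Pi.single ⟨0, by omega⟩ 1)).2
      fun k hk => Pi.single_eq_of_ne (by rintro rfl; simp at hk; omega) _
    rw [h, Submodule.mem_bot] at h2
    simpa using congrFun h2 ⟨0, by omega⟩
  have hB1 : B ≠ ⊤ := fun h => by simpa using (hB 1).1 (h ▸ Submodule.mem_top) ⟨m, h1⟩ le_rfl
  have e : ∀ g : GL (Fin n) F, (∀ i j : Fin n, ¬ (i.val < m ∧ m ≤ j.val) →
      (g : Matrix (Fin n) (Fin n) F) i j = (1 : Matrix (Fin n) (Fin n) F) i j) ↔
      rho n F g - 1 ∈ U B B := fun g => by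
    have h2 : ∀ v i, (rho n F g - 1) v i = ∑ j, (g.1 - 1) i j * v j := fun v i => by
      change _ = (g.1 - 1).mulVec v i
      rw [Matrix.sub_mulVec, Matrix.one_mulVec]; rfl
    refine ⟨fun h => ⟨fun v => (hB _).2 fun i hi => ?_, fun v hv => funext fun i => ?_⟩,
      fun h i j hij => ?_⟩
    · rw [h2]
      exact sum_eq_zero fun j _ => by rw [Matrix.sub_apply, h i j (by omega), sub_self, zero_mul]
    · rw [h2]
      refine sum_eq_zero fun j _ => ?_
      by_cases hj : m ≤ j.val
      · rw [(hB v).1 hv j hj, mul_zero]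
      · rw [Matrix.sub_apply, h i j (by omega), sub_self, zero_mul]
    · have h3 : (rho n F g - 1) (Pi.single j 1) i = 0 := by
        by_cases hi : m ≤ i.val
        · exact (hB _).1 (h.1 _) i hi
        · rw [h.2 _ ((hB _).2 fun k hk => Pi.single_eq_of_ne (by rintro rfl; omega) _)]; rfl
      rw [h2] at h3
      simpa [Pi.single_apply, sub_eq_zero] using h3
  simp only [e]
  rw [sum_rho (T := univ.filter IsUnit) (by simp) fun g => if g - 1 ∈ U B B then J S g ⊤ else 0,
    ← sum_filter]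
  have h3 : ∀ g ∈ (univ.filter fun g : End F (Fin n → F) => IsUnit g).filter
      (fun g => g - 1 ∈ U B B), Iv g B := fun g hg v hv => by
    simpa using add_mem ((mem_filter.1 hg).2.1 v) hv
  simpa using cusp_wt hS (w := fun _ => 1) hB0 hB1 h3
    (fun g hg φ hφ => by
      have h4 := h3 g hg
      simp only [mem_filter, mem_univ, true_and, isUnit_iff_coeff] at hg ⊢
      exact ⟨by rw [charpoly_add_eq h4 hφ.1 hφ.2]; exact hg.1,
        by rw [add_sub_right_comm]; exact add_mem hg.2 hφ⟩) fun _ _ _ _ => rfl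

theorem card_le_of_fib {α T : Type*} [Fintype α] [Finite T] (f : α → T) (n : ℕ)
    (h : ∀ b, ∃ g : ℕ → α, ∀ a, f a = f b → ∃ j < n, a = g j) :
    Fintype.card α ≤ n * Nat.card T := by
  have := Fintype.ofFinite T
  rw [Nat.card_eq_fintype_card]
  refine card_le_mul_card_image_of_maps_to (t := univ) (f := f) (fun _ _ => mem_univ _) n
    fun y _ => ?_
  rcases (univ.filter fun a => f a = y).eq_empty_or_nonempty with h0 | ⟨b, hb⟩
  · simp [h0]
  obtain ⟨g, hg⟩ := h b
  refine (card_le_card (t := (range n).image g) fun a ha => ?_).trans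
    (card_image_le.trans (card_range n).le)
  obtain ⟨j, j1, rfl⟩ := hg a ((mem_filter.1 ha).2.trans (mem_filter.1 hb).2.symm)
  exact mem_image_of_mem _ (mem_range.2 j1)

theorem exists_fam (hn : 2 ≤ n) : ∃ χ : (ZMod (Fintype.card F ^ n - 1))ˣ → GL (Fin n) F → ℂ,
    (∀ a, IsIrrCharacter _ (χ a) ∧ χ a 1 = ∏ i ∈ Ico 1 n, ((Fintype.card F : ℂ) ^ i - 1) ∧
      ∃ (c : ℂ) (S : F[X] → ℂ), Ad S ∧ ∀ g, χ a g = c * J S (rho n F g) ⊤) ∧
    ∀ a b, χ a = χ b → ∃ j < n, (a : ZMod (Fintype.card F ^ n - 1)) = Fintype.card F ^ j * b := by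
  obtain ⟨p, hc⟩ := CharP.exists F
  have hp : Fact p.Prime := ⟨CharP.char_is_prime F p⟩
  set q := Fintype.card F with hq
  have hq1 : 1 < q := Fintype.one_lt_card
  have h1 : 1 < q ^ n := Nat.one_lt_pow (by omega) hq1
  obtain ⟨f, _, hf⟩ := FiniteField.card F p
  set M := (q ^ n - 1) * ordCompl[p] (Nat.card (GL (Fin n) F)) with hM
  have hG : Nat.card (GL (Fin n) F) ≠ 0 := Nat.card_pos.ne'
  have hqM : q.Coprime M := by
    refine Nat.Coprime.mul_right ?_ (by
      rw [hq, hf]; exact (Nat.coprime_ordCompl hp.out hG).pow_left _)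
    refine Nat.Coprime.coprime_dvd_left (dvd_pow_self q (by omega : n ≠ 0)) ?_
    simpa using (Nat.coprime_self_sub_right h1.le).2 (by simp)
  have : NeZero M.totient := ⟨(Nat.totient_pos.2 (Nat.mul_pos (by omega)
    (Nat.ordCompl_pos p hG))).ne'⟩
  let K := FiniteField.Extension F p M.totient
  have := Fintype.ofFinite K
  have : CharP K p := charP_of_injective_algebraMap (algebraMap F K).injective p
  have hK : M ∣ Fintype.card K - 1 := by
    rw [← Nat.card_eq_fintype_card, FiniteField.natCard_extension, Nat.card_eq_fintype_card]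
    exact (Nat.modEq_iff_dvd' (Nat.one_le_pow _ _ (by omega))).1 (Nat.ModEq.pow_totient hqM).symm
  have hN : q ^ n - 1 ∣ Fintype.card K - 1 := (dvd_mul_right _ _).trans hK
  have hK1 : 1 < Fintype.card K := Fintype.one_lt_card
  have : NeZero (Fintype.card K - 1) := ⟨by omega⟩
  have : NeZero (q ^ n - 1) := ⟨by omega⟩
  obtain ⟨θ, hθ⟩ := exists_theta K
  have h2 : ∀ a : (ZMod (q ^ n - 1))ˣ, ∃ k : ℕ, (k + 1).Coprime (Fintype.card K - 1) ∧
      ((k + 1 : ℕ) : ZMod (q ^ n - 1)) = a := fun a => by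
    obtain ⟨u, rfl⟩ := ZMod.unitsMap_surjective hN a
    refine ⟨u.1.val + (Fintype.card K - 1) - 1, ?_, ?_⟩ <;> rw [Nat.sub_add_cancel (by omega)]
    · simpa using ZMod.val_coe_unit_coprime u
    · rw [Nat.cast_add, (ZMod.natCast_eq_zero_iff _ _).2 hN, add_zero, ZMod.unitsMap_val,
        ZMod.natCast_val]
  choose k hk hk' using h2
  have : Nontrivial (Fin n → F) := by
    have : Nonempty (Fin n) := ⟨⟨0, by omega⟩⟩
    infer_instance
  have hr : finrank F (Fin n → F) = n := by simp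
  let χ : (ZMod (q ^ n - 1))ˣ → GL (Fin n) F → ℂ := fun a g =>
    (-1) ^ (n - 1) * J (Sg (pw θ (k a))) (rho n F g) ⊤
  have h3 : ∀ a b, classInner (χ a) (χ b) = #{j ∈ range n |
      (a : ZMod (q ^ n - 1)) = q ^ j * b} := fun a b => by
    have h4 := inner_pw (V := Fin n → F) hθ (by rwa [hr, Nat.card_eq_fintype_card]) (k a) (k b)
    rw [← sum_rho (by simp), card_eq_sum_ones, Nat.cast_sum, ← sum_rho (by simp), hr,
      Nat.card_eq_fintype_card, sum_const, Nat.cast_one, nsmul_one, card_univ,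
      ← Nat.card_eq_fintype_card (α := GL (Fin n) F)] at h4
    rw [classInner_def, inv_mul_eq_iff_eq_mul₀ (Nat.cast_ne_zero.2 hG)]
    refine (sum_congr rfl fun g _ => ?_).trans (h4.trans ?_)
    · simp only [χ, map_mul, map_pow, map_neg, map_one]
      rw [mul_mul_mul_comm, ← mul_pow]; simp
    · congr 3
      ext j
      rw [mem_filter, mem_filter, ← ZMod.natCast_eq_natCast_iff, hk', Nat.cast_mul, hk',
        Nat.cast_pow]
  have h6 : ∀ a, classInner (χ a) (χ a) = 1 := fun a => by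
    rw [h3, Nat.cast_eq_one, card_eq_one]
    refine ⟨0, eq_singleton_iff_unique_mem.2 ⟨by simp; omega, fun j hj => ?_⟩⟩
    obtain ⟨j1, j2⟩ := mem_filter.1 hj
    have h7 : ((1 : ℕ) : ZMod (q ^ n - 1)) = (q ^ j : ℕ) := by
      simpa using (Units.mul_left_inj a).1 ((one_mul _).trans j2)
    have h8 := (Nat.modEq_iff_dvd' (Nat.one_le_pow _ _ (by omega))).1
      ((ZMod.natCast_eq_natCast_iff _ _ _).1 h7)
    have h9 := Nat.pow_lt_pow_right hq1 (mem_range.1 j1)
    have h10 := Nat.eq_zero_of_dvd_of_lt h8 (by have := Nat.one_le_pow j q (by omega); omega)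
    by_contra h
    have := Nat.one_lt_pow h hq1
    omega
  have h7 : ∀ a, χ a 1 = ∏ i ∈ Ico 1 n, ((q : ℂ) ^ i - 1) := fun a => by
    have h8 : Sg (pw θ (k a)) (X - 1 : F[X]) = 1 := by
      rw [Sg, rs, Polynomial.map_sub, map_X, Polynomial.map_one, ← C_1, roots_X_sub_C]; simp
    simp only [χ, map_one, J_one (ad_Sg _), h8, finrank_top, hr, dg, if_neg (show n ≠ 0 by omega),
      mul_one]
    rw [← Nat.card_Ico 1 n, ← prod_const, ← prod_mul_distrib]
    exact prod_congr rfl fun i _ => by ring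
  refine ⟨χ, fun a => ⟨(?_ : IsGeneralizedCharacter _ _).isIrr_of_re_nonneg (h6 a) ?_, h7 a, _, _,
    ad_Sg _, fun _ => rfl⟩, fun a b e => ?_⟩
  · have h8 := (gen_J (p := p) (pw_inj hθ (hk a)) ⊤ _ (rho n F) (fun g hg => ?_)
      fun _ => iv_top _).intCast_smul ((-1) ^ (n - 1))
    · convert h8 using 1
      ext g; simp [χ]
    · refine .trans (Dvd.dvd.mul_left ?_ _) hK
      exact Nat.dvd_ordCompl_of_dvd_not_dvd (orderOf_dvd_natCard g) hg
  · have : χ a 1 = ((∏ i ∈ Ico 1 n, (q ^ i - 1) : ℕ) : ℂ) := by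
      rw [h7, Nat.cast_prod]
      exact prod_congr rfl fun i _ => by
        rw [Nat.cast_pred (pow_pos (by omega) i), Nat.cast_pow]
    rw [this, Complex.natCast_re]; positivity
  · have h8 := h3 a b
    rw [← e, h6] at h8
    obtain ⟨j, hj⟩ := card_ne_zero.1 fun h => one_ne_zero (h8.trans (by rw [h, Nat.cast_zero]))
    exact ⟨j, mem_range.1 (mem_filter.1 hj).1, (mem_filter.1 hj).2⟩

end


open Classical in
/-- Let F be a finite field with q elements and n ≥ 2. Call a complex character χ of GL_n over F cuspidal when, for every 0 < m < n, the sum of χ over the subgroup of matrices that agree with the identity outside the upper right m × (n − m) block vanishes (the restriction of χ to the unipotent radical of each maximal standard parabolic subgroup contains no principal constituent). Then GL_n has at least φ(qⁿ − 1)/n distinct cuspidal irreducible characters of degree (q − 1)(q² − 1)⋯(q^(n−1) − 1), φ being Euler's function (in particular at least one). -/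
theorem result {F : Type*} [Field F] [Fintype F] [DecidableEq F] (n : ℕ) (hn : 2 ≤ n) :
    Nat.totient (Fintype.card F ^ n - 1) / n ≤
      Nat.card {χ : Cfsg.IrrCharacter (GL (Fin n) F) //
        (χ : GL (Fin n) F → ℂ) 1 = ∏ i ∈ Finset.Ico 1 n, ((Fintype.card F : ℂ) ^ i - 1) ∧
        ∀ m : ℕ, 0 < m → m < n →
          (∑ g : GL (Fin n) F,
            if (∀ i j : Fin n, ¬ (i.val < m ∧ m ≤ j.val) → (g : Matrix (Fin n) (Fin n) F) i j = (1 : Matrix (Fin n) (Fin n) F) i j)
            then (χ : GL (Fin n) F → ℂ) g else 0) = 0} := by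
  obtain ⟨χ, h1, h2⟩ := exists_fam (F := F) hn
  have h0 : 1 < Fintype.card F ^ n := Nat.one_lt_pow (by omega) Fintype.one_lt_card
  have : NeZero (Fintype.card F ^ n - 1) := ⟨by omega⟩
  rw [← ZMod.card_units_eq_totient]
  refine Nat.div_le_of_le_mul (card_le_of_fib
    (fun a => ⟨⟨χ a, (h1 a).1⟩, (h1 a).2.1, fun m m0 m1 => by
      obtain ⟨c, S, hS, h⟩ := (h1 a).2.2
      have := congrArg (c * ·) (cusp_sum hS m0 m1)
      simp only [mul_sum, mul_ite, mul_zero, ← h] at this
      convert this⟩) n fun b => ?_)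
  have hu : (Fintype.card F).Coprime (Fintype.card F ^ n - 1) := by
    refine Nat.Coprime.coprime_dvd_left (dvd_pow_self _ (by omega : n ≠ 0)) ?_
    simpa using (Nat.coprime_self_sub_right h0.le).2 (by simp)
  refine ⟨fun j => ZMod.unitOfCoprime _ hu ^ j * b, fun a e => ?_⟩
  obtain ⟨j, j1, j2⟩ := h2 a b (congrArg (fun x => x.1.1) e)
  exact ⟨j, j1, Units.ext (by simpa using j2)⟩

end Cfsg.Agent.S2442
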