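import Cfsg.Statements.S2531
import Mathlib.LinearAlgebra.Projectivization.Cardinality
import Mathlib.FieldTheory.Finiteness

set_option autoImplicit false
open Cfsg

namespace Cfsg.Agent.S2531

open Module Finset
open scoped LinearAlgebra.Projectivization

theorem cnt {F V : Type*} [Field F] [Finite F] [AddCommGroup V] [Module F V] [Finite V]
    (U : Submodule F V) (hU : finrank F U ≠ 0) (B : Finset (ℙ F V)) (hB : ∀ x, x ∈ B ↔ x.rep ∈ U) :
    (B.card : F) = 1 := by
  have h : Set.range (Projectivization.map U.subtype U.injective_subtype) = B := by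
    ext x
    rw [mem_coe, hB, ← Submodule.span_singleton_le_iff_mem, ← Projectivization.submodule_eq]
    constructor
    · rintro ⟨y, rfl⟩
      induction y using Projectivization.ind
      simp [Projectivization.map_mk]
    · induction x using Projectivization.ind with
      | h v hv =>
        intro h
        exact ⟨Projectivization.mk F ⟨v, by simpa using h⟩ fun e => hv (congrArg Subtype.val e), rfl⟩
  obtain ⟨k, hk⟩ := Nat.exists_eq_succ_of_ne_zero hU
  rw [← Set.ncard_coe_finset, ← h, Set.ncard_range_of_injective (Projectivization.map_injective _ _),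
    Projectivization.card_of_finrank F U hk, sum_range_succ']
  haveI := Fintype.ofFinite F
  simp [pow_succ]

/-- Let `F` be a finite field and `n ≥ 3`. No set of permutations of the points of the projective space of `Fⁿ`, each induced by an invertible semilinear transformation of `Fⁿ` (so a subset of the full projective semilinear group), is sharply 2-transitive on the points: it is impossible that for all pairs of distinct points `(a, b)` and `(c, d)` exactly one member of the set sends `a` to `c` and `b` to `d`. -/
theorem result {F : Type*} [Field F] [Finite F]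
    (n : ℕ) (hn : 3 ≤ n) (S : Set (Equiv.Perm (Projectivization F (Fin n → F))))
    (hS : ∀ s ∈ S, ∃ (σ : F ≃+* F) (f : (Fin n → F) →ₛₗ[(σ : F →+* F)] (Fin n → F)) (hf : Function.Injective f),
      ∀ x, s x = Projectivization.map f hf x) :
    ¬ (∀ a b c d : Projectivization F (Fin n → F), a ≠ b → c ≠ d →
        ∃! s, s ∈ S ∧ s a = c ∧ s b = d) := by
  classical
  intro h
  haveI := Fintype.ofFinite (ℙ F (Fin n → F))
  let i : Fin n := ⟨0, by omega⟩
  let j : Fin n := ⟨1, by omega⟩
  let a : ℙ F (Fin n → F) := .mk F (Pi.single i 1) (by simp)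
  let W := LinearMap.ker (LinearMap.proj i : (Fin n → F) →ₗ[F] F)
  have hmk : ∀ (U : Submodule F (Fin n → F)) v hv, (Projectivization.mk F v hv).rep ∈ U ↔ v ∈ U :=
    fun U v hv => by
      rw [← Submodule.span_singleton_le_iff_mem, ← Projectivization.submodule_eq]; simp
  have hW : finrank F W + 1 = n := by
    have := (LinearMap.proj i : (Fin n → F) →ₗ[F] F).finrank_range_add_finrank_ker
    rw [LinearMap.range_eq_top.2 (LinearMap.proj_surjective i)] at this
    simpa [add_comm] using this
  let T := univ.filter fun s => s ∈ S ∧ s a = a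
  have key : ∀ B C : Finset (ℙ F (Fin n → F)), a ∉ B → a ∉ C →
      ∑ s ∈ T, (B.filter fun x => s x ∈ C).card = B.card * C.card := fun B C hB hC => by
    have : ∀ s ∈ T, (B.filter fun x => s x ∈ C).card = ∑ x ∈ B, ∑ y ∈ C, if s x = y then 1 else 0 :=
      fun s _ => by simp only [card_filter, sum_ite_eq]
    rw [sum_congr rfl this, sum_comm, ← smul_eq_mul, ← sum_const]
    refine sum_congr rfl fun x hx => ?_
    rw [sum_comm, card_eq_sum_ones]
    refine sum_congr rfl fun y hy => ?_
    obtain ⟨s, hs, hs'⟩ := h a x a y (fun e => hB (e ▸ hx)) fun e => hC (e ▸ hy)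
    rw [← card_filter, card_eq_one]
    exact ⟨s, eq_singleton_iff_unique_mem.2 ⟨by simpa [T, and_assoc] using hs,
      fun t ht => hs' t (by simpa [T, and_assoc] using ht)⟩⟩
  let B := univ.filter fun x : ℙ F (Fin n → F) => x.rep ∈ W
  have ha : a ∉ B := by simp only [B, a, mem_filter_univ, hmk]; simp [W]
  have h1 := congrArg (Nat.cast : ℕ → F) (key B B ha ha)
  have h2 : ∀ s ∈ T, ((B.filter fun x => s x ∈ B).card : F) = 1 := fun s hs => by
    obtain ⟨σ, f, hf, e⟩ := hS s (mem_filter.1 hs).2.1
    refine cnt (W ⊓ W.comap f) ?_ _ fun x => ?_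
    · have h3 : Nat.card (W.comap f) = Nat.card W :=
        Nat.card_congr ((Equiv.ofBijective f (Finite.injective_iff_bijective.1 hf)).subtypeEquiv
          fun _ => Iff.rfl)
      rw [natCard_eq_pow_finrank (K := F), natCard_eq_pow_finrank (K := F) (V := W)] at h3
      have h4 := Nat.pow_right_injective (Finite.one_lt_card (α := F)) h3
      have h5 := Submodule.finrank_sup_add_finrank_inf_eq W (W.comap f)
      have h6 := Submodule.finrank_le (W ⊔ W.comap f)
      rw [finrank_fin_fun] at h6
      omega
    · induction x using Projectivization.ind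
      simp [B, e, Projectivization.map_mk, hmk]
  rw [Nat.cast_sum, sum_congr rfl h2, Nat.cast_mul, cnt W (by omega) B (by simp [B])] at h1
  have hb : Projectivization.mk F (Pi.single j (1 : F) : Fin n → F) (by simp) ≠ a := fun e =>
    ha (by simp only [← e, B, mem_filter_univ, hmk]; simp [W, i, j])
  have h3 := key {_} (univ.erase a) (by simpa using hb.symm) (by simp)
  rw [sum_congr rfl fun s hs => (show _ = 1 by
    rw [filter_singleton, if_pos, card_singleton]
    simpa using fun e => hb (s.injective (e.trans (mem_filter.1 hs).2.2.symm)))] at h3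
  have h4 := cnt (⊤ : Submodule F (Fin n → F)) (by simp; omega) univ (by simp)
  rw [← card_erase_add_one (mem_univ a)] at h4
  simp only [sum_const, smul_eq_mul, mul_one, card_singleton, one_mul, nsmul_eq_mul] at h1 h3
  rw [← h3, Nat.cast_add, h1] at h4
  simp at h4

end Cfsg.Agent.S2531
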