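import Cfsg.Statements.S2532
import Mathlib.Combinatorics.Pigeonhole

set_option autoImplicit false
open Cfsg

namespace Cfsg.Agent.S2532

open Equiv MulAction in

/-- There is a function `f` of two natural-number arguments such that, whenever `m ≥ f(n, r)`, every subgroup of order `n` of the alternating group of degree `m` centralizes some subgroup of that alternating group isomorphic to the alternating group of degree `r`. -/
theorem result :
    ∃ f : ℕ → ℕ → ℕ, ∀ (m r : ℕ) (H : Subgroup ↥(alternatingGroup (Fin m))), f (Nat.card H) r ≤ m →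
      ∃ K : Subgroup ↥(alternatingGroup (Fin m)), Nonempty (↥K ≃* ↥(alternatingGroup (Fin r))) ∧
        K ≤ Subgroup.centralizer (H : Set ↥(alternatingGroup (Fin m))) := by
  classical
  refine ⟨fun n r => 2 ^ n * n * r, fun m r H hm => ?_⟩
  haveI := Fintype.ofFinite (Subgroup H × H)
  have h0 : ∀ x : Fin m, ∃ h : H, h • (Quotient.mk (orbitRel H (Fin m)) x).out = x := fun x =>
    (orbitRel H (Fin m)).symm (Quotient.mk_out (s := orbitRel H (Fin m)) x)
  choose t ht using h0
  obtain ⟨⟨K, h⟩, hK⟩ := Fintype.exists_le_card_fiber_of_mul_le_card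
    (fun x : Fin m => (stabilizer H x, t x)) (n := r) (by
      rw [← Nat.card_eq_fintype_card, Nat.card_prod, Fintype.card_fin]
      refine le_trans (Nat.mul_le_mul_right _ (Nat.mul_le_mul_right _ ?_)) hm
      exact (Nat.card_le_card_of_injective _ SetLike.coe_injective).trans (by simp))
  obtain ⟨x⟩ : Nonempty (Fin r ↪ (Finset.univ.filter fun x : Fin m =>
      (stabilizer H x, t x) = (K, h))) :=
    Function.Embedding.nonempty_of_card_le (by rwa [Fintype.card_fin, Fintype.card_coe])
  have hx : ∀ i, stabilizer H (x i).1 = K ∧ t (x i).1 = h := fun i => Prod.ext_iff.1 (Finset.mem_filter.1 (x i).2).2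
  let e₀ : (H ⧸ K) × Fin r → Fin m := fun p => p.1.out • (x p.2).1
  have he : ∀ (g : H) i, e₀ (g, i) = g • (x i).1 := fun g i => by
    obtain ⟨k, hk⟩ := QuotientGroup.mk_out_eq_mul K g
    have : k.1 ∈ stabilizer H (x i).1 := (hx i).1.ge k.2
    simp only [e₀, hk, mul_smul, mem_stabilizer_iff.1 this]
  let e : (H ⧸ K) × Fin r ↪ Fin m := ⟨e₀, by
    rintro ⟨a, i⟩ ⟨b, j⟩ hab
    obtain ⟨a, rfl⟩ := QuotientGroup.mk_surjective a
    obtain ⟨b, rfl⟩ := QuotientGroup.mk_surjective b
    rw [he, he] at hab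
    have h1 : Quotient.mk (orbitRel H (Fin m)) (x i).1 = Quotient.mk _ (x j).1 :=
      Quotient.sound ⟨a⁻¹ * b, by simp only [mul_smul, ← hab, inv_smul_smul]⟩
    obtain rfl : i = j := x.injective (Subtype.ext (by
      rw [← ht (x i).1, ← ht (x j).1, h1, show t (x i).1 = t (x j).1 from
        (hx i).2.trans (hx j).2.symm]))
    rw [QuotientGroup.eq.2 ((hx i).1 ▸ (show a⁻¹ * b ∈ stabilizer H (x i).1 by
      rw [mem_stabilizer_iff, mul_smul, ← hab, inv_smul_smul]))]⟩
  have he' : ∀ (g : H) q i, g • e (q, i) = e (g • q, i) := fun g q i => by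
    obtain ⟨a, rfl⟩ := QuotientGroup.mk_surjective q
    exact (congrArg (g • ·) (he a i)).trans ((mul_smul _ _ _).symm.trans (he (g * a) i).symm)
  let ψ : Perm (Fin r) →* Perm ((H ⧸ K) × Fin r) :=
    { toFun := fun s => prodCongrRight fun _ => s
      map_one' := rfl
      map_mul' := fun _ _ => rfl }
  let φ : alternatingGroup (Fin r) →* alternatingGroup (Fin m) := ((Perm.viaEmbeddingHom e).comp
    (ψ.comp (Subgroup.subtype _))).codRestrict _ fun s => by
      have : Perm.sign (ψ s) = 1 := (Perm.sign_prodCongrRight fun _ : H ⧸ K => s.1).trans (by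
        simp [Perm.mem_alternatingGroup.1 s.2])
      simpa [Perm.viaEmbeddingHom] using this
  have hφ : Function.Injective φ := fun a b hab => Subtype.ext (Equiv.ext fun i => congrArg
    (fun s : Perm ((H ⧸ K) × Fin r) => (s ((1 : H), i)).2)
    (Perm.viaEmbeddingHom_injective e (congrArg Subtype.val hab)))
  refine ⟨φ.range, ⟨(MonoidHom.ofInjective hφ).symm⟩, ?_⟩
  rintro _ ⟨s, rfl⟩ g hg
  refine Subtype.ext (Equiv.ext fun y => ?_)
  show (⟨g, hg⟩ : H) • (ψ s).viaEmbedding e y = (ψ s).viaEmbedding e ((⟨g, hg⟩ : H) • y)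
  by_cases hy : y ∈ Set.range e
  · obtain ⟨⟨q, i⟩, rfl⟩ := hy
    rw [he', Perm.viaEmbedding_apply, Perm.viaEmbedding_apply]
    exact he' _ _ _
  · rw [Perm.viaEmbedding_apply_of_notMem _ _ _ hy, Perm.viaEmbedding_apply_of_notMem]
    rintro ⟨⟨q, i⟩, h1⟩
    exact hy ⟨((⟨g, hg⟩ : H)⁻¹ • q, i), by rw [← he', h1, inv_smul_smul]⟩

end Cfsg.Agent.S2532
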