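import Cfsg.Statements.S2533
import Cfsg.Agent.H22.Kron

set_option autoImplicit false
open Cfsg

namespace Cfsg.Agent.S2533

/-- For every odd prime `p` there is a finite group `H` of order `2p³` which, for infinitely many `n`, embeds in the projective special linear group `PSL(n, p)` as a subgroup with trivial centralizer. -/
theorem result
    (p : ℕ) [Fact p.Prime] (hp : p ≠ 2) :
    ∃ (H : Type) (_ : Group H) (_ : Finite H), Nat.card H = 2 * p ^ 3 ∧
      ∀ N : ℕ, ∃ n, N ≤ n ∧ ∃ φ : H →* Matrix.ProjectiveSpecialLinearGroup (Fin n) (ZMod p),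
        Function.Injective φ ∧ Subgroup.centralizer (φ.range : Set (Matrix.ProjectiveSpecialLinearGroup (Fin n) (ZMod p))) = ⊥ := by
  have hp' := (Fact.out : p.Prime)
  have h2 : (2 : ZMod p) ≠ 0 := fun h => hp ((Nat.prime_dvd_prime_iff_eq hp' Nat.prime_two).1
    ((ZMod.natCast_eq_zero_iff 2 p).1 h))
  refine ⟨H22.Kron.HH (ZMod p), inferInstance, .of_equiv _ H22.Kron.eqv.symm, by
    rw [Nat.card_congr H22.Kron.eqv]; simp [mul_comm], fun N => ?_⟩
  have hm : Odd (p * (2 * N + 1)) := (hp'.odd_of_ne_two hp).mul (odd_two_mul_add_one N)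
  have hm0 : ((p * (2 * N + 1) : ℕ) : ZMod p) = 0 := by simp
  have hm2 : 2 ≤ p * (2 * N + 1) ∧ N ≤ p * (2 * N + 1) := by have := hp'.two_le; constructor <;> nlinarith
  generalize p * (2 * N + 1) = m at hm hm0 hm2
  refine ⟨m + (m + 1), by omega, (QuotientGroup.mk' _).comp (H22.Kron.rho hm),
    (injective_iff_map_eq_one _).2 fun a ha => ?_, eq_bot_iff.2 fun g hg => ?_⟩
  · obtain ⟨c, -, hc⟩ := Matrix.SpecialLinearGroup.mem_center_iff.1 ((QuotientGroup.eq_one_iff _).1 ha)
    refine H22.Kron.BB_scalar h2 hm2.1 (c := c) ((Matrix.reindex finSumFinEquiv finSumFinEquiv).injective ?_)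
    exact hc.symm.trans (by simp [Matrix.smul_one_eq_diagonal])
  · obtain ⟨g, rfl⟩ := QuotientGroup.mk_surjective g
    obtain ⟨c, hc⟩ := H22.Kron.BB_cent h2 (g := g.1.submatrix finSumFinEquiv finSumFinEquiv) fun a => by
      simpa [H22.Kron.rho_val, ← Matrix.submatrix_mul_equiv _ _ _ finSumFinEquiv] using congrArg
        (·.submatrix finSumFinEquiv finSumFinEquiv) (H22.Kron.comm_of_trace (hg _ ⟨a, rfl⟩) (by
          simpa [H22.Kron.rho_val, Matrix.trace, finSumFinEquiv.symm.sum_comp
            (fun i => H22.Kron.BB m a i i)] using H22.Kron.BB_trace hm0 a))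
    refine (QuotientGroup.eq_one_iff _).2 (Subgroup.mem_center_iff.2 fun y => Subtype.ext ?_)
    have : g.1 = c • 1 := by
      simpa [Matrix.submatrix_smul] using congrArg (·.submatrix finSumFinEquiv.symm finSumFinEquiv.symm) hc
    simp [this]

end Cfsg.Agent.S2533
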