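import Cfsg.Statements.S2535
import Cfsg.Agent.H7.Hall5

set_option autoImplicit false
open Cfsg

open H7.Hall

namespace Cfsg.Agent.S2535

/-- For every `n` and every set of primes `π`, the following are equivalent for the symmetric group `S` of degree `n` and its alternating subgroup `A`: `S` has a Hall `π`-subgroup; `S` has a Hall `π`-subgroup and all of them are conjugate; `A` has a Hall `π`-subgroup; `A` has a Hall `π`-subgroup and all of them are conjugate. -/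
theorem result (n : ℕ) (π : Set ℕ) :
    (Cfsg.IsEPiGroup π (Equiv.Perm (Fin n)) ↔ Cfsg.IsCPiGroup π (Equiv.Perm (Fin n))) ∧
    (Cfsg.IsEPiGroup π (Equiv.Perm (Fin n)) ↔ Cfsg.IsEPiGroup π ↥(alternatingGroup (Fin n))) ∧
    (Cfsg.IsEPiGroup π ↥(alternatingGroup (Fin n)) ↔ Cfsg.IsCPiGroup π ↥(alternatingGroup (Fin n))) := by
  by_cases h : ND π (Fintype.card (Fin n))
  · refine ⟨⟨fun hE => ⟨hE, fun H K hH hK => ?_⟩, fun h => h.1⟩, ⟨fun ⟨H, hH⟩ => ⟨_, hall_subgroupOf hH _⟩, fun ⟨M, hM⟩ => ?_⟩,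
      ⟨fun hE => ⟨hE, fun H K hH hK => ?_⟩, fun h => h.1⟩⟩
    · obtain ⟨B, hB, rfl⟩ := hall_S h hH
      obtain ⟨B', hB', rfl⟩ := hall_S h hK
      obtain ⟨g, -, hg⟩ := KB_conj (hB.eq hB') (hB.two h.three)
      exact ⟨g, hg⟩
    · obtain ⟨B, hB, -⟩ := hall_A h hM
      exact ⟨_, KB_hall h.three hB⟩
    · obtain ⟨B, hB, rfl⟩ := hall_A h hH
      obtain ⟨B', hB', rfl⟩ := hall_A h hK
      obtain ⟨g, hgA, hg⟩ := KB_conj (hB.eq hB') (hB.two h.three)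
      exact ⟨⟨g, hgA⟩, by rw [hg, conj_subgroupOf hgA]⟩
  · have h1 := cpi_of_dpi (dpi_S h)
    have h2 := cpi_of_dpi (dpi_A h)
    exact ⟨⟨fun _ => h1, fun h => h.1⟩, ⟨fun _ => h2.1, fun _ => h1.1⟩, ⟨fun _ => h2, fun h => h.1⟩⟩

end Cfsg.Agent.S2535
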