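import Cfsg.Statements.S2537
import Cfsg.Agent.H13.P2a
import Cfsg.Agent.S0003
import Cfsg.Agent.S0802
import Cfsg.Agent.S0803
import Cfsg.Agent.S0811
import Cfsg.Agent.S0812

set_option autoImplicit false
open Cfsg

namespace Cfsg.Agent.S2537

theorem cA4 : Nat.card (alternatingGroup (Fin 4)) = 12 := by
  have h2 := two_mul_nat_card_alternatingGroup (α := Fin 4)
  rw [Nat.card_perm, Nat.card_fin] at h2
  have : Nat.factorial 4 = 24 := rfl
  omega

theorem cA5 : Nat.card (alternatingGroup (Fin 5)) = 60 := by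
  have h2 := two_mul_nat_card_alternatingGroup (α := Fin 5)
  rw [Nat.card_perm, Nat.card_fin] at h2
  have : Nat.factorial 5 = 120 := rfl
  omega

theorem cS4 : Nat.card (Equiv.Perm (Fin 4)) = 24 := by
  rw [Nat.card_perm, Nat.card_fin]; rfl

theorem arith (q : ℕ) (h2 : ¬ 2 ∣ q) (h3 : ¬ 3 ∣ q) (h5 : 5 ≤ q) (g : ℕ) (hg : 2 * g = q * (q ^ 2 - 1)) :
    2 * (2 ^ g.factorization 2 * 3 ^ g.factorization 3) =
      2 ^ (q ^ 2 - 1).factorization 2 * 3 ^ (q ^ 2 - 1).factorization 3 ∧ 12 ∣ g := by
  have hq0 : q ≠ 0 := by omega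
  have hq1 : q ^ 2 - 1 ≠ 0 := by
    have : 25 ≤ q ^ 2 := by nlinarith
    omega
  have hg0 : g ≠ 0 := by
    rintro rfl
    exact mul_ne_zero hq0 hq1 (by omega)
  have e : ∀ r, (2 : ℕ).factorization r + g.factorization r =
      q.factorization r + (q ^ 2 - 1).factorization r := by
    intro r
    have := congrArg (fun n => n.factorization r) hg
    simpa [Nat.factorization_mul two_ne_zero hg0, Nat.factorization_mul hq0 hq1] using this
  have e2 := e 2
  have e3 := e 3
  rw [Nat.factorization_eq_zero_of_not_dvd h2, Nat.Prime.factorization_self Nat.prime_two] at e2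
  rw [Nat.factorization_eq_zero_of_not_dvd h3, Nat.factorization_eq_zero_of_not_dvd (by norm_num)] at e3
  constructor
  · rw [zero_add] at e2 e3
    rw [zero_add] at e3
    rw [← e2, ← e3]; ring
  · have : 24 ∣ q ^ 2 - 1 := by
      have h : q ^ 2 % 24 = 1 := by
        have : q % 24 = 1 ∨ q % 24 = 5 ∨ q % 24 = 7 ∨ q % 24 = 11 ∨ q % 24 = 13 ∨ q % 24 = 17 ∨
          q % 24 = 19 ∨ q % 24 = 23 := by omega
        rcases this with h | h | h | h | h | h | h | h <;> simp [Nat.pow_mod, h]
      omega
    obtain ⟨m, hm⟩ := this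
    rw [hm] at hg
    exact ⟨q * m, by nlinarith⟩

theorem of_dihedral {G : Type*} [Group G] [Finite G] (D : Subgroup G) (k : ℕ)
    (e : D ≃* DihedralGroup k) (h2 : ¬ 2 ∣ D.index) (h3 : ¬ 3 ∣ D.index) :
    ∃ H : Subgroup G, Cfsg.IsPiHall ({2, 3} : Set ℕ) H := by
  haveI : Finite (DihedralGroup k) := Finite.of_equiv _ e.toEquiv
  have hk : k ≠ 0 := by
    rintro rfl
    exact not_finite (DihedralGroup 0)
  haveI : NeZero k := ⟨hk⟩
  haveI := H13.P2.dihedral_solv k
  haveI : Group.IsSolvable D := Group.isSolvable_of_isSolvable_injective (f := e.toMonoidHom) e.injective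
  have h0 : Nat.card D ≠ 0 := Nat.card_pos.ne'
  set n := Nat.card D with hn
  have hd : 2 ^ n.factorization 2 * 3 ^ n.factorization 3 ∣ n :=
    Nat.Coprime.mul_dvd_of_dvd_of_dvd (Nat.Coprime.pow _ _ (by norm_num))
      (Nat.ordProj_dvd n 2) (Nat.ordProj_dvd n 3)
  obtain ⟨m, hm⟩ := hd
  have hm0 : m ≠ 0 := by rintro rfl; exact h0 (by simpa using hm)
  have f : ∀ r, n.factorization r = (if 2 = r then n.factorization 2 else 0) +
      (if 3 = r then n.factorization 3 else 0) + m.factorization r := by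
    intro r
    conv_lhs => rw [hm]
    rw [Nat.factorization_mul (by positivity) hm0, Nat.factorization_mul (by positivity) (by positivity),
      Nat.Prime.factorization_pow Nat.prime_two, Nat.Prime.factorization_pow Nat.prime_three]
    simp only [Finsupp.add_apply, Finsupp.single_apply]
  have hm2 : ¬ 2 ∣ m := fun h => by
    have := Nat.prime_two.factorization_pos_of_dvd hm0 h
    have := f 2
    simp at this; omega
  have hm3 : ¬ 3 ∣ m := fun h => by
    have := Nat.prime_three.factorization_pos_of_dvd hm0 h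
    have := f 3
    simp at this; omega
  obtain ⟨H, hH⟩ := Cfsg.Agent.S0003.result (G := D) _ m hm
    (Nat.Coprime.mul_left (Nat.Coprime.pow_left _ ((Nat.Prime.coprime_iff_not_dvd Nat.prime_two).2 hm2))
      (Nat.Coprime.pow_left _ ((Nat.Prime.coprime_iff_not_dvd Nat.prime_three).2 hm3)))
  refine ⟨H.map D.subtype, (H13.P2.hall_iff _).2 ?_⟩
  rw [Subgroup.card_map_of_injective D.subtype_injective, hH]
  have hc := D.card_mul_index
  have hi : D.index ≠ 0 := Subgroup.index_ne_zero_of_finite
  rw [← hc, Nat.factorization_mul h0 hi]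
  simp only [Finsupp.add_apply, Nat.factorization_eq_zero_of_not_dvd h2,
    Nat.factorization_eq_zero_of_not_dvd h3, add_zero]

/-- Let `F` be a finite field with `q` elements of characteristic `p ≥ 5`, and `ε = 1` if `q ≡ 1 (mod 4)`, `ε = -1` otherwise. Then `PSL(2, F)` has a Hall `{2, 3}`-subgroup if and only if `3` divides `q − ε`, or the `{2,3}`-part of `q² − 1` is 24, or the `{2,3}`-part of `q² − 1` is 48 (the `{2,3}`-part of `m` being the largest divisor of `m` with no prime factor other than 2 and 3). -/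
theorem result {F : Type*} [Field F] [Fintype F] {p : ℕ} [Fact p.Prime] [CharP F p]
    (hp : 5 ≤ p) (q : ℕ) (hq : Fintype.card F = q) :
    (∃ H : Subgroup (Matrix.ProjectiveSpecialLinearGroup (Fin 2) F), Cfsg.IsPiHall ({2, 3} : Set ℕ) H) ↔
      (3 ∣ q - 1 ∧ q % 4 = 1) ∨ (3 ∣ q + 1 ∧ q % 4 = 3) ∨
        2 ^ (q ^ 2 - 1).factorization 2 * 3 ^ (q ^ 2 - 1).factorization 3 = 24 ∨
        2 ^ (q ^ 2 - 1).factorization 2 * 3 ^ (q ^ 2 - 1).factorization 3 = 48 := by
  subst hq
  have hpp : p.Prime := Fact.out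
  obtain ⟨n, -, hn⟩ := FiniteField.card F p
  have hpq : ∀ r : ℕ, r.Prime → r ∣ Fintype.card F → r = p := fun r hr h =>
    (Nat.prime_dvd_prime_iff_eq hr hpp).1 (hr.dvd_of_dvd_pow (hn ▸ h))
  have h2 : ¬ 2 ∣ Fintype.card F := fun h => by have := hpq 2 Nat.prime_two h; omega
  have h3 : ¬ 3 ∣ Fintype.card F := fun h => by have := hpq 3 Nat.prime_three h; omega
  have hpd : p ∣ Fintype.card F := by rw [hn]; exact dvd_pow_self _ n.ne_zero
  have h5 : 5 ≤ Fintype.card F := hp.trans (Nat.le_of_dvd Fintype.card_pos hpd)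
  have ho : Odd (Fintype.card F) := Nat.odd_iff.2 (by omega)
  have hgcd := H27.gcd_two_of_odd ho
  have hG := H11.card_psl_two (F := F)
  rw [hgcd] at hG
  obtain ⟨hA, h12⟩ := arith _ h2 h3 h5 _ hG
  set q := Fintype.card F with hq
  have hG0 : Nat.card (Matrix.ProjectiveSpecialLinearGroup (Fin 2) F) ≠ 0 := Nat.card_pos.ne'
  have hsq : q ^ 2 - 1 = (q - 1) * (q + 1) := by
    obtain ⟨k, hk⟩ : ∃ k, q = k + 1 := ⟨q - 1, by omega⟩
    rw [hk]; simp only [Nat.add_sub_cancel]
    apply Nat.sub_eq_of_eq_add; ring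
  constructor
  · rintro ⟨H, hH⟩
    have hc := (H13.P2.hall_iff H).1 hH
    have h12H : 12 ∣ Nat.card H := by
      rw [hc]
      have a1 : 2 ≤ (Nat.card (Matrix.ProjectiveSpecialLinearGroup (Fin 2) F)).factorization 2 :=
        (Nat.prime_two.pow_dvd_iff_le_factorization hG0).1 (Dvd.dvd.trans (by norm_num) h12)
      have a2 : 1 ≤ (Nat.card (Matrix.ProjectiveSpecialLinearGroup (Fin 2) F)).factorization 3 :=
        (Nat.prime_three.pow_dvd_iff_le_factorization hG0).1 (Dvd.dvd.trans (by norm_num) h12)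
      exact mul_dvd_mul (pow_dvd_pow 2 a1) (pow_dvd_pow 3 a2)
    have hpH : ¬ p ∣ Nat.card H := fun h => by
      have := hH.1 p hpp h
      simp at this; omega
    let ψ : H →* H27.PG F := Matrix.ProjectiveSpecialLinearGroup.toPGL.comp H.subtype
    have hψ : Function.Injective ψ :=
      Matrix.ProjectiveSpecialLinearGroup.toPGL_injective.comp H.subtype_injective
    have hord : ∀ c : H, 6 ∣ orderOf c → (3 ∣ q - 1 ∧ q % 4 = 1) ∨ (3 ∣ q + 1 ∧ q % 4 = 3) := by
      intro c hc
      have := H27.orderOf_PS p (c := ψ c) (by rw [← H27.range_psl_toPGL]; exact ⟨c, rfl⟩)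
      rw [← map_pow, map_eq_one_iff _ hψ, orderOf_injective _ hψ, hgcd] at this
      rcases this with h | h | h
      · have := hc.trans (orderOf_dvd_of_pow_eq_one h)
        have := (Nat.prime_dvd_prime_iff_eq Nat.prime_two hpp).1 (Dvd.dvd.trans (by norm_num) this)
        omega
      · have := hc.trans h
        left; omega
      · have := hc.trans h
        right; omega
    rcases H27.dickson_hom p ψ hψ with ⟨h, -⟩ | ⟨h, -⟩ | ⟨c, -, hi, -⟩ |
      ⟨-, h⟩ | ⟨h, -⟩ | ⟨c, F₀, h3', hF, -⟩
    · obtain ⟨c, hc'⟩ := IsCyclic.exists_generator (α := H)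
      have := orderOf_eq_card_of_forall_mem_zpowers hc'
      rcases hord c (by rw [this]; exact Dvd.dvd.trans (by norm_num) h12H) with h | h
      · exact Or.inl h
      · exact Or.inr (Or.inl h)
    · exact absurd h hpH
    · have h1 := (Subgroup.zpowers c).card_mul_index
      rw [Nat.card_zpowers, hi] at h1
      rcases hord c (by omega) with h | h
      · exact Or.inl h
      · exact Or.inr (Or.inl h)
    · rcases h with ⟨⟨e⟩⟩ | ⟨⟨e⟩⟩ | ⟨⟨e⟩⟩
      · have h1 := Nat.card_congr e.toEquiv
        right; right; left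
        rw [← hA, ← hc, h1, cA4]
      · have h1 := Nat.card_congr e.toEquiv
        right; right; right
        rw [← hA, ← hc, h1, cS4]
      · have h1 := Nat.card_congr e.toEquiv
        have := hH.1 5 (by norm_num) (by rw [h1, cA5]; omega)
        simp at this
    · omega
    · rw [Nat.factorization_eq_zero_of_not_dvd hpH, pow_zero] at hF
      omega
  · rintro (⟨h, h'⟩ | ⟨h, h'⟩ | h | h)
    · obtain ⟨D, -, ⟨e⟩⟩ := Cfsg.Agent.S0812.result (F := F) rfl (by
        simp only [Finset.mem_insert, Finset.mem_singleton]; omega)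
      have h1 := Nat.card_congr e.toEquiv
      rw [DihedralGroup.nat_card, hgcd] at h1
      have h4 := D.card_mul_index
      have h6 : 2 * D.index = q * (q + 1) := by
        have h7 : 2 * ((q - 1) / 2) = q - 1 := by omega
        rw [h1, h7] at h4
        rw [← h4, hsq] at hG
        have : 0 < q - 1 := by omega
        apply Nat.eq_of_mul_eq_mul_left this
        linarith
      refine of_dihedral D _ e (fun hd => ?_) fun hd => ?_
      · have : 4 ∣ q * (q + 1) := by omega
        have := (Nat.Coprime.dvd_mul_left (k := 4) (m := q) (n := q + 1) (by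
          exact Nat.Coprime.pow_left 2 ((Nat.Prime.coprime_iff_not_dvd Nat.prime_two).2 h2))).1 this
        omega
      · have : 3 ∣ q * (q + 1) := by omega
        rcases (Nat.Prime.dvd_mul Nat.prime_three).1 this with h | h <;> omega
    · obtain ⟨D, -, ⟨e⟩⟩ := Cfsg.Agent.S0811.result (F := F) rfl (by
        simp only [Finset.mem_insert, Finset.mem_singleton]; omega)
      have h1 := Nat.card_congr e.toEquiv
      rw [DihedralGroup.nat_card, hgcd] at h1
      have h4 := D.card_mul_index
      have h6 : 2 * D.index = q * (q - 1) := by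
        have h7 : 2 * ((q + 1) / 2) = q + 1 := by omega
        rw [h1, h7] at h4
        rw [← h4, hsq] at hG
        have : 0 < q + 1 := by omega
        apply Nat.eq_of_mul_eq_mul_left this
        linarith
      refine of_dihedral D _ e (fun hd => ?_) fun hd => ?_
      · have : 4 ∣ q * (q - 1) := by omega
        have := (Nat.Coprime.dvd_mul_left (k := 4) (m := q) (n := q - 1) (by
          exact Nat.Coprime.pow_left 2 ((Nat.Prime.coprime_iff_not_dvd Nat.prime_two).2 h2))).1 this
        omega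
      · have : 3 ∣ q * (q - 1) := by omega
        rcases (Nat.Prime.dvd_mul Nat.prime_three).1 this with h | h <;> omega
    · obtain ⟨H, ⟨e⟩⟩ := (Cfsg.Agent.S0802.result p n hn).2 (by omega)
      refine ⟨H, (H13.P2.hall_iff H).2 ?_⟩
      have h1 := Nat.card_congr e.toEquiv
      rw [cA4] at h1; rw [h1]; omega
    · have h16 : 16 ∣ q ^ 2 - 1 := by
        have hd := Nat.ordProj_dvd (q ^ 2 - 1) 2
        have : 16 ∣ 2 ^ (q ^ 2 - 1).factorization 2 * 3 ^ (q ^ 2 - 1).factorization 3 := by
          rw [h]; norm_num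
        have := (Nat.Coprime.dvd_mul_right (Nat.Coprime.pow_right _ (by norm_num))).1 this
        exact this.trans hd
      obtain ⟨H, ⟨e⟩⟩ := (Cfsg.Agent.S0803.result (F := F) hq.symm).2 (by
        have : 1 ≤ q ^ 2 := Nat.one_le_pow _ _ (by omega)
        omega)
      refine ⟨H, (H13.P2.hall_iff H).2 ?_⟩
      have h1 := Nat.card_congr e.toEquiv
      rw [cS4] at h1; rw [h1]; omega

end Cfsg.Agent.S2537
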