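import Cfsg.Statements.S2540
import Cfsg.Agent.H11.MinT3
import Cfsg.Agent.H11.LowDim

set_option autoImplicit false
open Cfsg

namespace Cfsg.Agent.S2540

/-- Let F be a finite field and n ≥ 1, excluding the case n = 2 with #F ≤ 3. A subgroup of GL_n(F) that is normalized by every element of SL_n(F) either consists of scalar matrices or contains SL_n(F). -/
theorem result {F : Type*} [Field F] [Fintype F] (n : ℕ) (hn : 1 ≤ n) (hex : ¬ (n = 2 ∧ Fintype.card F ≤ 3)) (G : Subgroup (Matrix.GeneralLinearGroup (Fin n) F)) (hG : ∀ s : Matrix.SpecialLinearGroup (Fin n) F, ∀ g ∈ G, (Matrix.SpecialLinearGroup.toGL s) * g * (Matrix.SpecialLinearGroup.toGL s)⁻¹ ∈ G) : (∀ g ∈ G, ∃ c : F, (g : Matrix (Fin n) (Fin n) F) = c • (1 : Matrix (Fin n) (Fin n) F)) ∨ (Matrix.SpecialLinearGroup.toGL : Matrix.SpecialLinearGroup (Fin n) F →* _).range ≤ G := by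
  open H11 H11.Mn Matrix Matrix.SpecialLinearGroup commutatorElement in
    obtain rfl | h2 := hn.eq_or_lt
    · exact .inl fun g _ => ⟨g.1 0 0, by ext i j; simp [Subsingleton.elim i 0, Subsingleton.elim j 0]⟩
    have : Nontrivial (Fin n) := Fin.nontrivial_iff_two_le.2 h2
    have hp : commutator (SpecialLinearGroup (Fin n) F) = ⊤ := by
      obtain rfl | h3 := (show 2 ≤ n from h2).eq_or_lt
      exacts [sl2_perfect (by omega), sl_commutator_eq_top (by simpa)]
    refine (QS.of_quasi hp (psl_simple_of_perfect hp) (G.comap toGL) ⟨fun g hg s => by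
      simpa using hG s _ hg⟩).imp (fun h g hg => ?_) fun h => by rintro _ ⟨s, rfl⟩; exact h.ge (Subgroup.mem_top s)
    have a : ∀ s : SpecialLinearGroup (Fin n) F, ∃ z ∈ Subgroup.center _, g * toGL s = toGL (z * s) * g := fun s => by
      obtain ⟨z, e⟩ := H11.range_toGL.ge (show g * toGL s * g⁻¹ * (toGL s)⁻¹ ∈ _ by simp)
      exact ⟨z, h (by
        rw [Subgroup.mem_comap, e, mul_assoc g, mul_assoc g]; exact mul_mem hg (hG s _ (inv_mem hg))), by simp [e]⟩
    have b : ∀ s : SpecialLinearGroup (Fin n) F, g * toGL s = toGL s * g := fun s => by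
      refine ((Subgroup.commutator_le (H₃ := (Subgroup.centralizer {g}).comap toGL)).2 (fun s _ t _ => ?_)
        (hp.ge (Subgroup.mem_top s))) g rfl
      obtain ⟨y, y1, y2⟩ := a s
      obtain ⟨z, z1, z2⟩ := a t
      have e1 : toGL (y * s) = g * toGL s * g⁻¹ := by rw [y2]; simp
      have e2 : toGL (z * t) = g * toGL t * g⁻¹ := by rw [z2]; simp
      have e3 : ⁅y * s, z * t⁆ = ⁅s, t⁆ := by
        have c1 := Subgroup.mem_center_iff.1 y1 (s * (z * t) * s⁻¹)
        have c2 := Subgroup.mem_center_iff.1 z1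
        rw [commutatorElement_def, show y * s * (z * t) * (y * s)⁻¹ = y * (s * (z * t) * s⁻¹) * y⁻¹ by group, ← c1,
          mul_inv_cancel_right, ← mul_assoc, c2 s, show z * s * t * s⁻¹ * (z * t)⁻¹ = z * ⁅s, t⁆ * z⁻¹ by group, ← c2,
          mul_inv_cancel_right]
      rintro _ rfl
      rw [← eq_mul_inv_iff_mul_eq.1 (show toGL ⁅s, t⁆ = _ * toGL ⁅s, t⁆ * _ by
        conv_lhs => rw [← e3, map_commutatorElement, e1, e2, ← conjugate_commutatorElement, ← map_commutatorElement])]
    obtain ⟨c, e⟩ := mem_range_scalar_iff_commute_transvectionStruct.2 fun t =>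
      (congrArg Units.val (b ⟨t.toMatrix, t.det⟩)).symm
    exact ⟨c, by rw [← e, scalar_apply, smul_one_eq_diagonal]⟩

end Cfsg.Agent.S2540
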