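import Cfsg.Statements.S2541
import Cfsg.Agent.H12.AltOrd
-- import your own Cfsg.Agent.* helpers here

set_option autoImplicit false
set_option maxHeartbeats 400000
open Cfsg

namespace Cfsg.Agent.S2541

open Matrix

/-- Let F be a field with 9 elements. The symmetric group S_6 is not isomorphic to PGL_2(F) (although both have index-2 subgroups isomorphic to A_6). -/
theorem result {F : Type*} [Field F] [Fintype F] (hF : Fintype.card F = 9) : ¬ Nonempty (Equiv.Perm (Fin 6) ≃* Matrix.ProjGenLinGroup (Fin 2) F) := by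
  rintro ⟨e⟩
  classical
  have h1 : ∀ σ : Equiv.Perm (Fin 6), σ ^ 60 = 1 := fun σ => orderOf_dvd_iff_pow_eq_one.1 (by
    rw [← σ.lcm_cycleType]
    refine Multiset.lcm_dvd.2 fun a ha => ?_
    have := σ.two_le_of_mem_cycleType ha
    have := (Multiset.single_le_sum (fun _ _ => Nat.zero_le _) a ha).trans σ.sum_cycleType_le
    rw [Fintype.card_fin] at this
    interval_cases a <;> decide)
  obtain ⟨g, hg⟩ := IsCyclic.exists_ofOrder_eq_natCard (α := Fˣ)
  let φ : Fˣ →* GL (Fin 2) F := Units.map ((diagonalRingHom (Fin 2) F).toMonoidHom.comp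
    (MonoidHom.mulSingle (fun _ => F) 0))
  have h2 : ProjGenLinGroup.mk (φ (g ^ 60)) = 1 := by
    rw [map_pow, map_pow, ← e.apply_symm_apply (ProjGenLinGroup.mk _), ← map_pow, h1, map_one]
  obtain ⟨c, hc⟩ := GeneralLinearGroup.mem_center_iff_val_mem_range_scalar.1
    ((QuotientGroup.eq_one_iff _).1 h2)
  have h3 := congrFun₂ hc 0 0
  have h4 := congrFun₂ hc 1 1
  simp [φ, -map_pow] at h3 h4
  have h5 : g ^ 60 = 1 := Units.ext (by simp [← h3, h4])
  rw [← orderOf_dvd_iff_pow_eq_one, hg, Nat.card_units, Nat.card_eq_fintype_card, hF] at h5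
  exact absurd h5 (by decide)

end Cfsg.Agent.S2541
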