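import Cfsg.Statements.S2542
import Cfsg.Agent.H10.L211
import Cfsg.Agent.S0675
import Cfsg.Agent.S0804

set_option autoImplicit false
open Cfsg

namespace Cfsg.Agent.S2542

open MulAction in

/-- Let F be a field with 11 elements. PSL_2(F) has a subgroup H of index 11 isomorphic to the alternating group A_5, and the action of PSL_2(F) on the cosets of H is 2-transitive (of degree 11). -/
theorem result {F : Type*} [Field F] [Fintype F] (hF : Fintype.card F = 11) : ∃ H : Subgroup (Matrix.ProjectiveSpecialLinearGroup (Fin 2) F), H.index = 11 ∧ Nonempty (H ≃* alternatingGroup (Fin 5)) ∧ MulAction.IsMultiplyPretransitive (Matrix.ProjectiveSpecialLinearGroup (Fin 2) F) ((Matrix.ProjectiveSpecialLinearGroup (Fin 2) F) ⧸ H) 2 := by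
  classical
  obtain ⟨H, hH⟩ := (S0804.result hF).2 (by norm_num)
  have h1 : H.index = 11 := by
    have := H.card_mul_index
    rw [H10.L211.A5.card hH, ← Subgroup.card_top (G := Matrix.ProjectiveSpecialLinearGroup (Fin 2) F),
      ← H27.card_up, H27.up_top, H10.L211.card_PS hF] at this
    omega
  refine ⟨H, h1, hH, ?_⟩
  haveI := Fintype.ofFinite (Matrix.ProjectiveSpecialLinearGroup (Fin 2) F ⧸ H)
  set φ := toPermHom (Matrix.ProjectiveSpecialLinearGroup (Fin 2) F) (_ ⧸ H)
  haveI : IsPretransitive φ.range (_ ⧸ H) := ⟨fun x y => by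
    obtain ⟨g, hg⟩ := exists_smul_eq (Matrix.ProjectiveSpecialLinearGroup (Fin 2) F) x y
    exact ⟨⟨_, g, rfl⟩, hg⟩⟩
  rcases S0675.result (by rw [← Nat.card_eq_fintype_card, ← Subgroup.index, h1]; norm_num) φ.range
    with h | h
  · exfalso
    haveI := H11.psl2_simple (F := F) (by omega)
    rcases φ.normal_ker.eq_bot_or_eq_top with e | e
    · obtain ⟨f⟩ := hH
      haveI := solvable_of_solvable_injective (f := φ.rangeRestrict.comp (H.subtype.comp
        f.symm.toMonoidHom)) ((MonoidHom.rangeRestrict_injective_iff.2 ((MonoidHom.ker_eq_bot_iff _).1 e)).comp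
        (H.subtype_injective.comp f.symm.injective))
      have := IsSimpleGroup.comm_iff_isSolvable.2 this
      revert this
      decide +kernel
    · rw [← Subgroup.normalCore_eq_ker] at e
      rw [top_le_iff.1 (e.ge.trans H.normalCore_le)] at h1
      simp at h1
  · refine ⟨fun x y => ?_⟩
    obtain ⟨⟨_, g, rfl⟩, hg⟩ := h.exists_smul_eq x y
    exact ⟨g, hg⟩

end Cfsg.Agent.S2542
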