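import Cfsg.Statements.S2543
import Cfsg.Agent.H10.L211

set_option autoImplicit false
open scoped Pointwise
open Cfsg

namespace Cfsg.Agent.S2543

open H27 H10.L211 Subgroup Matrix in

/-- Let F be a field with 11 elements. PSL_2(F) has exactly 22 subgroups isomorphic to the alternating group A_5, and they form two conjugacy classes: there are two such subgroups that are not conjugate, and every such subgroup is conjugate to one of these two. -/
theorem result {F : Type*} [Field F] [Fintype F] (hF : Fintype.card F = 11) : Nat.card {H : Subgroup (Matrix.ProjectiveSpecialLinearGroup (Fin 2) F) // Nonempty (H ≃* alternatingGroup (Fin 5))} = 22 ∧ ∃ H K : Subgroup (Matrix.ProjectiveSpecialLinearGroup (Fin 2) F), Nonempty (H ≃* alternatingGroup (Fin 5)) ∧ Nonempty (K ≃* alternatingGroup (Fin 5)) ∧ (∀ g : Matrix.ProjectiveSpecialLinearGroup (Fin 2) F, MulAut.conj g • H ≠ K) ∧ ∀ L : Subgroup (Matrix.ProjectiveSpecialLinearGroup (Fin 2) F), Nonempty (L ≃* alternatingGroup (Fin 5)) → ∃ g : Matrix.ProjectiveSpecialLinearGroup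 (Fin 2) F, MulAut.conj g • L = H ∨ MulAut.conj g • L = K := by
  have hup : ∀ (g : ProjectiveSpecialLinearGroup (Fin 2) F) (H : Subgroup _),
      up (MulAut.conj g • H) = cj (ProjectiveSpecialLinearGroup.toPGL g) (up H) := fun g H => by
    change (H.map (MulAut.conj g).toMonoidHom).map _ = (H.map _).map _
    rw [Subgroup.map_map, Subgroup.map_map]
    congr 1
    ext; simp
  have hA : ∀ H : Subgroup (ProjectiveSpecialLinearGroup (Fin 2) F), A5 H ↔ A5 (up H) := fun H =>
    ⟨fun h => h.map (upEquiv H).symm.trans, fun h => h.map (upEquiv H).trans⟩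
  have hP : ∀ c, c ∈ PS F ↔ ∃ g, ProjectiveSpecialLinearGroup.toPGL g = c := fun c => by
    simp [← up_top]
  obtain ⟨X, hX, h⟩ := exists_A5_le_PS (F := F) (by rw [hF]; norm_num)
  constructor
  · let f : PG F ⧸ X → {K : Subgroup (PG F) // A5 K} := Quotient.lift (fun c => ⟨cj c X, A5.cj h c⟩)
      fun a b e => Subtype.ext (cj_eq_iff.2 (by
        rw [normalizer_eq hF h]; simpa using inv_mem (QuotientGroup.leftRel_apply.1 e)))
    have h1 : Function.Bijective f := ⟨fun a b => Quotient.inductionOn₂ a b fun a b e =>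
      QuotientGroup.eq.2 (by simpa [normalizer_eq hF h] using cj_eq_iff.1 (congrArg Subtype.val e).symm),
      fun K => (exists_cj hF h K.2).elim fun c e => ⟨c, Subtype.ext e.symm⟩⟩
    have h2 : Function.Bijective fun H : {H // A5 H} => (⟨up H.1, (hA _).1 H.2⟩ : {K // A5 K}) :=
      ⟨fun a b e => Subtype.ext (up_injective (congrArg Subtype.val e)), fun K => by
        obtain ⟨H, e⟩ := exists_up (A5_le_PS K.2)
        exact ⟨⟨H, (hA H).2 (e ▸ K.2)⟩, Subtype.ext e⟩⟩
    have h3 := X.card_mul_index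
    rw [A5.card h, card_PG, hF, index] at h3
    rw [Nat.card_eq_of_bijective _ h2, ← Nat.card_eq_of_bijective _ h1]
    omega
  obtain ⟨e, he⟩ : ∃ e, e ∉ PS F := by
    by_contra! h1
    have := card_PS hF
    rw [(eq_top_iff' _).2 h1, card_top, card_PG, hF] at this
    omega
  obtain ⟨H, rfl⟩ := exists_up hX
  obtain ⟨K, hK⟩ := exists_up (A5_le_PS (A5.cj h e))
  refine ⟨H, K, (hA H).2 h, (hA K).2 (hK ▸ A5.cj h e), fun g hg => he ?_, fun L hL => ?_⟩
  · have := cj_eq_iff.1 ((hup g H).symm.trans ((congrArg up hg).trans hK))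
    rw [normalizer_eq hF h] at this
    simpa using (mul_mem_cancel_right ((hP _).2 ⟨g, rfl⟩)).1 (hX this)
  · obtain ⟨c, hc⟩ := exists_cj hF ((hA L).1 hL) h
    by_cases h1 : c ∈ PS F
    · obtain ⟨g, rfl⟩ := (hP c).1 h1
      exact ⟨g, .inl (up_injective ((hup g L).trans hc.symm))⟩
    · obtain ⟨g, hg⟩ := (hP _).1 (mul_mem_PS he h1)
      exact ⟨g, .inr (up_injective (by rw [hup, hg, hK, hc, cj_cj]))⟩

end Cfsg.Agent.S2543
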