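import Cfsg.Statements.S2548
import Cfsg.Agent.H8.LieAll
import Cfsg.Agent.H8.O4Two
import Cfsg.Agent.S0305

set_option autoImplicit false
open Cfsg

namespace Cfsg.Agent.S2548

open H8

/-- Let F be a finite field of characteristic p and consider the group PΩ⁺_{2m}(F) of the hyperbolic quadratic form Σ x_i y_i with m ≥ 1, where Ω denotes the commutator subgroup of the full isometry group. This group has an irreducible complex character χ whose degree equals the order of a Sylow p-subgroup (equal to q^(m(m−1)) when #F = q, except in the degenerate case m = 2, q = 2, where this commutator subgroup has order 18 and its Sylow 2-subgroups have order 2) and whose restriction to any Sylow p-subgroup P is the regular character of P: χ vanishes on the non-identity elements of P. (This is the Steinberg character.) -/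
theorem result {F : Type*} [Field F] [Fintype F] (p : ℕ) [Fact p.Prime] [CharP F p] (m : ℕ) (hm : 1 ≤ m) : ∃ χ : Cfsg.POmega F (Cfsg.quadFormPlus m F) → ℂ, Cfsg.IsIrrCharacter (Cfsg.POmega F (Cfsg.quadFormPlus m F)) χ ∧ ∀ P : Sylow p (Cfsg.POmega F (Cfsg.quadFormPlus m F)), χ 1 = Nat.card P ∧ ∀ x : Cfsg.POmega F (Cfsg.quadFormPlus m F), x ∈ P → x ≠ 1 → χ x = 0 := by
  by_cases h1 : m = 1
  · subst h1
    obtain ⟨e⟩ := S0305.result (F := F) rfl
    exact (hasSB_quot_of_comm (comm_of_dihedral e)).steinberg
  by_cases h2 : H12.NotExc F (Fin m ⊕ Fin m → F)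
  · exact (hasSB_omD F p (by omega) h2).quot.steinberg
  rw [H12.NotExc, not_or, not_not] at h2
  obtain rfl : m = 2 := by have := h2.2; simp at this; omega
  have hF : Fintype.card F = 2 := le_antisymm (not_lt.1 fun a => h2.1 (exists_ne_of_card a)) Fintype.one_lt_card
  obtain rfl : p = 2 := by
    obtain ⟨n, hp, hn⟩ := FiniteField.card F p
    exact (Nat.prime_dvd_prime_iff_eq hp Nat.prime_two).1 (hF ▸ hn ▸ dvd_pow_self p n.ne_zero)
  obtain ⟨φ, τ, a1, a2, a3⟩ := o4_two hF
  obtain ⟨A, b1, b2, b3⟩ := exists_index_two a1 a2 a3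
  let e := H11.omegaEquiv _ (H11.coe_qPlus (F := F) 2)
  refine steinberg_of_index_two (A := A.comap e.toMonoidHom) (fun a ha b hb => e.injective ?_) ?_ ?_
  · rw [map_mul, map_mul]; exact b1 _ ha _ hb
  · rwa [MulEquiv.toMonoidHom_eq_coe, Subgroup.comap_equiv_eq_map_symm, Subgroup.card_map_of_injective e.symm.injective]
  · rwa [Subgroup.index_comap_of_surjective _ e.surjective]

end Cfsg.Agent.S2548
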