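import Cfsg.Statements.S2550
import Cfsg.Agent.S0819
import Cfsg.Agent.H11.E6Iso
import Cfsg.Agent.H11.SL

set_option autoImplicit false
open Cfsg

namespace Cfsg.Agent.S2550

/-- Let F be a field with 2 elements and K a field with 4 elements. PSL_4(F) and PSL_3(K) have the same order (20160) but are not isomorphic. -/
theorem result {F K : Type*} [Field F] [Fintype F] [Field K] [Fintype K] (hF : Fintype.card F = 2) (hK : Fintype.card K = 4) : Nat.card (Matrix.ProjectiveSpecialLinearGroup (Fin 4) F) = Nat.card (Matrix.ProjectiveSpecialLinearGroup (Fin 3) K) ∧ ¬ Nonempty (Matrix.ProjectiveSpecialLinearGroup (Fin 4) F ≃* Matrix.ProjectiveSpecialLinearGroup (Fin 3) K) := by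
  obtain ⟨e⟩ := H11.nonempty_psl4_two_equiv hF
  refine ⟨?_, fun ⟨f⟩ => ?_⟩
  · have h1 := H11.card_psl (ι := Fin 3) (F := K)
    have h2 := H11.card_units_mul_card_sl (ι := Fin 3) (F := K)
    rw [H11.card_gl, ← h1, hK] at h2
    have h3 : ∏ i : Fin (Fintype.card (Fin 3)), (4 ^ Fintype.card (Fin 3) - 4 ^ (i : ℕ)) = 181440 := by
      decide
    rw [h3] at h2
    rw [Nat.card_congr e.toEquiv, nat_card_alternatingGroup]
    simp only [Nat.card_eq_fintype_card (α := Fin 8), Fintype.card_fin]
    norm_num [Nat.factorial] at h2 ⊢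
    omega
  · let g : alternatingGroup (Fin 8) := ⟨c[0, 1, 2] * c[3, 4, 5, 6, 7], Equiv.Perm.mem_alternatingGroup.2 (by decide)⟩
    refine S0819.result hK (f (e.symm g)) ?_
    rw [f.orderOf_eq, e.symm.orderOf_eq, ← Subgroup.orderOf_coe, orderOf_eq_iff (by norm_num)]
    decide +kernel

end Cfsg.Agent.S2550
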