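import Cfsg.Statements.S2552
import Cfsg.Agent.H12.LinExt
import Cfsg.Agent.H12.GeoBridge
-- import your own Cfsg.Agent.* helpers here

set_option autoImplicit false
set_option maxHeartbeats 400000
open Cfsg

namespace Cfsg.Agent.S2552

/-- Let F be a finite field and n ≥ 1. For every k, the special linear group SL_n(F) acts transitively on the set of k-dimensional subspaces of F^n: any two subspaces of the same dimension are carried onto each other by some matrix of determinant 1. -/
theorem result {F : Type*} [Field F] [Fintype F] (n : ℕ) (hn : 1 ≤ n) (U₁ U₂ : Submodule F (Fin n → F)) (h : Module.finrank F U₁ = Module.finrank F U₂) : ∃ g : Matrix.SpecialLinearGroup (Fin n) F, U₁.map ((Matrix.SpecialLinearGroup.toLin' g : (Fin n → F) ≃ₗ[F] (Fin n → F)) : (Fin n → F) →ₗ[F] (Fin n → F)) = U₂ := by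
  obtain ⟨A, hA⟩ := H12.exists_equiv_map_eq h
  have : ∃ B ∈ H12.SLV F (Fin n → F), U₁.map (B : (Fin n → F) →ₗ[F] (Fin n → F)) = U₂ := by
    by_cases e : U₁ = ⊤
    · exact ⟨1, one_mem _, by simp [← hA, e]⟩
    obtain ⟨B, h1, h2⟩ := H12.exists_SLV_agree e A
    exact ⟨B, h1, hA ▸ Submodule.ext fun v => exists_congr fun w => and_congr_right fun hw => by
      simp [h2 w hw]⟩
  obtain ⟨B, h1, h2⟩ := this
  refine ⟨⟨LinearMap.toMatrix' B.toLinearMap, by simpa using H12.mem_SLV.1 h1⟩, ?_⟩
  exact (congrArg U₁.map (Matrix.toLin'_toMatrix' B.toLinearMap)).trans h2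

end Cfsg.Agent.S2552
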