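import Cfsg.Statements.S2561
import Cfsg.Agent.H12.F2Quad
-- import your own Cfsg.Agent.* helpers here

set_option autoImplicit false
set_option maxHeartbeats 400000
open Cfsg

namespace Cfsg.Agent.S2561

open QuadraticMap in
theorem card_eq {V : Type*} [AddCommGroup V] [Module (ZMod 2) V] [FiniteDimensional (ZMod 2) V]
    {Q : QuadraticForm (ZMod 2) V} (hQ : H12.QNondeg Q) (P : (V → ZMod 2) → Prop) :
    Nat.card {q : V → ZMod 2 // (∀ u v, q (u + v) = q u + q v + (Q (u + v) - Q u - Q v)) ∧ P q} =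
      Nat.card {w // P fun v => Q v + polar Q v w} := by
  symm
  refine Nat.card_eq_of_bijective (fun w => ⟨fun v => Q v + polar Q v w.1, fun u v => by
    simp only [polar_add_left]; ring, w.2⟩) ⟨fun w w' h => Subtype.ext (hQ.ext' fun z => ?_), ?_⟩
  · simpa using congrFun (congrArg Subtype.val h) z
  · rintro ⟨q, h1, h2⟩
    let φ : V →+ ZMod 2 := AddMonoidHom.mk' (fun v => q v - Q v) fun u v => by rw [h1]; ring
    obtain ⟨w, hw⟩ := hQ.exists_rep (φ.toZModLinearMap 2)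
    have : (fun v => Q v + polar Q v w) = q := funext fun v => by
      rw [polar_comm, show polar Q w v = q v - Q v from hw v]; ring
    exact ⟨⟨w, by rwa [this]⟩, Subtype.ext this⟩

/-- Fix the non-singular alternating form on the 2m-dimensional space over the field of two elements obtained by polarizing the plus-type form Σ xᵢyᵢ (m ≥ 1). The functions q on the space with q(u + v) = q(u) + q(v) + f(u, v) (the quadratic forms polarizing to f) number 2^(2m); each is equivalent under an invertible linear map either to the plus-type form or to the minus-type form Σ xᵢyᵢ + (z₁² + z₁z₂ + z₂²); and those of plus type number 2^(2m−1) + 2^(m−1), those of minus type 2^(2m−1) − 2^(m−1). -/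
theorem result (m : ℕ) (hm : 1 ≤ m) :
    Nat.card {q : (Fin m ⊕ Fin m → ZMod 2) → ZMod 2 // (∀ u v : (Fin m ⊕ Fin m → ZMod 2), q (u + v) = q u + q v + (Cfsg.quadFormPlus m (ZMod 2) (u + v) - Cfsg.quadFormPlus m (ZMod 2) u - Cfsg.quadFormPlus m (ZMod 2) v))} = 2 ^ (2 * m) ∧
    (∀ q : (Fin m ⊕ Fin m → ZMod 2) → ZMod 2, (∀ u v : (Fin m ⊕ Fin m → ZMod 2), q (u + v) = q u + q v + (Cfsg.quadFormPlus m (ZMod 2) (u + v) - Cfsg.quadFormPlus m (ZMod 2) u - Cfsg.quadFormPlus m (ZMod 2) v)) →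
      (∃ g : (Fin m ⊕ Fin m → ZMod 2) ≃ₗ[ZMod 2] (Fin m ⊕ Fin m → ZMod 2), ∀ v, q v = Cfsg.quadFormPlus m (ZMod 2) (g v)) ∨
      (∃ g : (Fin m ⊕ Fin m → ZMod 2) ≃ₗ[ZMod 2] ((Fin (m - 1) ⊕ Fin (m - 1)) ⊕ Fin 2 → ZMod 2), ∀ v, q v = Cfsg.quadFormMinus (m - 1) (ZMod 2) 1 1 (g v))) ∧
    Nat.card {q : (Fin m ⊕ Fin m → ZMod 2) → ZMod 2 // (∀ u v : (Fin m ⊕ Fin m → ZMod 2), q (u + v) = q u + q v + (Cfsg.quadFormPlus m (ZMod 2) (u + v) - Cfsg.quadFormPlus m (ZMod 2) u - Cfsg.quadFormPlus m (ZMod 2) v)) ∧ ∃ g : (Fin m ⊕ Fin m → ZMod 2) ≃ₗ[ZMod 2] (Fin m ⊕ Fin m → ZMod 2), ∀ v, q v = Cfsg.quadFormPlus m (ZMod 2) (g v)} = 2 ^ (2 * m - 1) + 2 ^ (m - 1) ∧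
    Nat.card {q : (Fin m ⊕ Fin m → ZMod 2) → ZMod 2 // (∀ u v : (Fin m ⊕ Fin m → ZMod 2), q (u + v) = q u + q v + (Cfsg.quadFormPlus m (ZMod 2) (u + v) - Cfsg.quadFormPlus m (ZMod 2) u - Cfsg.quadFormPlus m (ZMod 2) v)) ∧ ∃ g : (Fin m ⊕ Fin m → ZMod 2) ≃ₗ[ZMod 2] ((Fin (m - 1) ⊕ Fin (m - 1)) ⊕ Fin 2 → ZMod 2), ∀ v, q v = Cfsg.quadFormMinus (m - 1) (ZMod 2) 1 1 (g v)} = 2 ^ (2 * m - 1) - 2 ^ (m - 1) := by
  obtain ⟨k, rfl⟩ : ∃ k, m = k + 1 := ⟨m - 1, by omega⟩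
  simp only [Nat.add_sub_cancel]
  have hC := H11.qPlus_nondeg (F := ZMod 2) (k + 1)
  have hd : Module.finrank (ZMod 2) (Fin (k + 1) ⊕ Fin (k + 1) → ZMod 2) = 2 * (k + 1) := by
    simp [two_mul]
  have h2 := fun q hq => H12.f2_plus_or_minus (H12.f2Quad_nondeg hC q hq) hd
  have h3 := H12.f2_shift_iff hC hd
  have h4 := H11.card_quadFormPlus_eq (F := ZMod 2) (k + 1)
  have h5 : 2 ^ (2 * (k + 1) - 1) = 2 ^ (k + 1) * 2 ^ k := by rw [← pow_add]; congr 1; omega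
  have h6 : 1 ≤ 2 ^ (k + 1) := Nat.one_le_two_pow
  rw [← H11.coe_qPlus] at h2 h4 ⊢
  simp only [ZMod.card, Nat.add_sub_cancel] at h4
  refine ⟨?_, h2, ?_, ?_⟩
  · have := card_eq hC fun _ => True
    simp only [and_true] at this
    rw [this, Nat.card_congr (Equiv.subtypeUnivEquiv fun _ => trivial)]
    simp [two_mul, pow_add]
  · rw [card_eq hC, Nat.card_congr (Equiv.subtypeEquivRight h3), h4, if_pos rfl, h5, Nat.sub_mul,
      pow_succ]
    have := Nat.mul_le_mul_right (2 ^ k) h6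
    rw [pow_succ] at this
    omega
  · rw [card_eq hC, h5, ← Nat.sub_one_mul]
    refine (Nat.card_congr (Equiv.subtypeEquivRight fun w => ?_)).trans ((h4 1).trans (by simp))
    have h7 := h2 (fun v => H11.qPlus (k + 1) (ZMod 2) v + QuadraticMap.polar (H11.qPlus (k + 1)
      (ZMod 2)) v w) fun u v => by simp only [QuadraticMap.polar_add_left]; ring
    constructor
    · rintro ⟨g, hg⟩
      refine (H12.zmod2_cases _).resolve_left fun h => ?_
      obtain ⟨g', hg'⟩ := (h3 w).2 h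
      have h8 := H12.card_zero_of_minus (k := k) g hg
      rw [H12.card_zero_of_plus g' (by rw [← H11.coe_qPlus]; exact hg')] at h8
      have h4 : (0 : ℤ) < 2 ^ k := by positivity
      omega
    · intro h
      exact h7.resolve_left fun h' => by simp [(h3 w).1 h'] at h

end Cfsg.Agent.S2561
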