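import Cfsg.Statements.S2562
import Cfsg.Agent.H12.F2Quad
-- import your own Cfsg.Agent.* helpers here

set_option autoImplicit false
set_option maxHeartbeats 400000
open Cfsg

namespace Cfsg.Agent.S2562

/-- Witt indices over the field of two elements, m ≥ 1: for the plus-type form Σ xᵢyᵢ in dimension 2m some m-dimensional subspace is totally singular and no totally singular subspace has larger dimension; for the minus-type form Σ xᵢyᵢ + (z₁² + z₁z₂ + z₂²) in dimension 2m the maximal dimension of a totally singular subspace is m − 1. -/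
theorem result (m : ℕ) (hm : 1 ≤ m) :
    (∃ U : Submodule (ZMod 2) (Fin m ⊕ Fin m → ZMod 2), (∀ u ∈ U, Cfsg.quadFormPlus m (ZMod 2) u = 0) ∧ Module.finrank (ZMod 2) ↥U = m) ∧
    (∀ U : Submodule (ZMod 2) (Fin m ⊕ Fin m → ZMod 2), (∀ u ∈ U, Cfsg.quadFormPlus m (ZMod 2) u = 0) → Module.finrank (ZMod 2) ↥U ≤ m) ∧
    (∃ U : Submodule (ZMod 2) ((Fin (m - 1) ⊕ Fin (m - 1)) ⊕ Fin 2 → ZMod 2), (∀ u ∈ U, Cfsg.quadFormMinus (m - 1) (ZMod 2) 1 1 u = 0) ∧ Module.finrank (ZMod 2) ↥U = m - 1) ∧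
    (∀ U : Submodule (ZMod 2) ((Fin (m - 1) ⊕ Fin (m - 1)) ⊕ Fin 2 → ZMod 2), (∀ u ∈ U, Cfsg.quadFormMinus (m - 1) (ZMod 2) 1 1 u = 0) → Module.finrank (ZMod 2) ↥U ≤ m - 1) := by
  obtain ⟨k, rfl⟩ : ∃ k, m = k + 1 := ⟨m - 1, by omega⟩
  have hd := H11.disc_ne_zero_of_aniso H12.aniso_f2
  have hC := H11.qMinus_nondeg k hd
  simp only [Nat.add_sub_cancel]
  rw [← H11.coe_qPlus, ← H11.coe_qMinus]
  refine ⟨?_, fun U hU => ?_, ?_, fun U hU => ?_⟩
  · obtain ⟨W, h1, h2⟩ := H12.qPlus_hasTS (F := ZMod 2) (k + 1)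
    exact ⟨W, h1.1, h2⟩
  · have := H12.two_mul_finrank_le_of_singular (H11.qPlus_nondeg _) hU
    simp only [Module.finrank_fintype_fun_eq_card, Fintype.card_sum, Fintype.card_fin] at this
    omega
  · obtain ⟨W, h1, h2⟩ := H12.quad_hasTS_pred hC (m := k) (by simp; ring)
    exact ⟨W, h1.1, h2⟩
  · by_contra h
    obtain ⟨W, h1, h2⟩ := H12.exists_le_finrank_eq U (l := k + 1) (by omega)
    exact H12.qMinus_not_hasTS k hd H12.aniso_f2 ⟨W, H12.quad_ts_iff.2 fun x hx => hU x (h1 hx), h2⟩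

end Cfsg.Agent.S2562
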