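import Cfsg.Statements.S2566
import Cfsg.Agent.H8.O4Two
import Cfsg.Agent.H11.Order3

set_option autoImplicit false
open Cfsg

namespace Cfsg.Agent.S2566

open H8

/-- The full orthogonal group of the plus-type form x₁y₁ + x₂y₂ in dimension 4 over the field of two elements has order 72 and is isomorphic to the wreath product of the symmetric group of degree 3 by a group of order 2: it has a normal subgroup isomorphic to the direct product of two symmetric groups of degree 3, of index 2, whose two direct factors are interchanged by conjugation by some element. -/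
theorem result :
    Nat.card ↥(Cfsg.isometryGroup (ZMod 2) (Cfsg.quadFormPlus 2 (ZMod 2))) = 72 ∧
    ∃ (A B : Subgroup ↥(Cfsg.isometryGroup (ZMod 2) (Cfsg.quadFormPlus 2 (ZMod 2)))),
      Nonempty (↥A ≃* Equiv.Perm (Fin 3)) ∧ Nonempty (↥B ≃* Equiv.Perm (Fin 3)) ∧ A ⊓ B = ⊥ ∧ (∀ a ∈ A, ∀ b ∈ B, a * b = b * a) ∧
      (A ⊔ B).index = 2 ∧ ∃ g : ↥(Cfsg.isometryGroup (ZMod 2) (Cfsg.quadFormPlus 2 (ZMod 2))), A.map (MulAut.conj g).toMonoidHom = B := by
  obtain ⟨φ, τ, a1, a2, a3⟩ := o4_two (ZMod.card 2)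
  let e := ((MulEquiv.subgroupCongr (by rw [H11.coe_qPlus]) : isometryGroup (ZMod 2) (quadFormPlus 2 (ZMod 2)) ≃* _).trans
    (H12.orthEquiv (H11.qPlus 2 (ZMod 2)))).symm
  let ψ := e.toMonoidHom.comp φ
  have b1 : Function.Injective ψ := e.injective.comp a1
  refine ⟨by rw [H11.card_O_plus 1]; simp, (ψ.comp (MonoidHom.inl _ _)).range, (ψ.comp (MonoidHom.inr _ _)).range,
    ⟨(MonoidHom.ofInjective (f := ψ.comp (MonoidHom.inl _ _)) fun _ _ h => (Prod.ext_iff.1 (b1 h)).1).symm⟩,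
    ⟨(MonoidHom.ofInjective (f := ψ.comp (MonoidHom.inr _ _)) fun _ _ h => (Prod.ext_iff.1 (b1 h)).2).symm⟩, eq_bot_iff.2 ?_, ?_, ?_, e τ, ?_⟩
  · rintro _ ⟨⟨a, rfl⟩, b, h⟩
    obtain rfl : 1 = a := congrArg Prod.fst (b1 h)
    exact map_one _
  · rintro _ ⟨a, rfl⟩ _ ⟨b, rfl⟩
    simp [← map_mul]
  · have h : (MonoidHom.inl (Equiv.Perm (Fin 3)) (Equiv.Perm (Fin 3))).range ⊔ (MonoidHom.inr _ _).range = ⊤ :=
      eq_top_iff.2 fun x _ => by
        rw [show x = MonoidHom.inl _ _ x.1 * MonoidHom.inr _ _ x.2 by simp]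
        exact Subgroup.mul_mem_sup ⟨x.1, rfl⟩ ⟨x.2, rfl⟩
    rw [MonoidHom.range_comp, MonoidHom.range_comp, ← Subgroup.map_sup, h,
      ← MonoidHom.range_eq_map, MonoidHom.range_comp, Subgroup.index_map_of_bijective e.bijective, a2]
  · have h : ∀ a, MulAut.conj (e τ) (ψ (a, 1)) = ψ (1, a) := fun a => by
      simp only [ψ, MulAut.conj_apply, MonoidHom.comp_apply, MulEquiv.coe_toMonoidHom, ← map_inv, ← map_mul, a3]
    ext x
    constructor
    · rintro ⟨_, ⟨a, rfl⟩, rfl⟩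
      exact ⟨a, (h a).symm⟩
    · rintro ⟨a, rfl⟩
      exact ⟨_, ⟨a, rfl⟩, h a⟩

end Cfsg.Agent.S2566
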