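import Cfsg.Statements.S2568
import Cfsg.Agent.H22.SS

set_option autoImplicit false
open Cfsg

namespace Cfsg.Agent.S2568

/-- Number of conjugacy classes of elements of a given prime order r, coprime to the characteristic, in GL_n(q): if i is the multiplicative order of q modulo r and t = (r − 1)/i, the classes correspond to the non-zero t-tuples of natural numbers (a_1, …, a_t) with i(a_1 + ⋯ + a_t) ≤ n (a_j is the multiplicity of the j-th Frobenius orbit of nontrivial r-th roots of unity among the eigenvalues), so there are exactly C(⌊n/i⌋ + t, t) − 1 of them. -/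
theorem result {F : Type*} [Field F] [Fintype F] {p q : ℕ} [Fact p.Prime] [CharP F p] (hF : Fintype.card F = q) (n r i t : ℕ) (hr : r.Prime) (hrp : r ≠ p) (hi : i = orderOf (q : ZMod r)) (ht : t * i = r - 1) : Nat.card {C : ConjClasses (GL (Fin n) F) // ∃ g : GL (Fin n) F, ConjClasses.mk g = C ∧ orderOf g = r} = Nat.choose (n / i + t) t - 1 := by
  subst hF
  have h0 : (r : F) ≠ 0 := fun h0 =>
    hrp ((Nat.prime_dvd_prime_iff_eq Fact.out hr).1 ((CharP.cast_eq_zero_iff F p r).1 h0)).symm
  rw [H22.card_classes_ss hr h0 hi H22.glE_injective (fun c => ∑ k, c k ≤ n / i) (fun c => ?_)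
    fun g g' _ => H22.gl_isConj_iff.2, H22.card_sum_le, H22.card_Cy hr h0 hi ht]
  rw [Nat.le_div_iff_mul_le (H22.ord_pos hr h0 hi), mul_comm]
  refine ⟨fun h => ?_, fun ⟨g, a, h⟩ => by
    have := h.finrank hr h0 hi; rw [Module.finrank_fin_fun] at this; omega⟩
  obtain ⟨A, hA⟩ := H22.exists_of_sType hr h0 hi (V := Fin n → F) (a := n - i * ∑ k, c k) (c := c)
    (by rw [Module.finrank_fin_fun]; omega)
  obtain ⟨g, rfl⟩ := H22.exists_glE (A := A) (IsUnit.of_pow_eq_one (hA.pow hr) hr.ne_zero)
  exact ⟨g, _, hA⟩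

end Cfsg.Agent.S2568
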