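import Cfsg.Statements.S2569
import Cfsg.Agent.H22.GLc2

set_option autoImplicit false
open Cfsg

namespace Cfsg.Agent.S2569

/-- In GL_n over a finite field of characteristic p, the conjugacy class of a semisimple element (an element of order prime to p) under the special linear group is its whole GL-conjugacy class: for every such x and every invertible g there is h of determinant one with h x h⁻¹ = g x g⁻¹. -/
theorem result {F : Type*} [Field F] [Fintype F] {p : ℕ} [Fact p.Prime] [CharP F p] {n : ℕ} (x g : GL (Fin n) F) (hx : (orderOf x).Coprime p) : ∃ h : GL (Fin n) F, (h : Matrix (Fin n) (Fin n) F).det = 1 ∧ h * x * h⁻¹ = g * x * g⁻¹ := by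
  obtain ⟨s, hs, h1⟩ := H22.exists_ssType (A := H22.glE x) (H22.sqfree_X_pow hx) (by
    rw [map_sub, Polynomial.aeval_X_pow, ← map_pow, pow_orderOf_eq_one]; simp)
  by_cases h0 : s = 0
  · have : n = 0 := by simpa [h0] using h1.finrank
    subst this
    exact ⟨1, by simp, Subsingleton.elim _ _⟩
  obtain ⟨a, ha⟩ := Multiset.exists_mem_of_ne_zero h0
  obtain ⟨y, h2, h3⟩ := H22.exists_gl_comm (c := Matrix.GeneralLinearGroup.det g⁻¹)
    (h1.exists_comm_det (fun a ha => (hs a ha).1.ne_zero) ha (hs a ha).2.1 _)
  refine ⟨g * y, congrArg Units.val (show Matrix.GeneralLinearGroup.det _ = 1 by simp [h3]), ?_⟩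
  rw [mul_assoc g, h2]; group

end Cfsg.Agent.S2569
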