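import Cfsg.Statements.S2570
import Cfsg.Agent.H22.GLc2

set_option autoImplicit false
open Cfsg

namespace Cfsg.Agent.S2570

/-- Number of conjugacy classes of elements of order p in GL_n over a finite field of characteristic p: they correspond to the Jordan types, that is, to the partitions of n with all parts at most p other than the partition into ones, so there are (number of partitions of n with parts ≤ p) − 1 of them. -/
theorem result {F : Type*} [Field F] [Fintype F] {p : ℕ} [Fact p.Prime] [CharP F p] (n : ℕ) : Nat.card {C : ConjClasses (GL (Fin n) F) // ∃ g : GL (Fin n) F, ConjClasses.mk g = C ∧ orderOf g = p} = (Finset.univ.filter (fun μ : Nat.Partition n => ∀ a ∈ μ.parts, a ≤ p)).card - 1 := by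
  rw [H22.card_classes_prime Fact.out, H22.card_classes_unip H22.glE (n := n) (by simp) _
    (fun g hg => ⟨p, (H22.pow_char_eq_one_iff p H22.glE_injective g).1 hg⟩)
    (fun g μ hg h => (h.pow_eq_zero_iff p).1 ((H22.pow_char_eq_one_iff p H22.glE_injective g).1 hg))
    (fun μ h => ?_) fun g g' _ _ => H22.gl_isConj_iff.2]
  obtain ⟨g, hg⟩ := H22.exists_gl_nType (F := F) (ι := Fin n) (μ := μ.parts) (by simp [μ.parts_sum])
  exact ⟨g, (H22.pow_char_eq_one_iff p H22.glE_injective g).2 ((hg.pow_eq_zero_iff p).2 h), hg⟩

end Cfsg.Agent.S2570
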