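import Cfsg.Statements.S2571
import Cfsg.Agent.H22.GLc2

set_option autoImplicit false
open Cfsg

namespace Cfsg.Agent.S2571

/-- Centraliser of a regular unipotent element in GL_n(q): if u is an invertible n × n matrix over the field with q elements, n ≥ 1, with (u − 1)^n = 0 and rank(u − 1) = n − 1 (a single unipotent Jordan block), then its centraliser in GL_n(q) has order (q − 1) q^(n−1). -/
theorem result {F : Type*} [Field F] [Fintype F] {q n : ℕ} (hF : Fintype.card F = q) (hn : 1 ≤ n) (u : GL (Fin n) F) (hnil : ((u : Matrix (Fin n) (Fin n) F) - 1) ^ n = 0) (hreg : ((u : Matrix (Fin n) (Fin n) F) - 1).rank = n - 1) : Nat.card ↥(Subgroup.centralizer ({u} : Set (GL (Fin n) F))) = (q - 1) * q ^ (n - 1) := by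
  have h1 := H22.rank_add_ker u.1
  obtain ⟨J⟩ := H22.reg_jb (H22.pow_toLin_eq_zero.2 hnil) (by simp at h1; omega)
  have hv : ∀ (v : Fin n → F) (k : Fin 1), ((Matrix.toLin' u.1 - 1) ^ Module.finrank F (Fin n → F)) v = 0 :=
    fun v _ => by simp [H22.pow_toLin_eq_zero.2 hnil]
  have hc : ∀ g : Subgroup.centralizer {u}, ∀ x, H22.glE g.1 ((Matrix.toLin' u.1 - 1) x) =
      (Matrix.toLin' u.1 - 1) (H22.glE g.1 x) := fun g => DFunLike.congr_fun ((H22.comm_sub_one (y := H22.glE g.1) (A := H22.glE u)).2 (by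
    rw [← map_mul, Subgroup.mem_centralizer_singleton_iff.1 g.2, map_mul]))
  rw [Nat.card_congr (Equiv.ofBijective (β := {v // v ∉ LinearMap.range (Matrix.toLin' u.1 - 1)})
    (fun g => ⟨H22.glE g.1 (J.e 0), (J.isUnit_iff (by simpa) (hc g)).1 ((Group.isUnit g.1).map _)⟩)
    ⟨fun g h e => Subtype.ext (H22.glE_injective (J.ext (hc g) (hc h) fun k => by
      rw [Subsingleton.elim k 0]; exact congrArg Subtype.val e)), fun v => ?_⟩)]
  · classical
    rw [Nat.card_eq_fintype_card, Fintype.card_subtype_compl, ← Nat.card_eq_fintype_card (α := Subtype _)]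
    erw [H11.card_submodule]
    rw [H22.glE_sub_one, Matrix.toLin'_apply', ← Matrix.rank, hreg, hF, Nat.sub_mul, ← pow_succ']
    simp [hF, Nat.sub_add_cancel hn]
  · have h2 := J.lift_comm (v := fun _ => v.1) (hv v)
    have h3 := J.lift_e (v := fun _ => v.1) (hv v) 0
    obtain ⟨g, hg⟩ := H22.exists_glE ((J.isUnit_iff (by simpa) h2).2 (by rw [h3]; exact v.2))
    exact ⟨⟨g, Subgroup.mem_centralizer_singleton_iff.2 (H22.glE_injective (by
      rw [map_mul, map_mul, hg]
      exact H22.comm_sub_one.1 (LinearMap.ext h2)))⟩, Subtype.ext ((DFunLike.congr_fun hg _).trans h3)⟩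

end Cfsg.Agent.S2571
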