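import Cfsg.Statements.S2574
import Cfsg.Agent.H22.GLc2
import Cfsg.Agent.H12.Lin

set_option autoImplicit false
open Cfsg

namespace Cfsg.Agent.S2574

/-- A regular unipotent element of the symplectic group has totally isotropic small invariant subspaces: over a finite field, if u ∈ Sp_2m(F) satisfies (u − 1)^(2m) = 0 and rank(u − 1) = 2m − 1, and W is a u-invariant subspace with 2 dim W ≤ 2m, then the alternating form vanishes identically on W. -/
theorem result {F : Type*} [Field F] [Finite F] {m : ℕ} (u : Matrix.symplecticGroup (Fin m) F) (hnil : ((u : Matrix (Fin m ⊕ Fin m) (Fin m ⊕ Fin m) F) - 1) ^ (2 * m) = 0) (hreg : ((u : Matrix (Fin m ⊕ Fin m) (Fin m ⊕ Fin m) F) - 1).rank = 2 * m - 1) (W : Submodule F (Fin m ⊕ Fin m → F)) (hW : ∀ v ∈ W, (u : Matrix (Fin m ⊕ Fin m) (Fin m ⊕ Fin m) F).mulVec v ∈ W) (hdim : 2 * Module.finrank F W ≤ 2 * m) : ∀ v ∈ W, ∀ w ∈ W, Cfsg.sympForm m F v w = 0 := by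
  let g := H11.spEquivIsom u
  have hg : ∀ v, g.1 v = (u : Matrix _ _ F).mulVec v := fun _ => rfl
  have key := fun (U : Submodule F (Fin m ⊕ Fin m → F)) (hU : ∀ v ∈ U, g.1 v ∈ U) =>
    H22.eq_ker_of_reg (H22.pow_toLin_eq_zero.2 hnil) (by
      have := H22.rank_add_ker (u : Matrix (Fin m ⊕ Fin m) _ F)
      simp only [hreg, Fintype.card_sum, Fintype.card_fin] at this
      omega) (U := U) fun v hv => U.sub_mem (hU v hv) hv
  have h1 := key W hW
  have h2 := key ((H11.spForm (Fin m) F).perp W) fun v hv => H11.mem_perp_of_isom g.2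
    (fun x hx => (H12.mem_glStab_of_mapsTo (g := g.1) hW _).2 (by simpa using hx)) hv
  have h3 := H11.spForm_nondeg.finrank_add_finrank_perp W
  simp only [Module.finrank_fintype_fun_eq_card, Fintype.card_sum, Fintype.card_fin] at h3
  intro v hv w hw
  rw [← H11.spForm_B_eq]
  refine (show w ∈ (H11.spForm (Fin m) F).perp W from ?_) v hv
  rw [h2]
  exact H22.pow_apply_of_le (h1.le hw) (by omega)

end Cfsg.Agent.S2574
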