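import Cfsg.Statements.S2575
import Cfsg.Agent.H22.CycPow

set_option autoImplicit false
open Cfsg

namespace Cfsg.Agent.S2575

/-- Which diagonal involutions of PGL_n(q) lie in PSL_n(q), q odd: for the diagonal matrix t with i entries −1 and n − i entries 1, some non-zero scalar multiple of t has determinant one if and only if i is even or the 2-part of q − 1 exceeds the 2-part of n (that is, −1 is an n-th power in the field exactly in the latter case). -/
theorem result {F : Type*} [Field F] [Fintype F] {q : ℕ} (hF : Fintype.card F = q) (hq : Odd q) {n : ℕ} (hn : 1 ≤ n) (i : ℕ) (hi : i ≤ n) : (∃ c : F, c ≠ 0 ∧ (c • Matrix.diagonal (fun j : Fin n => if (j : ℕ) < i then (-1 : F) else 1)).det = 1) ↔ (Even i ∨ padicValNat 2 n < padicValNat 2 (q - 1)) := by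
  have h1 : 1 < q := hF ▸ Fintype.one_lt_card
  have h2 : (Matrix.diagonal (fun j : Fin n => if (j : ℕ) < i then (-1 : F) else 1)).det = (-1) ^ i := by
    rw [Matrix.det_diagonal, Finset.prod_ite, Finset.prod_const, Finset.prod_const_one, mul_one, Fin.card_filter_val_lt,
      min_eq_right hi]
  simp only [Matrix.det_smul, h2, Fintype.card_fin]
  rcases Nat.even_or_odd i with h | h
  · exact iff_of_true ⟨1, by simp [h]⟩ (Or.inl h)
  have h3 : ringChar F ≠ 2 := fun e => by
    have := FiniteField.even_card_of_char_two e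
    rw [hF, Nat.odd_iff.1 hq] at this
    omega
  have h4 : 1 ≤ padicValNat 2 (q - 1) := (padicValNat_dvd_iff_le (by omega)).1 (by obtain ⟨k, rfl⟩ := hq; simp)
  rw [h.neg_one_pow, H22.fld_exists_pow_iff (by simp), orderOf_neg_one, if_neg h3, hF, ← pow_one 2, padicValNat_dvd_iff_le
    (Nat.div_pos (Nat.gcd_le_left _ (by omega)) (Nat.gcd_pos_of_pos_left _ (by omega))).ne',
    H22.val_div_gcd 2 (by omega) (by omega)]
  simp only [Nat.not_even_iff_odd.2 h, false_or, pow_one]
  omega

end Cfsg.Agent.S2575
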