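import Cfsg.Statements.S2576
import Cfsg.Agent.H22.CycPow

set_option autoImplicit false
open Cfsg

namespace Cfsg.Agent.S2576

/-- Which involutions of PGL_2m(q) coming from a scalar of the quadratic extension field lie in PSL_2m(q), q odd: let μ generate the Sylow 2-subgroup of the multiplicative group of the field with q elements (μ has order the 2-part of q − 1) and let t be the block-diagonal matrix with m diagonal blocks [[0, 1], [μ, 0]] (so t² is the scalar μ and t is an involution modulo scalars). Then some non-zero scalar multiple of t has determinant one if and only if q ≡ 3 (mod 4) or the 2-part of q − 1 is less than the 2-part of 2m. -/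
theorem result {F : Type*} [Field F] [Fintype F] {q : ℕ} (hF : Fintype.card F = q) (hq : Odd q) {m : ℕ} (hm : 1 ≤ m) (μ : F) (hμ : orderOf μ = 2 ^ padicValNat 2 (q - 1)) : (∃ c : F, c ≠ 0 ∧ (c • Matrix.blockDiagonal (fun _ : Fin m => !![(0 : F), 1; μ, 0])).det = 1) ↔ (q % 4 = 3 ∨ padicValNat 2 (q - 1) < padicValNat 2 (2 * m)) := by
  have h1 : 1 < q := hF ▸ Fintype.one_lt_card
  have h3 : ringChar F ≠ 2 := fun e => by
    have := FiniteField.even_card_of_char_two e
    rw [hF, Nat.odd_iff.1 hq] at this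
    omega
  have h4 : 1 ≤ padicValNat 2 (q - 1) := (padicValNat_dvd_iff_le (by omega)).1 (by obtain ⟨k, rfl⟩ := hq; simp)
  have h5 : q % 4 = 3 ↔ ¬ 2 ≤ padicValNat 2 (q - 1) := by
    rw [← padicValNat_dvd_iff_le (by omega)]; obtain ⟨k, rfl⟩ := hq; omega
  have h0 : μ ≠ 0 := by rintro rfl; exact absurd hμ.symm (by simp)
  simp only [Matrix.det_smul, Matrix.det_blockDiagonal, Matrix.det_fin_two_of, Finset.prod_const, Finset.card_univ,
    Fintype.card_prod, Fintype.card_fin, mul_zero, one_mul, zero_sub]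
  by_cases h : q % 4 = 3
  · refine iff_of_true ⟨1, one_ne_zero, ?_⟩ (Or.inl h)
    rw [show padicValNat 2 (q - 1) = 1 by omega, pow_one] at hμ
    have := (sq_eq_one_iff.1 (hμ ▸ pow_orderOf_eq_one μ)).resolve_left (by rintro rfl; simp at hμ)
    simp [this]
  obtain ⟨s, hs⟩ : ∃ s, padicValNat 2 (q - 1) = s + 2 := ⟨padicValNat 2 (q - 1) - 2, by omega⟩
  have h6 : orderOf (-μ) = 2 ^ (s + 1 + 1) := orderOf_eq_prime_pow (by
    rw [(Nat.even_pow.2 ⟨even_two, by omega⟩).neg_pow, ← orderOf_dvd_iff_pow_eq_one, hμ, hs, Nat.pow_dvd_pow_iff_le_right one_lt_two]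
    omega) (by rw [(Nat.even_pow.2 ⟨even_two, by omega⟩).neg_pow, ← hs, ← hμ, pow_orderOf_eq_one])
  have h7 := (Nat.div_pos (Nat.gcd_le_left (2 * m) (show 0 < q - 1 by omega)) (Nat.gcd_pos_of_pos_left _ (by omega))).ne'
  rw [H22.fld_exists_pow_iff (by simp [h0]), orderOf_dvd_iff_pow_eq_one, ← pow_mul, ← orderOf_dvd_iff_pow_eq_one, h6, hF,
    padicValNat_dvd_iff_le (mul_ne_zero (by omega) h7), padicValNat.mul (by omega) h7,
    H22.val_div_gcd 2 (by omega) (by omega), padicValNat.mul (by omega) (by omega), padicValNat_self]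
  omega

end Cfsg.Agent.S2576
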