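import Cfsg.Statements.S2670
import Cfsg.Agent.H22.PGc

set_option autoImplicit false
open Cfsg

namespace Cfsg.Agent.S2670

/-- Number of conjugacy classes of elements of prime order r in PGL_n(q) = GL_n(q)/scalars when r divides q − 1 (n ≥ 2): the classes of elements with a diagonalisable lift correspond to the orbits of the cyclic rotation on the r-tuples of eigenvalue multiplicities (a_0, …, a_(r−1)) summing to n with every a_j < n, and when r divides n there are r − 1 further classes (lifts acting irreducibly on blocks of size r); in all (C(n+r−1, r−1) − r − [r ∣ n])/r + r·[r ∣ n] classes. -/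
theorem result {F : Type*} [Field F] [Fintype F] {q : ℕ} (hF : Fintype.card F = q) {n r : ℕ} (hn : 2 ≤ n) (hr : r.Prime) (hrq : r ∣ q - 1) : Nat.card {C : ConjClasses (GL (Fin n) F ⧸ Subgroup.center (GL (Fin n) F)) // ∃ g : GL (Fin n) F ⧸ Subgroup.center (GL (Fin n) F), ConjClasses.mk g = C ∧ orderOf g = r} = (Nat.choose (n + r - 1) (r - 1) - r - (if r ∣ n then 1 else 0)) / r + r * (if r ∣ n then 1 else 0) := by
  refine H22.card_classes_proj hr H22.glE_injective ⊤ (fun g => ?_) (fun c => ⟨Matrix.GeneralLinearGroup.scalar _ c.1,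
    LinearMap.ext fun v => by simp [H22.glE_apply]⟩) (by
      rwa [Subgroup.card_top, Nat.card_units, Nat.card_eq_fintype_card, hF]) (by simp)
    (fun _ _ => H22.gl_isConj_iff.symm) (fun A z h => ?_) (by simp) (by omega)
  · rw [Matrix.GeneralLinearGroup.center_eq_range_scalar]
    exact ⟨fun ⟨c, h⟩ => ⟨⟨c, trivial⟩, h ▸ LinearMap.ext fun v => by simp [H22.glE_apply]⟩,
      fun ⟨c, h⟩ => ⟨c.1, H22.glE_injective (h ▸ LinearMap.ext fun v => by simp [H22.glE_apply])⟩⟩
  · obtain ⟨g, rfl⟩ := H22.exists_glE (A := A) (isUnit_pow_iff hr.ne_zero |>.1 (h ▸ z.1.isUnit.map _))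
    exact ⟨g, H22.Sim.refl _⟩

end Cfsg.Agent.S2670
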