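import Cfsg.Statements.S2582
import Cfsg.Agent.H22.UF2

set_option autoImplicit false
open Cfsg

namespace Cfsg.Agent.S2582

/-- Which unipotent Jordan types occur in the finite symplectic group: over a finite field, a unipotent matrix with Jordan block sizes d_1, …, d_t (sum 2m, all at least 1) is similar to an element of Sp_2m(F) if and only if every odd block size occurs an even number of times. -/
theorem result {F : Type*} [Field F] [Fintype F] {m t : ℕ} (d : Fin t → ℕ) (hd : ∀ k, 1 ≤ d k) (hsum : ∑ k, d k = 2 * m) : (∃ e : ((k : Fin t) × Fin (d k)) ≃ (Fin m ⊕ Fin m), ∃ A : Matrix.symplecticGroup (Fin m) F, IsConj (Matrix.reindex e e (Cfsg.jordanTypeMatrix d F)) (A : Matrix (Fin m ⊕ Fin m) (Fin m ⊕ Fin m) F)) ↔ ∀ j : ℕ, Odd j → Even (Finset.univ.filter (fun k : Fin t => d k = j)).card := by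
  simp only [← H22.card_Bk]
  constructor
  · rintro ⟨e, A, h⟩ j hj
    obtain ⟨J⟩ := H22.jb_of_isConj h
    have hi := ((H22.spRep (Fin m) F).isom A).1
    exact H22.even_of_alt (J.gram_alt hd (β := (H11.spForm (Fin m) F).B) hi (H11.J_isAlt _ _) hj)
      (J.det_gram_ne hd (H22.toSQ H11.spForm_nondeg) hi j)
  · intro H
    let e : ((k : Fin t) × Fin (d k)) ≃ (Fin m ⊕ Fin m) := Fintype.equivOfCardEq (by simp [hsum, two_mul])
    obtain ⟨C, h1, h2⟩ := (H22.reJB (F := F) d e).exists_alt hd H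
    obtain ⟨g, hg⟩ := (H22.spRep (Fin m) F).exists_sim (H12.alt_iso h1 H11.spForm_nondeg rfl) h2
    exact ⟨e, g, H22.isConj_iff_sim.2 hg⟩

end Cfsg.Agent.S2582
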