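import Cfsg.Statements.S2583
import Cfsg.Agent.H22.UF2

set_option autoImplicit false
open Cfsg

namespace Cfsg.Agent.S2583

/-- Which unipotent Jordan types occur in a finite orthogonal group in odd characteristic: over a finite field of odd order, a unipotent matrix with Jordan block sizes d_1, …, d_t (sum n, all at least 1) is similar to an isometry of some quadratic form on F^n with non-degenerate polar form if and only if every even block size occurs an even number of times. -/
theorem result {F : Type*} [Field F] [Fintype F] (h2 : (2 : F) ≠ 0) {n t : ℕ} (d : Fin t → ℕ) (hd : ∀ k, 1 ≤ d k) (hsum : ∑ k, d k = n) : (∃ Q : QuadraticForm F (Fin n → F), (QuadraticMap.polarBilin Q).Nondegenerate ∧ ∃ e : ((k : Fin t) × Fin (d k)) ≃ Fin n, ∃ A : ↥(Cfsg.isometryGroup F ⇑Q), IsConj (Matrix.reindex e e (Cfsg.jordanTypeMatrix d F)) ((A : Matrix.GeneralLinearGroup (Fin n) F) : Matrix (Fin n) (Fin n) F)) ↔ ∀ j : ℕ, Even j → 0 < j → Even (Finset.univ.filter (fun k : Fin t => d k = j)).card := by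
  simp only [← H22.card_Bk]
  constructor
  · rintro ⟨Q, hQ, e, A, h⟩ j hj -
    obtain ⟨J⟩ := H22.jb_of_isConj h
    have hi := ((H22.oRep rfl hQ.1).isom A).1
    exact H22.even_of_alt (J.gram_alt' hd (β := Q.polarBilin) hi h2
      (fun x y => QuadraticMap.polar_comm _ _ _) hj)
      (J.det_gram_ne hd (H22.toSQ (H12.CForm.ofQuad_nondeg hQ)) hi j)
  · intro H
    let e : ((k : Fin t) × Fin (d k)) ≃ Fin n := Fintype.equivOfCardEq (by simp [hsum])
    obtain ⟨Q, h1, h3⟩ := (H22.reJB (F := F) d e).exists_quad hd h2 H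
    obtain ⟨g, hg⟩ := H22.exists_gl_unip (H22.reJB (F := F) d e)
    exact ⟨Q, ⟨h1, fun x hx => h1 x fun y => (QuadraticMap.polar_comm _ _ _).trans (hx y)⟩, e,
      ⟨g, fun v _ => by rw [← hg] at h3; exact h3 v⟩, show IsConj _ g.1 by rw [hg]⟩

end Cfsg.Agent.S2583
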