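import Cfsg.Statements.S2584
import Cfsg.Agent.H22.UF2

set_option autoImplicit false
open Cfsg

namespace Cfsg.Agent.S2584

/-- Which unipotent Jordan types occur in a finite orthogonal group in characteristic two: over a finite field of characteristic 2 and in even dimension 2m, a unipotent matrix with Jordan block sizes d_1, …, d_t (sum 2m, all at least 1) is similar to an isometry of some quadratic form on F^(2m) with non-degenerate polar form if and only if every odd block size occurs an even number of times (the same condition as for the symplectic group, which contains these orthogonal groups). -/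
theorem result {F : Type*} [Field F] [Fintype F] [CharP F 2] {m t : ℕ} (d : Fin t → ℕ) (hd : ∀ k, 1 ≤ d k) (hsum : ∑ k, d k = 2 * m) : (∃ Q : QuadraticForm F (Fin (2 * m) → F), (QuadraticMap.polarBilin Q).Nondegenerate ∧ ∃ e : ((k : Fin t) × Fin (d k)) ≃ Fin (2 * m), ∃ A : ↥(Cfsg.isometryGroup F ⇑Q), IsConj (Matrix.reindex e e (Cfsg.jordanTypeMatrix d F)) ((A : Matrix.GeneralLinearGroup (Fin (2 * m)) F) : Matrix (Fin (2 * m)) (Fin (2 * m)) F)) ↔ ∀ j : ℕ, Odd j → Even (Finset.univ.filter (fun k : Fin t => d k = j)).card := by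
  simp only [← H22.card_Bk]
  constructor
  · rintro ⟨Q, hQ, e, A, h⟩ j hj
    obtain ⟨J⟩ := H22.jb_of_isConj h
    have hi := ((H22.oRep rfl hQ.1).isom A).1
    exact H22.even_of_alt (J.gram_alt hd (β := Q.polarBilin) hi
      (fun x => by simp [QuadraticMap.polar_self, CharTwo.two_eq_zero, two_smul, CharTwo.add_self_eq_zero]) hj)
      (J.det_gram_ne hd (H22.toSQ (H12.CForm.ofQuad_nondeg hQ)) hi j)
  · intro H
    let e : ((k : Fin t) × Fin (d k)) ≃ Fin (2 * m) := Fintype.equivOfCardEq (by simp [hsum])
    obtain ⟨C, h1, h2⟩ := (H22.reJB (F := F) d e).exists_alt hd H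
    obtain ⟨Q, h4, h3⟩ := H22.dye h1 h2
    have h5 : (H12.CForm.ofQuad Q).Nondeg := fun x hx => h1 x fun y => (h4 x y).symm.trans (hx y)
    obtain ⟨g, hg⟩ := H22.exists_gl_unip (H22.reJB (F := F) d e)
    exact ⟨Q, ⟨h5, fun x hx => h5 x fun y => (QuadraticMap.polar_comm _ _ _).trans (hx y)⟩, e,
      ⟨g, fun v _ => by rw [← hg] at h3; exact h3 v⟩, show IsConj _ g.1 by rw [hg]⟩

end Cfsg.Agent.S2584
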