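import Cfsg.Statements.S2588
import Cfsg.Agent.H22.FSim

set_option autoImplicit false
open Cfsg

namespace Cfsg.Agent.S2588

/-- An invertible matrix A over the field with q² elements is conjugate in GL_n(q²) to an element of the general unitary group GU_n(q) (isometries of the Hermitian form Σ u_i v_i^q) if and only if A is similar to the inverse transpose of its entrywise q-th power (A ~ A^(−qT), the image of A under the map sending a matrix to the inverse transpose of its entrywise q-th power — inverse transpose composed with the field automorphism — whose fixed points form GU_n(q)). -/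
theorem result {K : Type*} [Field K] [Fintype K] {q n : ℕ} (hK : Fintype.card K = q ^ 2) (A : GL (Fin n) K) : (∃ B : ↥(Cfsg.GU n K q), IsConj A (B : GL (Fin n) K)) ↔ IsConj (A : Matrix (Fin n) (Fin n) K) (((A : Matrix (Fin n) (Fin n) K).map (fun x : K => x ^ q)).transpose)⁻¹ := by
  constructor
  · rintro ⟨B, hB⟩
    have h1 := H22.isConj_units.1 (((H22.itAut (Fin n) K).toMonoidHom.comp
      (Matrix.GeneralLinearGroup.map (H11.frob hK))).map_isConj hB)
    have key : ∀ g : GL (Fin n) K, (((H22.itAut (Fin n) K).toMonoidHom.comp
        (Matrix.GeneralLinearGroup.map (H11.frob hK))) g).1 = ((g.1.map fun x => x ^ q).transpose)⁻¹ :=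
      fun g => by rw [← Matrix.transpose_nonsing_inv]; exact congrArg Matrix.transpose (Matrix.coe_units_inv (Matrix.GeneralLinearGroup.map (H11.frob hK) g))
    rw [key, key, Matrix.inv_eq_right_inv (A := (B.1.1.map _).transpose) (B := B.1.1) (by
      have := congrArg Matrix.transpose ((H11.mem_GU_iff_matrix hK n B.1).1 B.2)
      rwa [Matrix.transpose_mul, Matrix.transpose_transpose, Matrix.transpose_one] at this)] at h1
    exact (H22.isConj_units.1 hB).trans h1.symm
  · intro h
    obtain ⟨B, hB⟩ := H22.exists_gu hK (n := n) (by simp) ((H22.toSQ (H11.hermC_nondeg hK)).exists_of_sim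
      (H22.isConj_iff_sim.1 h) (by
        rw [H22.herm_adj, Module.End.mul_eq_comp, ← Matrix.toLin'_mul]
        erw [Matrix.mul_nonsing_inv, Matrix.toLin'_one]
        · rfl
        · rw [Matrix.det_transpose]
          exact (Matrix.isUnit_iff_isUnit_det _).1 (Matrix.GeneralLinearGroup.map (H11.frob hK) A).isUnit))
    exact ⟨B, H22.gl_isConj_iff.2 hB⟩

end Cfsg.Agent.S2588
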