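import Cfsg.Statements.S2591
import Cfsg.Agent.H22.UF3

set_option autoImplicit false
open Cfsg

namespace Cfsg.Agent.S2591

/-- Over a finite field of odd order and for m ≥ 1, the regular unipotent elements of Sp_2m(F) (u − 1 nilpotent of rank 2m − 1, a single Jordan block) form exactly two conjugacy classes of Sp_2m(F) (one class under the similarity group, which splits in two). -/
theorem result {F : Type*} [Field F] [Fintype F] {q : ℕ} (hF : Fintype.card F = q) (hq : Odd q) {m : ℕ} (hm : 1 ≤ m) : Nat.card {C : ConjClasses ↥(Matrix.symplecticGroup (Fin m) F) // ∃ u : Matrix.symplecticGroup (Fin m) F, ConjClasses.mk u = C ∧ ((u : Matrix (Fin m ⊕ Fin m) (Fin m ⊕ Fin m) F) - 1) ^ (2 * m) = 0 ∧ ((u : Matrix (Fin m ⊕ Fin m) (Fin m ⊕ Fin m) F) - 1).rank = 2 * m - 1} = 2 := by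
  classical
  subst hF
  rw [H22.card_classes_sp (H12.odd_card_iff.1 hq) (H22.spRep (Fin m) F) (n := 2 * m)
    (by simp [two_mul]) (fun μ => μ = Nat.Partition.indiscrete _)
    (fun g hg => ⟨_, H22.pow_toLin_eq_zero.2 hg.1⟩) fun g μ h => ?_, Finset.sum_eq_single_of_mem
      (Nat.Partition.indiscrete _) _ fun b hb h => (h (Finset.mem_filter.1 hb).2.1).elim]
  · rw [Nat.Partition.indiscrete_parts (by omega)]; simp [Finset.filter_singleton]
  · rw [Finset.mem_filter, Nat.Partition.indiscrete_parts (by omega)]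
    exact ⟨by simp, rfl, fun j hj => by
      rw [Multiset.count_singleton, if_neg (by rintro rfl; exact (Nat.not_odd_iff_even.2 (by simp)) hj)]; simp⟩
  have h1 := H22.rank_add_ker g.1
  have h2 := h.ker 1
  rw [pow_one, Multiset.map_congr rfl fun d hd => min_eq_left (μ.parts_pos hd), H22.spRep_ρ] at h2
  simp only [Fintype.card_sum, Fintype.card_fin, Multiset.map_const', Multiset.sum_replicate,
    smul_eq_mul, mul_one] at h1 h2
  constructor
  · rintro ⟨-, h3⟩
    obtain ⟨a, ha⟩ := Multiset.card_eq_one.1 (show μ.parts.card = 1 by omega)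
    ext1
    have := μ.parts_sum
    rw [ha, Multiset.sum_singleton] at this
    rw [Nat.Partition.indiscrete_parts (by omega), ha, this]
  · rintro rfl
    rw [Nat.Partition.indiscrete_parts (by omega)] at h h2
    exact ⟨H22.pow_toLin_eq_zero.1 ((h.pow_eq_zero_iff _).2 (by simp)), by simp at h2; omega⟩

end Cfsg.Agent.S2591
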