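import Cfsg.Statements.S2592
import Cfsg.Agent.H22.UF3

set_option autoImplicit false
open Cfsg

namespace Cfsg.Agent.S2592

/-- Over a finite field with q elements, q odd, the centraliser in Sp_2m(F) (m ≥ 1) of a regular unipotent element (u − 1 nilpotent of rank 2m − 1) has order 2 q^m. -/
theorem result {F : Type*} [Field F] [Fintype F] {q : ℕ} (hF : Fintype.card F = q) (hq : Odd q) {m : ℕ} (hm : 1 ≤ m) (u : Matrix.symplecticGroup (Fin m) F) (hnil : ((u : Matrix (Fin m ⊕ Fin m) (Fin m ⊕ Fin m) F) - 1) ^ (2 * m) = 0) (hreg : ((u : Matrix (Fin m ⊕ Fin m) (Fin m ⊕ Fin m) F) - 1).rank = 2 * m - 1) : Nat.card ↥(Subgroup.centralizer ({u} : Set ↥(Matrix.symplecticGroup (Fin m) F))) = 2 * q ^ m := by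
  subst hF
  have h1 := H22.rank_add_ker u.1
  obtain ⟨J⟩ := H22.reg_jb (H22.pow_toLin_eq_zero.2 hnil) (by simp at h1; omega)
  rw [(H22.spRep (Fin m) F).card_cent (Or.inr rfl)]
  exact J.card_CI_reg (H12.odd_card_iff.1 hq) hm (by simp [two_mul]) (H22.toSQ H11.spForm_nondeg)
    ((H22.spRep (Fin m) F).isom u).1 (H11.spForm _ _).symm

end Cfsg.Agent.S2592
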