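import Cfsg.Statements.S2596
import Cfsg.Agent.H22.Wall3

set_option autoImplicit false
open Cfsg

namespace Cfsg.Agent.S2596

/-- Number of conjugacy classes of involutions in the full orthogonal group O⁻_2m(F) of an elliptic quadratic form (Σ_(i<m−1) x_i y_i plus an anisotropic binary form) over a finite field of characteristic two (m ≥ 1): one class for each odd s ≤ m, two for each even s with 2 ≤ s < m and one for s = m when m is even, where s = rank(t − 1); in all m + ⌊(m − 1)/2⌋. -/
theorem result {F : Type*} [Field F] [Fintype F] [CharP F 2] {m : ℕ} (hm : 1 ≤ m) (a b : F) (hab : ∀ z₁ z₂ : F, z₁ ^ 2 + a * z₁ * z₂ + b * z₂ ^ 2 = 0 → z₁ = 0 ∧ z₂ = 0) : Nat.card {C : ConjClasses ↥(Cfsg.isometryGroup F (Cfsg.quadFormMinus (m - 1) F a b)) // ∃ g : ↥(Cfsg.isometryGroup F (Cfsg.quadFormMinus (m - 1) F a b)), ConjClasses.mk g = C ∧ orderOf g = 2} = m + (m - 1) / 2 := by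
  let R := H22.oRep (H11.coe_qMinus (F := F) (m - 1) a b) (H11.qMinus_nondeg _ (H11.disc_ne_zero_of_aniso hab))
  have hd : Module.finrank F ((Fin (m - 1) ⊕ Fin (m - 1)) ⊕ Fin 2 → F) = 2 * (m - 1 + 1) := by simp; omega
  have hn := H12.qMinus_not_hasTS (m - 1) (H11.disc_ne_zero_of_aniso hab) hab
  exact H22.card_inv_classes H22.ch2_quad R (a := m) (by omega) (fun j => ⟨fun h => by_contra fun h' =>
    hn (h.mono (by omega)), fun h => H12.quad_hasTS _ R.nd (by omega)⟩)
    fun k hk => H22.exists_nonalt_quad R.nd (by omega)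

end Cfsg.Agent.S2596
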