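import Cfsg.Statements.S2599
import Cfsg.Agent.H12.OmegaExt
-- import your own Cfsg.Agent.* helpers here

set_option autoImplicit false
set_option maxHeartbeats 400000
open Cfsg

namespace Cfsg.Agent.S2599

/-- An irreducible invariant subspace of a semisimple isometry is non-degenerate or totally singular: let Q be a quadratic form on F^n (F finite of characteristic p) with non-degenerate polar form f, x an isometry of Q of order prime to p, and U a non-zero x-invariant subspace containing no x-invariant subspace other than 0 and U. Then U meets its f-orthogonal trivially, or Q vanishes on U, or p = 2, U is a line spanned by a non-singular vector and x fixes U pointwise. -/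
theorem result {F : Type*} [Field F] [Fintype F] {p : ℕ} [Fact p.Prime] [CharP F p] {n : ℕ} (Q : QuadraticForm F (Fin n → F)) (hQ : (QuadraticMap.polarBilin Q).Nondegenerate) (x : ↥(Cfsg.isometryGroup F ⇑Q)) (hx : (orderOf x).Coprime p) (U : Submodule F (Fin n → F)) (hU0 : U ≠ ⊥) (hUx : ∀ u ∈ U, ((x : Matrix.GeneralLinearGroup (Fin n) F) : Matrix (Fin n) (Fin n) F).mulVec u ∈ U) (hirr : ∀ W : Submodule F (Fin n → F), W ≤ U → (∀ w ∈ W, ((x : Matrix.GeneralLinearGroup (Fin n) F) : Matrix (Fin n) (Fin n) F).mulVec w ∈ W) → W = ⊥ ∨ W = U) : U ⊓ LinearMap.BilinForm.orthogonal (QuadraticMap.polarBilin Q) U = ⊥ ∨ (∀ u ∈ U, Q u = 0) ∨ (p = 2 ∧ Module.finrank F U = 1 ∧ (∃ u ∈ U, Q u ≠ 0) ∧ ∀ u ∈ U, ((x : Matrix.GeneralLinearGroup (Fin n) F) : Matrix (Fin n) (Fin n) F).mulVec u = u) := by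
  have hC := H12.CForm.ofQuad_nondeg hQ
  obtain ⟨g, hg, -⟩ := H12.exists_orth_of Q rfl x
  simp only [hg] at hUx hirr ⊢
  have hs := H12.CForm.mem_stab_of_mapsTo (g := g) hUx
  rcases hirr (U ⊓ (H12.CForm.ofQuad Q).perp U) inf_le_left (fun w hw =>
    ⟨hUx w hw.1, (H12.CForm.stab_le_stab_perp U hs w).1 hw.2⟩) with h | h
  · exact Or.inl h
  have h1 : ∀ u ∈ U, ∀ v ∈ U, QuadraticMap.polar Q u v = 0 := fun u hu v hv =>
    (h.ge hv).2 u hu
  let W : Submodule F (Fin n → F) :=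
    { carrier := {u | u ∈ U ∧ Q u = 0}
      add_mem' := fun {a b} ha hb => ⟨U.add_mem ha.1 hb.1, by
        rw [H12.Q_add, ha.2, hb.2, h1 a ha.1 b hb.1]; simp⟩
      zero_mem' := ⟨U.zero_mem, map_zero Q⟩
      smul_mem' := fun c a ha => ⟨U.smul_mem c ha.1, by rw [H12.Q_smul, ha.2, mul_zero]⟩ }
  rcases hirr W (fun w hw => hw.1) (fun w hw => ⟨hUx w hw.1, (H12.orth_Q g w).trans hw.2⟩)
    with h2 | h2
  swap
  · exact Or.inr (Or.inl fun u hu => (h2.ge hu).2)
  have h3 : ∀ u ∈ U, Q u = 0 → u = 0 := fun u hu h => h2.le ⟨hu, h⟩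
  obtain ⟨u, hu, hu0⟩ := Submodule.exists_mem_ne_zero_of_ne_bot hU0
  have hQu : Q u ≠ 0 := mt (h3 u hu) hu0
  have h4 : (2 : F) = 0 := by simpa [H12.polar_self', hQu] using h1 u hu u hu
  refine Or.inr (Or.inr ⟨?_, ?_, ⟨u, hu, hQu⟩, fun v hv => sub_eq_zero.1 (h3 _
    (U.sub_mem (hUx v hv) hv) ?_)⟩)
  · exact (Nat.prime_dvd_prime_iff_eq Fact.out Nat.prime_two).1
      ((CharP.cast_eq_zero_iff F p 2).1 (by simpa using h4))
  · refine finrank_eq_one_iff'.2 ⟨⟨u, hu⟩, fun h => hu0 (congrArg Subtype.val h), fun v => ?_⟩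
    obtain ⟨c, hc⟩ := H12.isSquare_of_two_eq_zero h4 (Q v / Q u)
    refine ⟨c, Subtype.ext (sub_eq_zero.1 (h3 _ (U.sub_mem (U.smul_mem c hu) v.2) ?_))⟩
    change Q (c • u - v) = 0
    rw [H12.Q_sub, h1 _ (U.smul_mem c hu) _ v.2, H12.Q_smul, ← hc, div_mul_cancel₀ _ hQu, sub_zero,
      ← two_mul, h4, zero_mul]
  · rw [H12.Q_sub, h1 _ (hUx v hv) _ hv, H12.orth_Q, sub_zero, ← two_mul, h4, zero_mul]

end Cfsg.Agent.S2599
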