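import Cfsg.Statements.S2609
import Cfsg.Agent.H12.OmegaExt
-- import your own Cfsg.Agent.* helpers here

set_option autoImplicit false
set_option maxHeartbeats 400000
open Cfsg

namespace Cfsg.Agent.S2609

/-- Spinor norm criterion for Ω over a finite field of odd order: let Q be a quadratic form on F^n, n ≥ 2, with non-degenerate polar form, and let g be an isometry written as a product of reflections in non-singular vectors v_1, …, v_k. Then g lies in Ω (the commutator subgroup of the orthogonal group) if and only if k is even and Q(v_1)⋯Q(v_k) is a square; in particular, for g of determinant one, whether that product is a square does not depend on the chosen factorisation (it is the spinor norm of g). -/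
theorem result {F : Type*} [Field F] [Fintype F] (h2 : (2 : F) ≠ 0) {n : ℕ} (hn : 2 ≤ n) (Q : QuadraticForm F (Fin n → F)) (hQ : (QuadraticMap.polarBilin Q).Nondegenerate) (g : ↥(Cfsg.isometryGroup F ⇑Q)) (vs : List (Fin n → F)) (hvs : ∀ v ∈ vs, Q v ≠ 0) (hg : ((g : Matrix.GeneralLinearGroup (Fin n) F) : Matrix (Fin n) (Fin n) F) = (vs.map (fun v => Cfsg.reflectionMatrix ⇑Q v)).prod) : g ∈ Cfsg.Omega F ⇑Q ↔ (Even vs.length ∧ IsSquare (vs.map (fun v => Q v)).prod) := by
  have hC := H12.CForm.ofQuad_nondeg hQ
  have hne : H12.NotExc F (Fin n → F) := H12.notExc_of_two_ne_zero h2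
  have h1 : ∀ (l : List (Fin n → F)) x, (l.map fun v => Cfsg.reflectionMatrix ⇑Q v).prod.mulVec x =
      ((l.map (H12.refl Q)).prod : H12.orth Q).1 x := by
    intro l
    induction l with
    | nil => intro x; simp
    | cons a l ih =>
      intro x
      rw [List.map_cons, List.map_cons, List.prod_cons, List.prod_cons, ← Matrix.mulVec_mulVec, ih,
        H12.reflectionMatrix_mulVec, H12.orth_mul_apply]
  rw [H12.omega_mem_iff, (H12.orthEquiv_eq_iff Q g _ _ (h1 vs)).1 hg, H12.mem_commutator_iff hC hne]
  have h3 : ∀ l : List (Fin n → F), (∀ v ∈ l, Q v ≠ 0) →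
      H12.dickson Q (l.map (H12.refl Q)).prod = (-1) ^ l.length ∧
      H12.spinor Q (l.map (H12.refl Q)).prod = H12.qsign (l.map fun v => Q v).prod := by
    intro l hl
    induction l with
    | nil => simp [H12.qsign_one]
    | cons a l ih =>
      have ha := hl a (by simp)
      have hl' : ∀ v ∈ l, Q v ≠ 0 := fun v hv => hl v (by simp [hv])
      simp only [List.map_cons, List.prod_cons, map_mul, List.length_cons, pow_succ']
      rw [(ih hl').1, (ih hl').2, H12.dickson_refl hC hne ha, H12.spinor_refl hC hne ha,
        H12.qsign_mul ha (List.prod_ne_zero (by simpa using hl'))]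
      exact ⟨rfl, rfl⟩
  rw [(h3 vs hvs).1, (h3 vs hvs).2, H12.qsign_eq_one, neg_one_pow_eq_one_iff_even (by decide)]

end Cfsg.Agent.S2609
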