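import Cfsg.Statements.S2610
import Cfsg.Agent.H12.OmegaExt
-- import your own Cfsg.Agent.* helpers here

set_option autoImplicit false
set_option maxHeartbeats 400000
open Cfsg

namespace Cfsg.Agent.S2610

/-- For a quadratic form Q on F^n with non-degenerate polar form, F finite of odd order and n ≥ 2 even, the isometry −1 lies in Ω (the commutator subgroup of the orthogonal group) if and only if the discriminant of Q (the determinant of the Gram matrix of its polar form) is a square. -/
theorem result {F : Type*} [Field F] [Fintype F] (h2 : (2 : F) ≠ 0) {n : ℕ} (hn : 2 ≤ n) (he : Even n) (Q : QuadraticForm F (Fin n → F)) (hQ : (QuadraticMap.polarBilin Q).Nondegenerate) : (∃ g : ↥(Cfsg.isometryGroup F ⇑Q), g ∈ Cfsg.Omega F ⇑Q ∧ ((g : Matrix.GeneralLinearGroup (Fin n) F) : Matrix (Fin n) (Fin n) F) = -1) ↔ IsSquare (Matrix.of (fun i j : Fin n => QuadraticMap.polar ⇑Q (Pi.single i 1) (Pi.single j 1))).det := by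
  have hC := H12.CForm.ofQuad_nondeg hQ
  rw [H12.exists_omega_iff Q rfl (H12.negOne Q) _ (fun x => by simp [H12.negOne_apply, Matrix.neg_mulVec])]
  obtain ⟨k, rfl⟩ : ∃ k, n = k + 1 := ⟨n - 1, by omega⟩
  obtain ⟨b, h1, h3, h4⟩ := H12.exists_orth_basis h2 hC one_ne_zero (n := k) (by simp)
  have hb : ∀ i, (H12.CForm.ofQuad Q).N (b i) ≠ 0 := fun i => by
    by_cases hi : i = Fin.last k
    · rw [hi]; exact h4
    · exact (h3 i hi).trans_ne one_ne_zero
  have h5 : Matrix.of (fun i j : Fin (k + 1) => QuadraticMap.polar ⇑Q (Pi.single i 1) (Pi.single j 1)) =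
      (H12.CForm.ofQuad Q).gram (Pi.basisFun F _) := by
    ext i j; simp [H12.CForm.gram_apply]
  obtain ⟨l, hl⟩ := he
  rw [H12.negOne_mem_commutator_iff hC h2 b hb h1 (by simp), h5, ← H12.qsign_eq_one (a := Matrix.det _),
    H12.qsign_det_gram_eq hC _ b, H12.det_gram_of_orth h1, H12.qsign_mul (by simp [h2])
      (Finset.prod_ne_zero_iff.2 fun i _ => hb i), Fintype.card_fin,
    show (2 : F) ^ (k + 1) = 2 ^ l * 2 ^ l by rw [hl, pow_add],
    H12.qsign_mul_self, one_mul, H12.qsign_eq_one]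
  simp [show Even (k + 1) from ⟨l, hl⟩]

end Cfsg.Agent.S2610
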