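import Cfsg.Statements.S2612
import Cfsg.Agent.H12.OmegaSum
-- import your own Cfsg.Agent.* helpers here

set_option autoImplicit false
set_option maxHeartbeats 400000
open Cfsg

namespace Cfsg.Agent.S2612

/-- For the hyperbolic quadratic form Σ x_i y_i on F^(2m) (F finite, m ≥ 1, excluding m = 2 over the field of two elements), Ω⁺_2m(F) (the commutator subgroup of the orthogonal group) contains an element interchanging the two complementary maximal totally singular subspaces {y = 0} and {x = 0} if and only if m is even (dimension divisible by 4). -/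
theorem result {F : Type*} [Field F] [Fintype F] {m : ℕ} (hm : 1 ≤ m) (h : Fintype.card F ≠ 2 ∨ m ≠ 2) : (∃ g : ↥(Cfsg.isometryGroup F (Cfsg.quadFormPlus m F)), g ∈ Cfsg.Omega F (Cfsg.quadFormPlus m F) ∧ (∀ v : Fin m ⊕ Fin m → F, (∀ i, v (Sum.inr i) = 0) → ∀ i, (((g : Matrix.GeneralLinearGroup (Fin m ⊕ Fin m) F) : Matrix (Fin m ⊕ Fin m) (Fin m ⊕ Fin m) F).mulVec v) (Sum.inl i) = 0) ∧ (∀ v : Fin m ⊕ Fin m → F, (∀ i, v (Sum.inl i) = 0) → ∀ i, (((g : Matrix.GeneralLinearGroup (Fin m ⊕ Fin m) F) : Matrix (Fin m ⊕ Fin m) (Fin m ⊕ Fin m) F).mulVec v) (Sum.inr i) = 0)) ↔ Even m := by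
  have hne : H12.NotExc F (Fin m ⊕ Fin m → F) := H12.notExc_of_card (n := m + m) (by simp) (by omega)
  have hC := H11.qPlus_nondeg (F := F) m
  have hU := H12.lag_qPlus_inr (F := F) m
  have key : ∀ k : H12.orth (H11.qPlus m F), (∀ v : Fin m ⊕ Fin m → F, (∀ i, v (.inr i) = 0) →
      ∀ i, k.1 v (.inl i) = 0) → (H12.dickson _ k = 1 ↔ Even m) := fun k hk => by
    rw [H12.dickson_eq_one_iff_lag hC hne hU.1, hU.2]
    suffices h : LinearMap.ker (LinearMap.funLeft F F (Sum.inr : Fin m → Fin m ⊕ Fin m)) ⊓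
      (LinearMap.ker (LinearMap.funLeft F F (Sum.inr : Fin m → Fin m ⊕ Fin m))).map
        (k.1 : (Fin m ⊕ Fin m → F) →ₗ[F] (Fin m ⊕ Fin m → F)) = ⊥ by rw [h]; simp
    rw [eq_bot_iff]
    rintro _ ⟨h1, x, hx, rfl⟩
    rw [Submodule.mem_bot]
    ext (i | i)
    · exact hk x (congrFun (LinearMap.mem_ker.1 hx)) i
    · exact congrFun (LinearMap.mem_ker.1 h1) i
  constructor
  · rintro ⟨g, hg, h1, -⟩
    obtain ⟨k, h2, h3⟩ := H12.exists_orth_of _ (H11.coe_qPlus m) g
    simp only [h2] at h1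
    exact (key k h1).1 ((H12.mem_commutator_iff hC hne k).1 (h3.1 hg)).1
  · intro he
    let s : H12.orth (H11.qPlus m F) := ⟨LinearEquiv.funCongrLeft F F (Equiv.sumComm _ _),
      H12.mem_orth.2 fun x => by
        rw [H12.qPlus_apply, H12.qPlus_apply, dotProduct_comm]; rfl⟩
    obtain ⟨_, ⟨A, rfl⟩, ht⟩ := H12.exists_mem_commutator_of hC hne (H12.leviHom F m).range s
      (Or.inl ((key s fun v hv i => hv i).2 he)) fun c hc => by
        have hd : (Matrix.diagonal (Function.update 1 (⟨0, hm⟩ : Fin m) c)).det = c := by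
          simp [Finset.prod_update_of_mem]
        have := H12.dickson_spinor_levi hne (Matrix.GeneralLinearGroup.mkOfDetNeZero _ (hd.trans_ne hc))
        exact ⟨_, ⟨_, rfl⟩, this.1, this.2.trans (congrArg _ hd)⟩
    obtain ⟨g, h1, h2⟩ := H12.exists_omega_of _ (H11.coe_qPlus m) ht
    refine ⟨g, h1, fun v hv i => ?_, fun v hv i => ?_⟩
    · rw [h2]
      change (H12.leviHom F m A).1 v (.inr i) = 0
      rw [H12.leviHom_apply', show v ∘ Sum.inr = 0 from funext hv]; simp
    · rw [h2]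
      change (H12.leviHom F m A).1 v (.inl i) = 0
      rw [H12.leviHom_apply', show v ∘ Sum.inl = 0 from funext hv]; simp

end Cfsg.Agent.S2612
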