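import Cfsg.Statements.S2613
import Cfsg.Agent.H12.OmegaExt
-- import your own Cfsg.Agent.* helpers here

set_option autoImplicit false
set_option maxHeartbeats 400000
open Cfsg

namespace Cfsg.Agent.S2613

/-- For the hyperbolic form Σ x_j y_j on F^(2m), F finite with q elements, q odd, and 1 ≤ i ≤ m: the involution negating the first i hyperbolic pairs (x_j, y_j ↦ −x_j, −y_j for j < i) and fixing the rest lies in Ω⁺_2m(q) (commutator subgroup of the orthogonal group) if and only if q^i ≡ 1 (mod 4); its (−1)-eigenspace is a hyperbolic 2i-space. -/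
theorem result {F : Type*} [Field F] [Fintype F] {q : ℕ} (hF : Fintype.card F = q) (hq : Odd q) {m : ℕ} (i : ℕ) (hi : 1 ≤ i) (him : i ≤ m) : (∃ g : ↥(Cfsg.isometryGroup F (Cfsg.quadFormPlus m F)), g ∈ Cfsg.Omega F (Cfsg.quadFormPlus m F) ∧ ((g : Matrix.GeneralLinearGroup (Fin m ⊕ Fin m) F) : Matrix (Fin m ⊕ Fin m) (Fin m ⊕ Fin m) F) = Matrix.diagonal (fun k : Fin m ⊕ Fin m => if (Sum.elim (fun j : Fin m => (j : ℕ)) (fun j : Fin m => (j : ℕ)) k) < i then (-1 : F) else 1)) ↔ q ^ i % 4 = 1 := by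
  subst hF
  have h2 := H12.odd_card_iff.1 hq
  have hC := H11.qPlus_nondeg (F := F) m
  obtain ⟨g, hg⟩ := H12.exists_orth_mulVec _ hC (Matrix.diagonal (fun k : Fin m ⊕ Fin m =>
      if (Sum.elim (fun j : Fin m => (j : ℕ)) (fun j : Fin m => (j : ℕ)) k) < i then (-1 : F) else 1))
    fun x => by
      simp only [H11.coe_qPlus, Cfsg.quadFormPlus, Matrix.mulVec_diagonal, Sum.elim_inl, Sum.elim_inr]
      exact Finset.sum_congr rfl fun j _ => by by_cases h : (j : ℕ) < i <;> simp [h]
  rw [H12.exists_omega_iff _ (H11.coe_qPlus m) g _ hg, H12.neg_hyp_mem_commutator_iff hC h2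
    (fun j : Fin i => Pi.single (.inl (j.castLE him)) 1)
    (fun j : Fin i => Pi.single (.inr (j.castLE him)) 1), Fintype.card_fin,
    H12.isSquare_neg_one_pow_iff hq]
  all_goals simp only [← hg, H11.coe_qPlus, H11.polar_quadFormPlus, Cfsg.quadFormPlus]
  · simp
  · simp
  · simp
  · simp
  · intro a b; simp [Pi.single_apply, eq_comm]
  · intro a; simp [Pi.single_neg]
  · intro a; simp [Pi.single_neg]
  · intro x h3 h4
    ext (j | j) <;> rw [Matrix.mulVec_diagonal] <;> split_ifs with h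
    · have : x (.inl j) = 0 := by simpa [Pi.single_apply, Fin.castLE] using h4 ⟨j, h⟩
      simp [this]
    · simp
    · have : x (.inr j) = 0 := by simpa [Pi.single_apply, Fin.castLE] using h3 ⟨j, h⟩
      simp [this]
    · simp

end Cfsg.Agent.S2613
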