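import Cfsg.Statements.S2615
import Cfsg.Agent.H12.OmegaExt
-- import your own Cfsg.Agent.* helpers here

set_option autoImplicit false
set_option maxHeartbeats 400000
open Cfsg

namespace Cfsg.Agent.S2615

/-- For an elliptic form Σ_(j<m−1) x_j y_j + (z₁² + a z₁z₂ + b z₂²) (anisotropic binary part) on F^(2m), F finite with q elements, q odd, and 1 ≤ i ≤ m − 1: the involution negating the first i hyperbolic pairs and fixing the rest lies in Ω⁻_2m(q) (commutator subgroup of the orthogonal group) if and only if q^i ≡ 1 (mod 4). -/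
theorem result {F : Type*} [Field F] [Fintype F] {q : ℕ} (hF : Fintype.card F = q) (hq : Odd q) {m : ℕ} (a b : F) (hab : ∀ z₁ z₂ : F, z₁ ^ 2 + a * z₁ * z₂ + b * z₂ ^ 2 = 0 → z₁ = 0 ∧ z₂ = 0) (i : ℕ) (hi : 1 ≤ i) (him : i + 1 ≤ m) : (∃ g : ↥(Cfsg.isometryGroup F (Cfsg.quadFormMinus (m - 1) F a b)), g ∈ Cfsg.Omega F (Cfsg.quadFormMinus (m - 1) F a b) ∧ ((g : Matrix.GeneralLinearGroup ((Fin (m - 1) ⊕ Fin (m - 1)) ⊕ Fin 2) F) : Matrix ((Fin (m - 1) ⊕ Fin (m - 1)) ⊕ Fin 2) ((Fin (m - 1) ⊕ Fin (m - 1)) ⊕ Fin 2) F) = Matrix.diagonal (fun k : (Fin (m - 1) ⊕ Fin (m - 1)) ⊕ Fin 2 => if (Sum.elim (Sum.elim (fun j : Fin (m - 1) => (j : ℕ)) (fun j : Fin (m - 1) => (j : ℕ))) (fun _ : Fin 2 => i) k) < i then (-1 : F) else 1)) ↔ q ^ i % 4 = 1 := by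
  subst hF
  have h2 := H12.odd_card_iff.1 hq
  have hC := H11.qMinus_nondeg (m - 1) (H11.disc_ne_zero_of_aniso hab)
  have him' : i ≤ m - 1 := by omega
  obtain ⟨g, hg⟩ := H12.exists_orth_mulVec _ hC (Matrix.diagonal
      (fun k : (Fin (m - 1) ⊕ Fin (m - 1)) ⊕ Fin 2 => if (Sum.elim (Sum.elim
        (fun j : Fin (m - 1) => (j : ℕ)) (fun j : Fin (m - 1) => (j : ℕ))) (fun _ : Fin 2 => i) k) < i
          then (-1 : F) else 1))
    fun x => by
      simp only [H11.coe_qMinus, Cfsg.quadFormMinus, Matrix.mulVec_diagonal, Sum.elim_inl,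
        Sum.elim_inr, lt_irrefl, if_false, one_mul]
      congr 1
      exact Finset.sum_congr rfl fun j _ => by by_cases h : (j : ℕ) < i <;> simp [h]
  rw [H12.exists_omega_iff _ (H11.coe_qMinus (m - 1) a b) g _ hg, H12.neg_hyp_mem_commutator_iff hC h2
    (fun j : Fin i => Pi.single (.inl (.inl (j.castLE him'))) 1)
    (fun j : Fin i => Pi.single (.inl (.inr (j.castLE him'))) 1), Fintype.card_fin,
    H12.isSquare_neg_one_pow_iff hq]
  all_goals simp only [← hg, H11.coe_qMinus, H11.polar_quadFormMinus, Cfsg.quadFormMinus]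
  · simp
  · simp
  · simp
  · simp
  · intro a b; simp [Pi.single_apply, eq_comm]
  · intro a; simp [Pi.single_neg]
  · intro a; simp [Pi.single_neg]
  · intro x h3 h4
    ext ((j | j) | j) <;> rw [Matrix.mulVec_diagonal] <;> split_ifs with h
    · have : x (.inl (.inl j)) = 0 := by simpa [Pi.single_apply, Fin.castLE] using h4 ⟨j, h⟩
      simp [this]
    · simp
    · have : x (.inl (.inr j)) = 0 := by simpa [Pi.single_apply, Fin.castLE] using h3 ⟨j, h⟩
      simp [this]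
    · simp
    · simp at h
    · simp

end Cfsg.Agent.S2615
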