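import Cfsg.Statements.S2616
import Cfsg.Agent.H12.OmegaExt
-- import your own Cfsg.Agent.* helpers here

set_option autoImplicit false
set_option maxHeartbeats 400000
open Cfsg

namespace Cfsg.Agent.S2616

/-- Standard bases of a non-degenerate quadratic space of even dimension 2m over a finite field: either there is a hyperbolic basis e_i, f_i (Q(e_i) = Q(f_i) = 0, B(e_i, f_j) = δ_ij, the e's pairwise orthogonal and the f's pairwise orthogonal, B the polar form), or there is an elliptic basis: hyperbolic pairs e_i, f_i for i < m − 1 together with x, y orthogonal to them with Q(x) = 1, B(x, y) = 1, Q(y) = ζ where t² + t + ζ has no root in the field. -/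
theorem result {F V : Type*} [Field F] [Finite F] [AddCommGroup V] [Module F V] [FiniteDimensional F V] {m : ℕ} (hm : 1 ≤ m) (hV : Module.finrank F V = 2 * m) (Q : QuadraticForm F V) (hQ : (QuadraticMap.polarBilin Q).Nondegenerate) : (∃ b : Module.Basis (Fin m ⊕ Fin m) F V, (∀ i, Q (b (Sum.inl i)) = 0 ∧ Q (b (Sum.inr i)) = 0) ∧ (∀ i j, QuadraticMap.polar ⇑Q (b (Sum.inl i)) (b (Sum.inr j)) = if i = j then 1 else 0) ∧ (∀ i j, QuadraticMap.polar ⇑Q (b (Sum.inl i)) (b (Sum.inl j)) = 0 ∧ QuadraticMap.polar ⇑Q (b (Sum.inr i)) (b (Sum.inr j)) = 0)) ∨ (∃ (b : Module.Basis ((Fin (m - 1) ⊕ Fin (m - 1)) ⊕ Fin 2) F V) (ζ : F), (∀ t : F, t ^ 2 + t + ζ ≠ 0) ∧ (∀ i, Q (b (Sum.inl (Sum.inl i))) = 0 ∧ Q (b (Sum.inl (Sum.inr i))) = 0) ∧ (∀ i j, QuadraticMap.polar ⇑Q (b (Sum.inl (Sum.inl i))) (b (Sum.inl (Sum.inr j))) = if i = j then 1 else 0) ∧ (∀ i j, QuadraticMap.polar ⇑Q (b (Sum.inl (Sum.inl i))) (b (Sum.inl (Sum.inl j))) = 0 ∧ QuadraticMap.polar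 ⇑Q (b (Sum.inl (Sum.inr i))) (b (Sum.inl (Sum.inr j))) = 0) ∧ (∀ i (k : Fin 2), QuadraticMap.polar ⇑Q (b (Sum.inl (Sum.inl i))) (b (Sum.inr k)) = 0 ∧ QuadraticMap.polar ⇑Q (b (Sum.inl (Sum.inr i))) (b (Sum.inr k)) = 0) ∧ Q (b (Sum.inr 0)) = 1 ∧ QuadraticMap.polar ⇑Q (b (Sum.inr 0)) (b (Sum.inr 1)) = 1 ∧ Q (b (Sum.inr 1)) = ζ) := by
  have hC := H12.CForm.ofQuad_nondeg hQ
  by_cases h : (H12.CForm.ofQuad Q).HasTS m
  · obtain ⟨e, he⟩ := H12.quad_iso_qPlus hC hV h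
    have h1 : ∀ x, Q (e.symm x) = Cfsg.quadFormPlus m F x := fun x => by
      rw [← H11.coe_qPlus]; exact he.symm.2 x
    have h2 : ∀ x y, QuadraticMap.polar Q (e.symm x) (e.symm y) =
        QuadraticMap.polar (Cfsg.quadFormPlus m F) x y := fun x y => by
      rw [← H11.coe_qPlus]; exact he.symm.1 x y
    refine Or.inl ⟨(Pi.basisFun F _).map e.symm, ?_⟩
    simp only [Module.Basis.map_apply, h1, h2, H11.polar_quadFormPlus, Cfsg.quadFormPlus,
      Pi.basisFun_apply]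
    simp [Pi.single_apply, eq_comm]
  · obtain ⟨ζ, hζ⟩ : ∃ ζ : F, ∀ t : F, t ^ 2 + t + ζ ≠ 0 := by
      by_contra hc
      push Not at hc
      have : Function.Surjective fun t : F => t ^ 2 + t := fun y => by
        obtain ⟨t, ht⟩ := hc (-y)
        exact ⟨t, by linear_combination ht⟩
      have := Finite.injective_iff_surjective.2 this (a₁ := 0) (a₂ := -1) (by simp)
      simp at this
    obtain ⟨k, rfl⟩ : ∃ k, m = k + 1 := ⟨m - 1, by omega⟩
    obtain ⟨e, he⟩ := H12.quad_iso_qMinus hC hV h (a := 1) (b := ζ) fun z₁ z₂ hz => by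
      by_cases h2 : z₂ = 0
      · simpa [h2] using hz
      · exact (hζ (z₁ / z₂) (by field_simp; linear_combination hz)).elim
    have h1 : ∀ x, Q (e.symm x) = Cfsg.quadFormMinus k F 1 ζ x := fun x => by
      rw [← H11.coe_qMinus]; exact he.symm.2 x
    have h2 : ∀ x y, QuadraticMap.polar Q (e.symm x) (e.symm y) =
        QuadraticMap.polar (Cfsg.quadFormMinus k F 1 ζ) x y := fun x y => by
      rw [← H11.coe_qMinus]; exact he.symm.1 x y
    refine Or.inr ⟨(Pi.basisFun F ((Fin k ⊕ Fin k) ⊕ Fin 2)).map e.symm, ζ, hζ, ?_⟩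
    simp only [Module.Basis.map_apply, h1, h2, H11.polar_quadFormMinus, Cfsg.quadFormMinus,
      Pi.basisFun_apply]
    simp [Pi.single_apply, eq_comm]

end Cfsg.Agent.S2616
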