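import Cfsg.Statements.S2617
import Cfsg.Agent.H12.OmegaExt
-- import your own Cfsg.Agent.* helpers here

set_option autoImplicit false
set_option maxHeartbeats 400000
open Cfsg

namespace Cfsg.Agent.S2617

/-- The two standard quadratic forms of even dimension 2m over a finite field are not isometric: there is no linear isomorphism carrying the elliptic form Σ_(i<m−1) x_i y_i + z₁² + z₁z₂ + ζ z₂² (t² + t + ζ without roots) to the hyperbolic form Σ_(i<m) x_i y_i (they have different Witt index). -/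
theorem result {F : Type*} [Field F] [Finite F] {m : ℕ} (hm : 1 ≤ m) (ζ : F) (hζ : ∀ t : F, t ^ 2 + t + ζ ≠ 0) (g : (Fin m ⊕ Fin m → F) ≃ₗ[F] ((Fin (m - 1) ⊕ Fin (m - 1)) ⊕ Fin 2 → F)) : ¬ (∀ v : Fin m ⊕ Fin m → F, Cfsg.quadFormMinus (m - 1) F 1 ζ (g v) = Cfsg.quadFormPlus m F v) := by
  intro h
  obtain ⟨k, rfl⟩ : ∃ k, m = k + 1 := ⟨m - 1, by omega⟩
  have hab : ∀ z₁ z₂ : F, z₁ ^ 2 + 1 * z₁ * z₂ + ζ * z₂ ^ 2 = 0 → z₁ = 0 ∧ z₂ = 0 :=
    fun z₁ z₂ hz => by
      by_cases h2 : z₂ = 0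
      · simpa [h2] using hz
      · exact (hζ (z₁ / z₂) (by field_simp; linear_combination hz)).elim
  refine H12.qMinus_not_hasTS k (H11.disc_ne_zero_of_aniso hab) hab
    ((H12.quad_iso_iff.2 ⟨g, fun x => ?_⟩).hasTS (H12.qPlus_hasTS (k + 1)))
  simp only [H12.CForm.ofQuad_N, H11.coe_qPlus, H11.coe_qMinus]
  exact h x

end Cfsg.Agent.S2617
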