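import Cfsg.Statements.S2618
import Cfsg.Agent.H12.OmegaExt
-- import your own Cfsg.Agent.* helpers here

set_option autoImplicit false
set_option maxHeartbeats 400000
open Cfsg

namespace Cfsg.Agent.S2618

/-- Standard (parabolic) basis of a non-degenerate quadratic space of odd dimension 2m + 1 over a finite field (the non-degeneracy of the polar form forces the characteristic to be odd): there is a basis e_i, f_i (i < m), x with Q(e_i) = Q(f_i) = 0, B(e_i, f_j) = δ_ij (B the polar form), the e's pairwise orthogonal and the f's pairwise orthogonal, x orthogonal to all of them and Q(x) ≠ 0. -/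
theorem result {F V : Type*} [Field F] [Finite F] [AddCommGroup V] [Module F V] [FiniteDimensional F V] {m : ℕ} (hV : Module.finrank F V = 2 * m + 1) (Q : QuadraticForm F V) (hQ : (QuadraticMap.polarBilin Q).Nondegenerate) : ∃ b : Module.Basis (Unit ⊕ (Fin m ⊕ Fin m)) F V, Q (b (Sum.inl ())) ≠ 0 ∧ (∀ i, QuadraticMap.polar ⇑Q (b (Sum.inl ())) (b (Sum.inr (Sum.inl i))) = 0 ∧ QuadraticMap.polar ⇑Q (b (Sum.inl ())) (b (Sum.inr (Sum.inr i))) = 0) ∧ (∀ i, Q (b (Sum.inr (Sum.inl i))) = 0 ∧ Q (b (Sum.inr (Sum.inr i))) = 0) ∧ (∀ i j, QuadraticMap.polar ⇑Q (b (Sum.inr (Sum.inl i))) (b (Sum.inr (Sum.inr j))) = if i = j then 1 else 0) ∧ (∀ i j, QuadraticMap.polar ⇑Q (b (Sum.inr (Sum.inl i))) (b (Sum.inr (Sum.inl j))) = 0 ∧ QuadraticMap.polar ⇑Q (b (Sum.inr (Sum.inr i))) (b (Sum.inr (Sum.inr j))) = 0) := by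
  have hC := H12.CForm.ofQuad_nondeg hQ
  have h2 : (2 : F) ≠ 0 := fun h2 => by
    have hA : LinearMap.IsAlt (QuadraticMap.polarBilin Q) := fun x => by
      simp [H12.polar_self', h2]
    have := H12.alt_even (H12.CForm.ofAlt_nondeg hA hQ)
    rw [hV] at this
    omega
  obtain ⟨c, hc, e, he⟩ := H12.quad_iso_qOdd h2 hC hV
  have h1 : ∀ x, Q (e.symm x) = c * Cfsg.quadFormOdd m F x := fun x => by
    rw [← H11.coe_qOdd]; exact he.symm.2 x
  have h3 : ∀ x y, QuadraticMap.polar Q (e.symm x) (e.symm y) =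
      c * QuadraticMap.polar (Cfsg.quadFormOdd m F) x y := fun x y => by
    simp only [QuadraticMap.polar, ← map_add, h1, mul_sub]
  refine ⟨((Pi.basisFun F _).unitsSMul (Sum.elim (fun _ => 1) (Sum.elim (fun _ => 1)
    fun _ => (Units.mk0 c hc)⁻¹))).map e.symm, ?_⟩
  simp only [Module.Basis.map_apply, h1, h3, H11.polar_quadFormOdd, Cfsg.quadFormOdd,
    Module.Basis.unitsSMul_apply, Pi.basisFun_apply]
  simp [Pi.single_apply, eq_comm, Units.smul_def, hc]

end Cfsg.Agent.S2618
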