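import Cfsg.Statements.S2619
import Cfsg.Agent.H12.OmegaExt
-- import your own Cfsg.Agent.* helpers here

set_option autoImplicit false
set_option maxHeartbeats 400000
open Cfsg

namespace Cfsg.Agent.S2619

/-- Over a finite field of characteristic two, given an alternating bilinear form B on a finite-dimensional space, a basis (v_i) and scalars (λ_i), there is exactly one quadratic form whose polar form is B and whose value at each v_i is λ_i. -/
theorem result {F V ι : Type*} [Field F] [Finite F] [CharP F 2] [AddCommGroup V] [Module F V] [Fintype ι] (b : Module.Basis ι F V) (B : LinearMap.BilinForm F V) (hB : B.IsAlt) (c : ι → F) : ∃! Q : QuadraticForm F V, QuadraticMap.polarBilin Q = B ∧ ∀ i, Q (b i) = c i := by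
  classical
  letI : LinearOrder ι := linearOrderOfSTO WellOrderingRel
  have h2 : (2 : F) = 0 := CharTwo.two_eq_zero
  let B' : LinearMap.BilinForm F V := Matrix.toBilin b (Matrix.of fun i j =>
    if i < j then B (b i) (b j) else if i = j then c i else 0)
  have hB' : ∀ i j, B' (b i) (b j) = if i < j then B (b i) (b j) else if i = j then c i else 0 :=
    fun i j => by
      rw [← LinearMap.BilinForm.toMatrix_apply b, LinearMap.BilinForm.toMatrix_toBilin]; rfl
  refine existsUnique_of_exists_of_unique ⟨B'.toQuadraticMap, ?_, fun i => by simp [hB']⟩ ?_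
  · refine LinearMap.BilinForm.ext_basis b fun i j => ?_
    rw [QuadraticMap.polarBilin_apply_apply, LinearMap.BilinMap.polar_toQuadraticMap, hB', hB']
    rcases lt_trichotomy i j with h | rfl | h
    · simp [h, h.not_gt, h.ne']
    · simp [hB (b i), CharTwo.add_self_eq_zero]
    · simp only [h, h.not_gt, h.ne', if_true, if_false, zero_add]
      rw [← hB.neg_eq, CharTwo.neg_eq]
  · rintro Q Q' ⟨h1, h3⟩ ⟨h4, h5⟩
    ext x
    exact (H12.CForm.isIsomTo_of_basis (C := H12.CForm.ofQuad Q') (C' := H12.CForm.ofQuad Q) b
      LinearMap.id (fun i j => congrArg (fun B : LinearMap.BilinForm F V => B (b i) (b j))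
        (h1.trans h4.symm)) fun i => (h3 i).trans (h5 i).symm).2 x

end Cfsg.Agent.S2619
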