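import Cfsg.Statements.S2621
import Cfsg.Agent.H12.OmegaExt
-- import your own Cfsg.Agent.* helpers here

set_option autoImplicit false
set_option maxHeartbeats 400000
open Cfsg

namespace Cfsg.Agent.S2621

/-- Discriminant of an elliptic quadratic form Σ_(i<m−1) x_i y_i + z₁² + a z₁z₂ + c z₂² (binary part anisotropic) in dimension 2m over a field with q elements, q odd, m ≥ 1: the determinant of the Gram matrix of its polar form in any basis is a square if and only if m(q − 1)/2 is odd (equivalently q^m ≡ 3 (mod 4)). -/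
theorem result {F : Type*} [Field F] [Fintype F] {q : ℕ} (hF : Fintype.card F = q) (hq : Odd q) {m : ℕ} (hm : 1 ≤ m) (a c : F) (hac : ∀ z₁ z₂ : F, z₁ ^ 2 + a * z₁ * z₂ + c * z₂ ^ 2 = 0 → z₁ = 0 ∧ z₂ = 0) {ι : Type*} [Fintype ι] [DecidableEq ι] (b : Module.Basis ι F ((Fin (m - 1) ⊕ Fin (m - 1)) ⊕ Fin 2 → F)) : IsSquare (Matrix.of (fun i j : ι => QuadraticMap.polar (Cfsg.quadFormMinus (m - 1) F a c) (b i) (b j))).det ↔ ¬ Even (m * (q - 1) / 2) := by
  subst hF
  obtain ⟨k, rfl⟩ : ∃ k, m = k + 1 := ⟨m - 1, by omega⟩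
  have h2 := H12.odd_card_iff.1 hq
  have hd := H11.disc_ne_zero_of_aniso hac
  have hC := H11.qMinus_nondeg k hd
  have h1 := mt (H12.quad_hasTS_iff_disc h2 hC (m := k + 1) (by simp; ring) b).2
    (H12.qMinus_not_hasTS k hd hac)
  rw [H12.isSquare_mul_iff (by simp) ((H12.CForm.nondeg_iff_det_gram b).1 hC)] at h1
  rw [← H12.isSquare_neg_one_pow_iff' hq, ← H12.qsign_eq_one, ← H12.qsign_eq_one,
    ← H11.coe_qMinus]
  change H12.qsign ((H12.CForm.ofQuad (H11.qMinus k F a c)).gram b).det = 1 ↔ _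
  revert h1
  generalize H12.qsign ((H12.CForm.ofQuad (H11.qMinus k F a c)).gram b).det = x
  generalize H12.qsign ((-1 : F) ^ (k + 1)) = y
  revert x y
  decide

end Cfsg.Agent.S2621
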