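import Cfsg.Statements.S2622
import Cfsg.Agent.H12.MaxTS
import Cfsg.Agent.H12.GeoBridge
-- import your own Cfsg.Agent.* helpers here

set_option autoImplicit false
set_option maxHeartbeats 400000
open Cfsg

namespace Cfsg.Agent.S2622

open Module in
theorem aux {F : Type*} [Field F] [Finite F] [CharP F 2] (n : ℕ) : ∀ {V : Type*} [AddCommGroup V]
    [Module F V] [FiniteDimensional F V] (_ : finrank F V = n) (B : LinearMap.BilinForm F V)
    (_ : B.IsSymm) (_ : B.Nondegenerate) (_ : n = 0 ∨ ∃ v : V, B v v ≠ 0),
    ∃ b : Basis (Fin n) F V, ∀ i j, B (b i) (b j) = if i = j then 1 else 0 := by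
  induction n with
  | zero => intro V _ _ _ hV B _ _ _; exact ⟨finBasisOfFinrankEq F V hV, fun i => i.elim0⟩
  | succ n ih =>
    intro V _ _ _ hV B hS hB hna
    have h2 : (2 : F) = 0 := CharTwo.two_eq_zero
    obtain ⟨v, hv, h⟩ : ∃ v, B v v = 1 ∧ (n = 0 ∨ ∃ w, B v w = 0 ∧ B w w ≠ 0) := by
      obtain ⟨v, hv⟩ := hna.resolve_left (by omega)
      obtain ⟨c, hc⟩ := H12.isSquare_of_two_eq_zero h2 (B v v)⁻¹
      have h1 : B (c • v) (c • v) = 1 := by
        simp only [map_smul, LinearMap.smul_apply, smul_eq_mul]
        rw [← mul_assoc, ← hc, inv_mul_cancel₀ hv]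
      generalize c • v = u at h1
      by_contra hc
      push Not at hc
      obtain ⟨hn, h3⟩ := hc u h1
      have h4 := (B u).finrank_range_add_finrank_ker
      have h5 := (LinearMap.range (B u)).finrank_le
      rw [finrank_self] at h5
      obtain ⟨z, hz, hz0⟩ := Submodule.exists_mem_ne_zero_of_ne_bot
        (H12.ne_bot_of_finrank_pos (W := LinearMap.ker (B u)) (by omega))
      have hz : B u z = 0 := hz
      obtain ⟨y, hy⟩ : ∃ y, B z y = 1 := by
        by_contra h6
        push Not at h6
        refine hz0 (hB.1 z fun y => by_contra fun h7 => h6 ((B z y)⁻¹ • y) ?_)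
        rw [map_smul, smul_eq_mul, inv_mul_cancel₀ h7]
      have hzu : B z u = 0 := (hS.eq _ _).trans hz
      have hy1 : B u (y - B u y • u) = 0 := by simp [h1]
      have hy2 : B z (y - B u y • u) = 1 := by simp [hy, hzu]
      generalize y - B u y • u = y at hy1 hy2
      have hyu : B y u = 0 := (hS.eq _ _).trans hy1
      have := (hc (u + z) (by simp [h1, hz, hzu, h3 z hz])).2 (u + y) (by
        simp [h1, hy1, hzu, hy2, CharTwo.add_self_eq_zero])
      simp [h1, hy1, hyu, h3 y hy1] at this
    let W := LinearMap.ker (B v)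
    have hdec : ∀ x, x - B v x • v ∈ W := fun x => by simp [W, hv]
    have hW : finrank F W = n := by
      have h4 := (B v).finrank_range_add_finrank_ker
      rw [LinearMap.range_eq_top.2 fun c => ⟨c • v, by simp [hv]⟩] at h4
      simp only [finrank_top, finrank_self] at h4
      simp only [W]
      omega
    have hS' : (B.restrict W).IsSymm := ⟨fun x y => hS.eq _ _⟩
    have hB' : (B.restrict W).Nondegenerate := by
      have : (B.restrict W).SeparatingLeft := fun x hx => Subtype.ext (hB.1 x.1 fun y => by
        have h1 : B x (y - B v y • v) = 0 := hx ⟨_, hdec y⟩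
        have h3 : B x v = 0 := (hS.eq _ _).trans x.2
        simpa [h3] using h1)
      exact ⟨this, fun x hx => this x fun y => (hS'.eq _ _).trans (hx y)⟩
    obtain ⟨b, hb⟩ := ih hW (B.restrict W) hS' hB'
      (h.imp_right fun ⟨w, h1, h2⟩ => ⟨⟨w, h1⟩, h2⟩)
    refine ⟨Basis.mkFinCons v b (fun c x hx h => ?_) fun z => ⟨-B v z, ?_⟩, fun i j => ?_⟩
    · simpa [hv, show B v x = 0 from hx] using congrArg (B v) h
    · simpa [sub_eq_add_neg] using hdec z
    · rw [Basis.coe_mkFinCons]
      refine Fin.cases ?_ (fun i => ?_) i <;> refine Fin.cases ?_ (fun j => ?_) j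
      · simpa using hv
      · simpa [(Fin.succ_ne_zero j).symm] using (b j).2
      · simpa using (hS.eq _ _).trans (b i).2
      · simpa using hb i j

/-- Over a finite field of characteristic two, a non-degenerate symmetric bilinear form that is not alternating (some vector v has B(v, v) ≠ 0) admits an orthonormal basis. -/
theorem result {F V : Type*} [Field F] [Finite F] [CharP F 2] [AddCommGroup V] [Module F V] [FiniteDimensional F V] {n : ℕ} (hV : Module.finrank F V = n) (B : LinearMap.BilinForm F V) (hS : B.IsSymm) (hB : B.Nondegenerate) (hna : ∃ v : V, B v v ≠ 0) : ∃ b : Module.Basis (Fin n) F V, ∀ i j, B (b i) (b j) = if i = j then 1 else 0 := by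
  exact aux n hV B hS hB (Or.inr hna)

end Cfsg.Agent.S2622
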