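import Cfsg.Statements.S2623
import Cfsg.Agent.H12.OmegaExt
-- import your own Cfsg.Agent.* helpers here

set_option autoImplicit false
set_option maxHeartbeats 400000
open Cfsg

namespace Cfsg.Agent.S2623

/-- Over a finite field of odd order, two quadratic forms on F^n with non-degenerate polar forms are isometric (related by an invertible linear change of variables) if and only if their discriminants (determinants of the Gram matrices of their polar forms) lie in the same square class. -/
theorem result {F : Type*} [Field F] [Fintype F] (h2 : (2 : F) ≠ 0) {n : ℕ} (Q₁ Q₂ : QuadraticForm F (Fin n → F)) (h₁ : (QuadraticMap.polarBilin Q₁).Nondegenerate) (h₂ : (QuadraticMap.polarBilin Q₂).Nondegenerate) : (∃ g : (Fin n → F) ≃ₗ[F] (Fin n → F), ∀ v, Q₂ (g v) = Q₁ v) ↔ IsSquare ((Matrix.of (fun i j : Fin n => QuadraticMap.polar ⇑Q₁ (Pi.single i 1) (Pi.single j 1))).det * (Matrix.of (fun i j : Fin n => QuadraticMap.polar ⇑Q₂ (Pi.single i 1) (Pi.single j 1))).det) := by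
  have hC₁ := H12.CForm.ofQuad_nondeg h₁
  have hC₂ := H12.CForm.ofQuad_nondeg h₂
  have h5 : ∀ Q : QuadraticForm F (Fin n → F), Matrix.of (fun i j : Fin n =>
      QuadraticMap.polar ⇑Q (Pi.single i 1) (Pi.single j 1)) =
      (H12.CForm.ofQuad Q).gram (Pi.basisFun F _) := fun Q => by
    ext i j; simp [H12.CForm.gram_apply]
  rw [h5, h5, H12.isSquare_mul_iff ((H12.CForm.nondeg_iff_det_gram _).1 hC₁)
    ((H12.CForm.nondeg_iff_det_gram _).1 hC₂)]
  exact ⟨fun h => (H12.quad_iso_iff.2 h).qsign_det_gram hC₁ _ _,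
    fun h => H12.quad_iso_iff.1 (H12.quad_iso_of_disc h2 hC₁ hC₂ rfl _ _ h)⟩

end Cfsg.Agent.S2623
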