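import Cfsg.Statements.S2625
import Cfsg.Agent.H12.OmegaExt
-- import your own Cfsg.Agent.* helpers here

set_option autoImplicit false
set_option maxHeartbeats 400000
open Cfsg

namespace Cfsg.Agent.S2625

/-- For a quadratic form Q on F^n with non-degenerate polar form, F finite and n odd (so |F| is odd), the multiplier of any similarity is a square: if g is an invertible linear map with Q(g v) = c·Q(v) for all v then c is a square. -/
theorem result {F : Type*} [Field F] [Fintype F] {n : ℕ} (hn : Odd n) (Q : QuadraticForm F (Fin n → F)) (hQ : (QuadraticMap.polarBilin Q).Nondegenerate) (g : (Fin n → F) ≃ₗ[F] (Fin n → F)) (c : F) (hg : ∀ v, Q (g v) = c * Q v) : IsSquare c := by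
  have hC := H12.CForm.ofQuad_nondeg hQ
  by_cases hc : c = 0
  · simp [hc]
  have h1 := (H12.quad_iso_iff (C := H12.CForm.ofQuad (c • Q)) (C' := H12.CForm.ofQuad Q).2
    ⟨g, hg⟩).qsign_det_gram (H12.qNondeg_smul hC hc) (Pi.basisFun F _) (Pi.basisFun F _)
  rw [H12.gram_smul, Matrix.det_smul, H12.qsign_mul (pow_ne_zero _ hc)
    ((H12.CForm.nondeg_iff_det_gram _).1 hC), mul_eq_right, H12.qsign_pow hc, Fintype.card_fin] at h1
  rw [← H12.qsign_eq_one]
  rcases Int.units_eq_one_or (H12.qsign c) with h | h
  · exact h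
  · rw [h, hn.neg_one_pow] at h1
    exact absurd h1 (by decide)

end Cfsg.Agent.S2625
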