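import Cfsg.Statements.S2627
import Cfsg.Agent.H12.OmegaSum
-- import your own Cfsg.Agent.* helpers here

set_option autoImplicit false
set_option maxHeartbeats 400000
open Cfsg

namespace Cfsg.Agent.S2627

/-- For an orthogonal direct sum Q = Q₁ ⊕ Q₂ of quadratic forms with non-degenerate polar forms over a finite field, an isometry g₁ of Q₁ extended by the identity on the second summand lies in Ω(Q) (the commutator subgroup of the orthogonal group of Q) if and only if g₁ lies in Ω(Q₁). (Excluded: the field of two elements when the first summand or the whole space has dimension 4, where the commutator subgroup of O⁺₄(2) is smaller than the group usually called Ω.) -/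
theorem result {F : Type*} [Field F] [Fintype F] {k l : ℕ} (h : Fintype.card F ≠ 2 ∨ (k ≠ 4 ∧ k + l ≠ 4)) (Q₁ : QuadraticForm F (Fin k → F)) (Q₂ : QuadraticForm F (Fin l → F)) (h₁ : (QuadraticMap.polarBilin Q₁).Nondegenerate) (h₂ : (QuadraticMap.polarBilin Q₂).Nondegenerate) (g₁ : ↥(Cfsg.isometryGroup F ⇑Q₁)) : (∃ g : ↥(Cfsg.isometryGroup F (fun v : Fin k ⊕ Fin l → F => Q₁ (v ∘ Sum.inl) + Q₂ (v ∘ Sum.inr))), g ∈ Cfsg.Omega F (fun v : Fin k ⊕ Fin l → F => Q₁ (v ∘ Sum.inl) + Q₂ (v ∘ Sum.inr)) ∧ ((g : Matrix.GeneralLinearGroup (Fin k ⊕ Fin l) F) : Matrix (Fin k ⊕ Fin l) (Fin k ⊕ Fin l) F) = Matrix.fromBlocks ((g₁ : Matrix.GeneralLinearGroup (Fin k) F) : Matrix (Fin k) (Fin k) F) 0 0 1) ↔ g₁ ∈ Cfsg.Omega F ⇑Q₁ := by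
  have hC₁ := H12.CForm.ofQuad_nondeg h₁
  have hC₂ := H12.CForm.ofQuad_nondeg h₂
  refine (H12.exists_omega_iff (H12.qsum Q₁ Q₂) rfl _ _ (H12.fromBlocks_mulVec_sumHom
    (H12.orthEquiv Q₁ g₁, 1) (fun _ => rfl) fun x => Matrix.one_mulVec x)).trans ?_
  rw [H12.omega_mem_iff]
  exact H12.mem_commutator_iff_of_hom hC₁ (H12.notExc_of_card (n := k) (by simp) (by omega))
    (H12.qsum_nondeg hC₁ hC₂) (H12.notExc_of_card (n := k + l) (by simp) (by omega))
    ((H12.sumHom Q₁ Q₂).comp (MonoidHom.inl _ _)) (fun v => Sum.elim v 0)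
    (fun v => by simp [H12.qsum_apply]) (fun v _ => H12.sumHom_refl_left v) _

end Cfsg.Agent.S2627
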