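import Cfsg.Statements.S2628
import Cfsg.Agent.H12.OmegaSum
-- import your own Cfsg.Agent.* helpers here

set_option autoImplicit false
set_option maxHeartbeats 400000
open Cfsg

namespace Cfsg.Agent.S2628

/-- For the orthogonal direct sum Q ⊕ Q of two copies of a quadratic form Q with non-degenerate polar form on F^k (F finite), every isometry g of Q acting diagonally, diag(g, g), lies in Ω(Q ⊕ Q), the commutator subgroup of the orthogonal group of Q ⊕ Q. (Excluded: k = 2 over the field of two elements, where Q ⊕ Q is the hyperbolic 4-space whose orthogonal group's commutator subgroup is smaller than the group usually called Ω.) -/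
theorem result {F : Type*} [Field F] [Fintype F] {k : ℕ} (h : Fintype.card F ≠ 2 ∨ k ≠ 2) (Q : QuadraticForm F (Fin k → F)) (hQ : (QuadraticMap.polarBilin Q).Nondegenerate) (g : ↥(Cfsg.isometryGroup F ⇑Q)) : ∃ x : ↥(Cfsg.isometryGroup F (fun v : Fin k ⊕ Fin k → F => Q (v ∘ Sum.inl) + Q (v ∘ Sum.inr))), x ∈ Cfsg.Omega F (fun v : Fin k ⊕ Fin k → F => Q (v ∘ Sum.inl) + Q (v ∘ Sum.inr)) ∧ ((x : Matrix.GeneralLinearGroup (Fin k ⊕ Fin k) F) : Matrix (Fin k ⊕ Fin k) (Fin k ⊕ Fin k) F) = Matrix.fromBlocks ((g : Matrix.GeneralLinearGroup (Fin k) F) : Matrix (Fin k) (Fin k) F) 0 0 ((g : Matrix.GeneralLinearGroup (Fin k) F) : Matrix (Fin k) (Fin k) F) := by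
  have hC := H12.CForm.ofQuad_nondeg hQ
  refine (H12.exists_omega_iff (H12.qsum Q Q) rfl _ _ (H12.fromBlocks_mulVec_sumHom
    (H12.orthEquiv Q g, H12.orthEquiv Q g) (fun _ => rfl) fun _ => rfl)).2 ?_
  generalize H12.orthEquiv Q g = x
  let s : H12.orth (H12.qsum Q Q) := ⟨LinearEquiv.funCongrLeft F F (Equiv.sumComm _ _),
    H12.mem_orth.2 fun x => by rw [H12.qsum_apply, H12.qsum_apply, add_comm]; rfl⟩
  have h1 : H12.sumHom Q Q (x, x) * s = H12.sumHom Q Q (x, 1) * s * H12.sumHom Q Q (x, 1) :=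
    H12.orth_ext fun y => by ext (i | i) <;> rfl
  have h2 : ∀ θ : H12.orth (H12.qsum Q Q) →* ℤˣ, θ (H12.sumHom Q Q (x, x)) = 1 := fun θ => by
    have := congrArg θ h1
    rw [map_mul, map_mul, map_mul, mul_right_comm, Int.units_mul_self] at this
    exact mul_right_cancel this
  exact (H12.mem_commutator_iff (H12.qsum_nondeg hC hC)
    (H12.notExc_of_card (n := k + k) (by simp) (by omega)) _).2 ⟨h2 _, h2 _⟩

end Cfsg.Agent.S2628
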