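import Cfsg.Statements.S2632
import Cfsg.Agent.H12.OmegaExt
-- import your own Cfsg.Agent.* helpers here

set_option autoImplicit false
set_option maxHeartbeats 400000
open Cfsg

namespace Cfsg.Agent.S2632

/-- Ω is transitive on non-degenerate subspaces of each isometry type: for a quadratic form Q on F^n, n ≥ 3, with non-degenerate polar form (F finite; excluding dimension 4 over the field of two elements), if U and W are subspaces on which the polar form is non-degenerate and there is a Q-preserving linear isomorphism U → W, then some element of Ω (the commutator subgroup of the orthogonal group) carries U to W. (In dimension 2 this fails: Ω can be {±1}, which fixes every line.) -/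
theorem result {F : Type*} [Field F] [Fintype F] {n : ℕ} (hn : 3 ≤ n) (h : Fintype.card F ≠ 2 ∨ n ≠ 4) (Q : QuadraticForm F (Fin n → F)) (hQ : (QuadraticMap.polarBilin Q).Nondegenerate) (U W : Submodule F (Fin n → F)) (hU : U ⊓ LinearMap.BilinForm.orthogonal (QuadraticMap.polarBilin Q) U = ⊥) (hW : W ⊓ LinearMap.BilinForm.orthogonal (QuadraticMap.polarBilin Q) W = ⊥) (e : U ≃ₗ[F] W) (he : ∀ u : U, Q (e u : Fin n → F) = Q (u : Fin n → F)) : ∃ g : ↥(Cfsg.isometryGroup F ⇑Q), g ∈ Cfsg.Omega F ⇑Q ∧ U.map (Matrix.mulVecLin ((g : Matrix.GeneralLinearGroup (Fin n) F) : Matrix (Fin n) (Fin n) F)) = W := by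
  have hC := H12.CForm.ofQuad_nondeg hQ
  have hne : H12.NotExc F (Fin n → F) := H12.notExc_of_card (by simp) h
  have hU' : (H12.CForm.ofQuad Q).NondegOn U := (H12.CForm.nondegOn_iff _).2 (disjoint_iff.2 hU)
  have h1 := H12.quad_isIsomTo (C := (H12.CForm.ofQuad Q).restrict U) (C' := H12.CForm.ofQuad Q)
    (W.subtype.comp e.toLinearMap) he
  obtain ⟨g, hg, hg'⟩ := hC.witt U (W.subtype.comp e.toLinearMap)
    (W.injective_subtype.comp e.injective) h1.1 h1.2
  refine H12.exists_omega_map Q rfl (H12.exists_map_eq_of_stab (g := ⟨g, hg⟩) ?_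
    (H12.exists_mem_commutator_stab_nondeg hC hne (by simpa using hn) hU' _))
  apply Submodule.eq_of_le_of_finrank_eq
  · rintro _ ⟨x, hx, rfl⟩
    have := hg' ⟨x, hx⟩
    change g x ∈ W
    rw [this]
    exact (e ⟨x, hx⟩).2
  · rw [LinearEquiv.finrank_map_eq, e.finrank_eq]

end Cfsg.Agent.S2632
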