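import Cfsg.Statements.S2634
import Cfsg.Agent.H12.OmegaExt
-- import your own Cfsg.Agent.* helpers here

set_option autoImplicit false
set_option maxHeartbeats 400000
open Cfsg

namespace Cfsg.Agent.S2634

/-- Over a finite field of characteristic two, Ω (the commutator subgroup of the orthogonal group of a quadratic form Q on F^n with non-degenerate polar form; excluding dimension 4 over the field of two elements) acts transitively on the non-singular 1-spaces: for u, v with Q(u) ≠ 0 and Q(v) ≠ 0 some element of Ω carries the line through u to the line through v. -/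
theorem result {F : Type*} [Field F] [Fintype F] [CharP F 2] {n : ℕ} (h : Fintype.card F ≠ 2 ∨ n ≠ 4) (Q : QuadraticForm F (Fin n → F)) (hQ : (QuadraticMap.polarBilin Q).Nondegenerate) (u v : Fin n → F) (hu : Q u ≠ 0) (hv : Q v ≠ 0) : ∃ g : ↥(Cfsg.isometryGroup F ⇑Q), g ∈ Cfsg.Omega F ⇑Q ∧ (F ∙ ((g : Matrix.GeneralLinearGroup (Fin n) F) : Matrix (Fin n) (Fin n) F).mulVec u) = F ∙ v := by
  have hC := H12.CForm.ofQuad_nondeg hQ
  have hne : H12.NotExc F (Fin n → F) := H12.notExc_of_card (by simp) h
  have h2 : (2 : F) = 0 := CharTwo.two_eq_zero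
  obtain ⟨c, hc⟩ := H12.isSquare_of_two_eq_zero h2 (Q u / Q v)
  have hc0 : c ≠ 0 := by rintro rfl; simp [hu, hv] at hc
  obtain ⟨g, hg, e⟩ := hC.witt_one (u := u) (v := c • v) (by rintro rfl; simp at hu)
    (smul_ne_zero hc0 (by rintro rfl; simp at hv)) (by
      simp only [H12.CForm.ofQuad_N, H12.Q_smul, ← hc, div_mul_cancel₀ _ hv])
  obtain ⟨k, hk, e'⟩ := H12.exists_omega_map Q rfl (H12.exists_map_eq_of_stab (g := ⟨g, hg⟩)
    (U := F ∙ u) rfl (H12.exists_mem_commutator_of hC hne _ _
      (Or.inr ⟨_, H12.map_refl_eq_of_mem (Submodule.mem_span_singleton_self u),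
        H12.dickson_refl hC hne hu⟩) fun c _ => ⟨1, Subgroup.one_mem _, map_one _, by
          rw [map_one, H12.qsign_eq_one_of_two h2]⟩))
  refine ⟨k, hk, ?_⟩
  simp only [Submodule.map_span, Set.image_singleton] at e'
  refine e'.trans ?_
  rw [LinearEquiv.coe_coe, e, Submodule.span_singleton_smul_eq (IsUnit.mk0 c hc0)]

end Cfsg.Agent.S2634
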