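import Cfsg.Statements.S2636
import Cfsg.Agent.H22.FixCos

set_option autoImplicit false
open Cfsg

namespace Cfsg.Agent.S2636

/-- Centraliser of a field automorphism in PGL_n: let F be the field with q = q₀^r elements, σ a field automorphism of F of prime order r (so its fixed field has q₀ elements) and n ≥ 1. The invertible matrices g whose entrywise image under σ is a scalar multiple of g — those whose coset modulo scalars is fixed by σ — number (q − 1)/(q₀ − 1) · |GL_n(q₀)|; equivalently the centraliser in PGL_n(q) of the induced automorphism has the order of PGL_n(q₀). -/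
theorem result {F : Type*} [Field F] [Fintype F] {q₀ r n : ℕ} (hr : r.Prime) (hn : 1 ≤ n) (hF : Fintype.card F = q₀ ^ r) (σ : F ≃+* F) (hσ : orderOf σ = r) : Nat.card {g : GL (Fin n) F // ∃ c : F, c ≠ 0 ∧ (g : Matrix (Fin n) (Fin n) F).map σ = c • (g : Matrix (Fin n) (Fin n) F)} = (q₀ ^ r - 1) / (q₀ - 1) * ∏ i : Fin n, (q₀ ^ n - q₀ ^ (i : ℕ)) := by
  have : Nonempty (Fin n) := ⟨⟨0, hn⟩⟩
  have := Fintype.ofFinite (H22.fixF σ)
  have h0 : Nat.card (H22.fixF σ) = q₀ := Nat.pow_left_injective hr.ne_zero (by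
    simpa [hσ, hF] using H22.card_fixF_pow σ)
  have h1 := H22.card_fixCos (ι := Fin n) (σ := σ) (j := (H22.fixF σ).subtype) (fun x => by simp [H22.mem_fixF])
    ⊤ ⊤ (by simp) ⊤ ⊤ (by simp) (by simp) (by simp)
  have h2 : 1 < q₀ := h0 ▸ Finite.one_lt_card
  rw [Subgroup.card_top, Subgroup.card_top, Subgroup.card_top, Nat.card_units, Nat.card_units, h0,
    Matrix.card_GL_field, ← Nat.card_eq_fintype_card, h0, Nat.card_eq_fintype_card (α := F), hF] at h1
  refine Nat.eq_of_mul_eq_mul_right (show 0 < q₀ - 1 by omega) (Eq.trans ?_ (h1.trans ?_))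
  · exact congrArg (· * _) (Nat.card_congr (Subgroup.topEquiv.symm.toEquiv.subtypeEquiv fun _ => Iff.rfl))
  · rw [mul_right_comm, Nat.div_mul_cancel (Nat.sub_one_dvd_pow_sub_one _ _), mul_comm]

end Cfsg.Agent.S2636
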