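import Cfsg.Statements.S2637
import Cfsg.Agent.H22.Emb2

set_option autoImplicit false
open Cfsg

namespace Cfsg.Agent.S2637

open Polynomial in

/-- Centraliser of a fixed-point-free element of order three in Sp_2m(q) when q ≡ 2 (mod 3): if x ∈ Sp_2m(F) (|F| = q, m ≥ 1) satisfies x³ = 1 and x − 1 is invertible, then its centraliser in Sp_2m(F) has the order of the unitary group GU_m(q), namely q^(m(m−1)/2) Π_(i=1)^m (q^i − (−1)^i) (x lies in the centre of a subgroup GU_m(q) of Sp_2m(q)). -/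
theorem result {F : Type*} [Field F] [Fintype F] {q : ℕ} (hF : Fintype.card F = q) (hq : q % 3 = 2) {m : ℕ} (hm : 1 ≤ m) (x : Matrix.symplecticGroup (Fin m) F) (hx3 : x ^ 3 = 1) (hfpf : IsUnit ((x : Matrix (Fin m ⊕ Fin m) (Fin m ⊕ Fin m) F) - 1)) : (Nat.card ↥(Subgroup.centralizer ({x} : Set ↥(Matrix.symplecticGroup (Fin m) F))) : ℤ) = (q : ℤ) ^ (m * (m - 1) / 2) * ∏ i : Fin m, ((q : ℤ) ^ ((i : ℕ) + 1) - (-1) ^ ((i : ℕ) + 1)) := by
  obtain ⟨K, _, _, hK⟩ : ∃ (K : Type _) (_ : Field K) (_ : Fintype K), Fintype.card K = q ^ 2 := by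
    obtain ⟨a, ha⟩ := H11.exists_irreducible_quadratic F
    have := Fact.mk ha
    exact ⟨QuadraticAlgebra F a 1, inferInstance, inferInstance, hF ▸ H11.card_quadAlg a 1⟩
  obtain ⟨_, h1, h2⟩ := H22.exists_alg_sq hK hF
  obtain ⟨l, h3, h4⟩ := H22.exists_dual_base h1
  have hq2 := H11.two_le_of_card_sq hK
  obtain ⟨w, hw, -⟩ := H11.exists_orderOf_eq K (d := 3) (by
    rw [H11.card_sub_one_eq hK]; exact Dvd.dvd.mul_right (by omega) _)
  have w1 : (w : K) ^ 3 = 1 := by rw [← hw, ← Units.val_pow_eq_pow_val, pow_orderOf_eq_one, Units.val_one]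
  have w2 : (w : K) ≠ 1 := fun e => by simp [Units.ext (e.trans Units.val_one.symm)] at hw
  have w3 : (w : K) ^ 2 + w + 1 = 0 := mul_left_cancel₀ (sub_ne_zero.2 w2) (by linear_combination w1)
  have w4 : (w : K) ^ q = w ^ 2 := by rw [← Nat.div_add_mod q 3, hq, pow_add, pow_mul, w1, one_pow, one_mul]
  have w5 : ∀ a, algebraMap F K a ^ 2 + algebraMap F K a + 1 ≠ 0 := fun a ha => by
    have h5 := (h2 _).2 ⟨a, rfl⟩
    have h6 : algebraMap F K a ^ 3 = 1 := by linear_combination (algebraMap F K a - 1) * ha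
    rw [← Nat.div_add_mod q 3, hq, pow_add, pow_mul, h6, one_pow, one_mul] at h5
    have h7 : algebraMap F K a = 1 := by linear_combination h6 - (algebraMap F K a + 1) * h5
    exact w2 (pow_eq_zero_iff (n := 2) two_ne_zero |>.1 (by
      rw [h7] at ha; linear_combination w3 - w * ha) |> sub_eq_zero.1)
  have hσ : ∀ a, (H11.hermT hK).σ (algebraMap F K a) = algebraMap F K a := fun a => (h2 _).2 ⟨a, rfl⟩
  let C := H11.hermC (Fin m) hK
  have hA : (H22.trB C hσ l).IsAlt := fun x => by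
    obtain ⟨a, ha⟩ := (h2 _).1 ((C.symm x x).trans (one_mul _)).symm
    rw [H22.trB_apply, ← ha, h4]
  have hm : (X ^ 2 + X + 1 : F[X]).Monic := by monicity!
  have hd : (X ^ 2 + X + 1 : F[X]).natDegree = 2 := by compute_degree!
  have hi : Irreducible (X ^ 2 + X + 1 : F[X]) := by
    rw [hm.irreducible_iff_roots_eq_zero_of_degree_le_three (by omega) (by omega), Multiset.eq_zero_iff_forall_notMem]
    intro a ha
    exact w5 a (by simpa using congrArg (algebraMap F K) (mem_roots'.1 ha).2)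
  have h5 : aeval (Algebra.lsmul F F (Fin m → K) (w : K)) (X ^ 2 + X + 1 : F[X]) = 0 := by
    rw [aeval_algHom_apply]; simp [w3]
  have h6 : aeval ((H22.spRep (Fin m) F).ρ x) (X ^ 2 + X + 1 : F[X]) = 0 := by
    rw [H22.spRep_ρ, H22.aeval_toLin', LinearEquiv.map_eq_zero_iff, ← hfpf.mul_right_eq_zero]
    have : x.1 ^ 3 = 1 := congrArg Subtype.val hx3
    simp only [map_add, map_pow, aeval_X, map_one]
    rw [← sub_eq_zero.2 this]; noncomm_ring
  obtain ⟨e, e1, e2⟩ := H22.alt_fsim (C := H12.CForm.ofAlt _ hA) (fun _ => H22.tr_nondeg (H11.hermC_nondeg hK) h3)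
    (H22.spRep (Fin m) F).nd ⟨fun y z => congrArg l (by
      change C.B (w.1 • y) (w.1 • z) = _
      rw [C.B_smul_left, C.B_smul_right, ← mul_assoc, H11.hermT_sigma, w4, ← pow_succ, w1, one_mul]), fun _ => rfl⟩
    ((H22.spRep (Fin m) F).isom x) (H22.sim_of_irr hm hi h5 h6 (by simp [Module.finrank_pi_fintype, h1]; ring))
    hi.squarefree h5
  rw [(H22.spRep (Fin m) F).card_cent (Or.inr rfl), ← H22.card_CI_congr e e1.1 e2]
  refine Eq.trans (congrArg _ ((H22.card_CI_trB C rfl hσ h3 fun c => ?_).trans ?_)) (H22.guOrd_cast (by omega) m)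
  · have := (LinearIndependent.pair_iff' (K := F) (one_ne_zero (α := K))).2 (fun a ha => w5 a (by
      rw [Algebra.algebraMap_eq_smul_one, ha, w3])) |>.span_eq_top_of_card_eq_finrank (by simp [h1])
    rw [Matrix.range_cons_cons_empty] at this
    obtain ⟨a, b, h⟩ := Submodule.mem_span_pair.1 (this.ge (Submodule.mem_top (x := c)))
    exact ⟨a, b, h.symm⟩
  · rw [← Nat.card_congr (H22.guRep hK m).e.toEquiv, H11.card_GU hK, H22.guOrd]

end Cfsg.Agent.S2637
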