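import Cfsg.Statements.S2638
import Cfsg.Agent.H22.Emb2

set_option autoImplicit false
open Cfsg

namespace Cfsg.Agent.S2638

/-- If an element x of GL_n(q), n ≥ 1, has prime order r and the multiplicative order of q modulo r is n (r is a primitive prime divisor of q^n − 1, so x acts irreducibly), then the centraliser of x in GL_n(q) is cyclic of order q^n − 1 (the multiplicative group of the field with q^n elements, a Singer cycle). -/
theorem result {F : Type*} [Field F] [Fintype F] {p q : ℕ} [Fact p.Prime] [CharP F p] (hF : Fintype.card F = q) {n r : ℕ} (hn : 1 ≤ n) (hr : r.Prime) (hrp : r ≠ p) (hi : orderOf (q : ZMod r) = n) (x : GL (Fin n) F) (hx : orderOf x = r) : IsCyclic ↥(Subgroup.centralizer ({x} : Set (GL (Fin n) F))) ∧ Nat.card ↥(Subgroup.centralizer ({x} : Set (GL (Fin n) F))) = q ^ n - 1 := by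
  subst hF
  have h0 := H22.cast_ne_zero' (F := F) hr hrp
  obtain ⟨a, c, h⟩ := H22.exists_sType hr h0 (A := H22.glE x) (by rw [← map_pow, ← hx, pow_orderOf_eq_one, map_one])
  have h1 := h.finrank hr h0 hi.symm
  rw [Module.finrank_fin_fun] at h1
  obtain ⟨k, -, hk⟩ := Finset.exists_ne_zero_of_sum_ne_zero (s := Finset.univ) (f := c) fun e => by
    have h2 := h.kd_X1 hr h0
    rw [e, mul_zero, add_zero] at h1
    have := LinearMap.ker_eq_top.1 (Submodule.eq_top_of_finrank_eq
      ((h2.trans h1.symm).trans (Module.finrank_fin_fun F).symm))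
    rw [map_sub, Polynomial.aeval_X, map_one, sub_eq_zero, ← map_one H22.glE] at this
    exact hr.ne_one (by rw [← hx, H22.glE_injective this, orderOf_one])
  have hd := H22.Cy_deg hr h0 hi.symm k
  have hk' := H22.mem_Cy.1 k.2
  have := Fact.mk hk'.1
  have h2 : Polynomial.aeval (H22.glE x) k.1 = 0 := LinearMap.ker_eq_top.1 (Submodule.eq_top_of_finrank_eq
    (le_antisymm (Submodule.finrank_le _) (by
      rw [Module.finrank_fin_fun]
      exact ((h.kd_Cy hr h0 k).trans (by rw [hd])).ge.trans' (Nat.le_mul_of_pos_left _ (Nat.pos_of_ne_zero hk)))))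
  have := H22.fd_quot hk'.1.ne_zero
  have h3 : Module.finrank F (AdjoinRoot k.1) = n := (AdjoinRoot.powerBasis hk'.1.ne_zero).finrank.trans hd
  have : FiniteDimensional F (AdjoinRoot k.1) := this
  obtain ⟨e⟩ := H22.cent_equiv_units (H22.sim_of_irr hk'.2.1 hk'.1 (((H22.hasType_mulR hk'.1.ne_zero).aeval_eq_zero_iff
    (by simpa using hk'.1.ne_zero) _).2 (by simp)) h2 (by simpa using h3))
  have : Finite (AdjoinRoot k.1) := Module.finite_of_finite F
  refine ⟨isCyclic_of_surjective e e.surjective, ?_⟩
  rw [← Nat.card_congr e.toEquiv, Nat.card_units, Module.natCard_eq_pow_finrank (K := F), h3, Nat.card_eq_fintype_card]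

end Cfsg.Agent.S2638
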