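import Cfsg.Statements.S2642
import Cfsg.Agent.H22.FSim

set_option autoImplicit false
open Cfsg

namespace Cfsg.Agent.S2642

/-- Number of conjugacy classes of elements of order p in the general unitary group GU_n(q), q a power of p: every unipotent Jordan type occurs and the classes correspond to the partitions of n with all parts at most p other than the all-ones partition, exactly as in GL_n; so there are (number of partitions of n with parts ≤ p) − 1 classes. -/
theorem result {K : Type*} [Field K] [Fintype K] {p q n : ℕ} [Fact p.Prime] [CharP K p] (hK : Fintype.card K = q ^ 2) : Nat.card {C : ConjClasses ↥(Cfsg.GU n K q) // ∃ g : ↥(Cfsg.GU n K q), ConjClasses.mk g = C ∧ orderOf g = p} = (Finset.univ.filter (fun μ : Nat.Partition n => ∀ a ∈ μ.parts, a ≤ p)).card - 1 := by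
  let R := H22.guRep hK n
  rw [H22.card_classes_prime Fact.out, H22.card_classes_unip R.ρ (n := n) (by simp) _
    (fun g hg => ⟨p, (H22.pow_char_eq_one_iff p R.inj g).1 hg⟩)
    (fun g μ hg h => (h.pow_eq_zero_iff p).1 ((H22.pow_char_eq_one_iff p R.inj g).1 hg))
    (fun μ h => ?_) fun g g' _ _ => (H22.gu_isConj hK).2]
  obtain ⟨g, hg⟩ := H22.exists_gu_nType hK (n := n) (μ := μ.parts) μ.parts_sum.symm
  exact ⟨g, (H22.pow_char_eq_one_iff p R.inj g).2 ((hg.pow_eq_zero_iff p).2 h), hg⟩

end Cfsg.Agent.S2642
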