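import Cfsg.Statements.S2644
import Cfsg.Agent.H22.FSim

set_option autoImplicit false
open Cfsg

namespace Cfsg.Agent.S2644

theorem aux {F : Type*} [Field F] [Finite F] {n : ℕ} {t : Matrix (Fin n) (Fin n) F}
    (ht : Cfsg.IsTransvection t) : (Matrix.toLin' t - 1) ^ 2 = 0 ∧
      Module.finrank F (LinearMap.ker (Matrix.toLin' t - 1)) + 1 = n :=
  ⟨H22.pow_toLin_eq_zero.2 ((sq _).trans ht.2), by
    have := H22.rank_add_ker t
    rw [ht.1, Fintype.card_fin] at this; omega⟩

/-- In the special unitary group SU_n(q) with n ≥ 3 (isometries of Σ u_i v_i^q of determinant one over the field with q² elements), any two transvections (elements t with t − 1 of rank one and square zero) are conjugate. -/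
theorem result {K : Type*} [Field K] [Fintype K] {q n : ℕ} (hK : Fintype.card K = q ^ 2) (hn : 3 ≤ n) (s t : ↥(Cfsg.SU n K q)) (hs : Cfsg.IsTransvection (((s : GL (Fin n) K) : Matrix (Fin n) (Fin n) K))) (ht : Cfsg.IsTransvection (((t : GL (Fin n) K) : Matrix (Fin n) (Fin n) K))) : IsConj s t := by
  let R := H22.guRep hK n
  obtain ⟨h1, h2⟩ := aux hs
  obtain ⟨h3, h4⟩ := aux ht
  refine H22.isConj_of_det _ (H11.suToGU_injective n) _ (H11.range_suToGU n)
    ((H22.gu_isConj hK).2 (H22.sim_of_sq h1 h3 rfl (Nat.add_right_cancel (h2.trans h4.symm)))) fun g => ?_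
  let C := H11.hermC (Fin n) hK
  set u := R.e (H11.suToGU n K q s)
  obtain ⟨v, hv, hv'⟩ : ∃ v, u.1 v = v ∧ C.B v v ≠ 0 := by
    by_contra hc
    push Not at hc
    obtain ⟨c, hσ⟩ := DFunLike.ne_iff.1 (H11.frob_ne_id hK)
    have h5 : ∀ x y, u.1 x = x → u.1 y = y → C.B x y + C.B y x = 0 := fun x y hx hy => by
      have := hc (x + y) (by rw [map_add, hx, hy])
      simp only [map_add, LinearMap.add_apply, hc x hx, hc y hy] at this
      linear_combination this
    have := R.nd.two_mul_finrank_le (W := LinearMap.ker (Matrix.toLin'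
        (Matrix.SpecialLinearGroup.toGL s.1).1 - 1)) fun y hy x hx => by
      have e1 := h5 x y (sub_eq_zero.1 hx) (sub_eq_zero.1 hy)
      have e2 := h5 (c • x) y (by rw [map_smul, show u.1 x = x from sub_eq_zero.1 hx]) (sub_eq_zero.1 hy)
      rw [C.B_smul_left, C.B_smul_right] at e2
      change H11.frob hK c * _ + _ = 0 at e2
      exact (mul_eq_zero.1 (show (H11.frob hK c - c) * C.B x y = 0 by
        linear_combination e2 - c * e1)).resolve_left (sub_ne_zero.2 hσ)
    simp only [Module.finrank_fintype_fun_eq_card, Fintype.card_fin] at this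
    omega
  have hq : (H11.guDet n K q g) ^ (q + 1) = 1 := (H11.range_guDet hK (n := n) (by omega)).le ⟨g, rfl⟩
  obtain ⟨y, a1, a2, -⟩ := H22.exists_isom_scal R.nd (H11.nondegOn_singleton hv') u
    (fun x hx => by
      obtain ⟨c, rfl⟩ := Submodule.mem_span_singleton.1 hx
      rwa [map_smul, hv]) (H11.guDet n K q g) (by
      change (_ : K) ^ q * _ = 1
      rw [← pow_succ, ← Units.val_pow_eq_pow_val, hq]; rfl)
  refine ⟨R.e.symm y, R.e.injective (by simpa using a1), ?_⟩
  rw [finrank_span_singleton (by rintro rfl; simp at hv'), pow_one] at a2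
  rw [← a2]
  exact (H11.det_glEquiv _).symm.trans (congrArg (fun x : C.isom => LinearEquiv.det x.1) (R.e.apply_symm_apply y))

end Cfsg.Agent.S2644
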