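import Cfsg.Statements.S2653
import Cfsg.Agent.H23.Wag6

set_option autoImplicit false
open scoped MatrixGroups
open Cfsg

namespace Cfsg.Agent.S2653

/-- Alternating sections of finite linear groups. Let `F` be a finite field of characteristic `p` and `n` a natural number, and suppose some subgroup `H` of GL_n(F) has a normal subgroup `K` with `H ⧸ K` isomorphic to the alternating group of degree `r ≥ 9`. Then `n ≥ r - 2` when `p` divides `r`, and `n ≥ r - 1` otherwise (the smallest degree of a nontrivial projective representation of that alternating group in characteristic `p`). The same bound follows for every classical group with natural module of dimension `n` over `F`, since each is a section of a subgroup of GL_n(F). -/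
theorem result {F : Type*} [Field F] [Fintype F] (p : ℕ) [Fact p.Prime] [CharP F p]
    (n : ℕ) (r : ℕ) (H : Subgroup (GL (Fin n) F)) (K : Subgroup ↥H) [K.Normal]
    (h : Nonempty (↥H ⧸ K ≃* ↥(alternatingGroup (Fin r)))) (hr : 9 ≤ r) :
    r - 1 - (if p ∣ r then 1 else 0) ≤ n := by
  obtain ⟨e⟩ := h
  letI : Algebra (ZMod p) F := ZMod.algebra F p
  haveI : Algebra.IsAlgebraic (ZMod p) F := Algebra.IsAlgebraic.of_finite _ _
  let f : F →ₐ[ZMod p] AlgebraicClosure (ZMod p) := IsAlgClosed.lift
  have hb := (H23.Wag.pp n).mat f.toRingHom (α := Fin r) (by simpa using hr)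
    ((Units.coeHom _).comp H.subtype)
    ((alternatingGroup (Fin r)).subtype.comp (e.toMonoidHom.comp (QuotientGroup.mk' K)))
    (fun g => Equiv.Perm.mem_alternatingGroup.1 (Subtype.mem _))
    (fun σ hσ => by
      obtain ⟨x, hx⟩ := e.surjective ⟨σ, Equiv.Perm.mem_alternatingGroup.2 hσ⟩
      obtain ⟨g, rfl⟩ := QuotientGroup.mk'_surjective K x
      exact ⟨g, congrArg Subtype.val hx⟩)
    (fun g hg => by
      have : g = 1 := Subtype.ext (Units.ext hg)
      rw [this, map_one])
  obtain ⟨h1, h2⟩ := hb
  rw [Fintype.card_fin] at h1 h2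
  split_ifs with hp
  · omega
  · by_contra hc
    exact hp ((CharP.cast_eq_zero_iff (AlgebraicClosure (ZMod p)) p r).1 (h2 (by omega)))

end Cfsg.Agent.S2653
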