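import Cfsg.Statements.S2657
import Cfsg.Agent.H23.Sec9

set_option autoImplicit false
open scoped MatrixGroups
open Cfsg

namespace Cfsg.Agent.S2657

open H14 H23.Sec in

/-- Alternating sections of the groups of type F₄. Let `F` be a finite field of characteristic `p` and let `G` be the Chevalley group of type F₄ over `F`. If some subgroup of `G` has a quotient isomorphic to the alternating group of degree `r`, then `r` is at most 10, or 11 in characteristic 11. (Only an upper bound is asserted.) -/
theorem result {F : Type*} [Field F] [Fintype F] (p : ℕ) [Fact p.Prime] [CharP F p]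
    (r : ℕ) (H : Subgroup ↥(Cfsg.Lie.chevF4.group F)) (K : Subgroup ↥H) [K.Normal]
    (h : Nonempty (↥H ⧸ K ≃* ↥(alternatingGroup (Fin r)))) :
    r ≤ 10 + (if p = 11 then 1 else 0) := by
  split_ifs with hp
  · obtain ⟨f, hf, -⟩ := E6.exists_fold F
    have := mainE6 p (f := f.comp H.subtype) (hf.comp H.subtype_injective) h
    rwa [if_neg (by omega)] at this
  obtain ⟨π, -, surj⟩ := ex_pi h
  obtain ⟨γ⟩ := ex_emb F p
  exact noF4 hp (f := (goodF4.mapG γ).comp H.subtype) ((goodF4.mapG_inj γ).comp H.subtype_injective) surj

end Cfsg.Agent.S2657
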