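import Cfsg.Statements.S2661
import Cfsg.Agent.H23.Sec3

set_option autoImplicit false
open scoped MatrixGroups
open Cfsg

namespace Cfsg.Agent.S2661

open H14 H23.Sec in

/-- Alternating sections of the large Ree groups ²F₄. Let `m ≥ 1`, let `K` be a field with `2^(2m+1)` elements and let `G` be the large Ree group ²F₄(2^(2m+1)) realised over `K`. If some subgroup of `G` has a quotient isomorphic to the alternating group of degree `r`, then `r ≤ 6`. (Only an upper bound is asserted.) -/
theorem result {K : Type*} [Field K] [Fintype K] {m : ℕ} (hm : 1 ≤ m)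
    (hK : Fintype.card K = 2 ^ (2 * m + 1)) (r : ℕ) (H : Subgroup ↥(Cfsg.Lie.twistedF4 K (2 ^ m))) (N : Subgroup ↥H) [N.Normal]
    (h : Nonempty (↥H ⧸ N ≃* ↥(alternatingGroup (Fin r)))) :
    r ≤ 6 := by
  obtain ⟨_, φ, h2, hφ⟩ := H14.exists_tits Nat.prime_two hK
  have hT := H14.F4.isTw (h2 := h2) hφ
  obtain ⟨π, -, surj⟩ := ex_pi h
  obtain ⟨γ⟩ := ex_emb K 2
  exact noTF4 (f := (goodF4.mapG γ).comp ((Subgroup.inclusion hT.le).comp H.subtype))
    ((goodF4.mapG_inj γ).comp ((Subgroup.inclusion_injective hT.le).comp H.subtype_injective))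
    (goodF4.tw okgrF4 (GrD.fits_char _ Nat.prime_two fun x => (frobeniusEquiv (Kb 2) 2).surjective x)
      (iterateFrobenius _ 2 m) (bijective_iterateFrobenius _ 2 m).2) rfl
    (fun x => map_tw goodF4 γ (fun t => by rw [hφ, map_pow]; rfl) (hT.mem.1 x.1.2)) surj

end Cfsg.Agent.S2661
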