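import Cfsg.Statements.S2669
import Cfsg.Agent.H22.Shint

set_option autoImplicit false
open Cfsg

namespace Cfsg.Agent.S2669

/-- Shintani descent preserves numbers of fixed points on coset spaces (abstract form). Let `σ` be an automorphism of a group `X` and `e ≥ 1`; write `G` for the fixed points of `σᵉ` and `H` for the fixed points of `σ`, and assume `G` is finite. Let `Y` be a `σ`-stable subgroup of `X` on which the maps `a ↦ a σ(a)⁻¹` and `a ↦ a σᵉ(a)⁻¹` are surjective (as for a closed connected `σ`-stable subgroup of an algebraic group). Let `g ∈ G`, let `a ∈ X` satisfy `g = a σ(a)⁻¹` and put `x = σᵉ(a)⁻¹ a` (the Shintani image, an element of `H`). The element `g σ` of the semidirect product acts on the cosets of `Y ∩ G` in `G` by `k (Y ∩ G) ↦ g σ(k) (Y ∩ G)`, fixing that coset exactly when `k⁻¹ g σ(k) ∈ Y`; and `x` fixes the coset `h (Y ∩ H)` of `H` exactly when `h⁻¹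 x h ∈ Y`. Then the two numbers of fixed cosets agree; in cross-multiplied form, `#{k ∈ G : k⁻¹ g σ(k) ∈ Y} · |Y ∩ H| = #{h ∈ H : h⁻¹ x h ∈ Y} · |Y ∩ G|`. -/
theorem result {X : Type*} [Group X] (σ : MulAut X) (e : ℕ) (he : 1 ≤ e)
    [Finite ↥((MulEquiv.toMonoidHom (σ ^ e)).eqLocus (MonoidHom.id X))]
    (Y : Subgroup X) (hY : ∀ y : X, y ∈ Y ↔ σ y ∈ Y)
    (hYL : ∀ y ∈ Y, ∃ a ∈ Y, y = a * (σ a)⁻¹) (hYLe : ∀ y ∈ Y, ∃ a ∈ Y, y = a * ((σ ^ e) a)⁻¹)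
    (g : X) (hg : g ∈ (MulEquiv.toMonoidHom (σ ^ e)).eqLocus (MonoidHom.id X)) (a : X) (ha : g = a * (σ a)⁻¹) :
    Nat.card {k : ↥((MulEquiv.toMonoidHom (σ ^ e)).eqLocus (MonoidHom.id X)) // (k : X)⁻¹ * g * σ k ∈ Y} *
        Nat.card ↥(Y ⊓ (MulEquiv.toMonoidHom σ).eqLocus (MonoidHom.id X)) =
      Nat.card {h : ↥((MulEquiv.toMonoidHom σ).eqLocus (MonoidHom.id X)) // (h : X)⁻¹ * (((σ ^ e) a)⁻¹ * a) * h ∈ Y} *
        Nat.card ↥(Y ⊓ (MulEquiv.toMonoidHom (σ ^ e)).eqLocus (MonoidHom.id X)) := by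
  subst ha
  have key : ∀ {A C B : Type _} (R : A → C → Prop) (P : A → Prop), (∀ k c, R k c → P k) →
      (∀ k, P k → Nonempty ({c // R k c} ≃ B)) →
      Nat.card {k // P k} * Nat.card B = Nat.card {p : A × C // R p.1 p.2} := by
    intro A C B R P h1 h2
    rw [← Nat.card_prod]
    refine Nat.card_congr ((Equiv.sigmaEquivProd _ _).symm.trans
      ((Equiv.sigmaCongrRight fun k : {k // P k} => (h2 k.1 k.2).some.symm).trans ?_))
    exact ⟨fun x => ⟨(x.1.1, x.2.1), x.2.2⟩, fun p => ⟨⟨p.1.1, h1 _ _ p.2⟩, ⟨p.1.2, p.2⟩⟩,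
      fun _ => rfl, fun _ => rfl⟩
  have hYe : ∀ y ∈ Y, (σ ^ e) y ∈ Y := by
    intro y hy
    clear hYLe hg he
    induction e with
    | zero => exact hy
    | succ e ih => rw [pow_succ', MulAut.mul_apply]; exact (hY _).1 (by
        clear ih
        induction e with
        | zero => exact hy
        | succ e ih => rw [pow_succ', MulAut.mul_apply]; exact (hY _).1 ih)
  rw [key (fun (k : ↥((MulEquiv.toMonoidHom (σ ^ e)).eqLocus (MonoidHom.id X))) (c : X) =>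
      c ∈ Y ∧ (k : X)⁻¹ * (a * (σ a)⁻¹) * σ k = c * (σ c)⁻¹),
    key (fun (h : ↥((MulEquiv.toMonoidHom σ).eqLocus (MonoidHom.id X))) (c : X) =>
      c ∈ Y ∧ (h : X)⁻¹ * (((σ ^ e) a)⁻¹ * a) * h = ((σ ^ e) c)⁻¹ * c)]
  · have k1 : ∀ k c : X, ((σ ^ e) k = k ∧ k⁻¹ * (a * (σ a)⁻¹) * σ k = c * (σ c)⁻¹) ↔
        (σ (a⁻¹ * k * c) = a⁻¹ * k * c ∧
          (a⁻¹ * k * c)⁻¹ * (((σ ^ e) a)⁻¹ * a) * (a⁻¹ * k * c) = ((σ ^ e) c)⁻¹ * c) := by
      intro k c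
      have := H22.Shin.conj_iff (σ := σ) e c a k
      refine Iff.trans (and_congr_right fun _ => ?_) (this.trans (and_congr_right fun _ => ?_))
      · constructor <;> intro h
        · rw [← h]; group
        · rw [h]; group
      · constructor <;> intro h
        · rw [h]; group
        · rw [← h]; group
    refine Nat.card_congr ⟨fun p => ⟨(⟨a⁻¹ * p.1.1 * p.1.2, ((k1 _ _).1 ⟨p.1.1.2, p.2.2⟩).1⟩, p.1.2),
        p.2.1, ((k1 _ _).1 ⟨p.1.1.2, p.2.2⟩).2⟩,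
      fun p => ⟨(⟨a * p.1.1 * p.1.2⁻¹, ((k1 _ p.1.2).2 ?_).1⟩, p.1.2), p.2.1, ((k1 _ p.1.2).2 ?_).2⟩,
      fun p => ?_, fun p => ?_⟩
    · rw [show a⁻¹ * (a * p.1.1 * p.1.2⁻¹) * p.1.2 = p.1.1 by group]; exact ⟨p.1.1.2, p.2.2⟩
    · rw [show a⁻¹ * (a * p.1.1 * p.1.2⁻¹) * p.1.2 = p.1.1 by group]; exact ⟨p.1.1.2, p.2.2⟩
    · ext <;> simp [mul_assoc]
    · ext <;> simp [mul_assoc]
  · rintro h c ⟨hc, h1⟩
    rw [h1]; exact Y.mul_mem (Y.inv_mem (hYe c hc)) hc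
  · intro h hh
    obtain ⟨c, hc, h1⟩ := hYLe _ (Y.inv_mem hh)
    have h2 : (h : X)⁻¹ * (((σ ^ e) a)⁻¹ * a) * h = (σ ^ e) c * c⁻¹ := by
      rw [← inv_inv (_ * (h : X)), h1]; simp
    rw [h2]
    refine ⟨⟨fun d => ⟨d.1 * c, Y.mul_mem d.2.1 hc, ?_⟩, fun d => ⟨d.1 * c⁻¹, Y.mul_mem d.2.1 (Y.inv_mem hc),
      ?_⟩, fun d => Subtype.ext (by simp), fun d => Subtype.ext (by simp)⟩⟩
    · change (σ ^ e) (d.1 * c) = d.1 * c
      obtain ⟨d, hd1, hd2⟩ := d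
      rw [map_mul]
      calc _ = (σ ^ e) d * ((σ ^ e) c * c⁻¹) * c := by group
        _ = d * c := by rw [hd2]; group
    · rw [map_mul, show (σ ^ e) d.1 = d.1 from d.2.2, map_inv]; group
  · rintro k c ⟨hc, h1⟩
    rw [h1]; exact Y.mul_mem hc (Y.inv_mem ((hY c).1 hc))
  · intro k hk
    obtain ⟨c, hc, h1⟩ := hYL _ hk
    rw [h1]
    refine ⟨⟨fun d => ⟨c⁻¹ * d.1, Y.mul_mem (Y.inv_mem hc) d.2.1, ?_⟩,
      fun d => ⟨c * d.1, Y.mul_mem hc d.2.1, ?_⟩, fun d => Subtype.ext (by simp),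
        fun d => Subtype.ext (by simp)⟩⟩
    · change σ (c⁻¹ * d.1) = c⁻¹ * d.1
      obtain ⟨d, hd1, hd2⟩ := d
      rw [map_mul, map_inv]
      calc _ = c⁻¹ * (c * (σ c)⁻¹) * σ d := by group
        _ = c⁻¹ * d := by rw [hd2]; group
    · rw [map_mul, show σ d.1 = d.1 from d.2.2]; group

end Cfsg.Agent.S2669
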