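import Cfsg.Statements.S2671
import Cfsg.Agent.H22.SS2

set_option autoImplicit false
open Cfsg

namespace Cfsg.Agent.S2671

/-- Number of conjugacy classes of elements of odd prime order r in the general unitary group GU_n(q), for r not dividing q(q + 1): let i be the multiplicative order of q modulo r, b = i if i is odd and b = i/2 if i is even, and s = (r − 1)/b. If i ≢ 2 (mod 4) the eigenvalue orbits pair off into dual pairs of totally isotropic blocks and there are C(⌊n/(2b)⌋ + s/2, s/2) − 1 classes; if i ≡ 2 (mod 4) each orbit gives a non-degenerate block of dimension i/2 and there are C(⌊2n/i⌋ + s, s) − 1 classes. -/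
theorem result {K : Type*} [Field K] [Fintype K] {p q n r i b s : ℕ} [Fact p.Prime] [CharP K p] (hK : Fintype.card K = q ^ 2) (hr : r.Prime) (hr2 : r ≠ 2) (hrp : r ≠ p) (hi : i = orderOf (q : ZMod r)) (hi2 : i ≠ 2) (hb : b = if Odd i then i else i / 2) (hs : s * b = r - 1) : Nat.card {C : ConjClasses ↥(Cfsg.GU n K q) // ∃ g : ↥(Cfsg.GU n K q), ConjClasses.mk g = C ∧ orderOf g = r} = if i % 4 = 2 then Nat.choose (2 * n / i + s) s - 1 else Nat.choose (n / (2 * b) + s / 2) (s / 2) - 1 := by
  have h0 := H22.cast_ne_zero' (F := K) hr hrp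
  have hb' : b = orderOf (Fintype.card K : ZMod r) := by
    rw [hK, Nat.cast_pow, orderOf_pow' _ two_ne_zero, ← hi, hb]
    split_ifs with h
    · rw [Nat.coprime_two_right.2 h, Nat.div_one]
    · rw [Nat.gcd_eq_right (Nat.not_odd_iff_even.1 h).two_dvd]
  have h1 := H22.ord_pos hr h0 hb'
  have h2 : 0 < i := by split_ifs at hb <;> omega
  obtain ⟨p', k, hp, _, -, hq⟩ := H11.exists_prime_pow_of_card_sq hK
  have := Fact.mk hp
  rw [H22.card_classes_ss hr h0 hb' (H22.guRep hK n).inj _ (H22.gu_sType hr h0 hb' hK)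
    fun g g' _ => (H22.gu_isConj hK).2, (H22.card_inv (H22.cstar_invol hr h0 _) (P := ¬ i % 4 = 2) (fun a => by
      rw [H22.cstar_eq_iff hr h0 _ (p := p') (k := k) (by simp [hq]), not_not, hi,
        ← H22.exists_pow_neg hr hr2 (hi ▸ h2), hK, hq]
      simp) (H22.card_Cy hr h0 hb' hs) fun s => b * s ≤ n).1]
  split_ifs with h
  · obtain rfl : i = 2 * b := by rw [hb, if_neg (Nat.not_odd_iff_even.2 (Nat.even_iff.2 (by omega)))]; omega
    simp only [mul_comm b, ← Nat.le_div_iff_mul_le h1, H22.card_sum_le, Fintype.card_fin,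
      Nat.mul_div_mul_left _ _ two_pos]
  · simp only [show ∀ s, b * (2 * s) = s * (2 * b) from fun s => by ring,
      ← Nat.le_div_iff_mul_le (mul_pos two_pos h1), H22.card_sum_le, Fintype.card_fin]

end Cfsg.Agent.S2671
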