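import Cfsg.Statements.S2672
import Cfsg.Agent.H22.PGc
import Cfsg.Agent.H11.SUBasic

set_option autoImplicit false
open Cfsg

namespace Cfsg.Agent.S2672

/-- Number of conjugacy classes of elements of odd prime order r in PGU_n(q) = GU_n(q)/scalars (n ≥ 3) when r divides q + 1: as in the linear case with q − 1 replaced by q + 1, the classes correspond to the rotation orbits on r-tuples of eigenvalue multiplicities summing to n with every entry < n, plus r − 1 further classes when r divides n; in all (C(n+r−1, r−1) − r − [r ∣ n])/r + r·[r ∣ n]. -/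
theorem result {K : Type*} [Field K] [Fintype K] {q n r : ℕ} (hK : Fintype.card K = q ^ 2) (hn : 3 ≤ n) (hr : r.Prime) (hr2 : r ≠ 2) (hrq : r ∣ q + 1) : Nat.card {C : ConjClasses (↥(Cfsg.GU n K q) ⧸ Subgroup.center ↥(Cfsg.GU n K q)) // ∃ g : ↥(Cfsg.GU n K q) ⧸ Subgroup.center ↥(Cfsg.GU n K q), ConjClasses.mk g = C ∧ orderOf g = r} = (Nat.choose (n + r - 1) (r - 1) - r - (if r ∣ n then 1 else 0)) / r + r * (if r ∣ n then 1 else 0) := by
  classical
  have hq := H11.two_le_of_card_sq hK
  have : Nontrivial (Fin n → K) := Module.finrank_pos_iff.1 (by simp; omega : 0 < Module.finrank K _)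
  have R := H22.guRep hK n
  have hc := H11.card_normOne_units hK
  have hroot : ∀ l : K, (l ^ r) ^ (q + 1) = 1 → l * l ^ q = 1 := fun l hl => by
    have h1 : (l ^ (q + 1)) ^ (q - 1) = 1 := by
      rw [← pow_mul, ← H11.card_sub_one_eq hK]
      exact FiniteField.pow_card_sub_one_eq_one l (by rintro rfl; simp [hr.ne_zero] at hl)
    rw [← pow_mul, mul_comm, pow_mul] at hl
    have h2 : Nat.gcd r (q - 1) = 1 := (Nat.Prime.coprime_iff_not_dvd hr).2 fun h => hr2
      ((Nat.prime_dvd_prime_iff_eq hr Nat.prime_two).1 (by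
        have := Nat.dvd_sub hrq h
        rwa [show q + 1 - (q - 1) = 2 by omega] at this))
    have := pow_gcd_eq_one.2 ⟨hl, h1⟩
    rwa [h2, pow_one, pow_succ'] at this
  have := Fact.mk hr
  obtain ⟨ζ, hζ⟩ := exists_prime_orderOf_dvd_card' (G := Kˣ) r (by
    rw [Nat.card_units, Nat.card_eq_fintype_card, H11.card_sub_one_eq hK]; exact hrq.mul_right _)
  replace hζ : IsPrimitiveRoot (ζ.1 : K) r := by
    rw [← hζ, ← orderOf_units]; exact IsPrimitiveRoot.orderOf _
  refine H22.card_classes_proj hr (H22.guRep hK n).inj (powMonoidHom (q + 1)).ker (fun g => ?_) (fun c =>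
    ⟨(H22.guRep hK n).e.symm (H11.hermScalar _ (a := c.1) (by
      rw [← pow_succ']; exact congrArg Units.val c.2)), LinearMap.ext fun v => by simp [H22.IsoRep.ρ, H11.hermScalar]⟩)
    (by rwa [hc]) (fun c h => Units.ext (by
      simpa [pow_succ'] using hroot c (congrArg Units.val h))) (fun _ _ => (H22.gu_isConj hK).symm)
    (fun A z h => H22.exists_gu hK (by simp) (H22.exists_SQ_of_pow hr hζ (H11.frob_frob hK) h (by
      rw [H11.frob_apply, ← pow_succ']; exact congrArg Units.val z.2) fun l hl => hroot l (by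
        rw [hl]; exact congrArg Units.val z.2))) (by simp) (by omega)
  rw [← H11.mem_center_equiv ((H22.guRep hK n).e.trans Subgroup.topEquiv.symm)]
  refine ⟨fun h => ?_, fun ⟨c, h⟩ => H11.mem_center_of_scalar (a := c.1) fun x => DFunLike.congr_fun h x⟩
  obtain ⟨a, ha⟩ := H11.herm_scalar_of_mem_center (H11.hermC_nondeg hK) (by simp; omega) le_top _ h
  have := H11.herm_norm_of_scalar (H11.hermC_nondeg hK) ha
  exact ⟨⟨Units.mk0 a (left_ne_zero_of_mul_eq_one this), Units.ext (by simpa [pow_succ'] using this)⟩,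
    LinearMap.ext ha⟩

end Cfsg.Agent.S2672
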