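import Cfsg.Statements.S2673
import Cfsg.Agent.H22.SS2

set_option autoImplicit false
open Cfsg

namespace Cfsg.Agent.S2673

/-- Number of conjugacy classes of elements of odd prime order r ≠ p in the orthogonal group O_(2m+1)(q) of x_0² + Σ x_j y_j, q odd: with i the multiplicative order of q mod r and t = (r − 1)/i, there are C(⌊m/i⌋ + t/2, t/2) − 1 classes if i is odd (dual pairs of totally singular i-blocks) and C(⌊(2m+1)/i⌋ + t, t) − 1 if i is even (elliptic i-blocks). -/
theorem result {F : Type*} [Field F] [Fintype F] {p q : ℕ} [Fact p.Prime] [CharP F p] (hF : Fintype.card F = q) (hq : Odd q) (m r i t : ℕ) (hr : r.Prime) (hr2 : r ≠ 2) (hrp : r ≠ p) (hi : i = orderOf (q : ZMod r)) (ht : t * i = r - 1) : Nat.card {C : ConjClasses ↥(Cfsg.isometryGroup F (Cfsg.quadFormOdd m F)) // ∃ g : ↥(Cfsg.isometryGroup F (Cfsg.quadFormOdd m F)), ConjClasses.mk g = C ∧ orderOf g = r} = if Odd i then Nat.choose (m / i + t / 2) (t / 2) - 1 else Nat.choose ((2 *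 m + 1) / i + t) t - 1 := by
  subst hF
  have h0 := H22.cast_ne_zero' (F := F) hr hrp
  have h3 := H12.odd_card_iff.1 hq
  let R := H22.oRep (H11.coe_qOdd m) (H11.qOdd_nondeg h3 m)
  have hd : Module.finrank F (Unit ⊕ Fin m ⊕ Fin m → F) = 2 * m + 1 := by simp; ring
  obtain ⟨h1, h2, -, -⟩ := H22.card_classes_id hr h0 hi hr2 R ht (fun s => i * s ≤ 2 * m + 1)
    (fun c => hd ▸ H22.odd_sType hr h0 hi hr2 R h3 (hd ▸ odd_two_mul_add_one m) c) fun g g' h e =>
      H22.quad_fsim R.nd R.nd .refl (R.isom g) (R.isom g') e (hr.odd_of_ne_two hr2)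
        (H22.sqf h0 hr.ne_zero) (R.aeval_pow.2 h)
  rw [h1]
  split_ifs
  · simp only [mul_left_comm i, show ∀ s, 2 * s ≤ 2 * m + 1 ↔ s ≤ m by omega, mul_comm i,
      ← Nat.le_div_iff_mul_le h2, H22.card_sum_le, Fintype.card_fin]
  · simp only [mul_comm i, ← Nat.le_div_iff_mul_le h2, H22.card_sum_le, Fintype.card_fin]

end Cfsg.Agent.S2673
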