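import Cfsg.Statements.S2674
import Cfsg.Agent.H22.SS2

set_option autoImplicit false
open Cfsg

namespace Cfsg.Agent.S2674

/-- Number of conjugacy classes of elements of odd prime order r ≠ p in the orthogonal group O⁺_2m(q) of Σ x_j y_j (m ≥ 1): with i the multiplicative order of q mod r and t = (r − 1)/i — if i is odd, C(⌊m/i⌋ + t/2, t/2) − 1; if i is even, C(⌊2m/i⌋ + t, t) − 1 minus, when i divides 2m with odd quotient, the C(2m/i + t − 1, t − 1) tuples using the whole space (an odd number of elliptic i-blocks fills an elliptic, not a hyperbolic, space). -/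
theorem result {F : Type*} [Field F] [Fintype F] {p q : ℕ} [Fact p.Prime] [CharP F p] (hF : Fintype.card F = q) (m r i t : ℕ) (hm : 1 ≤ m) (hr : r.Prime) (hr2 : r ≠ 2) (hrp : r ≠ p) (hi : i = orderOf (q : ZMod r)) (ht : t * i = r - 1) : Nat.card {C : ConjClasses ↥(Cfsg.isometryGroup F (Cfsg.quadFormPlus m F)) // ∃ g : ↥(Cfsg.isometryGroup F (Cfsg.quadFormPlus m F)), ConjClasses.mk g = C ∧ orderOf g = r} = if Odd i then Nat.choose (m / i + t / 2) (t / 2) - 1 else Nat.choose (2 * m / i + t) t - 1 - (if i ∣ 2 * m ∧ Odd (2 * m / i) then Nat.choose (2 * m / i + t - 1) (t - 1) else 0) := by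
  subst hF
  obtain ⟨m, rfl⟩ := Nat.exists_eq_add_of_le' hm
  have h0 := H22.cast_ne_zero' (F := F) hr hrp
  let R := H22.oRep (H11.coe_qPlus (m + 1)) (H11.qPlus_nondeg (F := F) (m + 1))
  obtain ⟨h1, h2, h3, -⟩ := H22.card_classes_id hr h0 hi hr2 R ht
    (fun s => i * s ≤ 2 * (m + 1) ∧ (i * s = 2 * (m + 1) → (_ ↔ i ∣ m + 1)))
    (H22.even_sType hr h0 hi hr2 R (by simp; ring)) fun g g' h e =>
      H22.quad_fsim R.nd R.nd .refl (R.isom g) (R.isom g') e (hr.odd_of_ne_two hr2)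
        (H22.sqf h0 hr.ne_zero) (R.aeval_pow.2 h)
  rw [h1]
  simp only [H12.qPlus_hasTS, true_iff]
  by_cases h : Odd i
  · simp only [if_pos h, mul_left_comm i, Nat.mul_le_mul_left_iff two_pos, Nat.mul_right_inj two_ne_zero]
    rw [Nat.card_congr (Equiv.subtypeEquivRight (q := fun c => ∑ k, c k ≤ (m + 1) / i) fun c => ?_),
      H22.card_sum_le, Fintype.card_fin]
    rw [Nat.le_div_iff_mul_le h2, mul_comm]
    exact and_iff_left fun e => ⟨_, e.symm.trans (mul_comm _ _)⟩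
  · have : Nonempty (Fin t) := ⟨⟨0, h3⟩⟩
    have key := H22.card_sum_ne (Fin t) (2 * (m + 1) / i) (i ∣ 2 * (m + 1) ∧ Odd (2 * (m + 1) / i))
    rw [Fintype.card_fin] at key
    rw [if_neg h, if_neg h, Nat.sub_right_comm, ← key]
    refine congrArg (· - 1) (Nat.card_congr (Equiv.subtypeEquivRight fun c => ?_))
    rw [Nat.le_div_iff_mul_le h2, mul_comm]
    obtain ⟨j, rfl⟩ := (Nat.not_odd_iff_even.1 h).two_dvd
    refine and_congr_right fun _ => ⟨fun h4 ⟨⟨⟨k, h5⟩, h6⟩, h7⟩ => ?_, fun h4 h5 => ?_⟩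
    · rw [h5, Nat.mul_div_cancel_left _ h2] at h6 h7
      have := h4 (by rw [h5, h7, mul_comm])
      rw [show m + 1 = k * j by nlinarith, Nat.mul_dvd_mul_iff_right (by omega)] at this
      exact Nat.not_even_iff_odd.2 h6 (even_iff_two_dvd.2 this)
    · rw [← h5, Nat.mul_div_cancel _ h2] at h4
      rw [show m + 1 = (∑ k, c k) * j by nlinarith]
      exact Nat.mul_dvd_mul_right (even_iff_two_dvd.1 (Nat.not_odd_iff_even.1 fun h6 =>
        h4 ⟨⟨dvd_mul_left _ _, h6⟩, rfl⟩)) _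

end Cfsg.Agent.S2674
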