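import Cfsg.Statements.S2676
import Cfsg.Agent.H22.UF3

set_option autoImplicit false
open Classical
open Cfsg

namespace Cfsg.Agent.S2676

/-- Number of conjugacy classes of elements of order p in Sp_2m(q), q a power of the odd prime p: the classes correspond to the signed partitions of 2m — partitions with all parts at most p in which every odd part has even multiplicity, each even part size that occurs carrying a sign — other than the all-ones partition; so the count is the sum over such partitions of 2^(number of distinct even parts), minus one. -/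
theorem result {F : Type*} [Field F] [Fintype F] {p : ℕ} [Fact p.Prime] [CharP F p] (hp : p ≠ 2) (m : ℕ) : Nat.card {C : ConjClasses ↥(Matrix.symplecticGroup (Fin m) F) // ∃ g : Matrix.symplecticGroup (Fin m) F, ConjClasses.mk g = C ∧ orderOf g = p} = (∑ μ ∈ Finset.univ.filter (fun μ : Nat.Partition (2 * m) => (∀ a ∈ μ.parts, a ≤ p) ∧ ∀ j : ℕ, Odd j → Even (μ.parts.count j)), 2 ^ ((μ.parts.toFinset.filter (fun j : ℕ => Even j)).card)) - 1 := by
  have h2 : (2 : F) ≠ 0 := H12.ringChar_ne_two_iff.1 (by rwa [ringChar.eq F p])
  have key := H22.pow_char_eq_one_iff p (H22.spRep (Fin m) F).inj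
  rw [H22.card_classes_prime Fact.out, H22.card_classes_sp h2 (H22.spRep (Fin m) F) (n := 2 * m)
    (by simp [two_mul]) (fun μ => ∀ a ∈ μ.parts, a ≤ p) (fun g hg => ⟨p, (key g).1 hg⟩)
    fun g μ h => (key g).trans (h.pow_eq_zero_iff p)]

end Cfsg.Agent.S2676
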