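import Cfsg.Statements.S2677
import Cfsg.Agent.H22.FixCos

set_option autoImplicit false
open Cfsg

namespace Cfsg.Agent.S2677

/-- Centraliser of a field automorphism of odd prime order in PGU_n(q): let q = q₀^r with r an odd prime, K the field with q² elements and σ a field automorphism of K of order r (fixed field of order q₀²). The elements g of GU_n(q) whose entrywise image under σ is a scalar multiple of g — those whose coset modulo the q + 1 unitary scalars is fixed by σ — number (q + 1)/(q₀ + 1) · |GU_n(q₀)|; equivalently the centraliser in PGU_n(q) of the induced automorphism has the order of PGU_n(q₀). -/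
theorem result {K : Type*} [Field K] [Fintype K] {q₀ q r n : ℕ} (hr : r.Prime) (hr2 : r ≠ 2) (hn : 1 ≤ n) (hq : q = q₀ ^ r) (hK : Fintype.card K = q ^ 2) (σ : K ≃+* K) (hσ : orderOf σ = r) : (Nat.card {g : ↥(Cfsg.GU n K q) // ∃ c : K, c ≠ 0 ∧ ((g : GL (Fin n) K) : Matrix (Fin n) (Fin n) K).map σ = c • ((g : GL (Fin n) K) : Matrix (Fin n) (Fin n) K)} : ℤ) = ((q + 1) / (q₀ + 1) : ℕ) * ((q₀ : ℤ) ^ (n * (n - 1) / 2) * ∏ i : Fin n, ((q₀ : ℤ) ^ ((i : ℕ) + 1) - (-1) ^ ((i : ℕ) + 1))) := by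
  have : Nonempty (Fin n) := ⟨⟨0, hn⟩⟩
  have := Fintype.ofFinite (H22.fixF σ)
  have ho := hr.odd_of_ne_two hr2
  have h0 : Fintype.card (H22.fixF σ) = q₀ ^ 2 := Nat.pow_left_injective hr.ne_zero (by
    have := H22.card_fixF_pow σ
    rwa [hσ, Nat.card_eq_fintype_card, Nat.card_eq_fintype_card, hK, hq, pow_right_comm] at this)
  have hj : ∀ x, σ x = x ↔ x ∈ Set.range (H22.fixF σ).subtype := fun x => by simp [H22.mem_fixF]
  have hp := H22.pow_q_eq h0 (H22.fixF σ).subtype ho hq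
  have d := H22.su_desc (n := n) hK h0 (H22.fixF σ).subtype ho hq
  have h1 := H22.card_fixCos (ι := Fin n) hj (Cfsg.GU n K q) (H22.N1 K q) (fun c hc => (H22.gu_iff hK).1
    (H22.isSS_inl.2 ⟨fun x y => ?_, fun x => ?_⟩)) (Cfsg.GU n _ q₀) (H22.N1 _ q₀) (fun g => ?_) (fun c => ?_)
    fun g hg l g₀ e => ?_
  · rw [H11.card_normOne_units hK, H11.card_normOne_units h0, H11.card_GU h0] at h1
    have h2 := H11.two_le_of_card_sq h0
    rw [← H22.guOrd_cast (by omega), ← Nat.cast_mul, Nat.cast_inj]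
    refine Nat.eq_of_mul_eq_mul_right (show 0 < q₀ + 1 by omega) (h1.trans ?_)
    rw [mul_right_comm _ _ (q₀ + 1), Nat.div_mul_cancel (by simpa [hq] using ho.nat_add_dvd_pow_add_pow q₀ 1), mul_comm]
    rfl
  · rw [H22.scal_mulVec, H22.scal_mulVec, H12.CForm.B_smul_left, H12.CForm.B_smul_right, ← mul_assoc, mul_comm _ c.1]
    exact congrArg (· * _) (H22.mem_N1.1 hc)
  · rw [H22.scal_mulVec, H12.CForm.N_smul]
    exact congrArg (· * _) (H22.mem_N1.1 hc)
  · rw [← H22.gu_iff hK, ← H22.gu_iff h0]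
    refine ⟨fun h => ?_, fun h => by simpa [H22.emb_apply] using d.isSS_emb h⟩
    obtain ⟨k, h1, h2⟩ := d.of_isSS_emb (g := g) (k := 1) (by simpa [H22.emb_apply] using h)
    rwa [(map_eq_one_iff _ (H22.fixF σ).subtype.injective).1 h1] at h2
  · rw [H22.mem_N1, H22.mem_N1, ← map_eq_one_iff _ (H22.fixF σ).subtype.injective, map_mul, ← hp]
    rfl
  · have h1 := (H22.isSS_inl.1 ((H22.gu_iff hK).2 hg)).2
    obtain ⟨k, h2, h3⟩ := d.of_isSS_emb (g := g₀) (k := l * l ^ q) (H22.isSS_inl.2 ⟨fun x y => by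
      rw [H22.emb_apply, one_mul, inv_one, mul_one, ← e, H22.gl_mul_mulVec, H22.gl_mul_mulVec, H22.scal_mulVec,
        H22.scal_mulVec, H12.CForm.B_smul_left, H12.CForm.B_smul_right, ← mul_assoc, mul_comm _ l.1,
        (H22.isSS_inl.1 ((H22.gu_iff hK).2 hg)).1, one_mul]; rfl, fun x => by
      rw [H22.emb_apply, one_mul, inv_one, mul_one, ← e, H22.gl_mul_mulVec, H22.scal_mulVec, H12.CForm.N_smul,
        h1, one_mul]; rfl⟩)
    obtain ⟨a, ha⟩ := H11.exists_norm_eq h0 (h3.fix d.nd₀ d.good₀)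
    have h4 : a ≠ 0 := by rintro rfl; simp [← ha] at h2
    refine ⟨(Units.mk0 a h4)⁻¹, H22.mem_N1.2 ?_⟩
    rw [← ha, map_mul, ← hp] at h2
    have h5 : (H22.fixF σ).subtype a ≠ 0 := by simpa using h4
    simp only [Units.val_mul, Units.coe_map, MonoidHom.coe_coe, Units.val_inv_eq_inv_val, Units.val_mk0, map_inv₀,
      mul_pow, inv_pow]
    field_simp
    exact h2.symm

end Cfsg.Agent.S2677
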