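import Cfsg.Statements.S2679
import Cfsg.Agent.H22.Emb

set_option autoImplicit false
open Cfsg

namespace Cfsg.Agent.S2679

/-- An elliptic orthogonal group embeds in the hyperbolic orthogonal group of the same dimension over the quadratic extension: for a field F with q elements and a field K with q² elements there is an injective homomorphism from O⁻_2m(F) (isometries of Σ_(j<m−1) x_j y_j + z₁² + a z₁z₂ + c z₂², binary part anisotropic) to O⁺_2m(K) (isometries of Σ_(j<m) x_j y_j over K). -/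
theorem result {F K : Type*} [Field F] [Fintype F] [Field K] [Fintype K] {q : ℕ} (hF : Fintype.card F = q) (hK : Fintype.card K = q ^ 2) {m : ℕ} (hm : 1 ≤ m) (a c : F) (hac : ∀ z₁ z₂ : F, z₁ ^ 2 + a * z₁ * z₂ + c * z₂ ^ 2 = 0 → z₁ = 0 ∧ z₂ = 0) : ∃ φ : ↥(Cfsg.isometryGroup F (Cfsg.quadFormMinus (m - 1) F a c)) →* ↥(Cfsg.isometryGroup K (Cfsg.quadFormPlus m K)), Function.Injective φ := by
  obtain ⟨_, h1, h2⟩ := H22.exists_alg_sq hK hF
  obtain ⟨k, rfl⟩ : ∃ k, m = k + 1 := ⟨m - 1, by omega⟩
  have d := H22.minus_desc (m := k) (algebraMap F K) (H11.disc_ne_zero_of_aniso hac)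
  obtain ⟨θ, hθ⟩ := H22.exists_root_of_finrank hac K h1
  refine (H22.oRep (H11.coe_qPlus _) (H11.qPlus_nondeg _)).exists_emb
    (H12.quad_iso_qPlus d.nd (by simp; ring) (H22.qMinus_hasTS hθ))
    ((H11.glEquiv.toMonoidHom.comp (H22.emb (algebraMap F K) 1)).comp (Subgroup.subtype _))
    (fun x y e => ?_) fun g => ?_
  · ext i j
    simpa [H22.emb_apply] using congrArg (fun z : GL _ K => z.1 i j) (H11.glEquiv.injective e)
  · have := H22.isSS_inl.1 (d.isSS_emb (g := g.1) (k := 1) (H22.isSS_inl.2 (by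
      simp only [one_mul]; exact (H22.oRep (H11.coe_qMinus k a c) d.nd₀).isom g)))
    simp only [map_one, one_mul] at this
    exact this

end Cfsg.Agent.S2679
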