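import Cfsg.Statements.S2682
import Cfsg.Agent.H22.Wall3

set_option autoImplicit false
open Cfsg

namespace Cfsg.Agent.S2682

/-- Centraliser order of an involution t of Sp_2m(q), q even, with s = rank(t − 1) even and f(v, tv) ≠ 0 for some v, f the symplectic form (type c_s): |C(t)| = q^(2ms − (3s² − 3s)/2 − 1) · |Sp_(s−2)(q)| · |Sp_(2m−2s)(q)|. -/
theorem result {F : Type*} [Field F] [Fintype F] [CharP F 2] {q : ℕ} (hF : Fintype.card F = q) {m s : ℕ} (t : Matrix.symplecticGroup (Fin m) F) (ht : t ^ 2 = 1) (hs : ((t : Matrix (Fin m ⊕ Fin m) (Fin m ⊕ Fin m) F) - 1).rank = s) (heven : Even s) (hna : ∃ v : Fin m ⊕ Fin m → F, Cfsg.sympForm m F v ((t : Matrix (Fin m ⊕ Fin m) (Fin m ⊕ Fin m) F).mulVec v) ≠ 0) : Nat.card ↥(Subgroup.centralizer ({t} : Set ↥(Matrix.symplecticGroup (Fin m) F))) = q ^ (2 * m * s - (3 * s ^ 2 - 3 * s) / 2 - 1) * ((q : ℕ) ^ (((s - 2) / 2) ^ 2) * ∏ i : Fin ((s - 2)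 / 2), (q ^ (2 * ((i : ℕ) + 1)) - 1)) * ((q : ℕ) ^ ((m - s) ^ 2) * ∏ i : Fin (m - s), (q ^ (2 * ((i : ℕ) + 1)) - 1)) := by
  subst hF
  let R := H22.spRep (Fin m) F
  have hd : Module.finrank F (Fin m ⊕ Fin m → F) = 2 * m := by simp [two_mul]
  replace ht : R.e t ^ 2 = 1 := by rw [← map_pow, ht, map_one]
  rw [H22.rank_eq_rg (M := t.1) (R.e t) fun _ => rfl] at hs
  have h1 := R.nd.two_mul_finrank_le (H22.rg_le_perp ht)
  obtain ⟨j, rfl⟩ : ∃ j, m = s + j := ⟨m - s, by omega⟩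
  have hS := H22.wall_sn H22.ch2_alt R.nd ht
  have h2 := H22.two_mul_choose_two (s + 1)
  have h3 := Nat.le_self_pow two_ne_zero s
  rw [H22.card_cent_map R.e, H22.card_cent H22.ch2_alt R.nd ht, H22.card_fixer_alt R.nd s j _
    (H22.rg_le_perp ht) hs hd, ← H22.spOrd_eq, ← H22.spOrd_eq, Nat.add_sub_cancel_left]
  have ha : ¬ H22.Alt (R.e t) := fun H => hna.elim fun v hv => hv ((H11.spForm_B_eq _ _ _).symm.trans (H v))
  have h0 : s ≠ 0 := fun h => ha fun x => by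
    rw [H22.rg_eq_zero_iff.1 (hs.trans h)]; exact H22.ch2_alt.self _ x
  obtain ⟨k, hk⟩ : ∃ k, s = 2 * (k + 1) := ⟨s / 2 - 1, by rw [Nat.even_iff] at heven; omega⟩
  rw [hS.card_isoB_even (mt (H22.alt_iff _ _).2 ha) (hs.trans hk), show (s - 2) / 2 = k by omega,
    show 2 * (s + j) * s - (3 * s ^ 2 - 3 * s) / 2 - 1 = 2 * j * s + (s + 1).choose 2 + (2 * k + 1) by
      ring_nf at h2 ⊢; omega]
  ring

end Cfsg.Agent.S2682
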