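import Cfsg.Statements.S2683
import Cfsg.Agent.H22.Wall3

set_option autoImplicit false
open Cfsg

namespace Cfsg.Agent.S2683

/-- For the hyperbolic form Σ x_j y_j on F^(2m) over a finite field with q elements, q even (excluding m = 2 over the field of two elements), and an involution x of the orthogonal group with s = rank(x − 1) odd (type b_s; such x lie outside Ω): the elements of Ω (the commutator subgroup of the orthogonal group) commuting with x number q^(2m(s−1) − (3s² − 3s)/2) · |Sp_(s−1)(q)| · |Sp_(2m−2s)(q)|, where |Sp_2k(q)| = q^(k²) Π_(i=1)^k (q^(2i) − 1). -/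
theorem result {F : Type*} [Field F] [Fintype F] [CharP F 2] {q : ℕ} (hF : Fintype.card F = q) {m s : ℕ} (h : Fintype.card F ≠ 2 ∨ m ≠ 2) (x : ↥(Cfsg.isometryGroup F (Cfsg.quadFormPlus m F))) (hx : x ^ 2 = 1) (hs : (((x : Matrix.GeneralLinearGroup (Fin m ⊕ Fin m) F) : Matrix (Fin m ⊕ Fin m) (Fin m ⊕ Fin m) F) - 1).rank = s) (hodd : Odd s) : Nat.card {g : ↥(Cfsg.Omega F (Cfsg.quadFormPlus m F)) // (g : ↥(Cfsg.isometryGroup F (Cfsg.quadFormPlus m F))) * x = x * (g : ↥(Cfsg.isometryGroup F (Cfsg.quadFormPlus m F)))} = q ^ (2 * m * (s - 1) - (3 * s ^ 2 - 3 * s) / 2) * ((q : ℕ) ^ (((s - 1) / 2) ^ 2) * ∏ i : Fin ((s - 1) / 2), (q ^ (2 * ((i : ℕ) + 1)) - 1)) * ((q : ℕ) ^ ((m - s) ^ 2) * ∏ i : Fin (m - s), (q ^ (2 * ((i : ℕ) + 1)) - 1)) := by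
  subst hF
  let R := H22.oRep (H11.coe_qPlus (F := F) m) (H11.qPlus_nondeg m)
  have hd : Module.finrank F (Fin m ⊕ Fin m → F) = 2 * m := by simp [two_mul]
  have hne := H12.notExc_of_card hd (by omega)
  have hG : H22.Gen _ := H12.closure_reflSet R.nd hne
  replace hx : R.e x ^ 2 = 1 := by rw [← map_pow, hx, map_one]
  rw [H22.rank_eq_rg (M := x.1.1) (R.e x) fun _ => rfl] at hs
  have h1 := R.nd.two_mul_finrank_le (H22.rg_le_perp hx)
  have hS := H22.wall_sn H22.ch2_quad R.nd hx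
  have h3 := H22.card_cent H22.ch2_quad R.nd hx
  have hQ : ∀ v, Cfsg.quadFormPlus m F ((x.1.1 - 1).mulVec v) =
      (H12.CForm.ofQuad (H11.qPlus m F)).B v ((R.e x).1 v) := fun v => by
    rw [Matrix.sub_mulVec, Matrix.one_mulVec]
    exact (congrFun (H11.coe_qPlus m) _).symm.trans (H22.Q_sub_apply (R.e x) v)
  rw [H22.card_comm_cent R.e, ← H22.spOrd_eq]
  have ha : ¬ H22.Alt (R.e x) := fun H => Nat.not_even_iff_odd.2 hodd (hs ▸ H.even H22.ch2_quad R.nd hx)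
  obtain ⟨k, rfl⟩ := hodd
  obtain ⟨j, rfl⟩ : ∃ j, m = 2 * k + j + 1 := ⟨m - (2 * k + 1), by omega⟩
  have h2 := H22.two_mul_choose_two (2 * k + 1)
  rw [hG.two_mul_card_cent R.nd hx fun H => ha H.2, H22.card_fixer_nonalt hx hs ha,
    hS.card_isoB_odd hs] at h3
  refine Nat.eq_of_mul_eq_mul_left two_pos (h3.trans ?_)
  rw [← H22.spOrd_eq, show (2 * k + 1 - 1) / 2 = k by omega, show 2 * k + j + 1 - (2 * k + 1) = j by omega,
    show 2 * (2 * k + j + 1) * (2 * k + 1 - 1) - (3 * (2 * k + 1) ^ 2 - 3 * (2 * k + 1)) / 2 =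
      2 * j * (2 * k) + (2 * k + 1).choose 2 by rw [Nat.add_sub_cancel]; ring_nf at h2 ⊢; omega]
  ring

end Cfsg.Agent.S2683
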