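import Cfsg.Statements.S2684
import Cfsg.Agent.H22.Wall3

set_option autoImplicit false
open Cfsg

namespace Cfsg.Agent.S2684

/-- For the hyperbolic form Q = Σ x_j y_j on F^(2m) over a finite field with q elements, q even (excluding m = 2 over the field of two elements), and an involution x ≠ 1 of the orthogonal group with s = rank(x − 1) even and Q vanishing on the image of x − 1 (equivalently f(v, xv) = 0 for all v, where f(u, w) = Q(u + w) − Q(u) − Q(w) is the bilinear form of Q; type a_s, which lies in Ω): its centraliser in Ω (the commutator subgroup of the orthogonal group) has order q^(2ms − (3s² + s)/2) · |Sp_s(q)| · |Ω⁺_(2m−2s)(q)|, where |Ω⁺_2k(q)| = q^(k(k−1)) (q^k − 1) Π_(i=1)^(k−1) (q^(2i) − 1) for k ≥ 1 and the last factor is 1 when s = m. -/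
theorem result {F : Type*} [Field F] [Fintype F] [CharP F 2] {q : ℕ} (hF : Fintype.card F = q) {m s : ℕ} (h : Fintype.card F ≠ 2 ∨ m ≠ 2) (x : ↥(Cfsg.isometryGroup F (Cfsg.quadFormPlus m F))) (hx : x ^ 2 = 1) (hx1 : x ≠ 1) (hs : (((x : Matrix.GeneralLinearGroup (Fin m ⊕ Fin m) F) : Matrix (Fin m ⊕ Fin m) (Fin m ⊕ Fin m) F) - 1).rank = s) (heven : Even s) (halt : ∀ v : Fin m ⊕ Fin m → F, Cfsg.quadFormPlus m F ((((x : Matrix.GeneralLinearGroup (Fin m ⊕ Fin m) F) : Matrix (Fin m ⊕ Fin m) (Fin m ⊕ Fin m) F) - 1).mulVec v) = 0) : Nat.card {g : ↥(Cfsg.Omega F (Cfsg.quadFormPlus m F)) // (g : ↥(Cfsg.isometryGroup F (Cfsg.quadFormPlus m F))) * x = x * (g : ↥(Cfsg.isometryGroup F (Cfsg.quadFormPlus m F)))} = q ^ (2 * m * s - (3 * s ^ 2 + s) / 2) * ((q : ℕ) ^ ((s / 2) ^ 2) * ∏ i : Fin (s / 2), (q ^ (2 * ((i : ℕ) + 1)) - 1)) * (if s = m then 1 else q ^ ((m - s) * (m - s - 1)) * (q ^ (m - s) - 1) * ∏ i : Fin (m - s - 1), (q ^ (2 * ((i : ℕ) + 1))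 - 1)) := by
  subst hF
  let R := H22.oRep (H11.coe_qPlus (F := F) m) (H11.qPlus_nondeg m)
  have hd : Module.finrank F (Fin m ⊕ Fin m → F) = 2 * m := by simp [two_mul]
  have hne := H12.notExc_of_card hd (by omega)
  have hG : H22.Gen _ := H12.closure_reflSet R.nd hne
  replace hx : R.e x ^ 2 = 1 := by rw [← map_pow, hx, map_one]
  rw [H22.rank_eq_rg (M := x.1.1) (R.e x) fun _ => rfl] at hs
  have h1 := R.nd.two_mul_finrank_le (H22.rg_le_perp hx)
  have hS := H22.wall_sn H22.ch2_quad R.nd hx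
  have h3 := H22.card_cent H22.ch2_quad R.nd hx
  have hQ : ∀ v, Cfsg.quadFormPlus m F ((x.1.1 - 1).mulVec v) =
      (H12.CForm.ofQuad (H11.qPlus m F)).B v ((R.e x).1 v) := fun v => by
    rw [Matrix.sub_mulVec, Matrix.one_mulVec]
    exact (congrFun (H11.coe_qPlus m) _).symm.trans (H22.Q_sub_apply (R.e x) v)
  rw [H22.card_comm_cent R.e, ← H22.spOrd_eq]
  have ha : H22.Alt (R.e x) := fun v => (hQ v).symm.trans (halt v)
  obtain ⟨k, hk⟩ := heven
  obtain ⟨j, rfl⟩ : ∃ j, m = s + j := ⟨m - s, by omega⟩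
  have h2 := H22.two_mul_choose_two s
  rw [H22.card_fixer_plus s j _ (ha.ts H22.ch2_quad hx) hs rfl,
    hS.card_isoB_alt ((H22.alt_iff _ _).1 ha) (j := k) (by omega)] at h3
  rw [show s / 2 = k by omega, show 2 * (s + j) * s - (3 * s ^ 2 + s) / 2 = 2 * j * s + s.choose 2 by
      ring_nf at h2 ⊢; omega, Nat.add_sub_cancel_left]
  cases j with
  | zero =>
    rw [inf_eq_left.2 (H22.cent_le_comm R.nd hne hx (by omega) ha), h3, if_pos (by simp), H22.oOrd]
    ring
  | succ j =>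
    rw [hG.two_mul_card_cent R.nd hx fun H => by omega] at h3
    refine Nat.eq_of_mul_eq_mul_left two_pos (h3.trans ?_)
    rw [if_neg (by omega), H22.oOrd, Finset.prod_range, Nat.add_sub_cancel]
    ring

end Cfsg.Agent.S2684
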