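import Cfsg.Statements.S2685
import Cfsg.Agent.H22.Wall3

set_option autoImplicit false
open Cfsg

namespace Cfsg.Agent.S2685

/-- For the hyperbolic form Q = Σ x_j y_j on F^(2m) over a finite field with q elements, q even (excluding m = 2 over the field of two elements), and an involution x of the orthogonal group with s = rank(x − 1) even and Q not vanishing on the image of x − 1 (f(v, xv) ≠ 0 for some v, where f(u, w) = Q(u + w) − Q(u) − Q(w) is the bilinear form of Q; type c_s, which lies in Ω): its centraliser in Ω (the commutator subgroup of the orthogonal group) has order q^(2m(s−1) − (3s² − 5s)/2 − 1) · |Sp_(s−2)(q)| · |Sp_(2m−2s)(q)|. -/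
theorem result {F : Type*} [Field F] [Fintype F] [CharP F 2] {q : ℕ} (hF : Fintype.card F = q) {m s : ℕ} (h : Fintype.card F ≠ 2 ∨ m ≠ 2) (x : ↥(Cfsg.isometryGroup F (Cfsg.quadFormPlus m F))) (hx : x ^ 2 = 1) (hs : (((x : Matrix.GeneralLinearGroup (Fin m ⊕ Fin m) F) : Matrix (Fin m ⊕ Fin m) (Fin m ⊕ Fin m) F) - 1).rank = s) (heven : Even s) (hna : ∃ v : Fin m ⊕ Fin m → F, Cfsg.quadFormPlus m F ((((x : Matrix.GeneralLinearGroup (Fin m ⊕ Fin m) F) : Matrix (Fin m ⊕ Fin m) (Fin m ⊕ Fin m) F) - 1).mulVec v) ≠ 0) : Nat.card {g : ↥(Cfsg.Omega F (Cfsg.quadFormPlus m F)) // (g : ↥(Cfsg.isometryGroup F (Cfsg.quadFormPlus m F))) * x = x * (g : ↥(Cfsg.isometryGroup F (Cfsg.quadFormPlus m F)))} = q ^ (2 * m * (s - 1) - (3 * s ^ 2 - 5 * s) / 2 - 1) * ((q : ℕ) ^ (((s - 2) / 2) ^ 2) * ∏ i : Fin ((s - 2) / 2), (q ^ (2 * ((i : ℕ) + 1)) - 1)) * ((q : ℕ) ^ ((m - s) ^ 2) * ∏ i : Fin (m - s), (q ^ (2 * ((i : ℕ) + 1)) - 1)) :=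 by
  subst hF
  let R := H22.oRep (H11.coe_qPlus (F := F) m) (H11.qPlus_nondeg m)
  have hd : Module.finrank F (Fin m ⊕ Fin m → F) = 2 * m := by simp [two_mul]
  have hne := H12.notExc_of_card hd (by omega)
  have hG : H22.Gen _ := H12.closure_reflSet R.nd hne
  replace hx : R.e x ^ 2 = 1 := by rw [← map_pow, hx, map_one]
  rw [H22.rank_eq_rg (M := x.1.1) (R.e x) fun _ => rfl] at hs
  have h1 := R.nd.two_mul_finrank_le (H22.rg_le_perp hx)
  have hS := H22.wall_sn H22.ch2_quad R.nd hx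
  have h3 := H22.card_cent H22.ch2_quad R.nd hx
  have hQ : ∀ v, Cfsg.quadFormPlus m F ((x.1.1 - 1).mulVec v) =
      (H12.CForm.ofQuad (H11.qPlus m F)).B v ((R.e x).1 v) := fun v => by
    rw [Matrix.sub_mulVec, Matrix.one_mulVec]
    exact (congrFun (H11.coe_qPlus m) _).symm.trans (H22.Q_sub_apply (R.e x) v)
  rw [H22.card_comm_cent R.e, ← H22.spOrd_eq]
  have ha : ¬ H22.Alt (R.e x) := fun H => hna.elim fun v hv => hv ((hQ v).trans (H v))
  have h0 : s ≠ 0 := fun h => ha fun y => by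
    rw [H22.rg_eq_zero_iff.1 (hs.trans h)]; exact H22.ch2_quad.self _ y
  obtain ⟨k, rfl⟩ : ∃ k, s = 2 * k + 1 + 1 := ⟨s / 2 - 1, by rw [Nat.even_iff] at heven; omega⟩
  obtain ⟨j, rfl⟩ : ∃ j, m = 2 * k + 1 + j + 1 := ⟨m - (2 * k + 2), by omega⟩
  have h2 := H22.two_mul_choose_two (2 * k + 1 + 1)
  rw [hG.two_mul_card_cent R.nd hx fun H => ha H.2, H22.card_fixer_nonalt hx hs ha,
    hS.card_isoB_even (mt (H22.alt_iff _ _).2 ha) (j := k) hs] at h3
  refine Nat.eq_of_mul_eq_mul_left two_pos (h3.trans ?_)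
  rw [← H22.spOrd_eq, show (2 * k + 1 + 1 - 2) / 2 = k by omega,
    show 2 * k + 1 + j + 1 - (2 * k + 1 + 1) = j by omega,
    show 2 * (2 * k + 1 + j + 1) * (2 * k + 1 + 1 - 1) -
      (3 * (2 * k + 1 + 1) ^ 2 - 5 * (2 * k + 1 + 1)) / 2 - 1 =
      2 * j * (2 * k + 1) + (2 * k + 1 + 1).choose 2 + (2 * k + 1) by
        rw [Nat.add_sub_cancel]; ring_nf at h2 ⊢; omega]
  ring

end Cfsg.Agent.S2685
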