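import Cfsg.Statements.S2703
import Cfsg.Agent.H22.GA3

set_option autoImplicit false
open Cfsg

namespace Cfsg.Agent.S2703

/-- Let T = PSL_n(F) over the field with q elements, q odd, n = 2m ≥ 4 even, and ι the inverse-transpose automorphism. Its centralizer in G = Inndiag(T) (the image of PGL_n(F)) is isomorphic to the projective conformal orthogonal group of the plus-type form Σ xᵢ yᵢ in dimension n when n(q − 1)/4 is even, and to that of a minus-type form (Σ xᵢ yᵢ + z₁² + a z₁ z₂ + b z₂² with anisotropic binary part) when n(q − 1)/4 is odd. -/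
theorem result {F : Type*} [Field F] [Fintype F] (hodd : Odd (Fintype.card F)) {n m : ℕ} (hm : 2 ≤ m) (hnm : n = 2 * m) (ι : MulAut (Matrix.ProjectiveSpecialLinearGroup (Fin n) F)) (hι : Cfsg.IsInverseTransposeAutPSL ι) :
    (Even (n * (Fintype.card F - 1) / 4) → Nonempty (↥(Cfsg.inndiagPSL n F ⊓ Subgroup.centralizer {ι}) ≃* Cfsg.PGO F (Cfsg.quadFormPlus m F))) ∧ (¬ Even (n * (Fintype.card F - 1) / 4) → ∃ a b : F, (∀ z₁ z₂ : F, z₁ ^ 2 + a * z₁ * z₂ + b * z₂ ^ 2 = 0 → z₁ = 0 ∧ z₂ = 0) ∧ Nonempty (↥(Cfsg.inndiagPSL n F ⊓ Subgroup.centralizer {ι}) ≃* Cfsg.PGO F (Cfsg.quadFormMinus (m - 1) F a b))) := by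
  obtain ⟨m, rfl⟩ : ∃ k, m = k + 1 := ⟨m - 1, by omega⟩
  obtain ⟨a, b, hab⟩ := H22.exists_aniso F
  have h2 := H12.odd_card_iff.1 hodd
  have h1 := (H22.pslFam F (n := n) (by omega)).cent (γ := ι) (A := 1)
    ((H22.invTPSL_iff.1 hι).trans (by simp [H22.gA]))
  have h3 := H22.psim_cases h2 (1 : GL (Fin n) F).isUnit (by simp) (m := m) (by simpa using hnm) hab
  have h4 : H12.qsign (1 : GL (Fin n) F).1.det = H12.qsign (-1 : F) ^ (m + 1) ↔
      Even (n * (Fintype.card F - 1) / 4) := by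
    rw [← H12.qsign_pow (by simp), Units.val_one, Matrix.det_one, H12.qsign_one, eq_comm, H12.qsign_eq_one,
      ← not_iff_not, H22.isSquare_neg_one_pow' hodd]
    obtain ⟨s, hs⟩ := hodd
    rw [hs, hnm, Nat.add_sub_cancel, show 2 * (m + 1) * (2 * s) = 4 * ((m + 1) * s) by ring,
      Nat.mul_div_cancel_left _ four_pos, Nat.not_even_iff_odd, Nat.odd_mul, Nat.odd_iff (n := s)]
    exact and_congr_right' (by omega)
  exact ⟨fun h => H22.ne_trans h1 (h3.1 (h4.2 h)), fun h => ⟨a, b, hab, H22.ne_trans h1 (h3.2 (mt h4.1 h))⟩⟩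

end Cfsg.Agent.S2703
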