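import Cfsg.Statements.S2705
import Cfsg.Agent.H22.AutPSU

set_option autoImplicit false
open Cfsg

namespace Cfsg.Agent.S2705

/-- Let T = PSU_n(q) be simple (n ≥ 3, (n, q) ≠ (3, 2), q = p^f), realised over the field F with q² elements, G = Inndiag(T) the image of PGU_n(q) in Aut(T), and x a field automorphism of T (conjugate to a standard field automorphism of odd order) of odd prime order r. Then r divides f; C_G(x) is isomorphic to PGU_n(q₀) with q₀ = p^(f/r), realised over a field F₀ with q₀² elements; and the G-class of x is the union of exactly gcd(n, (q + 1)/(q₀ + 1)) T-classes. -/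
theorem result {F : Type*} [Field F] [Fintype F] {p f q : ℕ} [Fact p.Prime] (hq : q = p ^ f) (hf : 1 ≤ f) (hF : Fintype.card F = q ^ 2) {n : ℕ} (hn : 3 ≤ n) (hs : ¬ (n = 3 ∧ q = 2)) (x : MulAut (Cfsg.PSU n F q)) (hx : Cfsg.IsFieldAutClassPSU x) {r : ℕ} (hr : r.Prime) (hro : Odd r) (hxr : orderOf x = r) (F₀ : Type*) [Field F₀] [Fintype F₀] (hF₀ : Fintype.card F₀ = p ^ (2 * (f / r))) :
    r ∣ f ∧ Nonempty (↥(Cfsg.inndiagPSU n F q ⊓ Subgroup.centralizer {x}) ≃* Cfsg.PGU n F₀ (p ^ (f / r))) ∧ Cfsg.splitClassCount (Cfsg.inndiagPSU n F q) (Cfsg.Inn (Cfsg.PSU n F q)) x = Nat.gcd n ((q + 1) / (p ^ (f / r) + 1)) := by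
  obtain ⟨α, φ, σ, hσ, -, hφ, hα⟩ := hx
  have := (H22.suData hF hn).nonempty
  have hN := (H22.suData hF hn).ThS_range_normal (H22.su_Th_surj hF hn hs)
  rw [(H22.stdFieldPSU_iff hF hn).1 hφ] at hα
  have ho : orderOf σ = r := (H22.suData hF hn).orderOf_eq_of_prime
    (γ := H22.stdF _ σ (H22.su_isSS_inr hF σ)) hr (by
    rw [← hα, ← hxr]; exact (MulAut.conj α).orderOf_eq x) hσ
  obtain ⟨h3, h4⟩ := H22.card_fixF (p := p) (f := 2 * f) (by rw [hF, hq, ← pow_mul, mul_comm]) σ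
  rw [ho] at h3 h4
  have h5 : r ∣ f := (Nat.Coprime.dvd_mul_left (Nat.coprime_two_right.2 hro)).1 h3
  rw [Nat.mul_div_assoc _ h5] at h4
  obtain ⟨j, hj⟩ := H22.exists_fix_embedding σ F₀ (hF₀.trans h4.symm)
  have hF₀' : Fintype.card F₀ = (p ^ (f / r)) ^ 2 := by rw [hF₀, ← pow_mul, mul_comm]
  have hq' : q = (p ^ (f / r)) ^ r := by rw [hq, ← pow_mul, Nat.div_mul_cancel h5]
  have d := H22.su_desc (n := n) hF hF₀' j hro hq'
  refine ⟨h5, ?_, ?_⟩
  · rw [H22.inndiagPSU_eq hF hn, MonoidHom.range_eq_map]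
    rw [MonoidHom.range_eq_map] at hN
    exact (H22.suData hF hn).centralizer_equiv d hj (H22.stdF_eq _) ⊤ hα
      (fun _ => trivial) _ (H22.GU_le_GSim hF₀') fun g =>
        ⟨fun _ => H22.exists_scal_mul_mem_GU hF₀' g, fun _ => trivial⟩
  · obtain ⟨k, hk⟩ : p ^ (f / r) + 1 ∣ q + 1 := by
      rw [hq']; simpa using Odd.nat_add_dvd_pow_add_pow (p ^ (f / r)) 1 hro
    have hc : Nat.card (H22.N1 F q) = k * (p ^ (f / r) + 1) := by
      rw [H11.card_normOne_units hF, hk, mul_comm]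
    rw [H22.inndiagPSU_eq hF hn, (H22.suData hF hn).split_eq d hj (H22.stdF_eq _) _ hα
      (H22.suData hF hn).inn_le _ (H22.range_iU hF hn) _ (H22.suδ_surj hF (by omega))
      (H22.suδ_eq_one hF hn) _ (fun a => ?_), H22.index_map_of_range n k (Dvd.intro _ hc.symm), hk,
      Nat.mul_div_cancel_left _ (Nat.succ_pos _)]
    rw [H22.range_pow_eq_ker hc]
    have key : ∀ g₀ : GU n F₀ (p ^ (f / r)), H22.emb j 1 g₀.1 ∈ GU n F q := fun g₀ =>
      (H22.gu_iff hF).1 (by simpa using d.isSS_emb ((H22.gu_iff hF₀').2 g₀.2))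
    constructor
    · rintro ⟨u, hu, rfl⟩
      have hu' : (u.1 : F) ^ (p ^ (f / r) + 1) = 1 := by
        simpa using congrArg (fun z : H22.N1 F q => (z.1 : F)) hu
      obtain ⟨u₀, hu₀⟩ := (hj u.1).1 (by
        rw [H22.fix_iff_pow, h4, ← hF₀, ← Nat.sub_add_cancel (Fintype.card_pos (α := F₀)),
          H11.card_sub_one_eq hF₀', pow_succ, pow_mul, hu']; simp)
      have h0 : u₀ ≠ 0 := by rintro rfl; exact u.1.ne_zero (by simp [← hu₀])
      obtain ⟨g₀, hg₀⟩ := H22.detU_surj (n := n) hF₀' (by omega) ⟨Units.mk0 u₀ h0,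
        Units.ext (j.injective (by simpa [hu₀] using hu'))⟩
      refine ⟨⟨_, key g₀⟩, 1, H22.iU hF₀' g₀, 
        congrArg (QuotientGroup.mk' _) (Subtype.ext (Units.ext ?_)),
        by rw [map_one, one_mul]; rfl⟩
      change ((Matrix.GeneralLinearGroup.det (H22.emb j 1 g₀.1) : Fˣ) : F) = _
      rw [H22.det_emb, show Matrix.GeneralLinearGroup.det g₀.1 = _ from congrArg Subtype.val hg₀]
      exact hu₀
    · rintro ⟨g, c, g₀, rfl, e⟩
      obtain ⟨c₀, hc₀⟩ := H22.exists_scal_mul_mem_GU hF₀' g₀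
      refine ⟨H22.detU hF ⟨_, key ⟨_, hc₀⟩⟩, Subtype.ext (Units.ext ?_), ?_⟩
      · change ((Matrix.GeneralLinearGroup.det (H22.emb j 1 _) : Fˣ) : F) ^ _ = 1
        rw [H22.det_emb, Units.coe_map, MonoidHom.coe_coe, ← map_pow, pow_succ']
        exact (congrArg j (H11.det_norm_of_mem_GU hF₀' hc₀)).trans (map_one j)
      · change H22.suδ hF _ = _
        rw [← mul_inv_eq_one, ← map_inv, ← map_mul, H22.suδ_eq_one hF hn, map_mul, map_inv,
          show H22.iU hF ⟨_, key ⟨_, hc₀⟩⟩ = d.embS (H22.scS _ c₀ * g₀) from rfl, map_mul d.embS,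
          ← e, d.embS_scS]
        simp only [map_mul, map_inv, H22.FormData.ThS_scS, one_mul, mul_inv_cancel]
        exact one_mem _

end Cfsg.Agent.S2705
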