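import Cfsg.Statements.S2710
import Cfsg.Agent.H22.GA4

set_option autoImplicit false
open Cfsg

namespace Cfsg.Agent.S2710

/-- Let T = PSU_n(q) with n ≥ 4 divisible by 4 (n = 2m) and q odd, realised over the field F with q² elements, G = Inndiag(T) the image of PGU_n(q), and φ the standard field automorphism of T attached to the q-th power map of F (it induces inverse-transpose on the unitary matrices and is a graph automorphism). Its centralizer in G is isomorphic to the projective conformal orthogonal group of the plus-type form Σ xᵢ yᵢ in dimension n over a field F₀ with q elements. (Dimensions n ≡ 2 (mod 4) are not covered.) -/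
theorem result {F : Type*} [Field F] [Fintype F] {q : ℕ} (hodd : Odd q) (hF : Fintype.card F = q ^ 2) {n m : ℕ} (hm : 2 ≤ m) (hnm : n = 2 * m) (h4 : 4 ∣ n) (F₀ : Type*) [Field F₀] [Fintype F₀] (hF₀ : Fintype.card F₀ = q) (σ : F ≃+* F) (hσ : ∀ a : F, σ a = a ^ q) (φ : MulAut (Cfsg.PSU n F q)) (hφ : Cfsg.IsFieldAutPSUOf σ φ) :
    Nonempty (↥(Cfsg.inndiagPSU n F q ⊓ Subgroup.centralizer {φ}) ≃* Cfsg.PGO F₀ (Cfsg.quadFormPlus m F₀)) := by
  obtain ⟨j, hj⟩ := H22.exists_fix_embedding σ F₀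
    (hF₀.trans (H22.card_fix_two hF (H22.orderOf_frob hF hσ)).symm)
  obtain ⟨m, rfl⟩ : ∃ k, m = k + 1 := ⟨m - 1, by omega⟩
  obtain ⟨a, b, hab⟩ := H22.exists_aniso F₀
  have hn : 3 ≤ n := by omega
  have h1 := (H22.psuFam hF hσ hn hj).cent (γ := φ) (A := 1) ⟨1, 1, by
    rw [H22.gtau, ← H22.stdF_eq (H22.su_isSS_inr hF σ)]; exact Subtype.property _, ((H22.stdFieldPSU_iff hF hn).1 hφ).trans
      (congrArg _ (Subtype.ext (H22.stdF_eq _))), by simp [H22.hgm]⟩
  refine H22.ne_trans h1 ((H22.psim_cases (H12.odd_card_iff.1 (hF₀ ▸ hodd)) (1 : GL (Fin n) F₀).isUnit (by simp)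
    (m := m) (by simpa using hnm) hab).1 ?_)
  rw [Int.units_pow_eq_pow_mod_two, show (m + 1) % 2 = 0 by omega]; simp

end Cfsg.Agent.S2710
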