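import Cfsg.Statements.S2712
import Cfsg.Agent.H22.AutPSp

set_option autoImplicit false
open Cfsg

namespace Cfsg.Agent.S2712

/-- Let T = PSp_{2m}(F) be simple over the field F with p^f elements (m ≥ 2, (2m, |F|) ≠ (4, 2)), G = Inndiag(T) the image of the projective conformal symplectic group PGSp_{2m}(F), and x a field automorphism of T of prime order r. Then r divides f; C_G(x) is isomorphic to PGSp_{2m}(F₀) for a field F₀ with p^(f/r) elements; and the G-class of x is the union of exactly gcd(gcd(2, p^f − 1), r) T-classes. -/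
theorem result {F : Type*} [Field F] [Fintype F] {p f : ℕ} [Fact p.Prime] (hF : Fintype.card F = p ^ f) (hf : 1 ≤ f) {m : ℕ} (hm : 2 ≤ m) (hs : m = 2 → 3 ≤ Fintype.card F) (x : MulAut (Cfsg.PSp m F)) (hx : Cfsg.IsFieldAutClassPSp x) {r : ℕ} (hr : r.Prime) (hxr : orderOf x = r) (F₀ : Type*) [Field F₀] [Fintype F₀] (hF₀ : Fintype.card F₀ = p ^ (f / r)) :
    r ∣ f ∧ Nonempty (↥(Cfsg.inndiagPSp m F ⊓ Subgroup.centralizer {x}) ≃* Cfsg.PGSp m F₀) ∧ Cfsg.splitClassCount (Cfsg.inndiagPSp m F) (Cfsg.Inn (Cfsg.PSp m F)) x = Nat.gcd (Nat.gcd 2 (p ^ f - 1)) r := by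
  obtain ⟨α, σ, hσ, hα⟩ := hx
  have := H22.fin_sum_nonempty hm
  have hN := H22.sp_inndiag_normal (F := F) hm
  rw [H22.stdFieldPSp_iff hm] at hα
  have ho : orderOf σ = r := (H22.spData F hm).orderOf_eq_of_prime
    (γ := H22.stdF _ σ (H22.sp_isSS_inr σ)) hr (by
    rw [← hα, ← hxr]; exact (MulAut.conj α).orderOf_eq x) hσ
  obtain ⟨h3, h4⟩ := H22.card_fixF hF σ
  rw [ho] at h3 h4
  obtain ⟨j, hj⟩ := H22.exists_fix_embedding σ F₀ (hF₀.trans h4.symm)
  refine ⟨h3, ?_, ?_⟩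
  · rw [H22.inndiagPSp_eq hm, MonoidHom.range_eq_map]
    rw [MonoidHom.range_eq_map] at hN
    exact (H22.spData F hm).centralizer_equiv (H22.sp_desc j) hj (H22.stdF_eq _) ⊤ hα
      (fun _ => trivial) _ H22.GSim_sp.ge fun g => ⟨fun _ => ⟨1, by
        rw [map_one, one_mul, ← H22.GSim_sp]; exact g.2⟩, fun _ => trivial⟩
  · rw [H22.inndiagPSp_eq hm, (H22.spData F hm).split_eq (H22.sp_desc j) hj (H22.stdF_eq _) _ hα
      (H22.spData F hm).inn_le (MonoidHom.id _) rfl _ (H22.spδ_surj hm) (H22.spδ_eq_one hm) _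
      (fun a => ?_), H22.index_map_of_range 2 _ (H22.card_sub_one_dvd σ), h4,
      Nat.card_eq_fintype_card, hF]
    · have e : p ^ f = (p ^ (f / r)) ^ r := by rw [← pow_mul, Nat.div_mul_cancel h3]
      rw [e]
      refine H22.geom_div_odd ?_ hr.pos
      rw [← hF₀]; exact Fintype.one_lt_card
    · constructor
      · rintro ⟨u, hu, rfl⟩
        obtain ⟨u₀, hu₀⟩ := (hj _).1 ((H22.mem_range_pow_iff σ u).1 hu)
        obtain ⟨g, hg⟩ := H22.sp_mult_surj (m := m)
          (Units.mk0 u₀ (by rintro rfl; exact u.ne_zero (by simp [← hu₀])))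
        refine ⟨_, 1, g, ?_, by rw [map_one, one_mul]; rfl⟩
        refine congrArg _ (((H22.sp_desc j).mult_embS g).trans (Units.ext ?_))
        rw [hg]; exact hu₀
      · rintro ⟨g, c, g₀, rfl, e⟩
        refine ⟨_, (H22.mem_range_pow_iff σ (H22.mult H11.spForm_nondeg
          ((H22.sp_desc j).embS g₀))).2 ?_, ?_⟩
        · rw [(H22.sp_desc j).mult_embS g₀]; exact (hj _).2 ⟨_, rfl⟩
        · change H22.spδ hm F _ = _
          rw [← e, map_mul, (H22.spδ_eq_one hm _).2 (by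
            rw [H22.FormData.ThS_scS]; exact one_mem _), one_mul]; rfl

end Cfsg.Agent.S2712
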