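import Cfsg.Statements.S2714
import Cfsg.Agent.H22.OrthSplit2

set_option autoImplicit false
open Cfsg

namespace Cfsg.Agent.S2714

/-- Let T = Ω_{2m+1}(F) (m ≥ 3, |F| = p^f odd; realised as PΩ of the form x₀² + Σ xᵢ yᵢ), G = Inndiag(T) the image of the conformal orthogonal group in Aut(T), and x a field automorphism of T of prime order r. Then r divides f; C_G(x) is isomorphic to Inndiag(Ω_{2m+1}(F₀)) for a field F₀ with p^(f/r) elements; and the G-class of x is a single T-class when r is odd and the union of exactly two T-classes when r = 2. -/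
theorem result {F : Type*} [Field F] [Fintype F] {p f : ℕ} [Fact p.Prime] (hF : Fintype.card F = p ^ f) (hf : 1 ≤ f) (hodd : Odd (Fintype.card F)) {m : ℕ} (hm : 3 ≤ m) (x : MulAut (Cfsg.POmega F (Cfsg.quadFormOdd m F))) (hx : Cfsg.IsFieldAutClassPOmega (Cfsg.quadFormOdd m F) x) {r : ℕ} (hr : r.Prime) (hxr : orderOf x = r) (F₀ : Type*) [Field F₀] [Fintype F₀] (hF₀ : Fintype.card F₀ = p ^ (f / r)) :
    r ∣ f ∧ Nonempty (↥(Cfsg.inndiagPOmegaOdd m F ⊓ Subgroup.centralizer {x}) ≃* ↥(Cfsg.inndiagPOmegaOdd m F₀)) ∧ (Odd r → Cfsg.splitClassCount (Cfsg.inndiagPOmegaOdd m F) (Cfsg.Inn (Cfsg.POmega F (Cfsg.quadFormOdd m F))) x = 1) ∧ (r = 2 → Cfsg.splitClassCount (Cfsg.inndiagPOmegaOdd m F) (Cfsg.Inn (Cfsg.POmega F (Cfsg.quadFormOdd m F))) x = 2) := by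
  have h2 := H12.odd_card_iff.1 hodd
  obtain ⟨α, σ, h1, hα⟩ := H22.fieldClass_elim (H11.coe_qOdd m) (H11.qOdd_nondeg h2 m)
    (H22.five_odd (by omega)) H22.odd_isSS_inr hx
  have hN := H22.FormData.ThS_range_normal _ (H22.odd_Th_surj h2 hm)
  have ho : orderOf σ = r := H22.orderOf_rS _ _ _ hα h1 hr hxr
  obtain ⟨h3, h4⟩ := H22.card_fixF hF σ
  rw [ho] at h3 h4
  obtain ⟨j, hj⟩ := H22.exists_fix_embedding σ F₀ (hF₀.trans h4.symm)
  have h2' : (2 : F₀) ≠ 0 := fun h => h2 (by rw [← map_ofNat j 2, h, map_zero])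
  have e : inndiagPOmegaOdd m F = _ :=
    H22.pgoAut_eq (H11.coe_qOdd m) (H11.qOdd_nondeg h2 m) (H22.five_odd (by omega))
  have e₀ : inndiagPOmegaOdd m F₀ = _ :=
    H22.pgoAut_eq (H11.coe_qOdd m) (H11.qOdd_nondeg h2' m) (H22.five_odd (by omega))
  rw [e, e₀, H22.odd_split _ _ _ hj (H22.odd_desc j h2) (H22.stdF_eq _) hα (by simp [parity_simps])
    h2, ho]
  refine ⟨h3, ?_, fun h => if_pos h, fun h => if_neg (by rw [h]; decide)⟩
  rw [MonoidHom.range_eq_map] at hN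
  rw [MonoidHom.range_eq_map, MonoidHom.range_eq_map]
  exact H22.FormData.centralizer_equiv' _ _ (H22.odd_desc j h2) hj (H22.stdF_eq _) ⊤ hα
    (fun _ => trivial) ⊤ fun _ => Iff.rfl

end Cfsg.Agent.S2714
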