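import Cfsg.Statements.S2715
import Cfsg.Agent.H22.Tri4

set_option autoImplicit false
open Cfsg

namespace Cfsg.Agent.S2715

/-- Let T = PΩ⁺_{2m}(F) (m ≥ 4, |F| = p^f; the form Σ xᵢ yᵢ), G = Inndiag(T) the image of the class-preserving similarities in Aut(T), and x a field automorphism of T of prime order r. Then r divides f; C_G(x) is isomorphic to Inndiag(PΩ⁺_{2m}(F₀)) for a field F₀ with p^(f/r) elements; and the G-class of x is the union of exactly c T-classes, where c = 1 if r is odd or p = 2, and otherwise (r = 2, p odd) c = 2 when m is odd and p^(f/2) ≡ 1 (mod 4), and c = 4 in the remaining cases. -/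
theorem result {F : Type*} [Field F] [Fintype F] {p f : ℕ} [Fact p.Prime] (hF : Fintype.card F = p ^ f) (hf : 1 ≤ f) {m : ℕ} (hm : 4 ≤ m) (x : MulAut (Cfsg.POmega F (Cfsg.quadFormPlus m F))) (hx : Cfsg.IsFieldAutClassPOmega (Cfsg.quadFormPlus m F) x) {r : ℕ} (hr : r.Prime) (hxr : orderOf x = r) (F₀ : Type*) [Field F₀] [Fintype F₀] (hF₀ : Fintype.card F₀ = p ^ (f / r)) :
    r ∣ f ∧ Nonempty (↥(Cfsg.inndiagPOmegaPlus m F ⊓ Subgroup.centralizer {x}) ≃* ↥(Cfsg.inndiagPOmegaPlus m F₀)) ∧ ((Odd r ∨ p = 2) → Cfsg.splitClassCount (Cfsg.inndiagPOmegaPlus m F) (Cfsg.Inn (Cfsg.POmega F (Cfsg.quadFormPlus m F))) x = 1) ∧ ((r = 2 ∧ p ≠ 2 ∧ Odd m ∧ p ^ (f / 2) % 4 = 1) → Cfsg.splitClassCount (Cfsg.inndiagPOmegaPlus m F) (Cfsg.Inn (Cfsg.POmega F (Cfsg.quadFormPlus m F))) x = 2) ∧ ((r = 2 ∧ p ≠ 2 ∧ ¬ (Odd m ∧ p ^ (f / 2) % 4 = 1)) → Cfsg.splitClassCount (Cfsg.inndiagPOmegaPlus m F) (Cfsg.Inn (Cfsg.POmega F (Cfsg.quadFormPlus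 m F))) x = 4) := by
  have := H22.fin_sum_ne (m := m) (by omega)
  have hN : ((H22.Dk (H11.qPlus_nondeg (F := F) m) m).ker.map
      (H22.plusData F (m := m) (by omega)).ThS).Normal := by
    rcases hm.eq_or_lt with rfl | hm
    · exact H22.exists_isTri.choose_spec.normal
    · exact H22.inndiag_normal _ _ _ H22.card_plus (H22.plus_Th_surj hm)
  obtain ⟨α, σ, h1, hα⟩ := H22.fieldClass_elim (H11.coe_qPlus m) (H11.qPlus_nondeg m)
    (H22.five_plus (by omega)) H22.plus_isSS_inr hx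
  have ho : orderOf σ = r := H22.orderOf_rS _ _ _ hα h1 hr hxr
  obtain ⟨h3, h4⟩ := H22.card_fixF hF σ
  rw [ho] at h3 h4
  obtain ⟨j, hj⟩ := H22.exists_fix_embedding σ F₀ (hF₀.trans h4.symm)
  rw [H22.inndiagPlus_eq (by omega), H22.inndiagPlus_eq (by omega)]
  refine ⟨h3, H22.even_centralizer _ _ _ H22.card_plus hj (H22.plus_desc j) (H22.stdF_eq _) hα _ _ _
    H12.CForm.Iso.refl, ?_, ?_⟩
  · rintro (h | rfl)
    · exact H22.even_split_odd _ _ _ H22.card_plus hj (H22.plus_desc j) (H22.stdF_eq _) hα (ho ▸ h)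
    · exact H22.even_split_char_two _ _ _ H22.card_plus (H22.two_eq_zero_of_card hF) x
  by_cases hp : p = 2
  · simp [hp]
  by_cases hr2 : r = 2
  swap
  · simp [hr2]
  subst hr2
  have h2 := H22.two_ne_zero_of_card hF₀ hp
  have h5 := H22.plus_spinor (m := m) (H12.odd_card_iff.2 h2) (by omega)
  have h6 := Nat.odd_iff.1 (H12.odd_card_iff.2 h2)
  rw [hF₀] at h5 h6
  rw [H22.even_split_two _ _ _ H22.card_plus hj (H22.plus_desc j) (H22.stdF_eq _) hα
    (H22.two_ne_zero_of_card hF hp) ho]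
  refine ⟨fun h => if_neg ?_, fun h => if_pos ?_⟩
  · rw [h.2.2.1.neg_one_pow, h5]; omega
  · rcases Nat.even_or_odd m with a | a <;> rw [a.neg_one_pow]
    · exact (Int.units_eq_one_or _).resolve_right fun h =>
        absurd (h5.1 h).1 (Nat.not_odd_iff_even.2 a)
    · exact h5.2 ⟨a, by by_contra; exact h.2.2 ⟨a, by omega⟩⟩

end Cfsg.Agent.S2715
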