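import Cfsg.Statements.S2717
import Cfsg.Agent.H22.OrthSplit2

set_option autoImplicit false
open Cfsg

namespace Cfsg.Agent.S2717

/-- Let T = PΩ⁺_{2m}(F) with m ≥ 5 (dimension 2m ≠ 8) and |F| = p^f, G = Inndiag(T), and x an involutory graph-field automorphism of T. Then f is even; any two involutory graph-field automorphisms of T are G-conjugate; C_G(x) is isomorphic to Inndiag(PΩ⁻_{2m}(F₀)) for a field F₀ with p^(f/2) elements (some anisotropic binary part over F₀); and the G-class of x is the union of exactly c T-classes with c = 1 if p = 2, c = 4 if p is odd, m is odd and p^(f/2) ≡ 1 (mod 4), and c = 2 otherwise. -/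
theorem result {F : Type*} [Field F] [Fintype F] {p f : ℕ} [Fact p.Prime] (hF : Fintype.card F = p ^ f) (hf : 1 ≤ f) {m : ℕ} (hm : 5 ≤ m) (x : MulAut (Cfsg.POmega F (Cfsg.quadFormPlus m F))) (hx : Cfsg.IsGraphFieldAutClassPOmegaPlus m x) (hx2 : orderOf x = 2) (F₀ : Type*) [Field F₀] [Fintype F₀] (hF₀ : Fintype.card F₀ = p ^ (f / 2)) :
    Even f ∧ (∀ y : MulAut (Cfsg.POmega F (Cfsg.quadFormPlus m F)), Cfsg.IsGraphFieldAutClassPOmegaPlus m y → orderOf y = 2 → Cfsg.IsConjUnder (Cfsg.inndiagPOmegaPlus m F) x y) ∧ (∃ a₀ b₀ : F₀, (∀ z₁ z₂ : F₀, z₁ ^ 2 + a₀ * z₁ * z₂ + b₀ * z₂ ^ 2 = 0 → z₁ = 0 ∧ z₂ = 0) ∧ Nonempty (↥(Cfsg.inndiagPOmegaPlus m F ⊓ Subgroup.centralizer {x}) ≃* ↥(Cfsg.inndiagPOmegaMinus (m - 1) F₀ a₀ b₀))) ∧ (p = 2 → Cfsg.splitClassCount (Cfsg.inndiagPOmegaPlus m F) (Cfsg.Inn (Cfsg.POmega F (Cfsg.quadFormPlus m F))) x = 1) ∧ ((p ≠ 2 ∧ Odd m ∧ p ^ (f / 2) % 4 = 1) → Cfsg.splitClassCount (Cfsg.inndiagPOmegaPlus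 m F) (Cfsg.Inn (Cfsg.POmega F (Cfsg.quadFormPlus m F))) x = 4) ∧ ((p ≠ 2 ∧ ¬ (Odd m ∧ p ^ (f / 2) % 4 = 1)) → Cfsg.splitClassCount (Cfsg.inndiagPOmegaPlus m F) (Cfsg.Inn (Cfsg.POmega F (Cfsg.quadFormPlus m F))) x = 2) := by
  obtain ⟨m, rfl⟩ : ∃ k, m = k + 1 := ⟨m - 1, by omega⟩
  have hs := H22.plus_Th_surj (F := F) hm
  have := H22.inndiag_normal _ _ _ H22.card_plus hs
  obtain ⟨α, σ, v, h1, hv, hα⟩ := H22.graphField_elim (by omega) hx
  have h1' := h1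
  rw [← show H22.rS _ (H22.stdF _ σ (H22.plus_isSS_inr (m := m + 1) σ)) = σ from rfl,
    ← H22.rS_iS_mul (H22.iO _ (H12.refl _ v))] at h1'
  have ho := H22.orderOf_rS _ _ _ hα h1' Nat.prime_two hx2
  have hD := fun v (hv : H11.qPlus (m + 1) F v ≠ 0) => (H22.isDk (hQ := H11.qPlus_nondeg (m + 1))
    (H22.notExc_five (H22.five_plus (by omega))) H22.card_plus).refl v hv
  have hc : ∀ y, IsGraphFieldAutClassPOmegaPlus (m + 1) y → orderOf y = 2 →
      IsConjUnder (inndiagPOmegaPlus (m + 1) F) x y := fun y hy hy2 => by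
    obtain ⟨β, τ, w, a1, hw, hβ⟩ := H22.graphField_elim (by omega) hy
    have a2 := H22.orderOf_rS _ _ _ hβ (by rwa [H22.rS_iS_mul]) Nat.prime_two hy2
    have a3 := H22.mul_inv_mem_inndiag _ _ _ H22.card_plus H22.plus_isSS_inr hs (by omega) hα hβ
      (RingEquiv.ext fun x => by
        rw [H22.apply_eq_pow_of_orderOf_two ho, H22.apply_eq_pow_of_orderOf_two a2,
          (H22.card_fixF hF _).2, (H22.card_fixF hF _).2, ho, a2]) (by
        simp only [map_mul, H22.DkG_iS, H22.DkG_stdF, hD v hv, hD w hw])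
    rw [H22.inndiagPlus_eq (by omega), ← inv_mul_cancel_right y x]
    exact (H22.even_lang _ _ _ hα h1' Nat.prime_two hx2 H22.card_plus a3).1 (by simpa using hy2)
  obtain ⟨h3, h4⟩ := H22.card_fixF hF (H22.rS _ (H22.iS _ (H22.iO _ (H12.refl _ v)) *
    H22.stdF _ σ (H22.plus_isSS_inr σ)))
  rw [ho] at h3 h4
  obtain ⟨j, hj⟩ := H22.exists_fix_embedding _ F₀ (hF₀.trans h4.symm)
  obtain ⟨l, h, μ, Q₀, e, d⟩ := H22.exists_split_desc _ _ _ hα h1' Nat.prime_two hx2 hj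
  rw [← H22.FormData.Th_scS_mul _ l] at hα
  have hn : ¬ (H12.CForm.ofQuad Q₀).HasTS (m + 1) := fun h0 => by
    have := (H22.desc_type hj H22.card_plus (H22.plus_desc j) d (γ := H22.stdF _ σ
      (H22.plus_isSS_inr σ)) (by rw [H22.rS_iS_mul]; exact H22.stdF_eq _) e (by omega)
      (g := H22.scS _ l * H22.iO _ (H12.refl _ v)) (by rw [map_mul, mul_assoc])).1
      (iff_of_true (H12.qPlus_hasTS _) h0)
    rw [map_mul, H22.Dk_scS _ (H22.five_plus (by omega)) H22.card_plus, hD v hv] at this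
    exact absurd this (by decide)
  obtain ⟨a₀, b₀, h0⟩ := H22.exists_aniso F₀
  refine ⟨even_iff_two_dvd.2 h3, hc, ⟨a₀, b₀, h0, ?_⟩, ?_⟩
  · rw [H22.inndiagPlus_eq (by omega), Nat.add_sub_cancel, H22.inndiagMinus_eq h0 (by omega)]
    exact H22.even_centralizer _ _ _ H22.card_plus hj d e hα _ _ _ (H12.quad_iso_qMinus d.nd₀
      (by simp; ring) hn h0)
  rw [H22.inndiagPlus_eq (by omega)]
  refine ⟨fun hp => H22.even_split_char_two _ _ _ H22.card_plus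
    (H22.two_eq_zero_of_card (hp ▸ hF)) x, ?_⟩
  by_cases hp : p = 2
  · simp [hp]
  have h2 := H22.two_ne_zero_of_card hF₀ hp
  have h5 := (H22.spinor_negOne h2 d.nd₀ H22.card_plus m.succ_pos).trans
    ((iff_false_left hn).trans (H22.isSquare_neg_one_pow' (H12.odd_card_iff.2 h2) _))
  have h6 := Nat.odd_iff.1 (H12.odd_card_iff.2 h2)
  rw [hF₀] at h5 h6
  rw [H22.even_split_two _ _ _ H22.card_plus hj d e hα (H22.two_ne_zero_of_card hF hp) ho]
  refine ⟨fun h => if_pos ?_, fun h => if_neg fun h' => h.2 ?_⟩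
  · rw [h.2.1.neg_one_pow, ← Int.units_ne_iff_eq_neg, ne_eq, h5]; omega
  · rcases Nat.even_or_odd (m + 1) with a | a <;> rw [a.neg_one_pow] at h'
    · exact absurd (h5.1 h').1 (Nat.not_odd_iff_even.2 a)
    · rw [← Int.units_ne_iff_eq_neg, ne_eq, h5] at h'
      exact ⟨a, by by_contra; exact h' ⟨a, by omega⟩⟩

end Cfsg.Agent.S2717
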