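import Cfsg.Statements.S2718
import Cfsg.Agent.H22.GA5

set_option autoImplicit false
open Cfsg

namespace Cfsg.Agent.S2718

/-- Let T = PΩ⁺_{2m}(F) with m ≥ 4 and |F| = q odd, G = Inndiag(T), and γ an involutory graph automorphism of T induced by a similarity (one interchanging the two classes of maximal totally singular subspaces). Then the G-class of γ is either a single T-class or the union of exactly two T-classes, and it is the union of two unless m is odd and q ≡ 3 (mod 4). -/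
theorem result {F : Type*} [Field F] [Fintype F] (hodd : Odd (Fintype.card F)) {m : ℕ} (hm : 4 ≤ m) (γ : MulAut (Cfsg.POmega F (Cfsg.quadFormPlus m F))) (hγ : Cfsg.IsSimilarityGraphAutPOmegaPlus m γ) (hγ2 : orderOf γ = 2) :
    (Cfsg.splitClassCount (Cfsg.inndiagPOmegaPlus m F) (Cfsg.Inn (Cfsg.POmega F (Cfsg.quadFormPlus m F))) γ = 1 ∨ Cfsg.splitClassCount (Cfsg.inndiagPOmegaPlus m F) (Cfsg.Inn (Cfsg.POmega F (Cfsg.quadFormPlus m F))) γ = 2) ∧ (¬ (Odd m ∧ Fintype.card F % 4 = 3) → Cfsg.splitClassCount (Cfsg.inndiagPOmegaPlus m F) (Cfsg.Inn (Cfsg.POmega F (Cfsg.quadFormPlus m F))) γ = 2) := by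
  obtain ⟨g, hg, hpsc, hind⟩ := hγ
  have hm3 : 3 ≤ m := by omega
  have := H22.fin_sum_ne hm3
  have hg' : g ∈ H22.GSim (H12.CForm.ofQuad (H11.qPlus m F)) := (H22.GSim_quad (H11.coe_qPlus (F := F) m)).symm ▸ hg
  obtain rfl := (H22.simPO_iff (H11.coe_qPlus m) (H11.qPlus_nondeg m) (H22.five_plus hm3) (g := ⟨g, hg'⟩)).1 hind
  have hD := mt (H22.psc_iff (H11.qPlus_nondeg m) (H11.coe_qPlus m) (H12.qPlus_hasTS m) H22.card_plus (by omega)
    (g := ⟨g, hg'⟩)).2 hpsc
  rw [H22.inndiagPlus_eq hm3]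
  have := H22.graph_split (H11.qPlus_nondeg m) H22.card_plus (H12.odd_card_iff.1 hodd) (H11.coe_qPlus m)
    (H22.five_plus hm3) (Int.units_ne_iff_eq_neg.1 hD) hγ2
  exact ⟨this.1, fun h => this.2 (.inl (mt (H22.plus_spinor hodd (by omega)).1 h))⟩

end Cfsg.Agent.S2718
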