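import Cfsg.Statements.S2719
import Cfsg.Agent.H22.GA5
import Cfsg.Agent.H22.LB4

set_option autoImplicit false
open Cfsg

namespace Cfsg.Agent.S2719

/-- Let T = PΩ⁻_{2m+2}(F) with m ≥ 3 and |F| = q odd (form with anisotropic binary part z₁² + a z₁ z₂ + b z₂²), G = Inndiag(T), and γ an involutory graph automorphism of T (an automorphism in the image of the semisimilarity group, not inner-diagonal, of order 2). Then the G-class of γ is either a single T-class or the union of exactly two T-classes, and it is the union of two unless m is even and q ≡ 1 (mod 4). -/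
theorem result {F : Type*} [Field F] [Fintype F] (hodd : Odd (Fintype.card F)) {m : ℕ} (hm : 3 ≤ m) (a b : F) (hab : (∀ z₁ z₂ : F, z₁ ^ 2 + a * z₁ * z₂ + b * z₂ ^ 2 = 0 → z₁ = 0 ∧ z₂ = 0)) (γ : MulAut (Cfsg.POmega F (Cfsg.quadFormMinus m F a b))) (hγ : Cfsg.IsGraphAutClassPOmegaMinus m a b γ) (hγ2 : orderOf γ = 2) :
    (Cfsg.splitClassCount (Cfsg.inndiagPOmegaMinus m F a b) (Cfsg.Inn (Cfsg.POmega F (Cfsg.quadFormMinus m F a b))) γ = 1 ∨ Cfsg.splitClassCount (Cfsg.inndiagPOmegaMinus m F a b) (Cfsg.Inn (Cfsg.POmega F (Cfsg.quadFormMinus m F a b))) γ = 2) ∧ (¬ (Even m ∧ Fintype.card F % 4 = 1) → Cfsg.splitClassCount (Cfsg.inndiagPOmegaMinus m F a b) (Cfsg.Inn (Cfsg.POmega F (Cfsg.quadFormMinus m F a b))) γ = 2) := by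
  obtain ⟨h1, h2, -⟩ := hγ
  have hm2 : 2 ≤ m := by omega
  have hab' : H22.Aniso a b := hab
  rw [H22.gammaPO_eq (H11.coe_qMinus m a b) (hab'.nondeg m) (H22.five_minus hm2)] at h1
  obtain ⟨γ₀, rfl⟩ := h1
  have h3 : H22.rS _ γ₀ = 1 := by
    by_contra h1
    have ho' := (H22.minusData hab' hm2).orderOf_eq_of_prime Nat.prime_two hγ2 h1
    obtain ⟨_, _, _, _, -, d₀⟩ := H22.exists_split_desc (H11.coe_qMinus m a b) (hab'.nondeg m) (H22.five_minus hm2)
      (α := 1) (by simp) h1 Nat.prime_two hγ2 (H22.fix_subtype _)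
    exact H12.qMinus_not_hasTS m (H11.disc_ne_zero_of_aniso hab) hab
      (d₀.hasTS_two (H22.fix_subtype _) H22.card_minus ho')
  obtain ⟨g, rfl⟩ : γ₀ ∈ (H22.iS _).range := by rw [H22.range_iS]; exact h3
  rw [H22.inndiagMinus_eq hab' hm2] at h2 ⊢
  have := H22.graph_split (hab'.nondeg m) H22.card_minus (H12.odd_card_iff.1 hodd) (H11.coe_qMinus m a b)
    (H22.five_minus hm2) (g := g) (Int.units_ne_iff_eq_neg.1 fun h => h2 ⟨g, h, rfl⟩) hγ2
  refine ⟨this.1, fun h => this.2 ?_⟩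
  rw [ne_eq, H22.minus_spinor hodd hab', not_not, Nat.even_add_one]
  obtain ⟨k, hk⟩ := hodd
  by_cases he : Even m
  · exact .inl ⟨he, by have := mt (And.intro he) h; omega⟩
  · exact .inr he

end Cfsg.Agent.S2719
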