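import Cfsg.Statements.S2735
import Cfsg.Agent.H22.OrthFld

set_option autoImplicit false
open Cfsg

namespace Cfsg.Agent.S2735

/-- Let T = Ω_{2m+1}(F) (m ≥ 3, |F| odd) and x a field automorphism of T of prime order r. Then an element y of the coset Inndiag(T)·x (y = δ x with δ induced by a similarity of the form) has order r if and only if y is conjugate to x by an element of Inndiag(T). (T has no graph or graph-field automorphisms.) -/
theorem result {F : Type*} [Field F] [Fintype F] (hodd : Odd (Fintype.card F)) {m : ℕ} (hm : 3 ≤ m) (x δ : MulAut (Cfsg.POmega F (Cfsg.quadFormOdd m F))) (hx : Cfsg.IsFieldAutClassPOmega (Cfsg.quadFormOdd m F) x) {r : ℕ} (hr : r.Prime) (hxr : orderOf x = r) (hδ : δ ∈ Cfsg.inndiagPOmegaOdd m F) :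
    orderOf (δ * x) = r ↔ Cfsg.IsConjUnder (Cfsg.inndiagPOmegaOdd m F) x (δ * x) := by
  have h2 := H12.odd_card_iff.1 hodd
  obtain ⟨α, σ, h1, hα⟩ := H22.fieldClass_elim (H11.coe_qOdd m) (H11.qOdd_nondeg h2 m)
    (H22.five_odd (by omega)) H22.odd_isSS_inr hx
  have := H22.FormData.ThS_range_normal _ (H22.odd_Th_surj h2 hm)
  have e : inndiagPOmegaOdd m F = _ :=
    H22.pgoAut_eq (H11.coe_qOdd m) (H11.qOdd_nondeg h2 m) (H22.five_odd (by omega))
  rw [e] at hδ ⊢
  exact H22.odd_lang _ _ _ hα h1 hr hxr (by simp [parity_simps]) h2 hδ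

end Cfsg.Agent.S2735
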