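import Cfsg.Statements.S2738
import Cfsg.Agent.H11.SL

set_option autoImplicit false
open Cfsg

namespace Cfsg.Agent.S2738

/-- The special linear group SL(3, 4) has centre of order 3 and does not split over it: no subgroup is a complement to the centre (so SL(3, 4) is a non-split central extension of PSL(3, 4) by a group of order 3). -/
theorem result (F : Type*) [Field F] [Fintype F] (hF : Fintype.card F = 4) : Nat.card ↥(Subgroup.center (Matrix.SpecialLinearGroup (Fin 3) F)) = 3 ∧ ¬ ∃ K : Subgroup (Matrix.SpecialLinearGroup (Fin 3) F), Subgroup.IsComplement' (Subgroup.center (Matrix.SpecialLinearGroup (Fin 3) F)) K := by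
  have h1 : Nat.card ↥(Subgroup.center (Matrix.SpecialLinearGroup (Fin 3) F)) = 3 := by
    rw [H11.card_center_sl, hF]; rfl
  refine ⟨h1, fun ⟨K, hK⟩ => ?_⟩
  have h2 : commutator (Matrix.SpecialLinearGroup (Fin 3) F) ≤ K := by
    rw [commutator_def, Subgroup.commutator_le]
    intro a _ b _
    obtain ⟨⟨⟨z, hz⟩, ⟨a, ha⟩⟩, rfl⟩ := hK.2 a
    obtain ⟨⟨⟨w, hw⟩, ⟨b, hb⟩⟩, rfl⟩ := hK.2 b
    have hz := Subgroup.mem_center_iff.1 hz
    have hw := Subgroup.mem_center_iff.1 hw
    have : z * a * (w * b) * (z * a)⁻¹ * (w * b)⁻¹ = a * b * a⁻¹ * b⁻¹ := by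
      rw [← hz a, ← hw b, mul_inv_rev, mul_inv_rev, mul_assoc a z, ← hz, mul_assoc a,
        mul_assoc _ z, mul_inv_cancel_left, mul_assoc b w, ← hw]
      group
    rw [commutatorElement_def, this]
    exact K.mul_mem (K.mul_mem (K.mul_mem ha hb) (K.inv_mem ha)) (K.inv_mem hb)
  rw [H11.sl_commutator_eq_top (by simp), top_le_iff] at h2
  have h3 := hK.disjoint
  rw [h2, disjoint_top] at h3
  simp [h3] at h1

end Cfsg.Agent.S2738
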