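import Cfsg.Statements.S2739
import Cfsg.Agent.H27.Spec14
import Cfsg.Agent.H12.F4

set_option autoImplicit false
open scoped Pointwise
open Cfsg

namespace Cfsg.Agent.S2739

open Matrix Polynomial

theorem two_F4 : (2 : H12.F4) = 0 := by decide

theorem cp3 {R : Type*} [CommRing R] (A : Matrix (Fin 3) (Fin 3) R) :
    A.charpoly = X ^ 3 - C A.trace * X ^ 2 + C A.adjugate.trace * X - C A.det := by
  simp [charpoly, det_fin_three, trace_fin_three, adjugate_fin_three, charmatrix_apply, diagonal]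
  ring

theorem key {F : Type*} [Field F] [Fintype F] (hF : Fintype.card F = 4)
    (x : ProjectiveSpecialLinearGroup (Fin 3) F) (hx : orderOf x = 3) :
    ∃ g : SpecialLinearGroup (Fin 3) F, (g : ProjectiveSpecialLinearGroup (Fin 3) F) = x ∧
      orderOf g = 3 ∧ g.1.charpoly = X ^ 3 - 1 := by
  obtain ⟨g, rfl⟩ := QuotientGroup.mk_surjective x
  have h1 := pow_orderOf_eq_one (g : ProjectiveSpecialLinearGroup (Fin 3) F)
  rw [hx, ← QuotientGroup.mk_pow, QuotientGroup.eq_one_iff] at h1
  obtain ⟨r, hr, e⟩ := Matrix.SpecialLinearGroup.mem_center_iff.1 h1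
  have e' : g.1 ^ 3 = r • (1 : Matrix (Fin 3) (Fin 3) F) := by
    rw [← Matrix.SpecialLinearGroup.coe_pow, ← e, scalar_apply, smul_one_eq_diagonal]
  have hind : ∀ c d : F, c • g.1 = d • 1 → c = 0 := fun c d h => by
    by_contra hc
    have : g ∈ Subgroup.center _ := Subgroup.mem_center_iff.2 fun k => Subtype.ext (by
      rw [Matrix.SpecialLinearGroup.coe_mul, Matrix.SpecialLinearGroup.coe_mul,
        ← inv_smul_smul₀ hc g.1, h]; simp)
    rw [(QuotientGroup.eq_one_iff g).2 this] at hx
    simp at hx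
  have hc := H12.cayley_three g.1
  rw [g.2, e'] at hc
  set s := g.1.trace
  set t := g.1.adjugate.trace
  have hcub : ∀ a : F, a ≠ 0 → a ^ 3 = 1 := fun a ha => by
    simpa [hF] using FiniteField.pow_card_sub_one_eq_one a ha
  have hr0 : r ≠ 0 := by rintro rfl; simp at hr
  have h3 : r = 1 := by
    by_cases hs : s = 0
    · have ht := hind t (1 - r) (by rw [sub_smul, hc, hs]; simp)
      rw [hs, ht] at hc
      simpa using congrFun (congrFun hc 0) 0
    have h4 : g.1 ^ 2 = (t / s) • g.1 + ((r - 1) / s) • 1 := by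
      refine smul_right_injective _ hs ?_
      simp only [smul_add, smul_smul, mul_div_cancel₀ _ hs, sub_smul, hc]
      abel
    have h5 : ((t / s) ^ 2 + (r - 1) / s) • g.1 = (r - t / s * ((r - 1) / s)) • 1 := by
      rw [pow_succ, h4, add_mul, smul_mul_assoc, ← sq, h4] at e'
      rw [sub_smul, ← e']
      simp only [smul_add, smul_smul, smul_mul_assoc, one_mul]
      module
    have h6 := hind _ _ h5
    rw [h6, zero_smul] at h5
    have h7 : r = t / s * ((r - 1) / s) := by
      simpa [sub_eq_zero] using (congrFun (congrFun h5 0) 0).symm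
    rw [eq_neg_of_add_eq_zero_right h6] at h7
    have h8 := hcub (-(t / s)) fun h => hr0 (by rw [h7, neg_eq_zero.1 h, zero_mul])
    rw [h7, ← h8]; ring
  subst h3
  have h4 : s • g.1 = t • 1 := by
    have : (s • g.1 - t • 1) * g.1 = 0 := by
      rw [sub_mul, smul_mul_assoc, smul_mul_assoc, one_mul, ← sq]
      simpa using hc.symm
    have h5 := congrArg (· * (g⁻¹).1) this
    simp only [mul_assoc, ← Matrix.SpecialLinearGroup.coe_mul, mul_inv_cancel,
      Matrix.SpecialLinearGroup.coe_one, mul_one, zero_mul] at h5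
    exact sub_eq_zero.1 h5
  have hs := hind _ _ h4
  have ht : t = 0 := by simpa [hs] using (congrFun (congrFun h4 0) 0).symm
  refine ⟨g, rfl, orderOf_eq_prime (Subtype.ext (by simpa using e')) fun h => by simp [h] at hx, ?_⟩
  have : g.1.charpoly = X ^ 3 - C s * X ^ 2 + C t * X - C g.1.det := cp3 _
  rw [this, hs, ht, g.2]; simp

/-- In the projective special linear group PSL(3, 4) all subgroups of order 3 are conjugate. -/
theorem result (F : Type*) [Field F] [Fintype F] (hF : Fintype.card F = 4) (X Y : Subgroup (Matrix.ProjectiveSpecialLinearGroup (Fin 3) F)) (hX : Nat.card ↥X = 3) (hY : Nat.card ↥Y = 3) : ∃ g : Matrix.ProjectiveSpecialLinearGroup (Fin 3) F, MulAut.conj g • X = Y := by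
  haveI : Fact (Nat.Prime 2) := ⟨Nat.prime_two⟩
  haveI : Fact (Nat.Prime 3) := ⟨Nat.prime_three⟩
  obtain ⟨e⟩ := H12.exists_equiv_F4 hF
  haveI : CharP F 2 := CharTwo.of_one_ne_zero_of_two_eq_zero one_ne_zero (by
    rw [← map_ofNat e 2, two_F4, map_zero])
  have h : ∀ X : Subgroup (ProjectiveSpecialLinearGroup (Fin 3) F), Nat.card X = 3 →
      ∃ x, orderOf x = 3 ∧ Subgroup.zpowers x = X := fun X hX => by
    obtain ⟨x, hx⟩ := exists_prime_orderOf_dvd_card' (G := X) 3 hX.symm.dvd
    refine ⟨x, by simpa using hx, Subgroup.eq_of_le_of_card_ge (by simp) ?_⟩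
    rw [Nat.card_zpowers, hX, Subgroup.orderOf_coe, hx]
  obtain ⟨x, hx, rfl⟩ := h X hX
  obtain ⟨y, hy, rfl⟩ := h Y hY
  obtain ⟨g, rfl, hg, hg'⟩ := key hF x hx
  obtain ⟨k, rfl, hk, hk'⟩ := key hF y hy
  have h1 : IsConj g k := H27.Sp.sl_isConj (p := 2) (g := g) (h := k) (by rw [hg]; decide)
    (H27.Sp.sim_ss (p := 2) (ρ := H22.glE.comp Matrix.SpecialLinearGroup.toGL) (g := g) (h := k)
      (AlgebraicClosure F) (by rw [hg]; decide) (by rw [hk]; decide) (by
        show (toLin' g.1).charpoly = (toLin' k.1).charpoly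
        rw [charpoly_toLin', charpoly_toLin', hg', hk']))
  obtain ⟨c, hc⟩ := isConj_iff.1 ((QuotientGroup.mk' (Subgroup.center _)).map_isConj h1)
  exact ⟨c, (MonoidHom.map_zpowers (MulAut.conj c).toMonoidHom _).trans
    (congrArg Subgroup.zpowers hc)⟩

end Cfsg.Agent.S2739
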