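import Cfsg.Statements.S2751
import Cfsg.Agent.H8.GA8
-- import your own Cfsg.Agent.* helpers here

set_option autoImplicit false
open Cfsg

namespace Cfsg.Agent.S2751

open H28 Subgroup H8.GA

/-- Goldschmidt's bound for amalgams of index (3, 3): let M₁ and M₂ be finite subgroups of a group G such that M₁ ⊓ M₂ is a Sylow 2-subgroup of both M₁ and M₂, each quotient Mᵢ / O₂(Mᵢ) is isomorphic to the symmetric group of degree 3, and no nontrivial subgroup of M₁ ⊓ M₂ is normal in both M₁ and M₂. Then M₁ ⊓ M₂ has order at most 2^7. -/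
theorem result {G : Type*} [Group G] (M₁ M₂ : Subgroup G) [Finite M₁] [Finite M₂] (ha₁ : ∃ P : Sylow 2 M₁, (P : Subgroup M₁) = (M₁ ⊓ M₂).subgroupOf M₁) (ha₂ : ∃ P : Sylow 2 M₂, (P : Subgroup M₂) = (M₁ ⊓ M₂).subgroupOf M₂) (hb₁ : Nonempty (M₁ ⧸ Cfsg.pCore 2 M₁ ≃* Equiv.Perm (Fin 3))) (hb₂ : Nonempty (M₂ ⧸ Cfsg.pCore 2 M₂ ≃* Equiv.Perm (Fin 3))) (hc : ∀ N : Subgroup G, N ≤ M₁ ⊓ M₂ → (N.subgroupOf M₁).Normal → (N.subgroupOf M₂).Normal → N = ⊥) : Nat.card ↥(M₁ ⊓ M₂) ≤ 2 ^ 7 := by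
  have k : ∀ P R : Subgroup G, [Finite P] →
      (∃ S : Sylow 2 P, (S : Subgroup P) = (P ⊓ R).subgroupOf P) →
      Nonempty (P ⧸ Cfsg.pCore 2 P ≃* Equiv.Perm (Fin 3)) → G3 P R := fun P R _ ⟨S, hS⟩ ⟨f⟩ => by
    refine G3.of_six (isSylowIn_of_sylow_eq inf_le_left S hS) ?_
    rw [relIndex, pCoreOf_subgroupOf, index_eq_card, Nat.card_congr f.toEquiv, Nat.card_perm]
    simp [Nat.factorial]
  exact (k M₁ M₂ ha₁ hb₁).card (k M₂ M₁ (inf_comm M₁ M₂ ▸ ha₂) hb₂) fun N x y z =>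
    hc N x (normal_subgroupOf_of_le_normalizer y) (normal_subgroupOf_of_le_normalizer z)

end Cfsg.Agent.S2751
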