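import Cfsg.Statements.S2753
import Cfsg.Agent.H28.NiceEx
-- import your own Cfsg.Agent.* helpers here

set_option autoImplicit false
universe u
open Cfsg

namespace Cfsg.Agent.S2753

open H28 Subgroup
open scoped Pointwise commutatorElement

/-- Glauberman's 2-factorization Theorem: let G be a finite group with C_G(O₂(G)) ≤ O₂(G) in which the symmetric group of degree 4 is not involved and every non-abelian composition factor is a Suzuki group Sz(2^(2n+1)) or a group PSL₂(3^(2n+1)). Then for a Sylow 2-subgroup S, G = C(Z(S)) N(J_e(S)) = C(Z(S)) N(Ĵ(S)) = C(Ω₁(Z(Ĵ(S)))) N(J_e(S)), where J_e(S) is the Thompson subgroup generated by the elementary abelian subgroups of largest order and Ĵ(S) the subgroup generated by the E-subgroups of S containing J_e(S); each product is written elementwise. -/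
theorem result {G : Type u} [Group G] [Finite G] (hchar : Subgroup.centralizer (Cfsg.pCore 2 G : Set G) ≤ Cfsg.pCore 2 G) (hfree : ¬ Cfsg.Involves (Equiv.Perm (Fin 4)) G) (hc : Cfsg.IsCompositionKGroupWith Cfsg.IsSuzukiOrPSL2OddPowerThree G) (S : Sylow 2 G) : (∀ g : G, ∃ c ∈ Subgroup.centralizer ((((S : Subgroup G) ⊓ Subgroup.centralizer ((S : Subgroup G) : Set G)) : Subgroup G) : Set G), ∃ n ∈ Subgroup.normalizer (((Cfsg.thompsonSubgroupOf 2 (S : Subgroup G)) : Subgroup G) : Set G), g = c * n) ∧ (∀ g : G, ∃ c ∈ Subgroup.centralizer ((((S : Subgroup G) ⊓ Subgroup.centralizer ((S : Subgroup G) : Set G)) : Subgroup G) : Set G), ∃ n ∈ Subgroup.normalizer ((((Cfsg.jHat ↥(S : Subgroup G)).map (S : Subgroup G).subtype) : Subgroup G) : Set G), g = c * n) ∧ (∀ g : G, ∃ c ∈ Subgroup.centralizer ((Cfsg.omegaOne 2 (((Cfsg.jHat ↥(S : Subgroup G)).map (S : Subgroup G).subtype) ⊓ Subgroup.centralizer (((Cfsg.jHat ↥(S : Subgroup G)).map (S : Subgroup G).subtype) : Set G))) :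 Set G), ∃ n ∈ Subgroup.normalizer (((Cfsg.thompsonSubgroupOf 2 (S : Subgroup G)) : Subgroup G) : Set G), g = c * n) := by
  have hc' := cF_of hc
  have h1 : IsCharP 2 (⊤ : Subgroup G) := isCharP_top.2 hchar
  have h3 : S3F (⊤ : Subgroup G) := h1.s3F fun e =>
    hfree (H29.involves_trans e (H29.involves_subgroup _))
  have hS := isSylowIn_top S
  rw [H9.thompsonSubgroupOf_eq, map_jHat]
  refine ⟨fun g => ?_, fun g => ?_, fun g => ?_⟩
  · obtain ⟨c, c1, n, n1, e⟩ := hc'.exists_mul_center h3 h1 hS (mem_top g)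
    exact ⟨c, c1.2, n, n1.2.1, e⟩
  · obtain ⟨c, c1, n, n1, e⟩ := hc'.exists_mul_center h3 h1 hS (mem_top g)
    exact ⟨c, c1.2, n, n1.2.2, e⟩
  · obtain ⟨c, c1, n, n1, e⟩ := hc'.exists_mul_JH h3 h1 hS (mem_top g)
    exact ⟨c, c1.2, n, n1.2, e⟩

end Cfsg.Agent.S2753
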