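import Cfsg.Statements.S2758
import Cfsg.Agent.H28.Misc
-- import your own Cfsg.Agent.* helpers here

set_option autoImplicit false
open Cfsg

namespace Cfsg.Agent.S2758

open H28 Subgroup
open scoped Pointwise commutatorElement

/-- For an odd prime p and a finite group G the following are equivalent: the dihedral group of order 2p is involved in G; some element of 2-power order normalizes but does not centralize some p-subgroup of G; some element of 2-power order inverts some nonidentity element of p-power order. -/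
theorem result {G : Type*} [Group G] [Finite G] {p : ℕ} [Fact p.Prime] (hp : p ≠ 2) : (Cfsg.Involves (DihedralGroup p) G ↔ ∃ (x : G) (P : Subgroup G), (∃ k : ℕ, orderOf x = 2 ^ k) ∧ IsPGroup p ↥P ∧ x ∈ Subgroup.normalizer (P : Set G) ∧ x ∉ Subgroup.centralizer (P : Set G)) ∧ (Cfsg.Involves (DihedralGroup p) G ↔ ∃ x y : G, (∃ k : ℕ, orderOf x = 2 ^ k) ∧ (∃ k : ℕ, orderOf y = p ^ k) ∧ y ≠ 1 ∧ x * y * x⁻¹ = y⁻¹) := by
  have o : ∀ (q : ℕ) [Fact q.Prime] (x : G), (∃ k, x ^ q ^ k = 1) → ∃ k, orderOf x = q ^ k :=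
    fun q _ x ⟨k, h⟩ => ((Nat.dvd_prime_pow Fact.out).1 (orderOf_dvd_of_pow_eq_one h)).imp fun _ h => h.2
  have cop := (Nat.coprime_primes (Fact.out : p.Prime) Nat.prime_two).2 hp
  have h13 : Involves (DihedralGroup p) G ↔ ∃ x y : G, (∃ k : ℕ, orderOf x = 2 ^ k) ∧
      (∃ k : ℕ, orderOf y = p ^ k) ∧ y ≠ 1 ∧ x * y * x⁻¹ = y⁻¹ := by
    constructor
    · intro h
      obtain ⟨K, π, hπ⟩ := H29.involves_iff.1 h
      obtain ⟨r, hr⟩ := hπ (.r 1)
      obtain ⟨s, hs⟩ := hπ (.sr 0)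
      obtain ⟨t, y, ⟨k, a⟩, ⟨j, b⟩, c, d⟩ := exists_lift_inverted hp π (r := r) (s := s) (k := 1)
        (by rw [hr, DihedralGroup.r_one_pow_n]) (by
          rw [hr, Ne, ← orderOf_eq_one_iff, DihedralGroup.orderOf_r_one]
          exact (Fact.out : p.Prime).one_lt.ne') (by rw [hs, pow_one, sq, DihedralGroup.sr_mul_self])
        (by rw [hr, hs]; simp)
      exact ⟨t, y, o 2 _ ⟨k, congrArg Subtype.val a⟩, o p _ ⟨j, congrArg Subtype.val b⟩,
        fun e => d (by rw [show y = 1 from Subtype.ext e, map_one]), congrArg Subtype.val c⟩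
    · rintro ⟨x, y, ⟨k, a⟩, ⟨j, b⟩, c, d⟩
      exact H9.involves_top_iff.1 (involves_dihedral hp (a ▸ pow_orderOf_eq_one x)
        (b ▸ pow_orderOf_eq_one y) c d)
  refine ⟨h13.trans ⟨?_, ?_⟩, h13⟩
  · rintro ⟨x, y, a, ⟨j, b⟩, c, d⟩
    refine ⟨x, zpowers y, a, isPGroup_zpowers_of_orderOf b, mem_normalizer_of_cj_le (by
      rw [cj_zpowers, d, zpowers_inv]), fun e => c ?_⟩
    rw [← e y (mem_zpowers y), mul_inv_cancel_right] at d
    exact mem_bot.1 (mem_of_pow_mem_of_coprime (n := 2) (b ▸ cop.pow_left j)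
      (mem_bot.2 (by rw [sq]; exact mul_eq_one_iff_eq_inv.2 d)))
  · rintro ⟨x, P, ⟨k, a⟩, b, c, d⟩
    obtain ⟨i, e, f⟩ := H4.exists_pow_notMem_pow_mem (p := 2)
      ⟨k, by rw [← a, pow_orderOf_eq_one]; exact one_mem _⟩ d
    obtain ⟨u, hu, g⟩ : ∃ u ∈ P, ⁅x ^ 2 ^ i, u⁆ ≠ 1 := by
      by_contra! h
      exact e fun u hu => (commutatorElement_eq_one_iff_mul_comm.1 (h u hu)).symm
    refine ⟨x ^ 2 ^ i, _, o 2 _ ⟨k, by rw [← pow_mul, mul_comm, pow_mul, ← a, pow_orderOf_eq_one,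
      one_pow]⟩, exists_orderOf_eq_pow b (P.mul_mem (conj_mem_of_mem_normalizer (pow_mem c _) hu)
      (P.inv_mem hu)), g, conj_commutator_eq_inv ?_⟩
    rw [← sq]; exact (f u hu).symm

end Cfsg.Agent.S2758
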