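import Cfsg.Statements.S2762
import Cfsg.Agent.H9.Qd2

set_option autoImplicit false
open Cfsg

namespace Cfsg.Agent.S2762

/-- Structure of Qd over a finite field F of characteristic p (the affine subgroup of SL₃(F)): its largest normal p-subgroup is the group of translations (matrices with upper-left block the identity), the block-diagonal matrices form a complement isomorphic to SL₂(F), and the translation subgroup is a natural SL₂(F)-module for that complement. -/
theorem result {F : Type*} [Field F] [Fintype F] {p : ℕ} [Fact p.Prime] [CharP F p] : (∀ M : ↥(Cfsg.qdOver F), M ∈ Cfsg.pCore p ↥(Cfsg.qdOver F) ↔ ((M : Matrix.SpecialLinearGroup (Fin 3) F) : Matrix (Fin 3) (Fin 3) F) 0 0 = 1 ∧ ((M : Matrix.SpecialLinearGroup (Fin 3) F) : Matrix (Fin 3) (Fin 3) F) 0 1 = 0 ∧ ((M : Matrix.SpecialLinearGroup (Fin 3) F) : Matrix (Fin 3) (Fin 3) F) 1 0 = 0 ∧ ((M : Matrix.SpecialLinearGroup (Fin 3) F) : Matrix (Fin 3) (Fin 3) F) 1 1 = 1) ∧ ∃ K : Subgroup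 ↥(Cfsg.qdOver F), (∀ M : ↥(Cfsg.qdOver F), M ∈ K ↔ ((M : Matrix.SpecialLinearGroup (Fin 3) F) : Matrix (Fin 3) (Fin 3) F) 0 2 = 0 ∧ ((M : Matrix.SpecialLinearGroup (Fin 3) F) : Matrix (Fin 3) (Fin 3) F) 1 2 = 0) ∧ K ⊓ Cfsg.pCore p ↥(Cfsg.qdOver F) = ⊥ ∧ K ⊔ Cfsg.pCore p ↥(Cfsg.qdOver F) = ⊤ ∧ Nonempty (↥K ≃* Matrix.SpecialLinearGroup (Fin 2) F) ∧ Cfsg.IsNaturalSL2Module F (Cfsg.pCore p ↥(Cfsg.qdOver F)) K := by
  open H9 H9.Qd in
  rw [pCore_eq (F := F) p]
  refine ⟨fun M => mem_ker', blk.range, fun M => ?_, ?_, ?_,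
    ⟨(MonoidHom.ofInjective blk_injective).symm⟩, Subgroup.le_normalizer_of_normal, ?_⟩
  · rw [mem_blk_range, vec]
    constructor
    · intro h
      exact ⟨congrFun h 0, congrFun h 1⟩
    · rintro ⟨h1, h2⟩
      ext i
      fin_cases i
      · exact h1
      · exact h2
  · rw [eq_bot_iff]
    rintro M ⟨h1, h2⟩
    exact ext (by simpa using mem_blk_range.1 h1) (by simpa using h2)
  · rw [eq_top_iff]
    intro M _
    rw [← mk_vec_lin M, ← tr_mul_blk, sup_comm]
    exact Subgroup.mul_mem_sup (tr_range (F := F) ▸ ⟨_, rfl⟩) ⟨_, rfl⟩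
  · let ψ : Additive (lin : qdOver F →* _).ker ≃+ (Fin 2 → F) :=
      { toFun := fun v => vec v.toMul.1
        invFun := fun v => Additive.ofMul ⟨mk v 1, mk_mem_ker v⟩
        left_inv := fun v => by
          apply Additive.toMul.injective
          apply Subtype.ext
          exact ext (by simp) (by simpa using v.toMul.2.symm)
        right_inv := fun v => by simp
        map_add' := fun v w => by
          have : lin v.toMul.1 = 1 := v.toMul.2
          simp [vec_mul, this] }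
    refine ⟨lin.comp blk.range.subtype, ψ, fun g => ⟨⟨blk g, g, rfl⟩, lin_mk 0 g⟩, ?_, ?_⟩
    · ext l
      rw [centralizer_ker]; rfl
    · rintro l ⟨v, hv⟩
      obtain ⟨w, rfl⟩ := mem_ker.1 hv
      refine ⟨⟨_, mk_mem_ker ((lin l.1).1.mulVec w)⟩, (conj_tr _ _).symm, ?_⟩
      simp [ψ]

end Cfsg.Agent.S2762
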