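import Cfsg.Statements.S2772
import Cfsg.Agent.H28.Sims
-- import your own Cfsg.Agent.* helpers here

set_option autoImplicit false
open Cfsg

namespace Cfsg.Agent.S2772

open H28 Subgroup
open scoped Pointwise commutatorElement

/-- Sims' Theorem in local form: let H be a finite non-abelian simple group and G a maximal subgroup of H with C_G(O₂(G)) ≤ O₂(G), such that N_H(S) is not contained in G for a Sylow 2-subgroup S of G and G/O₂(G) is dihedral of order 2q for a prime q. Then G is isomorphic to the symmetric group of degree 4 or to its direct product with a group of order 2. -/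
theorem result {H : Type*} [Group H] [Finite H] [IsSimpleGroup H] (hna : ¬ IsMulCommutative H) (G : Subgroup H) (hG : IsCoatom G) (hchar : Subgroup.centralizer (Cfsg.pCore 2 ↥G : Set ↥G) ≤ Cfsg.pCore 2 ↥G) (S : Sylow 2 ↥G) (hN : ¬ Subgroup.normalizer (((S : Subgroup ↥G).map G.subtype : Subgroup H) : Set H) ≤ G) (q : ℕ) (hq : q.Prime) (hD : Nonempty (↥G ⧸ Cfsg.pCore 2 ↥G ≃* DihedralGroup q)) : Nonempty (↥G ≃* Equiv.Perm (Fin 4)) ∨ Nonempty (↥G ≃* Equiv.Perm (Fin 4) × Multiplicative (ZMod 2)) := by
  obtain ⟨e⟩ := hD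
  have h : (pCoreOf 2 G).relIndex G = 2 * q := by
    rw [relIndex, pCoreOf_subgroupOf]
    exact (Nat.card_congr e.toEquiv).trans DihedralGroup.nat_card
  exact (sims hG (isCharP_iff.2 hchar) (isSylowIn_map_subtype S) hN hq h).imp id
    fun ⟨f⟩ => ⟨f.trans MulEquiv.prodComm⟩

end Cfsg.Agent.S2772
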