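import Cfsg.Statements.S2780
import Cfsg.Agent.H28.NatSL
-- import your own Cfsg.Agent.* helpers here

set_option autoImplicit false
open Cfsg

namespace Cfsg.Agent.S2780

open H28 Subgroup
open scoped Pointwise commutatorElement

/-- Let L act on the elementary abelian p-group V (inside a finite group, faithfully) as SL₂(F) on its natural module, F a field with p^n elements, S a Sylow p-subgroup of L. Then: for every g ∈ L not normalizing S, V is the internal direct product of C_V(S) and C_V(gSg⁻¹); every nonidentity element of L of order prime to p acts on V without nonidentity fixed points; and C_V(S) and V/C_V(S) are irreducible for N_L(S): the only N_L(S)-invariant subgroups of C_V(S) are 1 and C_V(S), and the only N_L(S)-invariant subgroups between C_V(S) and V are those two. -/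
theorem result {G : Type*} [Group G] [Finite G] {p : ℕ} [Fact p.Prime] {F : Type*} [Field F] [Fintype F] (n : ℕ) (hF : Fintype.card F = p ^ n) (V L : Subgroup G) (hnat : Cfsg.IsNaturalSL2Module F V L) (hf : L ⊓ Subgroup.centralizer (V : Set G) = ⊥) (S : Sylow p ↥L) (T : Subgroup G) (hT : T = ((S : Subgroup ↥L).map L.subtype)) : (∀ g ∈ L, g ∉ Subgroup.normalizer (T : Set G) → Cfsg.IsInternalDirectProduct (V ⊓ Subgroup.centralizer ((T : Subgroup G) : Set G)) (V ⊓ Subgroup.centralizer ((T.map (MulAut.conj g).toMonoidHom : Subgroup G) : Set G)) V) ∧ (∀ x ∈ L, x ≠ 1 → (orderOf x).Coprime p → (V ⊓ Subgroup.centralizer ({x} : Set G)) = ⊥) ∧ (∀ U : Subgroup G, U ≤ (V ⊓ Subgroup.centralizer ((T : Subgroup G) : Set G)) → L ⊓ Subgroup.normalizer (T : Set G) ≤ Subgroup.normalizer (U : Set G) → U = ⊥ ∨ U = (V ⊓ Subgroup.centralizer ((T : Subgroup G) : Set G))) ∧ (∀ U : Subgroup G, (V ⊓ Subgroup.centralizer ((T : Subgroup G) : Set G)) ≤ U → U ≤ V → L ⊓ Subgroup.normalizer (T : Set G) ≤ Subgroup.normalizer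 (U : Set G) → U = (V ⊓ Subgroup.centralizer ((T : Subgroup G) : Set G)) ∨ U = V) := by
  haveI := charP_of_card hF
  obtain ⟨N, hup, hN⟩ := exists_natSL_faithful hnat hf S
  rw [← hT] at hup hN
  have hnorm : ∀ l : L, N.ρ l 1 0 = 0 → (l : G) ∈ normalizer (T : Set G) := by
    intro l hl
    apply Subgroup.mem_normalizer_fintype
    intro t ht
    exact (hN _).1 (N.up_conj hl ((hN ⟨t, hup.le ht⟩).2 ht))
  refine ⟨?_, ?_, ?_, ?_⟩
  · intro g hg hgn
    have h1 : N.ρ ⟨g, hg⟩ 1 0 ≠ 0 := fun h => hgn (hnorm _ h)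
    obtain ⟨h2, h3⟩ := N.line_sup_conj ⟨g, hg⟩ h1
    have h4 : V ⊓ centralizer ((T.map (MulAut.conj g).toMonoidHom : Subgroup G) : Set G) =
        N.line.map (MulAut.conj g).toMonoidHom := by
      rw [← hup.inf_centralizer]
      ext v
      simp only [mem_inf, mem_map, Subgroup.mem_centralizer_iff, SetLike.mem_coe]
      have hgV := Subgroup.mem_normalizer_iff.1 (N.le_normalizer hg)
      constructor
      · rintro ⟨hv, hc⟩
        refine ⟨g⁻¹ * v * g, ⟨(hgV _).2 (by simpa [mul_assoc] using hv), fun t ht => ?_⟩, by simp [mul_assoc]⟩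
        have := hc _ ⟨t, ht, rfl⟩
        simp only [MulEquiv.coe_toMonoidHom, MulAut.conj_apply] at this
        calc t * (g⁻¹ * v * g) = g⁻¹ * (g * t * g⁻¹ * v) * g := by group
          _ = _ := by rw [this]; group
      · rintro ⟨w, ⟨hw, hc⟩, rfl⟩
        refine ⟨(hgV _).1 hw, ?_⟩
        rintro _ ⟨t, ht, rfl⟩
        rw [← map_mul, ← map_mul, hc t ht]
    rw [h4, hup.inf_centralizer]
    refine ⟨N.line_le, le_sup_right.trans h2.le, fun a ha b hb => N.comm (N.line_le ha) ?_, h3, h2⟩
    exact (le_sup_right.trans h2.le) hb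
  · intro x hx hx1 hc
    refine N.inf_centralizer_eq_bot (p := p) ⟨x, hx⟩ ?_ ?_
    · intro h
      exact hx1 (congrArg Subtype.val (N.ρ_inj hf (h.trans (map_one _).symm)))
    · rw [orderOf_injective _ (N.ρ_inj hf), ← Subgroup.orderOf_coe]
      exact hc
  · intro U hU hn
    rw [hup.inf_centralizer] at hU ⊢
    exact N.eq_of_le_line hU fun l hl => hn ⟨l.2, hnorm l hl⟩
  · intro U hU hUV hn
    rw [hup.inf_centralizer] at hU ⊢
    exact N.eq_of_line_le hU hUV fun l hl => hn ⟨l.2, hnorm l hl⟩

end Cfsg.Agent.S2780
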