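import Cfsg.Statements.S2794
import Cfsg.Agent.H9.Qd3

set_option autoImplicit false
open Cfsg

namespace Cfsg.Agent.S2794

/-- For an odd prime p and a finite group G, the group Qd(p) is not involved in G if and only if in every section K/R of G, for every Sylow p-subgroup S* of K/R, the centre of J(S*) (J generated by the abelian subgroups of largest order) controls strong fusion in K/R. -/
theorem result {G : Type*} [Group G] [Finite G] {p : ℕ} [Fact p.Prime] (hp : p ≠ 2) : ¬ Cfsg.Involves ↥(Cfsg.qd p) G ↔ ∀ (K R : Subgroup G) [hR : (R.subgroupOf K).Normal], ∀ T : Sylow p (K ⧸ R.subgroupOf K), Cfsg.ControlsStrongFusion p (Cfsg.centerThompsonAOf (T : Subgroup (K ⧸ R.subgroupOf K))) := by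
  have hW := H9.isCharPFunctor_ZJ (p := p) (e := 0) (Or.inr rfl)
  constructor
  · intro h K R _ T
    rw [H9.centerThompsonAOf_eq_ZJ, ← H9.induced_ZJ, ← H29.fc_singleton_iff hW]
    refine H29.fc_of_normal_constrained (G := G) hW (fun K R _ hc T => ?_) _
      (H29.involves_section K R)
    rw [H9.induced_ZJ]
    exact H9.ZJ_normal_of_not_involves hp (Or.inr rfl) (fun h' =>
      h (H29.involves_trans (H9.involves_top_iff.1 h') (H29.involves_section K R))) hc T
  · rintro h ⟨K, R, hR, ⟨e⟩⟩
    have := h K R default
    rw [H9.centerThompsonAOf_eq_ZJ, ← H9.induced_ZJ] at this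
    exact H9.Qd.not_controls (F := ZMod p) p e hW _ this

end Cfsg.Agent.S2794
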