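import Cfsg.Statements.S2856
import Cfsg.Agent.H28.Amal
-- import your own Cfsg.Agent.* helpers here

set_option autoImplicit false
open Cfsg

namespace Cfsg.Agent.S2856

open H28 Subgroup
open scoped Pointwise commutatorElement

/-- Let (M₁, M₂) be an amalgam pair in X satisfying the rank-two standing hypothesis (characteristic p, the normalizers in M₁ and in M₂ of a Sylow p-subgroup of M₁ ∩ M₂ equal and contained in M₁ ∩ M₂, and strongly p-embedded residues), λ a vertex of the coset graph, L_λ the subgroup of its stabilizer generated by the p-elements, Q_λ = O_p of the stabilizer, O^p(L_λ) the subgroup of L_λ generated by its elements of order prime to p, and V_λ^{(k)} the subgroup generated by the Z_μ over the vertices μ at distance at most k from λ (Z_μ being generated by the Ω₁(Z(S)), S a Sylow p-subgroup of the stabilizer of μ). If n ≥ 1 and V_λ^{(n)} ≤ Q_λ, then O^p(L_λ) does not centralize V_λ^{(n)}/[V_λ^{(n)}, Q_λ], that is, [V_λ^{(n)}, O^p(L_λ)]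 is not contained in [V_λ^{(n)}, Q_λ]. -/
theorem result {X : Type*} [Group X] {p : ℕ} [Fact p.Prime] (M₁ M₂ : Subgroup X) (h : Cfsg.IsSpeAmalgamPair p M₁ M₂) (lam : Cfsg.CosetVertex M₁ M₂) (n : ℕ) (hn : 1 ≤ n) (V : Subgroup X) (hV : V = Cfsg.vertexVIter p M₁ M₂ n lam) (hVQ : V ≤ Cfsg.vertexQ p lam) : ¬ ⁅V, ((Cfsg.pResidual p ↥(Cfsg.pElementClosure p (MulAction.stabilizer X lam))).map (Cfsg.pElementClosure p (MulAction.stabilizer X lam)).subtype)⁆ ≤ ⁅V, Cfsg.vertexQ p lam⁆ := by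
  intro hc
  have g := pg_cosetGraph h.1
  obtain ⟨n, rfl⟩ := Nat.exists_eq_add_of_le' hn
  change V = Vn p X _ _ _ at hV
  rw [pResidualOf_def] at hc
  haveI := g.fin lam
  obtain ⟨μ, e⟩ := g.nbr lam
  obtain ⟨T, t1, t2⟩ := g.exists_syl e
  set L := pElementClosure p (MulAction.stabilizer X lam)
  haveI := finite_of_le (pElementClosure_le p (MulAction.stabilizer X lam))
  have hW : Vn p X (cosetGraph M₁ M₂) n μ ≤ V := hV ▸ g.Vn_le_of_adj e n
  have hn1 : MulAction.stabilizer X lam ≤ 𝐍 V := hV ▸ g.le_normalizer_Vn _ _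
  have hn2 := g.le_normalizer_Vn (p := p) n μ
  have hVQ' : ⁅V, Qv p X lam⁆ ≤ V := commutator_le_of_le_normalizer ((pCoreOf_le _ _).trans hn1)
  have h1 : L ≤ 𝐍 (Vn p X (cosetGraph M₁ M₂) n μ ⊔ ⁅V, Qv p X lam⁆) :=
    t1.pElementClosure.pResidualOf_sup.ge.trans (sup_le (le_normalizer_of_commutator_le
      (hc.trans le_sup_right) (sup_le hW hVQ')) (le_normalizer_sup (t2.le.trans hn2)
        (t1.le.trans (le_normalizer_commutator hn1 (le_normalizer_pCoreOf _ _)))))
  have h2 : V ≤ Vn p X (cosetGraph M₁ M₂) n μ ⊔ ⁅V, Qv p X lam⁆ := hV.le.trans (g.Vn_succ_le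
    fun ν a => by
      obtain ⟨l, hl, rfl⟩ := spe_pair_tr h lam μ ν e a
      rw [g.Vn_smul]
      exact cj_le_of_mem_normalizer le_sup_left (h1 hl))
  haveI := finite_of_le (pCoreOf_le p (MulAction.stabilizer X lam))
  have h3 := le_of_le_sup_commutator_of_nilpotent (isNilpotent_of_isPGroup (isPGroup_pCoreOf p _))
    hVQ le_rfl ((hVQ.trans (g.Q_le_adj e)).trans hn2) ((g.Q_le_adj e).trans hn2)
    ((pCoreOf_le _ _).trans hn1) h2
  have h4 := g.eq_bot_of_normal e (hVQ.trans (pCoreOf_le _ _)) (hVQ.trans (g.Q_le_adj e)) hn1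
    (le_antisymm h3 hW ▸ hn2)
  exact g.Z_ne_bot lam (eq_bot_iff.2 ((Zv_le_Vn (by simp)).trans (hV.ge.trans h4.le)))

end Cfsg.Agent.S2856
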