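import Cfsg.Statements.S2857
import Cfsg.Agent.H28.Amal
-- import your own Cfsg.Agent.* helpers here

set_option autoImplicit false
open Cfsg

namespace Cfsg.Agent.S2857

open H28 Subgroup
open scoped Pointwise commutatorElement

/-- Let (M₁, M₂) be an amalgam pair in X satisfying the rank-two standing hypothesis (characteristic p, the normalizers in M₁ and in M₂ of a Sylow p-subgroup of M₁ ∩ M₂ equal and contained in M₁ ∩ M₂, and strongly p-embedded residues), λ a vertex of the coset graph, L_λ the subgroup of its stabilizer generated by the p-elements, Q_λ = O_p of the stabilizer, O^p(L_λ) the subgroup of L_λ generated by its elements of order prime to p, and V_λ^{(k)} the subgroup generated by the Z_μ over the vertices μ at distance at most k from λ (Z_μ being generated by the Ω₁(Z(S)), S a Sylow p-subgroup of the stabilizer of μ). If n ≥ 2 and V_λ^{(n)} ≤ Q_λ, then O^p(L_λ) does not centralize V_λ^{(n)}/V_λ^{(n-2)}, that is, [V_λ^{(n)}, O^p(L_λ)] is not contained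 in V_λ^{(n-2)}. -/
theorem result {X : Type*} [Group X] {p : ℕ} [Fact p.Prime] (M₁ M₂ : Subgroup X) (h : Cfsg.IsSpeAmalgamPair p M₁ M₂) (lam : Cfsg.CosetVertex M₁ M₂) (n : ℕ) (hn : 2 ≤ n) (hVQ : Cfsg.vertexVIter p M₁ M₂ n lam ≤ Cfsg.vertexQ p lam) : ¬ ⁅Cfsg.vertexVIter p M₁ M₂ n lam, ((Cfsg.pResidual p ↥(Cfsg.pElementClosure p (MulAction.stabilizer X lam))).map (Cfsg.pElementClosure p (MulAction.stabilizer X lam)).subtype)⁆ ≤ Cfsg.vertexVIter p M₁ M₂ (n - 2) lam := by
  intro hc
  have g := pg_cosetGraph h.1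
  obtain ⟨n, rfl⟩ := Nat.exists_eq_add_of_le' hn
  change Vn p X _ _ _ ≤ _ at hVQ
  change ⁅Vn p X _ _ _, pResidualOf p _⁆ ≤ Vn p X _ n _ at hc
  haveI := g.fin lam
  obtain ⟨μ, e⟩ := g.nbr lam
  obtain ⟨T, t1, t2⟩ := g.exists_syl e
  haveI := finite_of_le (pElementClosure_le p (MulAction.stabilizer X lam))
  have hW := g.Vn_le_of_adj (p := p) e (n + 1)
  have hn2 := g.le_normalizer_Vn (p := p) (n + 1) μ
  have h4 := g.eq_bot_of_tr' e ((hW.trans hVQ).trans (pCoreOf_le _ _))
    ((hW.trans hVQ).trans (g.Q_le_adj e)) (spe_pair_tr h lam) (g.trans μ) (pElementClosure_le _ _)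
    le_rfl (t1.pElementClosure.pResidualOf_sup.ge.trans (sup_le (le_normalizer_of_commutator_le
      (hc.trans (g.Vn_le_of_adj e.symm n)) hW) (t2.le.trans hn2))) hn2
  exact g.Z_ne_bot μ (eq_bot_iff.2 ((Zv_le_Vn (by simp)).trans h4.le))

end Cfsg.Agent.S2857
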