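import Cfsg.Statements.S2944
import Cfsg.Agent.H28.ZN
-- import your own Cfsg.Agent.* helpers here

set_option autoImplicit false
open Cfsg

namespace Cfsg.Agent.S2944

open H28 Subgroup
open scoped Pointwise commutatorElement

/-- Let G be a finite group of characteristic 2 type in which every 2-local subgroup is solvable and the centralizer of Ω₁(Z(S)) lies in N_G(S) for every Sylow 2-subgroup S, and let T be a nontrivial 2-subgroup (below, J is the Thompson subgroup generated by the elementary abelian 2-subgroups of largest order) and K a J(T)-component such that J(T) is the Thompson subgroup of every Sylow 2-subgroup of N_G(W_K) containing J(T), where W_K = [Ω₁(Z(O₂(K))), K]. Then N_G(K) = N_G(W_K), and K is a J(Tᵍ)-component for every conjugate Tᵍ of T with J(Tᵍ) ≤ N_G(W_K). -/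
theorem result {G : Type*} [Group G] [Finite G] (hL : Cfsg.IsCharacteristicTwoType G) (hN : ∀ N : Subgroup G, Cfsg.IsTwoLocal N → Group.IsSolvable ↥N)
    (hZ : ∀ S : Sylow 2 G, Subgroup.centralizer (Cfsg.omegaCenterOf (S : Subgroup G) : Set G) ≤ Subgroup.normalizer ((S : Subgroup G) : Set G)) (T : Subgroup G) (hT : IsPGroup 2 ↥T) (hT1 : T ≠ ⊥) (K : Subgroup G) (hK : K ∈ Cfsg.jComponentsZero T) :
    Subgroup.normalizer (K : Set G) = Subgroup.normalizer (Cfsg.wOf K : Set G) ∧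
      ∀ g : G, Cfsg.thompsonSubgroupOf 2 (T.map (MulAut.conj g).toMonoidHom) ≤ Subgroup.normalizer (Cfsg.wOf K : Set G) →
        Cfsg.IsJComponent (T.map (MulAut.conj g).toMonoidHom) K := by
  have z : ZN G := ⟨hL, hN, hZ⟩
  have h1 := isJComponent_iff.1 hK.1
  have h2 := hK.2
  simp only [H9.thompsonSubgroupOf_eq, isSylowTwoIn_iff] at h2 ⊢
  have hJ := hT.to_le (H9.JJ_le 2 T)
  have l1 := normalizer_le_normalizer_wOf K
  obtain ⟨S, s1, s2⟩ := exists_isSylowIn_ge hJ (h1.norm.trans l1)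
  have s3 := h2 S s2 s1
  have zl := z.zl' (isTwoLocal_normalizer (isPGroup_wOf K) h1.wOf_ne_bot)
  obtain ⟨⟨w, hw⟩, hw1⟩ := ne_bot_iff_exists_ne_one.1 h1.wOf_ne_bot
  have e : normalizer (K : Set G) = normalizer (wOf K : Set G) := le_antisymm l1 fun g hg =>
    zl.mem_normalizer_of_fixed s1 (s3 ▸ h1) (le_normalizer_wOf K) hg hw
      (fun e => hw1 (Subtype.ext e)) (conj_mem_of_mem_normalizer hg hw)
  refine ⟨e, fun g hg => isJComponent_iff.2 ?_⟩
  obtain ⟨n, hn, h3⟩ := s1.exists_le_conj ((isPGroup_cj g hT).to_le (H9.JJ_le 2 _)) hg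
  have h4 : H9.JJ 2 (cj g T) = cj n (H9.JJ 2 T) := by
    rw [← s3, H9.cj_JJ]
    obtain ⟨A, hA⟩ := H9.exists_maxAb 2 S
    have hA' : H9.MaxAb 2 T A := by
      rw [← H9.maxAb_iff_of_JJ_le le_rfl (H9.JJ_le 2 T), ← s3,
        H9.maxAb_iff_of_JJ_le le_rfl (H9.JJ_le 2 S)]
      exact hA
    refine eq_of_le_of_card_le (H9.JJ_le_iff.2 fun B hB => H9.MaxAb.le_JJ
      ((hA.conj n).of_card_le (hB.le_JJ.trans h3) hB.abE ?_)) ?_
    · rw [card_cj, ← (hA'.conj g).card_eq hB, card_cj]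
    · rw [← H9.cj_JJ, ← H9.cj_JJ, card_cj, card_cj, s3]
  have h5 := h1.conj n
  rw [cj_eq_self (e.ge hn), ← h4] at h5
  exact h5

end Cfsg.Agent.S2944
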