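import Cfsg.Statements.S2945
import Cfsg.Agent.H8.JC1
import Cfsg.Agent.S2944

set_option autoImplicit false
open Cfsg

namespace Cfsg.Agent.S2945

/-- Let G be a finite group of characteristic 2 type in which every 2-local subgroup is solvable and the centralizer of Ω₁(Z(S)) lies in N_G(S) for every Sylow 2-subgroup S, and let T be a nontrivial 2-subgroup (below, J is the Thompson subgroup generated by the elementary abelian 2-subgroups of largest order), L a subgroup in which T is a Sylow 2-subgroup with J(T) not contained in O₂(L) and C_G(O₂(L)) ≤ O₂(L), and K ≤ L a subgroup that is subnormal in ⟨K, J(T)⟩. If for some conjugate Tᵍ of T, K is a J(Tᵍ)-component with J(Tᵍ) the Thompson subgroup of every Sylow 2-subgroup of N_G(W_K) containing J(Tᵍ) (W_K = [Ω₁(Z(O₂(K))), K]), then K is a J(T)-component. -/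
theorem result {G : Type*} [Group G] [Finite G] (hL : Cfsg.IsCharacteristicTwoType G) (hN : ∀ N : Subgroup G, Cfsg.IsTwoLocal N → Group.IsSolvable ↥N)
    (hZ : ∀ S : Sylow 2 G, Subgroup.centralizer (Cfsg.omegaCenterOf (S : Subgroup G) : Set G) ≤ Subgroup.normalizer ((S : Subgroup G) : Set G)) (T : Subgroup G) (hT : IsPGroup 2 ↥T) (hT1 : T ≠ ⊥) (L : Subgroup G) (hLT : L ∈ Cfsg.jOvergroups T)
    (K : Subgroup G) (hKL : K ≤ L) (hKsn : (K.subgroupOf (K ⊔ Cfsg.thompsonSubgroupOf 2 T)).IsSubnormal)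
    (g : G) (hKg : K ∈ Cfsg.jComponentsZero (T.map (MulAut.conj g).toMonoidHom)) : Cfsg.IsJComponent T K := by
  haveI : Fact (Nat.Prime 2) := ⟨Nat.prime_two⟩
  have z : H28.ZN G := ⟨hL, hN, hZ⟩
  have hK := H28.isJComponent_iff.1 hKg.1
  have hTL := H28.isSylowTwoIn_iff.1 hLT.1
  rw [H9.thompsonSubgroupOf_eq] at hKsn
  have hHL : K ⊔ H9.JJ 2 T ≤ L := sup_le hKL ((H9.JJ_le 2 T).trans hTL.le)
  have hs : Group.IsSolvable ↥(K ⊔ H9.JJ 2 T) :=
    haveI := (z.zl hLT.2.2).sol
    solvable_of_solvable_injective (Subgroup.inclusion_injective hHL)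
  have hJ : H9.JJ 2 T ≤ Subgroup.normalizer (Cfsg.wOf K : Set G) := H9.JJ_le_iff.2 fun A hA =>
    H8.JC.norm_wOf hK (H28.subnIn_of_subgroupOf le_sup_left hKsn) hs
      ((hA.of_sylow hTL).mono (hA.le_JJ.trans le_sup_right) hHL)
  have e : (T.map (MulAut.conj g).toMonoidHom).map (MulAut.conj g⁻¹).toMonoidHom = T :=
    H28.cj_inv_cj g T
  have := (Cfsg.Agent.S2944.result hL hN hZ _ (H28.isPGroup_cj g hT)
    (fun h => hT1 (H28.cj_eq_bot.1 h)) K hKg).2 g⁻¹ (by rw [e, H9.thompsonSubgroupOf_eq]; exact hJ)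
  rwa [e] at this

end Cfsg.Agent.S2945
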