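import Cfsg.Statements.S2946
import Cfsg.Agent.H28.ZN
-- import your own Cfsg.Agent.* helpers here

set_option autoImplicit false
open Cfsg

namespace Cfsg.Agent.S2946

open H28 Subgroup
open scoped Pointwise commutatorElement

/-- Let G be a finite group of characteristic 2 type in which every 2-local subgroup is solvable and the centralizer of Ω₁(Z(S)) lies in N_G(S) for every Sylow 2-subgroup S, and let T be a nontrivial 2-subgroup (below, J is the Thompson subgroup generated by the elementary abelian 2-subgroups of largest order), K a J(T)-component and Z₀ = Ω₁(Z(J(T))). Then Z₀ meets W_K = [Ω₁(Z(O₂(K))), K] in a subgroup of order 2, and Z₀ is the product of Z₀ ∩ Z(⟨K, J(T)⟩) and Z₀ ∩ W_K. -/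
theorem result {G : Type*} [Group G] [Finite G] (hL : Cfsg.IsCharacteristicTwoType G) (hN : ∀ N : Subgroup G, Cfsg.IsTwoLocal N → Group.IsSolvable ↥N)
    (hZ : ∀ S : Sylow 2 G, Subgroup.centralizer (Cfsg.omegaCenterOf (S : Subgroup G) : Set G) ≤ Subgroup.normalizer ((S : Subgroup G) : Set G)) (T : Subgroup G) (hT : IsPGroup 2 ↥T) (hT1 : T ≠ ⊥) (K : Subgroup G) (hK : Cfsg.IsJComponent T K)
    (Z₀ : Subgroup G) (hZ₀ : Z₀ = Cfsg.omegaCenterOf (Cfsg.thompsonSubgroupOf 2 T)) :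
    Nat.card ↥(Z₀ ⊓ Cfsg.wOf K) = 2 ∧
      (Z₀ ⊓ ((K ⊔ Cfsg.thompsonSubgroupOf 2 T) ⊓ Subgroup.centralizer ((K ⊔ Cfsg.thompsonSubgroupOf 2 T) : Set G))) ⊔ (Z₀ ⊓ Cfsg.wOf K) = Z₀ := by
  have h1 := isJComponent_iff.1 hK
  have hJ := hT.to_le (H9.JJ_le 2 T)
  rw [H9.thompsonSubgroupOf_eq] at hZ₀ ⊢
  change Z₀ = omegaOneCenter 2 _ at hZ₀
  subst hZ₀
  refine ⟨h1.card_omega_inf hJ, le_antisymm (sup_le inf_le_left inf_le_left)
    ((h1.omega_split hJ).1.ge.trans (sup_le_sup_right (le_inf inf_le_left (le_inf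
      (inf_le_left.trans ((omegaOneCenter_le _ _).trans le_sup_right)) ?_)) _))⟩
  rintro x ⟨h2, h3⟩ y (hy | hy)
  · exact h3 y hy
  · exact omegaOneCenter_le_centralizer _ _ h2 y hy

end Cfsg.Agent.S2946
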