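import Cfsg.Statements.S2947
import Cfsg.Agent.H28.SPE
-- import your own Cfsg.Agent.* helpers here

set_option autoImplicit false
open Cfsg

namespace Cfsg.Agent.S2947

open H28 Subgroup
open scoped Pointwise commutatorElement

/-- Let G be a finite group of characteristic 2 type in which every 2-local subgroup is solvable and the centralizer of Ω₁(Z(S)) lies in N_G(S) for every Sylow 2-subgroup S; suppose O₂(G) = 1, fix a Sylow 2-subgroup S and a 2-local subgroup M containing N_G(J(S)) (J the Thompson subgroup generated by the elementary abelian 2-subgroups of largest order). Then M is strongly embedded in G (a proper subgroup of even order whose intersection with each conjugate by an element outside M has odd order) if and only if no nontrivial 2-subgroup of M lies in a 2-local subgroup of G not contained in M. -/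
theorem result {G : Type*} [Group G] [Finite G] (hL : Cfsg.IsCharacteristicTwoType G) (hN : ∀ N : Subgroup G, Cfsg.IsTwoLocal N → Group.IsSolvable ↥N)
    (hZ : ∀ S : Sylow 2 G, Subgroup.centralizer (Cfsg.omegaCenterOf (S : Subgroup G) : Set G) ≤ Subgroup.normalizer ((S : Subgroup G) : Set G)) (hO : Cfsg.pCore 2 G = ⊥) (S : Sylow 2 G) (M : Subgroup G) (hM : Cfsg.IsTwoLocal M)
    (hMJ : Subgroup.normalizer (Cfsg.thompsonSubgroupOf 2 (S : Subgroup G) : Set G) ≤ M) :
    Cfsg.IsStronglyEmbedded M ↔ Cfsg.straddlingTwoSubgroups M = ∅ := by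
  rw [isStronglyEmbedded_iff_spe, Set.eq_empty_iff_forall_notMem]
  obtain ⟨R, r1, r2, rfl⟩ := hM
  constructor
  · rintro h T ⟨a, b, c, _, ⟨Q, q1, q2, rfl⟩, d, e⟩
    exact e (h.normalizer_le q1 q2 (le_sup_right.trans (h.le_of_inf_ne_bot
      (isPGroup_sup_of_le_normalizer a q1 d) fun f => b (eq_bot_iff.2
        ((le_inf le_sup_left c).trans f.le)))))
  · intro h
    refine spe_of_normalizer (fun e => r2 ?_) (dvd_card_of_isPGroup_ne_bot r1 le_normalizer r2)
      fun Q a b c => ?_
    · haveI := normal_iff_top_le.2 e.ge
      exact eq_bot_iff.2 ((le_pCore r1).trans hO.le)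
    · by_contra e
      exact h Q ⟨b, c, a, _, ⟨Q, b, c, rfl⟩, le_normalizer, e⟩

end Cfsg.Agent.S2947
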