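import Cfsg.Statements.S2953
import Cfsg.Agent.H28.ZN2
-- import your own Cfsg.Agent.* helpers here

set_option autoImplicit false
open Cfsg

namespace Cfsg.Agent.S2953

open H28 Subgroup
open scoped Pointwise commutatorElement

/-- Let G be a finite group of characteristic 2 type in which every 2-local subgroup is solvable and the centralizer of Ω₁(Z(S)) lies in N_G(S) for every Sylow 2-subgroup S; suppose O₂(G) = 1, fix a Sylow 2-subgroup S and a 2-local subgroup M containing N_G(J(S)) (J the Thompson subgroup generated by the elementary abelian 2-subgroups of largest order). Let T be maximal (for the order of a largest elementary abelian subgroup, then the order of J(T), then the order of T) among the nontrivial 2-subgroups of M lying in a 2-local subgroup not inside M. Then there are two distinct J(T)-components K₁, K₂ such that, with Pᵢ = ⟨Kᵢ, T⟩: C_G(O₂(Pᵢ)) ≤ O₂(Pᵢ), T is a Sylow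 2-subgroup of Pᵢ, O₂(Pᵢ) has index 6 in Pᵢ with Pᵢ/O₂(Pᵢ) non-abelian, [Ω₁(Z(T)), Pᵢ] ≠ 1, O₂(⟨P₁, P₂⟩) = 1, and each Pᵢ lies in exactly one maximal 2-local subgroup Lᵢ of G, in which T is a Sylow 2-subgroup. -/
theorem result {G : Type*} [Group G] [Finite G] (hL : Cfsg.IsCharacteristicTwoType G) (hN : ∀ N : Subgroup G, Cfsg.IsTwoLocal N → Group.IsSolvable ↥N)
    (hZ : ∀ S : Sylow 2 G, Subgroup.centralizer (Cfsg.omegaCenterOf (S : Subgroup G) : Set G) ≤ Subgroup.normalizer ((S : Subgroup G) : Set G)) (hO : Cfsg.pCore 2 G = ⊥) (S : Sylow 2 G) (M : Subgroup G) (hM : Cfsg.IsTwoLocal M)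
    (hMJ : Subgroup.normalizer (Cfsg.thompsonSubgroupOf 2 (S : Subgroup G) : Set G) ≤ M) (T : Subgroup G) (hT : T ∈ Cfsg.maxStraddlingTwoSubgroups M) :
    ∃ K₁ K₂ : Subgroup G, K₁ ≠ K₂ ∧ Cfsg.IsJComponent T K₁ ∧ Cfsg.IsJComponent T K₂ ∧
      Cfsg.pCoreOf 2 ((K₁ ⊔ T) ⊔ (K₂ ⊔ T)) = ⊥ ∧
      ∀ P ∈ [K₁ ⊔ T, K₂ ⊔ T],
        Subgroup.centralizer (Cfsg.pCoreOf 2 P : Set G) ≤ Cfsg.pCoreOf 2 P ∧ Cfsg.IsSylowTwoIn T P ∧
        (Cfsg.pCoreOf 2 P).relIndex P = 6 ∧ ¬ ⁅P, P⁆ ≤ Cfsg.pCoreOf 2 P ∧ ⁅Cfsg.omegaCenterOf T, P⁆ ≠ ⊥ ∧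
        ∃ L : Subgroup G, Cfsg.IsMaximalTwoLocal L ∧ P ≤ L ∧ Cfsg.IsSylowTwoIn T L ∧
          ∀ L' : Subgroup G, Cfsg.IsMaximalTwoLocal L' → P ≤ L' → L' = L := by
  have z : ZN G := ⟨hL, hN, hZ⟩
  simp only [H9.thompsonSubgroupOf_eq, isSylowTwoIn_iff, isJComponent_iff] at *
  obtain ⟨S₁, K, K', L, L', s, l, t, t', ne⟩ := exists_pair z hO (isSylowIn_top S) hMJ hT
  have k : ∀ {K K' L L' : Subgroup G}, Tri T K L → Tri T K' L' → L ≠ L' →
      centralizer (pCoreOf 2 (K ⊔ T) : Set G) ≤ pCoreOf 2 (K ⊔ T) ∧ IsSylowIn 2 T (K ⊔ T) ∧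
        (pCoreOf 2 (K ⊔ T)).relIndex (K ⊔ T) = 6 ∧ ¬ ⁅K ⊔ T, K ⊔ T⁆ ≤ pCoreOf 2 (K ⊔ T) ∧
        ⁅omegaCenterOf T, K ⊔ T⁆ ≠ ⊥ ∧ ∃ L : Subgroup G, IsMaximalTwoLocal L ∧ K ⊔ T ≤ L ∧
          IsSylowIn 2 T L ∧ ∀ L' : Subgroup G, IsMaximalTwoLocal L' → K ⊔ T ≤ L' → L' = L :=
    fun {K K' L L'} t t' ne => by
      have n := t.norm' z s l t'.toDuo ne
      refine ⟨t.cg z, t.sylow', ?_, fun e => t.not_le_of_isPGroup (isPGroup_pCoreOf 2 _)
        (t.comm.ge.trans ((commutator_mono le_sup_left ((H9.JJ_le 2 T).trans le_sup_right)).trans e)),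
        fun e => t.nc z s l (H28.commutator_eq_bot_iff'.1 e), L, t.max, t.sup_le, t.sylow,
        fun U a b => t.unique z a (le_sup_left.trans b) ((H9.JJ_le 2 T).trans (le_sup_right.trans b))
          t.max t.le t.leJ⟩
      rw [← relIndex_mul_relIndex _ T _ t.sylow'.pCoreOf_le le_sup_right, t.two' n, t.three' n]
  refine ⟨K, K', fun e => ne (t.eq z t'.toDuo (e ▸ t'.le)), t.toJC, t'.toJC, t.core_eq_bot z t' ne,
    fun P hP => ?_⟩
  simp only [List.mem_cons, List.not_mem_nil, or_false] at hP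
  rcases hP with rfl | rfl
  exacts [k t t' ne, k t' t ne.symm]

end Cfsg.Agent.S2953
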