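import Cfsg.Statements.S3085
import Cfsg.Agent.H0.ES1
import Cfsg.Agent.H25.Conj

set_option autoImplicit false
open Cfsg

namespace Cfsg.Agent.S3085
open _root_.H25 Subgroup

variable {Q : Type*} [Group Q] {z : Q}

open Classical in
/-- the lift of a transvection -/
noncomputable def tv [Finite Q] (h : H0.ES (⊤ : Subgroup Q) z) (a : Q) (ha : a * a = z) : MulAut Q :=
  MulEquiv.ofBijective (MonoidHom.mk' (fun x => if a * x = x * a then x else a * x) fun x y => by
    have e := fun x (hx : a * x ≠ x * a) => h.mul_eq (mem_top a) (mem_top x) hx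
    have c := fun x => h.cent x (mem_top x)
    by_cases hx : a * x = x * a <;> by_cases hy : a * y = y * a
    · rw [if_pos hx, if_pos hy, if_pos (by rw [← mul_assoc, hx, mul_assoc, hy, mul_assoc])]
    · rw [if_pos hx, if_neg hy, if_neg (by
        rw [← mul_assoc, hx, mul_assoc, mul_assoc, mul_right_inj]; exact hy), ← mul_assoc, hx, mul_assoc]
    · rw [if_neg hx, if_pos hy, if_neg (by
        rw [mul_assoc, ← hy, ← mul_assoc, ← mul_assoc, mul_left_inj]; exact hx), mul_assoc]
    · rw [if_neg hx, if_neg hy, if_pos (by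
        rw [← mul_assoc, e x hx, mul_assoc, mul_assoc, e y hy, ← mul_assoc x, c x, mul_assoc z,
          ← mul_assoc z, h.zz, one_mul, mul_assoc]), e x hx, mul_assoc, mul_assoc, ← mul_assoc a, ha,
        ← mul_assoc x, c x, mul_assoc z, ← mul_assoc z, h.zz, one_mul])
    (Finite.injective_iff_bijective.1 ((injective_iff_map_eq_one _).2 fun x hx => by
      change (if a * x = x * a then x else a * x) = 1 at hx
      split_ifs at hx with h'
      · exact hx
      · exact absurd (hx.trans (mul_eq_one_comm.1 hx).symm) h'))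

theorem tv_pos [Finite Q] (h : H0.ES (⊤ : Subgroup Q) z) {a : Q} (ha : a * a = z) {x : Q}
    (e : a * x = x * a) : tv h a ha x = x := if_pos e

theorem tv_neg [Finite Q] (h : H0.ES (⊤ : Subgroup Q) z) {a : Q} (ha : a * a = z) {x : Q}
    (e : a * x ≠ x * a) : tv h a ha x = a * x := if_neg e

theorem exists_mem (E : Subgroup Q) [Finite Q] (h : H0.ES (⊤ : Subgroup Q) z) (w : Q) :
    Nat.card E ≤ 2 * Nat.card (E ⊓ cz (zpowers w) : Subgroup Q) := by
  let f : E →* zpowers z := MonoidHom.mk' (fun x => ⟨_, h.comm_mem (mem_top x.1) (mem_top w)⟩)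
    fun x y => Subtype.ext (h.comm_mul (mem_top _) (mem_top _) (mem_top _))
  have h1 : f.ker = (E ⊓ cz (zpowers w)).subgroupOf E := by
    ext x
    rw [MonoidHom.mem_ker, Subtype.ext_iff, inf_subgroupOf_left, mem_subgroupOf, mem_cz_zpowers]
    exact mul_inv_eq_one
  rw [← f.ker.index_mul_card, index_ker, h1,
    Nat.card_congr (subgroupOfEquivOfLe inf_le_left).toEquiv, ← h.card_zp]
  exact Nat.mul_le_mul_right _ (card_le_card_group _)

/-- Let Q be an extraspecial 2-group of order 2^(2n+1) with n ≥ 3 that is of plus type (it contains an elementary abelian subgroup of order 2^(n+1)). Then the group of inner automorphisms of Q has no complement in the full automorphism group of Q: the extension of the inner automorphism group (elementary abelian of order 2^(2n)) by the outer automorphism group (the orthogonal group of plus type) does not split. -/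
theorem result {Q : Type*} [Group Q] [Finite Q] (n : ℕ) (hn : 3 ≤ n) (hQ : Cfsg.IsExtraspecial 2 Q) (hcard : Nat.card Q = 2 ^ (2 * n + 1)) (hplus : ∃ E : Subgroup Q, Cfsg.IsElementaryAbelian 2 E ∧ Nat.card ↥E = 2 ^ (n + 1)) (L : Subgroup (MulAut Q)) : ¬ (Cfsg.Inn Q).IsComplement' L := by
  intro hL
  obtain ⟨z, h⟩ := H0.exists_ES_top hQ
  have c := fun x => h.cent x (mem_top x)
  have inn : ∀ g : Q, MulAut.conj g ∈ L → g = 1 ∨ g = z := fun g hg =>
    h.ctr g (mem_top g) fun y _ => by
      have := congrArg (fun φ : MulAut Q => φ y) (disjoint_def.1 hL.disjoint ⟨g, rfl⟩ hg)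
      exact mul_inv_eq_iff_eq_mul.1 this
  have lift : ∀ a (ha : a * a = z), ∃ w, MulAut.conj w * tv h a ha ∈ L := fun a ha => by
    obtain ⟨⟨⟨_, w, rfl⟩, l⟩, e⟩ := hL.2 (tv h a ha)
    exact ⟨w⁻¹, by rw [← e, map_inv]; simp⟩
  have ne : ∀ a : Q, a * a = z → ¬ (a = 1 ∨ a = z) := by
    rintro _ ha (rfl | rfl)
    · exact h.z1 (by rw [← ha, mul_one])
    · exact h.z1 (ha.symm.trans h.zz)
  obtain ⟨a, ha⟩ : ∃ a : Q, a * a = z := by
    by_contra h'
    obtain ⟨x, -, y, -, e⟩ := h.nonab
    have k : ∀ x : Q, x⁻¹ = x := fun x => inv_eq_of_mul_eq_one_right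
      ((h.sq x (mem_top x)).resolve_right fun e => h' ⟨x, e⟩)
    exact e (by rw [← k (x * y), mul_inv_rev, k, k])
  obtain ⟨w, hw⟩ := lift a ha
  have sq : tv h a ha * tv h a ha = MulAut.conj a := by
    ext x
    rw [MulAut.mul_apply, MulAut.conj_apply]
    by_cases e : a * x = x * a
    · rw [tv_pos h ha e, tv_pos h ha e, e, mul_inv_cancel_right]
    · rw [tv_neg h ha e, map_mul, tv_neg h ha e, tv_pos h ha rfl, h.conj_eq (mem_top a) (mem_top x) e,
        ← mul_assoc, ha, c]
  have cj' : ∀ (φ : MulAut Q) (g : Q), φ * MulAut.conj g = MulAut.conj (φ g) * φ := fun φ g => by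
    ext x; simp
  have haw : a * w ≠ w * a := fun e => by
    have := mul_mem hw hw
    rw [mul_assoc, ← mul_assoc (tv h a ha), cj', tv_pos h ha e, mul_assoc, sq, ← map_mul,
      ← map_mul, ← mul_assoc] at this
    refine ne _ ?_ (inn _ this)
    rcases h.sq w (mem_top w) with e | e <;> rw [e]
    · rwa [one_mul]
    · rw [mul_assoc, ← mul_assoc a, c, mul_assoc, ← mul_assoc, h.zz, one_mul, ha]
  obtain ⟨E, ⟨hE, hE'⟩, hc⟩ := hplus
  obtain ⟨s, ⟨⟨s1, s2⟩, s3⟩, s4⟩ : ∃ s ∈ (E ⊓ cz (zpowers a)) ⊓ cz (zpowers w), s ∉ zpowers z := by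
    by_contra h'
    push Not at h'
    have h1 := exists_mem E h a
    have h2 := exists_mem (E ⊓ cz (zpowers a)) h w
    have h3 := card_le_of_le (show _ ≤ zpowers z from h')
    have h4 := Nat.pow_le_pow_right two_pos (show 4 ≤ n + 1 by omega)
    rw [h.card_zp] at h3
    omega
  replace s2 : s * a = a * s := (mem_cz'.1 s2 a (mem_zpowers a)).symm
  replace s3 : s * w = w * s := (mem_cz'.1 s3 w (mem_zpowers w)).symm
  have hb : a * s * (a * s) = z := by
    rw [mul_assoc, ← mul_assoc s, s2, mul_assoc, ← pow_two s, hE' s s1, mul_one, ha]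
  obtain ⟨u, hu⟩ := lift _ hb
  set φ := MulAut.conj u * tv h _ hb with hφ
  have e1 : φ a = u * a * u⁻¹ := by
    rw [hφ, MulAut.mul_apply, tv_pos h hb (by rw [mul_assoc, s2]), MulAut.conj_apply]
  have e2 : φ w = u * (a * s * w) * u⁻¹ := by
    rw [hφ, MulAut.mul_apply, tv_neg h hb (by
      rw [mul_assoc, s3, ← mul_assoc, ← mul_assoc, Ne, mul_left_inj]; exact haw), MulAut.conj_apply]
  clear_value φ
  have e3 : ∃ g, (g = 1 ∨ g = a) ∧ φ * tv h a ha = MulAut.conj g * tv h a ha * φ := by
    rcases h.conj_cases (mem_top u) (mem_top a) with e | e <;> rw [← e1] at e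
    · refine ⟨1, .inl rfl, MulEquiv.ext fun x => ?_⟩
      rw [map_one, one_mul, MulAut.mul_apply, MulAut.mul_apply]
      by_cases e' : a * x = x * a
      · rw [tv_pos h ha e', tv_pos h ha (by have := congrArg φ e'; rwa [map_mul, map_mul, e] at this)]
      · rw [tv_neg h ha e', tv_neg h ha (fun e'' => e' (φ.injective (by
          rw [map_mul, map_mul, e, e'']))), map_mul, e]
    · refine ⟨a, .inr rfl, MulEquiv.ext fun x => ?_⟩
      rw [MulAut.mul_apply, MulAut.mul_apply, MulAut.mul_apply, MulAut.conj_apply]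
      have k : a * φ x = φ x * a ↔ a * x = x * a := by
        rw [← φ.injective.eq_iff (a := a * x), map_mul, map_mul, e, mul_assoc, ← c, ← mul_assoc, ← mul_assoc,
          mul_left_inj]
      by_cases e' : a * x = x * a
      · rw [tv_pos h ha e', tv_pos h ha (k.2 e'), k.2 e', mul_inv_cancel_right]
      · rw [tv_neg h ha e', tv_neg h ha (mt k.1 e'), map_mul, e, mul_assoc a (a * _),
          h.conj_eq (mem_top a) (mem_top _) (mt k.1 e'), c (φ x), mul_assoc]
  obtain ⟨g, hg, e3⟩ := e3
  have := mul_mem (mul_mem (mul_mem hu hw) (inv_mem hu)) (inv_mem hw)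
  rw [← mul_assoc, cj', mul_assoc _ φ, e3, ← mul_assoc, mul_inv_cancel_right, mul_inv_rev,
    ← mul_assoc, ← mul_assoc, mul_inv_cancel_right, ← map_inv, ← map_mul, ← map_mul, e2] at this
  have h1 : a * s * g ∈ zpowers z := by
    have h2 := mul_mem (mul_mem (inv_mem (h.comm_mem (mem_top u) (mem_top (a * s * w))))
      (h.mem_zp.2 (inn _ this))) (inv_mem (h.comm_mem (mem_top g⁻¹) (mem_top w)))
    convert h2 using 1
    simp only [commutatorElement_def]
    group
  rcases hg with rfl | rfl
  · exact ne _ hb (h.mem_zp.1 (by simpa using h1))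
  · rw [mul_assoc, s2, ← mul_assoc, ha, mul_mem_cancel_left (mem_zpowers z)] at h1
    exact s4 h1

end Cfsg.Agent.S3085
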