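import Cfsg.Statements.S3110
import Cfsg.Agent.H1.SF11

set_option autoImplicit false
open Cfsg

namespace Cfsg.Agent.S3110

/-- Let G be a finite group in which every 2-local subgroup is 2-constrained and some Sylow 2-subgroup has a self-centralizing abelian normal subgroup of 2-rank at least 3, and let S be any Sylow 2-subgroup of G. Then there is a subgroup W of G of odd order such that, for every subgroup B of S of 2-rank at least 2, W is generated by the largest normal odd-order subgroups O(C_G(b)) of the centralizers of the non-identity elements b of B, and W is normalized by the normalizer of every such B. -/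
theorem result {G : Type*} [Group G] [Finite G]
    (h2c : ∀ T : Subgroup G, IsPGroup 2 T → T ≠ ⊥ → Cfsg.IsPConstrained 2 ↥(Subgroup.normalizer (T : Set G)))
    (S : Sylow 2 G) (A : Subgroup ↥(S : Subgroup G)) (hAn : A.Normal) (hAab : IsMulCommutative ↥A)
    (hAC : Subgroup.centralizer (A : Set ↥(S : Subgroup G)) = A) (hA3 : ¬ Cfsg.PRankLE 2 2 ↥A) (S' : Sylow 2 G) :
    ∃ W : Subgroup G, Odd (Nat.card ↥W) ∧
      ∀ B : Subgroup G, B ≤ (S' : Subgroup G) → ¬ Cfsg.PRankLE 2 1 ↥B →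
        W = (⨆ b : {b : G // b ∈ B ∧ b ≠ 1}, Cfsg.centralizerPPrimeCore 2 (b : G)) ∧
        Subgroup.normalizer (B : Set G) ≤ Subgroup.normalizer (W : Set G) := by
  open H19 in
  obtain ⟨h1, h2⟩ := H1.fourConn_of_scn S S' A hAn hAab hA3
  obtain ⟨W, h3, h4⟩ := (H1.bal_of_constr fun b _ b2 b1 => H1.constr_cent h2c b2 b1).exists_W h1 h2
  refine ⟨W, Nat.odd_iff.2 (Nat.two_dvd_ne_zero.1 ((piN_compl_singleton Nat.prime_two).1 h3)),
    fun B hB hr => ?_⟩
  have hS : PG 2 (S' : Subgroup G) := PiN.of_isPGroup Nat.prime_two S'.isPGroup'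
  obtain ⟨U, u1, u2, u3⟩ := (H1.not_pRankLE_iff Nat.prime_two).1 hr
  have e : W = H1.Clo B (Cfsg.centralizerPPrimeCore 2) := by
    refine le_antisymm (h4 U (u1.trans hB) u2 u3 ▸ H1.Clo_le.2 fun a ha a1 => H1.le_Clo _ (u1 ha) a1)
      (H1.Clo_le.2 fun b hb b1 => ?_)
    obtain ⟨t, t1, t2, t3, t4⟩ := H1.cpp_le_of_pow
      (hS.of_le (Subgroup.zpowers_le.2 (hB hb))).isPGroup b1 fun t _ t2 t1 => H1.constr_cent h2c t2 t1
    obtain ⟨V, v1, v2, v3, v4⟩ := H1.exists_four_mem hS ((H1.not_pRankLE_iff Nat.prime_two).2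
      ⟨U, u1.trans hB, u2, u3⟩) (Subgroup.zpowers_le.2 (hB hb) t1) t2
    exact t4.trans (h4 V v1 v2 v3 ▸ H1.le_Clo _ v4 t3)
  exact ⟨e, e ▸ H1.norm_le_norm_Clo 2 B⟩

end Cfsg.Agent.S3110
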