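import Cfsg.Statements.S3121
import Cfsg.Agent.H3.ZE0

set_option autoImplicit false
open Cfsg

namespace Cfsg.Agent.S3121

open Subgroup H19 H18.Be H3.ZD in

/-- Let G be a finite group whose generalized Fitting subgroup F*(G) is a non-abelian simple group, let H be a tightly embedded subgroup of G and N its normalizer. If H^g ∩ N has odd order for every element g of G outside N, then either H is normal in G or F*(G) has a strongly embedded subgroup. -/
theorem result {G : Type*} [Group G] [Finite G]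
    (hF : IsSimpleGroup ↥(Cfsg.generalizedFittingSubgroup G)) (hF' : ¬ IsMulCommutative ↥(Cfsg.generalizedFittingSubgroup G))
    (H : Subgroup G) (hH : Cfsg.IsTightlyEmbedded H)
    (hodd : ∀ g : G, g ∉ Subgroup.normalizer (H : Set G) →
      Odd (Nat.card ↥(H.map (MulAut.conj g).toMonoidHom ⊓ Subgroup.normalizer (H : Set G)))) :
    H.Normal ∨ ∃ M : Subgroup ↥(Cfsg.generalizedFittingSubgroup G), Cfsg.IsStronglyEmbedded M := by
  obtain ⟨P, T, hP, h0, h⟩ := sc_te (te_of hodd) hH.1
  obtain ⟨s, s1, s2⟩ := ex_inv h.pg h0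
  refine or_iff_not_imp_left.2 fun hn => ?_
  have hN : normalizer (H : Set G) ≠ ⊤ := fun e => hn (normalizer_eq_top_iff.1 e)
  have hC := H1.centralizer_gf_le (G := G)
  have hn : (generalizedFittingSubgroup G).Normal := inferInstance
  generalize generalizedFittingSubgroup G = F at *
  have key : ∀ K : Subgroup G, K.Normal → K = ⊥ ∨ F ≤ K := fun K hK =>
    (IsSimpleGroup.eq_bot_or_eq_top_of_normal (K.subgroupOf F) inferInstance).imp (fun e => by
      have e1 : K ≤ centralizer F := normalIn_top.cents_of_disjoint normalIn_top (disjoint_iff.1 (subgroupOf_eq_bot.1 e))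
      refine (IsSimpleGroup.eq_bot_or_eq_top_of_normal ((centralizer (F : Set G)).subgroupOf F) inferInstance).elim
        (fun e2 => H19.eq_bot_mono (le_inf e1 (e1.trans hC)) (disjoint_iff.1 (subgroupOf_eq_bot.1 e2)))
        fun e2 => (hF' (comm_iff_le_cent.2 (subgroupOf_eq_top.1 e2))).elim) subgroupOf_eq_top.1
  obtain ⟨t, t1, t2⟩ := exists_orderOf_eq_prime Nat.prime_two (H20.even_card_of_simple F hF').two_dvd
  have hL : F ≤ closure (Zs P) := (key _ ⟨fun x hx g => conj_mem_of_norm (mem_norm_of_cj_le (by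
    rw [cj_closure, closure_le]; rintro _ ⟨y, e, rfl⟩; exact subset_closure (Zs_conj e g))) hx⟩).resolve_left
    (ne_bot_of_mem (subset_closure (mem_Zs s1 s2)) (of_ord2 s2).1)
  have hK : (normalizer (H : Set G)).normalCore = ⊥ := (key _ inferInstance).resolve_right fun e => by
    have e1 := e.trans (normalCore_le _)
    rcases IsSimpleGroup.eq_bot_or_eq_top_of_normal (H.subgroupOf F) (inf_subgroupOf_right H F ▸
      (inf_normal_of_norm e1).subgroupOf) with e2 | e2
    · have e3 := cents_of_norms_disjoint e1 (le_top.trans normalIn_top.norm) (disjoint_iff.1 (subgroupOf_eq_bot.1 e2))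
      exact (of_ord2 s2).1 (mem_bot.1 ((disjoint_iff.1 (subgroupOf_eq_bot.1 e2)).le ⟨hP.le s1, hC (e3 (hP.le s1))⟩))
    · exact hN (eq_top_iff.2 fun g _ => te_of hodd t (subgroupOf_eq_top.1 e2 t1) t2 g (e1 (hn.conj_mem t t1 g)))
  have hm : ∀ x ∈ F, orderOf x = 2 → x ∉ (normalizer (H : Set G)).normalCore := fun x _ e e' =>
    (of_ord2 e).1 (mem_bot.1 (hK.le e'))
  refine ⟨(normalizer (H : Set G)).subgroupOf F, H10.isStronglyEmbedded_iff.2 ⟨fun e => hm t t1 t2
    (normal_le_normalCore.2 (subgroupOf_eq_top.1 e) t1), ?_, fun x x1 x2 g e => h.zs.mem hN (hL x.2)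
      (of_ord2 ((orderOf_coe x).trans x2)).2 (hm _ x.2 ((orderOf_coe x).trans x2)) x1 e⟩⟩
  obtain ⟨u, u1, u2⟩ := (h.zs.main hN (hL t1) ((of_ord2 t2).2 ▸ one_mem _)).resolve_left (hm t t1 t2)
  obtain rfl := eq_of_mul_eq_one (of_ord2 u1.1).2 (mem_bot.1 (hK.le u2))
  obtain ⟨g, e⟩ := h.zs.ex t u1
  exact ⟨⟨_, hn.conj_mem t t1 g⟩, e, (orderOf_mk _ _).trans ((orderOf_conj' g t).trans t2)⟩

end Cfsg.Agent.S3121
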