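import Cfsg.Statements.S3316
import Cfsg.Agent.H26.J4.M4

set_option autoImplicit false
open Cfsg

namespace Cfsg.Agent.S3316

/-- Let G be a finite non-abelian simple group with an element x of order 3 whose centralizer is a perfect central extension of M₂₂ by a cyclic centre of order 3 or 6 (the centralizer is perfect, its centre is cyclic of order 3 or 6, and its central quotient is isomorphic to M₂₂). Suppose G is not 3-normal: the centre of some Sylow 3-subgroup S has a conjugate lying in S other than itself. Then G is of Janko-four type: some involution z has centralizer H whose largest normal 2-subgroup E is extraspecial of order 2^13 containing its centralizer in H, with a normal subgroup N ≥ E of H, N/E of order 3, H/N the automorphism group of M₂₂, and a subgroup P ≤ N of order 3 with C_E(P) = ⟨z⟩, N_H(P) ≠ C_H(P) and P ≤ C_H(P)′. -/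
theorem result {G : Type*} [Group G] [Finite G] [IsSimpleGroup G] (hG : ¬ IsMulCommutative G) (x : G) (hx : orderOf x = 3) (hperf : ⁅(⊤ : Subgroup ↥(Subgroup.centralizer ({x} : Set G))), (⊤ : Subgroup ↥(Subgroup.centralizer ({x} : Set G)))⁆ = ⊤) (hZ : IsCyclic ↥(Subgroup.center ↥(Subgroup.centralizer ({x} : Set G)))) (hZc : Nat.card ↥(Subgroup.center ↥(Subgroup.centralizer ({x} : Set G))) = 3 ∨ Nat.card ↥(Subgroup.center ↥(Subgroup.centralizer ({x} : Set G))) = 6) (e : ↥(Subgroup.centralizer ({x} : Set G)) ⧸ Subgroup.center ↥(Subgroup.centralizer ({x} : Set G)) ≃* ↥Cfsg.Spor.M22) (S : Sylow 3 G) (g : G) (hng : ((Subgroup.center ↥(S : Subgroup G)).map (S : Subgroup G).subtype).map (MulAut.conj g).toMonoidHom ≤ (S : Subgroup G)) (hne : ((Subgroup.center ↥(S : Subgroup G)).map (S : Subgroup G).subtype).map (MulAut.conj g).toMonoidHom ≠ ((Subgroup.center ↥(S : Subgroup G)).map (S : Subgroup G).subtype)) :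
    Cfsg.IsOfJankoFourType G := by
  obtain ⟨z, ξ, h, -⟩ := H26.J4.k5_of hx hperf hZ hZc e
  rw [H0.center_map_eq] at hng hne
  exact ⟨z, (H26.J4.cf_of h S g hng hne).2⟩

end Cfsg.Agent.S3316
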