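import Cfsg.Statements.S3356
import Cfsg.Agent.H24.Derang

set_option autoImplicit false
open Cfsg

namespace Cfsg.Agent.S3356

open MulAction Pointwise

variable {G Ω : Type*} [Group G] [Finite G] [MulAction G Ω] [Finite Ω]

theorem fix_of_dvd {a : Ω} {c : ℕ}
    (hc : ∀ b, b ≠ a → Nat.card ↥(stabilizer G a ⊓ stabilizer G b) = c) (S : Set Ω) (ha : a ∉ S)
    (hS : ∀ h : G, h • a = a → ∀ y ∈ S, h • y = y → ∀ z ∈ S, h • z ∈ S)
    (hd : S.ncard ∣ Nat.card Ω) {h : G} (hh : h • a = a) {y : Ω} (hy : y ∈ S) (hhy : h • y = y)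
    {z : Ω} (hz : z ∈ S) : h • z = z := by
  set K := stabilizer G a ⊓ stabilizer G S
  have h1 : ∀ h : G, h • a = a → ∀ y ∈ S, h • y = y → h ∈ K := fun h hh y hy hhy =>
    ⟨hh, Set.eq_of_subset_of_ncard_le (by rintro _ ⟨z, hz, rfl⟩; exact hS h hh y hy hhy z hz)
      (by rw [Set.ncard_smul_set])⟩
  have h2 : ∀ y ∈ S, K ⊓ stabilizer G y = stabilizer G a ⊓ stabilizer G y := fun y hy =>
    le_antisymm (inf_le_inf_right _ inf_le_left) fun h hh => ⟨h1 h hh.1 y hy hh.2, hh.2⟩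
  have hne : ∀ y ∈ S, y ≠ a := fun y hy h => ha (h ▸ hy)
  have hc0 : 0 < c := hc y (hne y hy) ▸ Nat.card_pos
  have h3 : ∀ y ∈ S, Nat.card (orbit K y) * c = Nat.card K := fun y hy => by
    rw [← hc y (hne y hy), ← h2 y hy, H17.card_orbit_mul_inf]
  have h4 : Nat.card (orbit K z) ∣ S.ncard := H24.dvd_ncard_of_orbits K S
    (fun g hg x hx => by
      have : g • S = S := hg.2
      rw [← this]; exact Set.smul_mem_smul_set hx) fun x hx => by
    rw [Nat.eq_of_mul_eq_mul_right hc0 ((h3 z hz).trans (h3 x hx).symm)]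
  have h5 : Nat.card (orbit K z) ∣ ({a}ᶜ : Set Ω).ncard := H24.dvd_ncard_of_orbits
    (stabilizer G a) {a}ᶜ (fun g hg x hx h => hx (by
      rw [Set.mem_singleton_iff] at h ⊢
      exact (smul_left_cancel_iff g).1 (h.trans hg.symm))) fun x hx => by
    refine Nat.dvd_of_mul_dvd_mul_right hc0 ?_
    rw [h3 z hz, ← hc x hx, H17.card_orbit_mul_inf]
    exact Subgroup.card_dvd_of_le inf_le_left
  rw [Set.ncard_compl, Set.ncard_singleton] at h5
  have h6 : 0 < Nat.card Ω := Nat.card_pos_iff.2 ⟨⟨a⟩, inferInstance⟩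
  have h7 : Nat.card (orbit K z) = 1 := Nat.eq_one_of_dvd_one (by
    have := Nat.dvd_sub (h4.trans hd) h5
    rwa [show Nat.card Ω - (Nat.card Ω - 1) = 1 by omega] at this)
  have := (Nat.card_eq_one_iff_unique.1 h7).1
  exact congrArg Subtype.val (Subsingleton.elim (⟨h • z, ⟨h, h1 h hh y hy hhy⟩, rfl⟩ : orbit K z)
    ⟨z, mem_orbit_self z⟩)


/-- Let G be a finite 3/2-transitive permutation group: G acts faithfully and transitively on a finite set, the point stabilizers are non-trivial, and for each point a all orbits of G_a on the remaining points have the same size. Suppose G has a regular normal subgroup N and G is not a Frobenius group (some two-point stabilizer is non-trivial). Then N is an elementary abelian p-group for some prime p, and every non-trivial normal subgroup of G contains N (so N is the unique minimal normal subgroup). -/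
theorem result {G Ω : Type*} [Group G] [Finite G]
    [MulAction G Ω] [FaithfulSMul G Ω] [Finite Ω] (htrans : MulAction.IsPretransitive G Ω)
    (hne : ∀ a : Ω, MulAction.stabilizer G a ≠ ⊥)
    (hhalf : ∀ a b c : Ω, b ≠ a → c ≠ a →
      Nat.card (MulAction.orbit (MulAction.stabilizer G a) b) = Nat.card (MulAction.orbit (MulAction.stabilizer G a) c))
    (N : Subgroup G) [hN : N.Normal] (hNt : MulAction.IsPretransitive N Ω) (hNr : ∀ a : Ω, MulAction.stabilizer N a = ⊥)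
    (hnotF : ∃ a b : Ω, a ≠ b ∧ MulAction.stabilizer G a ⊓ MulAction.stabilizer G b ≠ ⊥) :
    (∃ p : ℕ, p.Prime ∧ IsMulCommutative N ∧ ∀ x ∈ N, x ^ p = 1) ∧
    (∀ M : Subgroup G, M.Normal → M ≠ ⊥ → N ≤ M) := by
  obtain ⟨a, b, hab, hF⟩ := hnotF
  set H := stabilizer G a
  set c := Nat.card ↥(H ⊓ stabilizer G b)
  have hc : ∀ x, x ≠ a → Nat.card ↥(H ⊓ stabilizer G x) = c := fun x hx => by
    have h1 := H17.card_orbit_mul_inf H x
    rw [← H17.card_orbit_mul_inf H b, hhalf a x b hx hab.symm] at h1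
    exact Nat.eq_of_mul_eq_mul_left
      (Nat.card_pos_iff.2 ⟨⟨⟨b, mem_orbit_self b⟩⟩, inferInstance⟩) h1
  have hr : ∀ x ∈ N, ∀ y ∈ N, x • a = y • a → x = y := fun x hx y hy e => (inv_mul_eq_one.1
    ((H17.stabilizer_sub_eq_bot_iff N a).1 (hNr a) _ (mul_mem (inv_mem hx) hy)
      (by rw [mul_smul, ← e, inv_smul_smul])))
  have hcj : ∀ h : G, h • a = a → ∀ x : G, (h * x * h⁻¹) • a = h • x • a := fun h hh x => by
    rw [mul_smul, mul_smul, inv_smul_eq_iff.2 hh.symm]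
  -- the centralizers
  set C : G → Subgroup G := fun x => H ⊓ stabilizer G (x • a) with hC
  have hmem : ∀ x ∈ N, ∀ h, h ∈ C x ↔ h • a = a ∧ h * x * h⁻¹ = x := fun x hx h =>
    ⟨fun h1 => ⟨h1.1, hr _ (hN.conj_mem x hx h) _ hx ((hcj h h1.1 x).trans h1.2)⟩,
      fun h1 => ⟨h1.1, show h • x • a = x • a by rw [← hcj h h1.1, h1.2]⟩⟩
  have hna : ∀ x ∈ N, x ≠ 1 → x • a ≠ a := fun x hx h1 h =>
    h1 (hr x hx 1 N.one_mem (by rwa [one_smul]))
  have heq : ∀ x ∈ N, x ≠ 1 → ∀ y ∈ N, y ≠ 1 → C x ≤ C y → C x = C y := fun x hx h1 y hy h2 h =>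
    Subgroup.eq_of_le_of_card_ge h (by rw [hC]; dsimp only; rw [hc _ (hna x hx h1), hc _ (hna y hy h2)])
  have hex : ∀ x ∈ N, x ≠ 1 → ∃ h ∈ C x, ∃ z ∈ N, h ∉ C z := fun x hx h1 => by
    have : C x ≠ ⊥ := fun h => hF (Subgroup.card_eq_one.1 (by
      rw [hc b hab.symm, ← hc _ (hna x hx h1)]; exact Subgroup.card_eq_one.2 h))
    obtain ⟨⟨h, hh⟩, h2⟩ := Subgroup.ne_bot_iff_exists_ne_one.1 this
    refine ⟨h, hh, by_contra fun h3 => h2 (Subtype.ext (eq_of_smul_eq_smul (α := Ω) fun y => ?_))⟩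
    push Not at h3
    obtain ⟨z, rfl⟩ := hNt.exists_smul_eq a y
    exact ((h3 z z.2).2 : _ = _).trans (one_smul _ _).symm
  have hcard : Nat.card N = Nat.card Ω := H17.card_eq_of_regular N hNt a (hNr a)
  have key : ∀ T : Set G, T ⊆ N → 1 ∉ T → T.ncard ∣ Nat.card N →
      (∀ h : G, ∀ y ∈ T, h * y * h⁻¹ = y → ∀ z ∈ T, h * z * h⁻¹ ∈ T) →
      ∀ y ∈ T, ∀ z ∈ T, C y ≤ C z := fun T hT h1 hd hS y hy z hz h hh => by
    refine ⟨hh.1, fix_of_dvd hc ((· • a) '' T) ?_ ?_ ?_ hh.1 ⟨y, hy, rfl⟩ hh.2 ⟨z, hz, rfl⟩⟩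
    · rintro ⟨x, hx, e⟩
      exact hna x (hT hx) (fun h => h1 (h ▸ hx)) e
    · rintro h hh _ ⟨y, hy, rfl⟩ e _ ⟨z, hz, rfl⟩
      exact ⟨_, hS h y hy ((hmem y (hT hy) h).1 ⟨hh, e⟩).2 z hz, hcj h hh z⟩
    · rwa [Set.ncard_image_of_injOn fun x hx y hy => hr x (hT hx) y (hT hy), ← hcard]
  have hconj : ∀ x ∈ N, ∀ y ∈ N, C x ≤ C (y * x * y⁻¹) := fun x hx y hy => by
    by_cases h1 : x = 1
    · simp [h1]
    refine key {z | ∃ y ∈ N, y * x * y⁻¹ = z} ?_ ?_ ?_ ?_ x ⟨1, N.one_mem, by simp⟩ _ ⟨y, hy, rfl⟩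
    · rintro _ ⟨y, hy, rfl⟩; exact hN.conj_mem x hx y
    · rintro ⟨y, -, e⟩; exact h1 (by simpa using e)
    · have : {z | ∃ y ∈ N, y * x * y⁻¹ = z} = orbit (N.map MulAut.conj) x := by
        ext z
        constructor
        · rintro ⟨y, hy, rfl⟩; exact ⟨⟨_, y, hy, rfl⟩, rfl⟩
        · rintro ⟨⟨_, y, hy, rfl⟩, rfl⟩; exact ⟨y, hy, rfl⟩
      rw [this, ← index_stabilizer]
      exact (Subgroup.index_dvd_card _).trans (N.card_map_dvd _)
    · rintro h _ ⟨y, hy, rfl⟩ e _ ⟨z, hz, rfl⟩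
      refine ⟨h * (z * y⁻¹) * h⁻¹ * y, N.mul_mem (hN.conj_mem _ (N.mul_mem hz (N.inv_mem hy)) h) hy, ?_⟩
      calc _ = h * (z * y⁻¹) * h⁻¹ * (y * x * y⁻¹) * (h * (z * y⁻¹) * h⁻¹)⁻¹ := by group
        _ = h * (z * y⁻¹) * h⁻¹ * (h * (y * x * y⁻¹) * h⁻¹) * (h * (z * y⁻¹) * h⁻¹)⁻¹ := by rw [e]
        _ = _ := by group
  have hmul : ∀ x ∈ N, ∀ y ∈ N, C x ⊓ C y ≤ C (x * y) := fun x hx y hy h hh => by
    have h1 := (hmem x hx h).1 hh.1
    have h2 := (hmem y hy h).1 hh.2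
    exact (hmem _ (N.mul_mem hx hy) h).2 ⟨h1.1, by rw [← conj_mul, h1.2, h2.2]⟩
  have hinv : ∀ x ∈ N, C x ≤ C x⁻¹ := fun x hx h hh => by
    have h1 := (hmem x hx h).1 hh
    exact (hmem _ (N.inv_mem hx) h).2 ⟨h1.1, by rw [← conj_inv, h1.2]⟩
  have hone : ∀ x, C x ≤ C 1 := fun x h hh => ⟨hh.1, show h • (1 : G) • a = (1 : G) • a by rw [one_smul]; exact hh.1⟩
  have hcan : ∀ x ∈ N, ∀ z ∈ N, C x ⊓ C (x * z) ≤ C z := fun x hx z hz h hh => by
    simpa using hmul _ (N.inv_mem hx) _ (N.mul_mem hx hz) ⟨hinv x hx hh.1, hh.2⟩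
  have hc1 : ∀ x ∈ N, ∀ y ∈ N, y ≠ 1 → ¬ C y ≤ C x → x * y = y * x := fun x hx y hy h2 h => by
    have h1 : x ≠ 1 := by rintro rfl; exact h (hone y)
    by_contra h3
    have h4 : x * y * x⁻¹ * y⁻¹ ≠ 1 := fun e => h3 (by
      rw [mul_inv_eq_one, mul_inv_eq_iff_eq_mul] at e; exact e)
    have h5 := N.mul_mem (hN.conj_mem y hy x) (N.inv_mem hy)
    have h6 : C y ≤ C (x * y * x⁻¹ * y⁻¹) :=
      (le_inf (hconj y hy x hx) (hinv y hy)).trans (hmul _ (hN.conj_mem y hy x) _ (N.inv_mem hy))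
    have h7 : C x ≤ C (x * y * x⁻¹ * y⁻¹) := by
      have := (le_inf le_rfl ((hinv x hx).trans (hconj _ (N.inv_mem hx) y hy))).trans
        (hmul _ hx _ (hN.conj_mem _ (N.inv_mem hx) y))
      simpa only [mul_assoc] using this
    exact h (h6.trans (heq x hx h1 _ h5 h4 h7).ge)
  have hcomm : ∀ x ∈ N, ∀ y ∈ N, x * y = y * x := fun x hx y hy => by
    by_cases h2 : y = 1
    · simp [h2]
    by_cases h : C y ≤ C x
    · obtain ⟨u, hu, z, hz, hz'⟩ := hex y hy h2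
      have e1 := hc1 z hz y hy h2 fun h => hz' (h hu)
      have e2 := hc1 _ (N.mul_mem hx hz) y hy h2 fun h' => hz' (hcan x hx z hz ⟨h hu, h' hu⟩)
      rw [mul_assoc, e1, ← mul_assoc, ← mul_assoc] at e2
      exact mul_right_cancel e2
    · exact hc1 x hx y hy h2 h
  have hmin : ∀ L : Subgroup G, L.Normal → L ≤ N → L = ⊥ ∨ L = N := fun L hL hLN => by
    by_contra h
    push Not at h
    obtain ⟨⟨l, hl⟩, hl1⟩ := Subgroup.ne_bot_iff_exists_ne_one.1 h.1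
    have hl1 : l ≠ 1 := fun e => hl1 (Subtype.ext e)
    have h1 : ∀ x ∈ N, x ∉ L → ∀ l ∈ L, C x ≤ C l := fun x hx hxL l hl => by
      refine (le_inf le_rfl (key (x • (L : Set G)) ?_ ?_ ?_ ?_ x ⟨1, L.one_mem, by simp⟩ (x * l)
        ⟨l, hl, rfl⟩)).trans (hcan x hx l (hLN hl))
      · rintro _ ⟨y, hy, rfl⟩; exact N.mul_mem hx (hLN hy)
      · rintro ⟨y, hy, e⟩
        exact hxL ((eq_inv_of_mul_eq_one_left e).symm ▸ L.inv_mem hy)
      · rw [Set.ncard_smul_set]; exact Subgroup.card_dvd_of_le hLN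
      · rintro h _ ⟨y, hy, rfl⟩ e _ ⟨z, hz, rfl⟩
        refine ⟨y * (h * (y⁻¹ * z) * h⁻¹), L.mul_mem hy (hL.conj_mem _ (L.mul_mem (L.inv_mem hy) hz) h), ?_⟩
        simp only [smul_eq_mul] at e ⊢
        rw [← mul_assoc, ← e]; group
    obtain ⟨x, hx, hxL⟩ := SetLike.exists_of_lt (lt_of_le_of_ne hLN h.2)
    obtain ⟨u, hu, z, hz, hz'⟩ := hex l (hLN hl) hl1
    have h2 : ∀ x ∈ N, x ∉ L → C x = C l := fun x hx hxL =>
      heq x hx (fun e => hxL (e ▸ L.one_mem)) l (hLN hl) hl1 (h1 x hx hxL l hl)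
    by_cases hzL : z ∈ L
    · exact hz' (h1 x hx hxL z hzL ((h2 x hx hxL).ge hu))
    · exact hz' ((h2 z hz hzL).ge hu)
  have hN0 : N ≠ ⊥ := by
    rintro rfl
    obtain ⟨⟨z, hz⟩, e⟩ := hNt.exists_smul_eq a b
    rw [Subgroup.mem_bot] at hz
    subst hz
    exact hab ((one_smul G a).symm.trans e)
  obtain ⟨p, hp, hp'⟩ := H17.min_normal_comm_pow N hN0 hmin hcomm
  refine ⟨⟨p, hp, ⟨⟨fun x y => Subtype.ext (hcomm _ x.2 _ y.2)⟩⟩, hp'⟩, fun M hM hM0 => ?_⟩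
  rcases hmin (M ⊓ N) inferInstance inf_le_right with h | h
  · refine absurd ((Subgroup.eq_bot_iff_forall _).2 fun m hm => ?_) hM0
    have h1 : ∀ x ∈ N, x * m = m * x := fun x hx =>
      (Subgroup.commute_of_normal_of_disjoint M N hM hN (disjoint_iff.2 h) m x hm hx).eq.symm
    obtain ⟨⟨z, hz⟩, e⟩ := hNt.exists_smul_eq a (m • a)
    have h2 : z⁻¹ * m = 1 := H17.semireg_of_comm N hNt _ (fun x hx => by
      rw [← mul_assoc, hcomm x hx _ (N.inv_mem hz), mul_assoc, h1 x hx, mul_assoc]) (a := a)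
      (by rw [mul_smul, inv_smul_eq_iff]; exact e.symm)
    have : m ∈ M ⊓ N := ⟨hm, inv_mul_eq_one.1 h2 ▸ hz⟩
    rwa [h, Subgroup.mem_bot] at this
  · exact h.ge.trans inf_le_left

end Cfsg.Agent.S3356
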