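import Cfsg.Statements.S3357
import Cfsg.Agent.H24.FrobStruct

set_option autoImplicit false
open Cfsg

namespace Cfsg.Agent.S3357

open Module

theorem aux {G k V : Type*} [Group G] [Field k] [AddCommGroup V] [Module k V] [Module.Finite k V]
    [Nontrivial V] (ρ : Representation k G V)
    (h : ∀ a : G, a ≠ 1 → ∀ v : V, ρ a v = v → v = 0) :
    ∃ (n : ℕ) (ρ : G →* GL (Fin n) k), 0 < n ∧ Function.Injective ρ ∧
      (∀ W : Submodule k (Fin n → k),
        (∀ g : G, ∀ w ∈ W, ((ρ g : GL (Fin n) k) : Matrix (Fin n) (Fin n) k).mulVec w ∈ W) →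
          W = ⊥ ∨ W = ⊤) ∧
      ∀ g : G, g ≠ 1 → ∀ v : Fin n → k,
        ((ρ g : GL (Fin n) k) : Matrix (Fin n) (Fin n) k).mulVec v = v → v = 0 := by
  have hex : ∃ n, ∃ U : Submodule k V, U ≠ ⊥ ∧ (∀ g, ∀ u ∈ U, ρ g u ∈ U) ∧ finrank k U = n :=
    ⟨_, ⊤, top_ne_bot, fun _ _ _ => trivial, rfl⟩
  classical
  obtain ⟨U, hU, hinv, hn⟩ := Nat.find_spec hex
  set n := Nat.find hex
  let e : U ≃ₗ[k] (Fin n → k) := LinearEquiv.ofFinrankEq _ _ (by simpa using hn)
  let σ : G →* Matrix (Fin n) (Fin n) k :=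
    { toFun := fun g => LinearMap.toMatrix' (e ∘ₗ (ρ g).restrict (hinv g) ∘ₗ e.symm)
      map_one' := by
        rw [← LinearMap.toMatrix'_id]; congr 1; ext1 v
        apply LinearMap.ext; intro c; simp [LinearMap.restrict_apply]
      map_mul' := fun a b => by
        rw [← LinearMap.toMatrix'_comp]; congr 1
        apply LinearMap.ext; intro c; simp [LinearMap.restrict_apply] }
  have hσ : ∀ g v, ((σ.toHomUnits g : GL (Fin n) k) : Matrix (Fin n) (Fin n) k).mulVec v =
      e ⟨ρ g (e.symm v), hinv g _ (e.symm v).2⟩ := fun g v => LinearMap.toMatrix'_mulVec _ v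
  have hpos : 0 < n := by
    rw [← hn]
    haveI := (Submodule.nontrivial_iff_ne_bot (p := U)).mpr hU
    exact finrank_pos
  have hfpf : ∀ g : G, g ≠ 1 → ∀ v : Fin n → k,
      ((σ.toHomUnits g : GL (Fin n) k) : Matrix (Fin n) (Fin n) k).mulVec v = v → v = 0 := by
    intro g hg v hv
    rw [hσ, ← LinearEquiv.eq_symm_apply, Subtype.ext_iff] at hv
    have : e.symm v = 0 := Subtype.ext (h g hg _ hv)
    simpa using this
  refine ⟨n, σ.toHomUnits, hpos, ?_, fun W hW => ?_, hfpf⟩
  · rw [injective_iff_map_eq_one]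
    intro g hg
    by_contra h1
    have := hfpf g h1 (fun _ => 1) (by rw [hg]; simp)
    exact one_ne_zero (congrFun this ⟨0, hpos⟩)
  · refine or_iff_not_imp_left.mpr fun hW0 => ?_
    let i : (Fin n → k) →ₗ[k] V := U.subtype ∘ₗ e.symm
    have hi : Function.Injective i := U.subtype_injective.comp e.symm.injective
    have h1 : n ≤ finrank k (W.map i) := Nat.find_min' hex ⟨W.map i, fun h => hW0 (by
      rwa [← Submodule.map_bot i, (Submodule.map_injective_of_injective hi).eq_iff] at h), by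
        rintro g _ ⟨w, hw, rfl⟩
        exact ⟨_, hW g w hw, by rw [hσ]; simp [i]⟩, rfl⟩
    rw [← (Submodule.equivMapOfInjective i hi W).finrank_eq] at h1
    apply Submodule.eq_top_of_finrank_eq
    exact le_antisymm W.finrank_le (by simpa using h1)


/-- Let G be a finite group that occurs as a Frobenius complement. Then G has a faithful irreducible representation over an algebraic closure of the rationals in which no non-identity element of G has 1 as an eigenvalue: there are n ≥ 1 and an injective homomorphism ρ from G to GL(n) over that field, with no invariant subspace other than 0 and the whole space, such that for g ≠ 1 the only vector fixed by ρ(g) is 0. -/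
theorem result {G : Type*} [Group G] [Finite G]
    (hFC : ∃ (L : Type) (_ : Group L) (_ : Finite L) (H : Subgroup L), Cfsg.IsFrobeniusComplement H ∧ Nonempty (G ≃* H)) :
    ∃ (n : ℕ) (ρ : G →* GL (Fin n) (AlgebraicClosure ℚ)), 0 < n ∧ Function.Injective ρ ∧
      (∀ W : Submodule (AlgebraicClosure ℚ) (Fin n → AlgebraicClosure ℚ),
        (∀ g : G, ∀ w ∈ W, ((ρ g : GL (Fin n) (AlgebraicClosure ℚ)) : Matrix (Fin n) (Fin n) (AlgebraicClosure ℚ)).mulVec w ∈ W) → W = ⊥ ∨ W = ⊤) ∧
      ∀ g : G, g ≠ 1 → ∀ v : Fin n → AlgebraicClosure ℚ,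
        ((ρ g : GL (Fin n) (AlgebraicClosure ℚ)) : Matrix (Fin n) (Fin n) (AlgebraicClosure ℚ)).mulVec v = v → v = 0 := by
  obtain ⟨f, hf, hf0⟩ := H24.IsFC.exists_sol hFC
  haveI : Nontrivial (H24.solMod G (AlgebraicClosure ℚ)) :=
    ⟨⟨⟨fun g => (f g : AlgebraicClosure ℚ), hf.map (Int.castAddHom (AlgebraicClosure ℚ))⟩, 0,
      fun h => hf0 (funext fun g => by
      simpa using congrFun (congrArg Subtype.val h) g)⟩⟩
  exact aux (H24.solRep G (AlgebraicClosure ℚ)) (H24.fpf_of_sum_eq_zero _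
    (isUnit_iff_ne_zero.mpr (Nat.cast_ne_zero.mpr Nat.card_pos.ne')) fun a ha => H24.sum_solRep ha)

end Cfsg.Agent.S3357
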