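import Cfsg.Statements.S3362
import Cfsg.Agent.H24.Witt

set_option autoImplicit false
open Cfsg

namespace Cfsg.Agent.S3362

/-- a map given by a table -/
def T (n : ℕ) (x : Fin 12) : Fin 12 := Fin.ofNat 12 (n / 16 ^ x.1 % 16)

/-- a permutation given by tables -/
def P (n m : ℕ) (h : (∀ x, T m (T n x) = x) ∧ ∀ x, T n (T m x) = x) : Equiv.Perm (Fin 12) :=
  ⟨T n, T m, h.1, h.2⟩

open Equiv MulAction Subgroup in
theorem aux (s t u v w x₁ x₂ x₃ : Perm (Fin 12)) (f : Fin 3 × Fin 3 × Fin 4 × Fin 2 → Perm (Fin 12))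
    (hf : ∀ i, f i ∈ closure {s, t, u, v, w}) (h1 : f 0 = 1)
    (h2 : [s, t, u, v, w].Forall fun g => ∀ i, ∃ j, g (f i 3) = f j 3 ∧ g * f i = f j)
    (h3 : ∀ i, f i 0 = 0 ∧ f i 1 = 1 ∧ f i 2 = 2 ∧ (f i 4 = 4 → f i 3 = 3 → f i = 1))
    (h4 : ∀ a b, 2 < a → 2 < b → a ≠ b → ∃ i, f i 3 = a ∧ f i 4 = b)
    (h5 : [x₁, x₂, x₃].Forall fun x => x ^ 2 = 1 ∧ ∀ i, f i 3 = 3 → ∃ j, f j 3 = 3 ∧ x * f i * x⁻¹ = f j)
    (h6 : [(f (1, 0, 2, 0) * x₁) ^ 3, (x₁ * x₂) ^ 3, (x₂ * x₃) ^ 3, (x₂ * f (1, 0, 2, 0)) ^ 2,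
      (x₃ * f (1, 0, 2, 0)) ^ 2, (x₃ * x₁) ^ 2].Forall fun x => ∃ j, x = f j)
    (h7 : f (1, 0, 2, 0) 3 = 4 ∧ x₁ 0 = 3 ∧ x₁ 4 = 4 ∧ x₁ 1 = 1 ∧ x₁ 2 = 2 ∧ x₂ 1 = 0 ∧ x₂ 4 = 4 ∧
      x₂ 3 = 3 ∧ x₂ 2 = 2 ∧ x₃ 2 = 1 ∧ x₃ 4 = 4 ∧ x₃ 3 = 3 ∧ x₃ 0 = 0) :
    H24.WD 5 (fun i => [0, 4, 3, 0, 1, 2].getD i 0) (closure {s, t, u, v, w})
      (fun i => [1, f (1, 0, 2, 0), x₁, x₂, x₃].getD i 1) ∧
      ∀ g ∈ closure {s, t, u, v, w}, g 4 = 4 → g 3 = 3 → g = 1 := by
  rw [List.forall_iff_forall_mem] at h2 h5 h6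
  have key : ∀ g ∈ closure {s, t, u, v, w}, ∃ i, g = f i := fun g hg => by
    rw [← mem_toSubmonoid, closure_toSubmonoid_of_finite] at hg
    induction hg using Submonoid.closure_induction_left with
    | one => exact ⟨0, h1.symm⟩
    | mul_left k hk g _ ih =>
      obtain ⟨i, rfl⟩ := ih
      exact (h2 k (by simpa using hk) i).imp fun _ h => h.2
  have h6' := fun x hx => (h6 x hx).elim fun j (e : x = f j) => e ▸ hf j
  refine ⟨⟨fun i j a b c d => ?_, fun g hg i a b => ?_, fun a b c d e1 e2 e3 => ?_, hf _, h7.1,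
    fun i a b => ?_, fun i a b => ?_, fun i a b => h6' _ ?_, fun i j a b c => h6' _ ?_,
    fun i a b g hg => ?_⟩, fun g hg => ?_⟩
  · interval_cases i <;> interval_cases j <;> decide
  · obtain ⟨j, rfl⟩ := key g hg
    interval_cases i <;> simp [h3 j]
  · have a1 := e1 3 le_rfl (by omega)
    have a2 := e1 4 (by omega) (by omega)
    have a3 := e1 5 (by omega) le_rfl
    simp only [List.getD_cons_succ, List.getD_cons_zero, ne_eq, Fin.ext_iff] at a1 a2 a3
    obtain ⟨i, b1, b2⟩ := h4 a b (by omega) (by omega) e2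
    obtain ⟨j, b3, b4⟩ := h4 c d (by omega) (by omega) e3
    exact ⟨f j * (f i)⁻¹, mul_mem (hf j) (inv_mem (hf i)), by simp [← b1, b3], by simp [← b2, b4]⟩
  · obtain ⟨k, rfl⟩ := Nat.exists_eq_add_of_le' a
    have : k ≤ 2 := by omega
    refine ⟨by interval_cases k <;> simp [h7], fun j c d => ?_⟩
    interval_cases k <;> interval_cases j <;> simp [h7]
  · have : i ≤ 4 := by omega
    rw [(h5 _ (by interval_cases i <;> simp)).1]; exact one_mem _
  · have : i ≤ 3 := by omega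
    interval_cases i <;> simp
  · have : j ≤ 4 := by omega
    have : i ≤ 2 := by omega
    interval_cases j <;> interval_cases i <;> simp at *
  · obtain ⟨j, rfl⟩ := key g hg.1
    have : i ≤ 4 := by omega
    obtain ⟨k, e1, e2⟩ := (h5 ([1, f (1, 0, 2, 0), x₁, x₂, x₃].getD i 1)
      (by interval_cases i <;> simp)).2 j hg.2
    exact e2 ▸ ⟨hf k, e1⟩
  · obtain ⟨j, rfl⟩ := key g hg
    exact (h3 j).2.2.2

/-- An explicit construction of the Mathieu groups of degrees 11 and 12. On the points 0, …, 11 let s = (3 4 5)(6 7 8)(9 10 11), t = (3 6 9)(4 7 10)(5 8 11), u = (4 6 5 9)(7 8 11 10), v = (4 7 5 11)(6 10 9 8), w = (4 10 5 8)(6 11 9 7), x₁ = (0 3)(6 7)(8 10)(9 11), x₂ = (0 1)(6 9)(7 10)(8 11), x₃ = (1 2)(6 11)(7 9)(8 10) (each written as a product of transpositions). Then the group M₁₂ generated by all eight permutations is sharply 5-transitive on the 12 points and has order 95040, and the group M₁₁ generated by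 the first seven has order 7920 and is the stabilizer of the point 2 in M₁₂. -/
theorem result
    (s t u v w x₁ x₂ x₃ : Equiv.Perm (Fin 12))
    (hs : s = Equiv.swap (3 : Fin 12) 5 * Equiv.swap (3 : Fin 12) 4 * Equiv.swap (6 : Fin 12) 8 * Equiv.swap (6 : Fin 12) 7 * Equiv.swap (9 : Fin 12) 11 * Equiv.swap (9 : Fin 12) 10) (ht : t = Equiv.swap (3 : Fin 12) 9 * Equiv.swap (3 : Fin 12) 6 * Equiv.swap (4 : Fin 12) 10 * Equiv.swap (4 : Fin 12) 7 * Equiv.swap (5 : Fin 12) 11 * Equiv.swap (5 : Fin 12) 8)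
    (hu : u = Equiv.swap (4 : Fin 12) 9 * Equiv.swap (4 : Fin 12) 5 * Equiv.swap (4 : Fin 12) 6 * Equiv.swap (7 : Fin 12) 10 * Equiv.swap (7 : Fin 12) 11 * Equiv.swap (7 : Fin 12) 8) (hv : v = Equiv.swap (4 : Fin 12) 11 * Equiv.swap (4 : Fin 12) 5 * Equiv.swap (4 : Fin 12) 7 * Equiv.swap (6 : Fin 12) 8 * Equiv.swap (6 : Fin 12) 9 * Equiv.swap (6 : Fin 12) 10) (hw : w = Equiv.swap (4 : Fin 12) 8 * Equiv.swap (4 : Fin 12) 5 * Equiv.swap (4 : Fin 12) 10 * Equiv.swap (6 : Fin 12) 7 * Equiv.swap (6 : Fin 12) 9 * Equiv.swap (6 : Fin 12) 11)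
    (hx₁ : x₁ = Equiv.swap (0 : Fin 12) 3 * Equiv.swap (6 : Fin 12) 7 * Equiv.swap (8 : Fin 12) 10 * Equiv.swap (9 : Fin 12) 11) (hx₂ : x₂ = Equiv.swap (0 : Fin 12) 1 * Equiv.swap (6 : Fin 12) 9 * Equiv.swap (7 : Fin 12) 10 * Equiv.swap (8 : Fin 12) 11)
    (hx₃ : x₃ = Equiv.swap (1 : Fin 12) 2 * Equiv.swap (6 : Fin 12) 11 * Equiv.swap (7 : Fin 12) 9 * Equiv.swap (8 : Fin 12) 10)
    (M₁₂ M₁₁ : Subgroup (Equiv.Perm (Fin 12))) (hM₁₂ : M₁₂ = Subgroup.closure {s, t, u, v, w, x₁, x₂, x₃})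
    (hM₁₁ : M₁₁ = Subgroup.closure {s, t, u, v, w, x₁, x₂}) :
    MulAction.IsMultiplyPretransitive M₁₂ (Fin 12) 5 ∧ (∀ y : Fin 5 ↪ Fin 12, MulAction.stabilizer M₁₂ y = ⊥) ∧
    Nat.card M₁₂ = 95040 ∧ Nat.card M₁₁ = 7920 ∧
    M₁₁ = M₁₂ ⊓ MulAction.stabilizer (Equiv.Perm (Fin 12)) (2 : Fin 12) := by
  replace hs : s = P 171139535290896 186605193351696 (by decide +kernel) := by rw [hs]; decide +kernel
  replace ht : t = P 92615224025616 148868997747216 (by decide +kernel) := by rw [ht]; decide +kernel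
  replace hu : u = P 183942805598736 153208536773136 (by decide +kernel) := by rw [hu]; decide +kernel
  replace hv : v = P 80841396400656 95285065495056 (by decide +kernel) := by rw [hv]; decide +kernel
  replace hw : w = P 164327252963856 110731096240656 (by decide +kernel) := by rw [hw]; decide +kernel
  replace hx₁ : x₁ = P 167926364897811 167926364897811 (by decide +kernel) := by rw [hx₁]; decide +kernel
  replace hx₂ : x₂ = P 148896472117761 148896472117761 (by decide +kernel) := by rw [hx₂]; decide +kernel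
  replace hx₃ : x₃ = P 114875801284896 114875801284896 (by decide +kernel) := by rw [hx₃]; decide +kernel
  obtain ⟨h, h0⟩ := aux s t u v w x₁ x₂ x₃ (fun i => s ^ i.1.1 * t ^ i.2.1.1 * u ^ i.2.2.1.1 * v ^ i.2.2.2.1)
    (fun i => mul_mem (mul_mem (mul_mem (pow_mem (Subgroup.subset_closure (by simp)) _)
      (pow_mem (Subgroup.subset_closure (by simp)) _)) (pow_mem (Subgroup.subset_closure (by simp)) _))
      (pow_mem (Subgroup.subset_closure (by simp)) _)) (by simp)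
    (by subst_vars; decide +kernel) (by subst_vars; decide +kernel) (by subst_vars; decide +kernel)
    (by subst_vars; decide +kernel) (by subst_vars; decide +kernel) (by subst_vars; decide +kernel)
  generalize hS : (fun i => [1, s ^ _ * _ * _ * _, x₁, x₂, x₃].getD i 1) = S at h
  have e2 : S 2 = x₁ := hS ▸ rfl
  have e3 : S 3 = x₂ := hS ▸ rfl
  have e4 : S 4 = x₃ := hS ▸ rfl
  have h11 : M₁₁ = H24.wE (Subgroup.closure {s, t, u, v, w}) S 4 := by
    rw [H24.wE_succ (by omega), H24.wE_succ (by omega), H24.wE_two, e2, e3, hM₁₁]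
    simp only [Set.insert_eq, Subgroup.closure_union, Subgroup.zpowers_eq_closure, sup_assoc]
  have h12 : M₁₂ = H24.wE (Subgroup.closure {s, t, u, v, w}) S 5 := by
    rw [H24.wE_succ (by omega), ← h11, e4, hM₁₁, hM₁₂]
    simp only [Set.insert_eq, Subgroup.closure_union, Subgroup.zpowers_eq_closure, sup_assoc]
  have h1 : MulAction.IsMultiplyPretransitive M₁₂ (Fin 12) 5 := h12 ▸ h.mt (by omega)
  have h2 : ∀ y : Fin 5 ↪ Fin 12, MulAction.stabilizer M₁₂ y = ⊥ := fun y => by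
    have hi : Function.Injective (![4, 3, 0, 1, 2] : Fin 5 → Fin 12) := by decide
    obtain ⟨g, rfl⟩ := h1.exists_smul_eq ⟨_, hi⟩ y
    refine (MulAction.stabilizer_smul_eq_stabilizer_map_conj g _).trans
      ((Subgroup.map_eq_bot_iff_of_injective _ (MulEquiv.injective _)).2 (eq_bot_iff.2 fun k hk => ?_))
    have e := fun i => DFunLike.congr_fun (MulAction.mem_stabilizer_iff.1 hk) i
    refine Subtype.ext (h0 _ ?_ (e 0) (e 1))
    rw [← H24.wE_two (G := Subgroup.closure _) (s := S)]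
    refine h.mem_of_fix le_rfl (by omega) le_rfl (h12 ▸ k.2) fun j a b => ?_
    interval_cases j
    exacts [e 2, e 3, e 4]
  have h3 : Nat.card M₁₂ = 95040 := by
    rw [H17.card_of_sharp h1 h2 (by simp)]; simp [Nat.descFactorial]
  have h4 : M₁₁ = M₁₂ ⊓ MulAction.stabilizer (Equiv.Perm (Fin 12)) (2 : Fin 12) := by
    rw [h11, h12]; exact ((h.main (n := 4) (by omega) le_rfl).2.2 (by omega)).symm
  refine ⟨h1, h2, h3, ?_, h4⟩
  haveI : MulAction.IsPretransitive M₁₂ (Fin 12) := MulAction.is_one_pretransitive_iff.1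
    (MulAction.isMultiplyPretransitive_of_le (n := 5) (by omega) (by simp))
  have h5 := (MulAction.stabilizer M₁₂ (2 : Fin 12)).card_mul_index
  rw [MulAction.index_stabilizer_of_transitive, h3, show MulAction.stabilizer M₁₂ (2 : Fin 12) =
    M₁₁.subgroupOf M₁₂ by rw [h4, Subgroup.inf_subgroupOf_left]; rfl,
    Nat.card_congr (Subgroup.subgroupOfEquivOfLe (h4 ▸ inf_le_left)).toEquiv] at h5
  simp only [Nat.card_eq_fintype_card, Fintype.card_fin] at h5 ⊢
  omega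

end Cfsg.Agent.S3362
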