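import Cfsg.Statements.S3370
import Cfsg.Agent.S3371

set_option autoImplicit false
open Cfsg

namespace Cfsg.Agent.S3370

open H10.Pass Subgroup

/-- Let q be a prime, V a non-trivial finite vector space over the field with q elements, and G a non-trivial finite p-group (p prime) acting faithfully and linearly on V and transitively on the non-zero vectors. Then either q = 2 and G has prime order p = |V| − 1; or p = 2, V has q elements with q = 2^m + 1 and G is cyclic of order 2^m; or p = 2, q = 3, V has 9 elements and G is cyclic of order 8, quaternion of order 8, or semidihedral of order 16. -/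
theorem result (q : ℕ) [Fact q.Prime] {V : Type*} [AddCommGroup V] [Module (ZMod q) V] [Finite V] [Nontrivial V]
    {G : Type*} [Group G] [Finite G] [Nontrivial G] (p : ℕ) [Fact p.Prime] (hG : IsPGroup p G)
    (ρ : G →* (V ≃ₗ[ZMod q] V)) (hρ : Function.Injective ρ)
    (htrans : ∀ v w : V, v ≠ 0 → w ≠ 0 → ∃ g : G, ρ g v = w) :
    (q = 2 ∧ p = Nat.card V - 1 ∧ Nat.card G = p) ∨
    (p = 2 ∧ Nat.card V = q ∧ (∃ m : ℕ, q = 2 ^ m + 1 ∧ Nat.card G = 2 ^ m) ∧ IsCyclic G) ∨
    (p = 2 ∧ q = 3 ∧ Nat.card V = 9 ∧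
      ((IsCyclic G ∧ Nat.card G = 8) ∨ Nonempty (G ≃* QuaternionGroup 2) ∨ (Cfsg.IsQuasiDihedral G ∧ Nat.card G = 16))) := by
  have hp : p.Prime := Fact.out
  have hq : q.Prime := Fact.out
  haveI : Module.Finite (ZMod q) V := Module.Finite.of_finite
  have horb : ∀ v : V, v ≠ 0 → Nat.card {u : V | ∃ g : G, ρ g v = u} = Nat.card V - 1 := by
    intro v hv
    have : {u : V | ∃ g : G, ρ g v = u} = Set.univ \ {0} := by
      ext u
      constructor
      · rintro ⟨g, rfl⟩
        exact ⟨trivial, fun hh => hv ((ρ g).map_eq_zero_iff.1 hh)⟩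
      · intro hu; exact htrans v u hv hu.2
    rw [this, Nat.card_coe_set_eq, Set.ncard_sdiff_singleton_of_mem (Set.mem_univ _), Set.ncard_univ]
  have hidx : ∀ v : V, v ≠ 0 → (St ρ v).index = Nat.card V - 1 := fun v hv => by
    rw [← orb_card, horb v hv]
  obtain ⟨v0, hv0⟩ := exists_ne (0 : V)
  obtain ⟨a, ha⟩ := hG.index (St ρ v0)
  rw [hidx v0 hv0] at ha
  have hV : Nat.card V = q ^ Module.finrank (ZMod q) V := by
    rw [Module.natCard_eq_pow_finrank (K := ZMod q), Nat.card_zmod]
  have hn0 := Module.finrank_pos (R := ZMod q) (M := V)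
  have hV1 : Nat.card V = p ^ a + 1 := by
    have : 0 < Nat.card V := Nat.card_pos
    omega
  have ha0 : 0 < a := by
    by_contra h0
    have h0 : a = 0 := by omega
    rw [h0, pow_zero] at ha
    obtain ⟨g, hg⟩ := exists_ne (1 : G)
    apply hg; apply hρ
    rw [map_one]; ext v
    by_cases hv : v = 0
    · simp [hv]
    · have := hidx v hv
      rw [ha, index_eq_one] at this
      exact (this ▸ mem_top g : g ∈ St ρ v)
  have hp2 : q ≠ 2 → p = 2 := by
    intro h2
    by_contra h
    have h1 := (hq.odd_of_ne_two h2).pow (n := Module.finrank (ZMod q) V)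
    rw [← hV, hV1] at h1
    exact (Nat.odd_add_one.1 h1) (hp.odd_of_ne_two h).pow
  have hreg : (∀ v : V, v ≠ 0 → ∀ g : G, ρ g v = v → g = 1) ↔ Nat.card G = p ^ a := by
    rw [← ha]
    constructor
    · intro h
      have h1 : St ρ v0 = ⊥ := eq_bot_iff.2 fun g hg => h v0 hv0 g hg
      rw [← hidx v0 hv0, h1, index_bot]
    · intro h v hv g hg
      have h1 := (St ρ v).index_mul_card
      rw [hidx v hv, h, ha, mul_right_eq_self₀, card_eq_one] at h1
      have := h1.resolve_right (pow_pos hp.pos a).ne'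
      exact mem_bot.1 (this ▸ hg : g ∈ (⊥ : Subgroup G))
  rcases S3371.result q p hG ρ hρ (fun v w hv hw => (horb v hv).trans (horb w hw).symm) with
    ⟨h1, h2⟩ | ⟨h1, m, h2, h3⟩ | ⟨h1, -, e, h3⟩ | ⟨h1, h2, h3⟩
  · have hc := hreg.1 h2
    by_cases hq2 : q = 2
    · left
      subst hq2
      have := N1 hp.one_lt ha0 (hV1.symm.trans hV)
      subst this
      rw [pow_one] at ha hc
      exact ⟨rfl, ha.symm, hc⟩
    right
    obtain rfl := hp2 hq2
    by_cases hn1 : Module.finrank (ZMod q) V = 1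
    · left
      rw [hn1, pow_one] at hV
      refine ⟨rfl, hV, ⟨a, hV ▸ hV1, hc⟩, ?_⟩
      refine isCyclic_of_injective (LinearEquiv.det.comp ρ) ?_
      rw [injective_iff_map_eq_one]
      intro g hg
      obtain ⟨c, hc⟩ := (finrank_eq_one_iff_of_nonzero' v0 hv0).1 hn1 (ρ g v0)
      have h3 : (ρ g : V →ₗ[ZMod q] V) = c • LinearMap.id := by
        ext v
        obtain ⟨d, rfl⟩ := (finrank_eq_one_iff_of_nonzero' v0 hv0).1 hn1 v
        simp [← hc, smul_comm c d]
      have h4 : LinearMap.det (ρ g : V →ₗ[ZMod q] V) = 1 := by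
        rw [← LinearEquiv.coe_det]
        exact congrArg Units.val hg
      rw [h3, LinearMap.det_smul, hn1, pow_one, LinearMap.det_id, mul_one] at h4
      exact h2 v0 hv0 g (by rw [← hc, h4, one_smul])
    · right
      obtain ⟨rfl, h3⟩ := N2 (hq.odd_of_ne_two hq2) (by omega) (hV.symm.trans hV1)
      rw [h3] at hV
      have h8 : Nat.card G = 8 := by rw [hc, ← ha, hV]; rfl
      refine ⟨rfl, rfl, hV, ?_⟩
      rcases h1 with h1 | ⟨n, ⟨e⟩⟩
      · exact Or.inl ⟨h1, h8⟩
      · have h5 := Nat.card_congr e.toEquiv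
        rcases n with _ | n
        · haveI : Infinite (QuaternionGroup 0) :=
            Infinite.of_injective (fun i : ℤ => (QuaternionGroup.a i : QuaternionGroup 0))
              fun i j h => by injection h
          rw [h8, Nat.card_eq_zero_of_infinite] at h5; omega
        · rw [h8, Nat.card_eq_fintype_card, QuaternionGroup.card] at h5
          obtain rfl : n = 1 := by omega
          exact Or.inr (Or.inl ⟨e⟩)
  · have hq2 : q ≠ 2 := by
      rintro rfl
      rcases m with _ | m
      · omega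
      · rw [pow_succ] at h2; omega
    obtain rfl := hp2 hq2
    obtain ⟨rfl, -⟩ := N2 (hq.odd_of_ne_two hq2) le_rfl (h1.symm.trans hV1)
    obtain rfl : m = 2 := by
      have : 2 ^ m = 2 ^ 2 := by omega
      exact Nat.pow_right_injective le_rfl this
    refine Or.inr (Or.inr ⟨rfl, rfl, h1, Or.inr (Or.inr (h3.resolve_left ?_))⟩)
    rintro ⟨e⟩
    have h5 := Nat.card_congr e.toEquiv
    rw [DihedralGroup.nat_card] at h5
    have h6 := hreg.2 (by rw [h5, ← ha, h1]; rfl)
    have key : ∀ t : G, t * t = 1 → t ≠ 1 → ∀ v, ρ t v = -v := by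
      intro t h7 h8 v
      by_contra h9
      refine h8 (h6 (ρ t v + v) (fun hh => h9 (eq_neg_of_add_eq_zero_left hh)) t ?_)
      rw [map_add, ← mul_app, h7, map_one, add_comm]; rfl
    have k2 : ∀ i, ∀ v, ρ (e.symm (DihedralGroup.sr i)) v = -v := fun i =>
      key _ (by rw [← map_mul, DihedralGroup.sr_mul_self, map_one]) (by
        rw [Ne, MulEquiv.map_eq_one_iff]; exact fun h => by cases h)
    have := e.symm.injective (hρ (LinearEquiv.ext fun v => (k2 0 v).trans (k2 1 v).symm))
    exact absurd this (by decide)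
  · exfalso
    obtain ⟨g, hg⟩ := htrans (e.symm ![1, 0]) (e.symm ![1, 1])
      (by rw [Ne, LinearEquiv.map_eq_zero_iff]; exact fun h => one_ne_zero (congrFun h 0))
      (by rw [Ne, LinearEquiv.map_eq_zero_iff]; exact fun h => one_ne_zero (congrFun h 0))
    obtain ⟨c, s, -, -, h4⟩ := (h3 _).1 ⟨g, rfl⟩
    have h5 : (e.symm.trans ((ρ g).trans e)) ![1, 0] = ![1, 1] := by
      simp only [LinearEquiv.trans_apply, hg, LinearEquiv.apply_symm_apply]
    rcases h4 with h4 | h4 <;> rw [h4] at h5
    · simpa using congrFun h5 1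
    · simpa using congrFun h5 0
  · exfalso
    subst h3
    rw [h1] at ha
    have : 5 ∣ 2 ^ a := ha ▸ by norm_num
    exact absurd (Nat.prime_five.dvd_of_dvd_pow this) (by norm_num)

end Cfsg.Agent.S3370
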