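import Cfsg.Statements.S3375
import Cfsg.Agent.H12.DirPow
-- import your own Cfsg.Agent.* helpers here

set_option autoImplicit false
set_option maxHeartbeats 400000
open Cfsg

namespace Cfsg.Agent.S3375

open Subgroup

theorem aux {H : Type*} [Group H] [Finite H] (γ : MulAut H) (hγ : ∀ x, γ (γ x) = x) (A : Subgroup H)
    (hA : ∀ a ∈ A, γ a ∈ A) (h : ∀ a ∈ A, γ a = a → a = 1) :
    (∀ a ∈ A, γ a = a⁻¹) ∧ ∀ a ∈ A, ∀ b ∈ A, a * b = b * a := by
  have h1 : ∀ a ∈ A, γ a = a⁻¹ := fun a ha => by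
    obtain ⟨x, e⟩ := Finite.injective_iff_surjective.1 (show Function.Injective
      fun x : A => (⟨_, mul_mem (inv_mem x.2) (hA _ x.2)⟩ : A) from fun x y e => by
        have e : (x : H)⁻¹ * γ x = (y : H)⁻¹ * γ y := congrArg Subtype.val e
        refine Subtype.ext (mul_inv_eq_one.1 (h _ (mul_mem x.2 (inv_mem y.2)) ?_))
        rw [map_mul, map_inv, inv_mul_eq_iff_eq_mul.1 e]
        group) ⟨a, ha⟩
    rw [← show (x : H)⁻¹ * γ x = a from congrArg Subtype.val e]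
    simp [hγ]
  exact ⟨h1, fun a ha b hb => inv_injective (by
    rw [← h1 _ (mul_mem ha hb), map_mul, h1 a ha, h1 b hb, mul_inv_rev])⟩

/-- Let γ be an automorphism of order 2 of a finite group H. (i) If γ fixes only the identity, then H is abelian and γ inverts every element. (ii) If γ has exactly two fixed points and H has a subgroup of index 2, then H has a γ-invariant abelian subgroup of index 2 on which γ acts by inversion. -/
theorem result {H : Type*} [Group H] [Finite H] (γ : MulAut H) (hγ : orderOf γ = 2) :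
    ((∀ h : H, γ h = h → h = 1) → (∀ a b : H, a * b = b * a) ∧ ∀ h : H, γ h = h⁻¹) ∧
    ((Nat.card {h : H // γ h = h} = 2 ∧ ∃ M : Subgroup H, M.index = 2) →
      ∃ A : Subgroup H, A.index = 2 ∧ IsMulCommutative A ∧ (∀ a ∈ A, γ a ∈ A) ∧ ∀ a ∈ A, γ a = a⁻¹) := by
  have h0 : ∀ x, γ (γ x) = x := fun x => by
    rw [← MulAut.mul_apply, ← sq, ← hγ, pow_orderOf_eq_one]; rfl
  refine ⟨fun h => ?_, fun ⟨h, M, hM⟩ => ?_⟩
  · obtain ⟨h1, h2⟩ := aux γ h0 ⊤ (by simp) fun a _ => h a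
    exact ⟨fun a b => h2 a trivial b trivial, fun a => h1 a trivial⟩
  obtain ⟨A, hA, h1⟩ : ∃ A : Subgroup H, A.index = 2 ∧ ∀ x, γ x ∈ A ↔ x ∈ A := by
    by_cases e : ∀ x, γ x ∈ M ↔ x ∈ M
    · exact ⟨M, hM, e⟩
    obtain ⟨a, ha⟩ := not_forall.1 e
    refine ⟨⟨⟨⟨{x | γ x ∈ M ↔ x ∈ M}, fun {x y} hx hy => ?_⟩, by simp⟩, fun {x} hx => by
      simpa using hx⟩, index_eq_two_iff.2 ⟨a, fun b => ?_⟩, fun x => ?_⟩
    · simp only [Set.mem_setOf_eq, map_mul, mul_mem_iff_of_index_two hM] at *; tauto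
    · simp only [mem_mk, Submonoid.mem_mk, Subsemigroup.mem_mk, Set.mem_setOf_eq, map_mul,
        mul_mem_iff_of_index_two hM, Xor']; tauto
    · simp only [mem_mk, Submonoid.mem_mk, Subsemigroup.mem_mk, Set.mem_setOf_eq, h0]; tauto
  let C := γ.toMonoidHom.eqLocus (MonoidHom.id H)
  have h2 : Nat.card (H ⧸ C) = Nat.card A := Nat.eq_of_mul_eq_mul_right two_pos (by
    rw [← show Nat.card C = 2 from h, ← card_eq_card_quotient_mul_card_subgroup,
      show Nat.card C = 2 from h, ← hA, card_mul_index])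
  have h3 : ∀ x y, x⁻¹ * y ∈ C ↔ x * (γ x)⁻¹ = y * (γ y)⁻¹ := fun x y => by
    change γ (x⁻¹ * y) = x⁻¹ * y ↔ _
    rw [map_mul, map_inv, eq_inv_mul_iff_mul_eq, eq_mul_inv_iff_mul_eq, mul_assoc]
  let f : H ⧸ C → A := Quotient.lift (fun x => ⟨x * (γ x)⁻¹, by
    simp [mul_mem_iff_of_index_two hA, h1]⟩) fun x y e =>
      Subtype.ext ((h3 x y).1 (QuotientGroup.leftRel_apply.1 e))
  have h4 : Function.Injective f := by
    rintro ⟨x⟩ ⟨y⟩ e
    exact QuotientGroup.eq.2 ((h3 x y).2 (congrArg Subtype.val e))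
  have h5 : ∀ a ∈ A, γ a = a⁻¹ := fun a ha => by
    obtain ⟨⟨x⟩, e⟩ := (h4.bijective_of_nat_card_le h2.ge).2 ⟨a, ha⟩
    rw [← show x * (γ x)⁻¹ = a from congrArg Subtype.val e]
    simp [h0]
  exact ⟨A, hA, ⟨⟨fun a b => Subtype.ext (inv_injective (by
    rw [coe_mul, ← h5 _ (mul_mem a.2 b.2), map_mul, h5 a a.2, h5 b b.2, coe_mul, mul_inv_rev]))⟩⟩,
    fun a => (h1 a).2, h5⟩

end Cfsg.Agent.S3375
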