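import Cfsg.Statements.S3377
import Cfsg.Agent.H27.Triangle
-- import your own Cfsg.Agent.* helpers here

set_option autoImplicit false
open Cfsg

namespace Cfsg.Agent.S3377

/-- The alternating group of degree 5 has the presentation ⟨x, y | x³ = 1, y⁵ = 1, (xy)² = 1⟩: the group so presented is isomorphic to Alt(5). -/
theorem result :
    Nonempty (PresentedGroup ({FreeGroup.of (0 : Fin 2) ^ 3, FreeGroup.of (1 : Fin 2) ^ 5,
        (FreeGroup.of (0 : Fin 2) * FreeGroup.of 1) ^ 2} : Set (FreeGroup (Fin 2))) ≃* alternatingGroup (Fin 5)) := by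
  classical
  set R : Set (FreeGroup (Fin 2)) := {FreeGroup.of (0 : Fin 2) ^ 3, FreeGroup.of (1 : Fin 2) ^ 5,
        (FreeGroup.of (0 : Fin 2) * FreeGroup.of 1) ^ 2} with hR
  let x : PresentedGroup R := PresentedGroup.of 0
  let y : PresentedGroup R := PresentedGroup.of 1
  have rel : ∀ r ∈ R, PresentedGroup.mk R r = 1 := fun r hr => PresentedGroup.one_of_mem hr
  have hx : x ^ 3 = 1 := rel _ (by simp [hR] : FreeGroup.of (0 : Fin 2) ^ 3 ∈ R)
  have hy : y ^ 5 = 1 := rel _ (by simp [hR] : FreeGroup.of (1 : Fin 2) ^ 5 ∈ R)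
  have hxy : (x * y) ^ 2 = 1 :=
    rel _ (by simp [hR] : (FreeGroup.of (0 : Fin 2) * FreeGroup.of 1) ^ 2 ∈ R)
  have hb : x⁻¹ ^ 3 = 1 := by rw [inv_pow, hx, inv_one]
  have hab : (x * y * x⁻¹) ^ 5 = 1 := by rw [conj_pow, hy]; simp
  obtain ⟨hfin, hcard⟩ := H27.tri_card_le_five hxy hb hab
  have htop : Subgroup.closure {x * y, x⁻¹} = ⊤ := by
    rw [eq_top_iff, ← PresentedGroup.closure_range_of, Subgroup.closure_le]
    have h1 : x⁻¹ ∈ Subgroup.closure {x * y, x⁻¹} := Subgroup.subset_closure (by simp)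
    have h2 : x * y ∈ Subgroup.closure {x * y, x⁻¹} := Subgroup.subset_closure (by simp)
    rintro _ ⟨i, rfl⟩
    fin_cases i
    · simpa using inv_mem h1
    · simpa using mul_mem h1 h2
  rw [htop] at hfin hcard
  haveI : Finite (PresentedGroup R) := Finite.of_equiv _ Subgroup.topEquiv.toEquiv
  rw [Subgroup.card_top] at hcard
  let f : Fin 2 → alternatingGroup (Fin 5) := ![H27.a5b⁻¹, H27.a5b * H27.a5a]
  have hf : ∀ r ∈ R, FreeGroup.lift f r = 1 := by
    intro r hr
    simp only [hR, Set.mem_insert_iff, Set.mem_singleton_iff] at hr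
    rcases hr with rfl | rfl | rfl <;> simp only [map_pow, map_mul, FreeGroup.lift_apply_of]
    · exact (by decide +kernel : H27.a5b⁻¹ ^ 3 = 1)
    · exact (by decide +kernel : (H27.a5b * H27.a5a) ^ 5 = 1)
    · exact (by decide +kernel : (H27.a5b⁻¹ * (H27.a5b * H27.a5a)) ^ 2 = 1)
  let φ := PresentedGroup.toGroup hf
  have hsurj : Function.Surjective φ := by
    rw [← MonoidHom.range_eq_top, eq_top_iff, ← H27.a5_closure, Subgroup.closure_le]
    have h0 : φ x = H27.a5b⁻¹ := PresentedGroup.toGroup.of hf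
    have h1 : φ y = H27.a5b * H27.a5a := PresentedGroup.toGroup.of hf
    rintro _ (rfl | rfl)
    · exact ⟨x * y, by rw [map_mul, h0, h1]; simp⟩
    · exact ⟨x⁻¹, by rw [map_inv, h0]; simp⟩
  exact ⟨MulEquiv.ofBijective φ (hsurj.bijective_of_nat_card_le (by rw [H27.card_A5]; exact hcard))⟩

end Cfsg.Agent.S3377
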