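import Cfsg.Statements.S3380
import Cfsg.Agent.H10.Pass1

set_option autoImplicit false
open Cfsg

namespace Cfsg.Agent.S3380

open H10.Pass Subgroup

/-- Let a finite p-group G act faithfully and irreducibly on a non-trivial finite vector space V over the field with q elements (q prime), and suppose G is not cyclic, generalized quaternion, dihedral or semidihedral. Then G has a subgroup H of index p and V is the direct sum of p subspaces, each invariant under H, on none of which H acts faithfully, and which every element of G outside H permutes in a single p-cycle. -/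
theorem result
    (q : ℕ) [Fact q.Prime] {V : Type*} [AddCommGroup V] [Module (ZMod q) V] [Finite V] [Nontrivial V]
    {G : Type*} [Group G] [Finite G] (p : ℕ) [Fact p.Prime] (hG : IsPGroup p G)
    (ρ : G →* (V ≃ₗ[ZMod q] V)) (hρ : Function.Injective ρ)
    (hirr : ∀ W : Submodule (ZMod q) V, (∀ g : G, ∀ w ∈ W, ρ g w ∈ W) → W = ⊥ ∨ W = ⊤)
    (hnc : ¬ IsCyclic G) (hnq : ∀ n : ℕ, ¬ Nonempty (G ≃* QuaternionGroup n))
    (hnd : ∀ n : ℕ, ¬ Nonempty (G ≃* DihedralGroup n)) (hnsd : ¬ Cfsg.IsQuasiDihedral G) :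
    ∃ (H : Subgroup G) (W : Fin p → Submodule (ZMod q) V), H.index = p ∧
      iSup W = ⊤ ∧ iSupIndep W ∧
      (∀ h ∈ H, ∀ i, ∀ w ∈ W i, ρ h w ∈ W i) ∧
      (∀ i, ∃ h ∈ H, h ≠ 1 ∧ ∀ w ∈ W i, ρ h w = w) ∧
      ∀ g : G, g ∉ H → ∃ σ : Equiv.Perm (Fin p), orderOf σ = p ∧ ∀ i, (W i).map (ρ g : V →ₗ[ZMod q] V) = W (σ i) := by
  have hp : p.Prime := Fact.out
  have hc : ∀ c ∈ center G, c ≠ 1 → Fx ρ c = ⊥ := by
    intro c hc hc1
    refine (hirr _ fun g w hw => ?_).resolve_right fun h => hc1 (hρ ?_)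
    · rw [mem_Fx, ← mul_app, ← mem_center_iff.1 hc g, mul_app, mem_Fx.1 hw]
    · rw [map_one]; ext v
      exact (mem_Fx.1 (h ▸ Submodule.mem_top : v ∈ Fx ρ c))
  have hc' : ∀ c ∈ center G, orderOf c = p → Fx ρ c = ⊥ := fun c h1 h2 =>
    hc c h1 (by rintro rfl; rw [orderOf_one] at h2; exact hp.one_lt.ne h2)
  have hn : ¬ ∀ A : Subgroup G, A.Normal → IsMulCommutative A → IsCyclic A := by
    intro hn
    rcases H4.normal_rank_one hG hn with h | ⟨hp, m, a, b, hm, ha, hc, hb, htop, h⟩
    · exact hnc h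
    rcases h with h | h | h
    · exact hnd _ (H4.nonempty_mulEquiv_dihedral ha h.2.1 h.2.2 hb htop)
    · refine hnq (2 ^ (m - 1)) (H4.nonempty_mulEquiv_quaternion ?_ h.1 h.2 hb htop)
      rw [ha, ← pow_succ']; congr 1; omega
    · refine hnsd ⟨m, h.1, hc, a, b, ha, orderOf_eq_prime h.2.1 ?_, h.2.2⟩
      rintro rfl; exact hb (Subgroup.one_mem _)
  obtain ⟨z, u, hzc, hz, hu, huz, hk⟩ := exists_E hG hn
  have hpq : p ≠ q := by
    rintro rfl
    exact Fx_ne_bot (hz ▸ pow_orderOf_eq_one z) (hc' z hzc hz)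
  have huc := not_central hpq hzc hz hu huz hc'
  have hcm : Commute u z := mem_center_iff.1 hzc u
  refine ⟨centralizer {u}, fun i => Fx ρ (u * z ^ (i : ℕ)), index_cent hzc hz hG huc hk,
    span_top hpq hz (hc' z hzc hz) hu hcm, indep hpq hz (hc' z hzc hz) hcm, ?_, ?_, ?_⟩
  · intro h hh i w hw
    have h1 : Commute h (u * z ^ (i : ℕ)) :=
      (show Commute h u from mem_centralizer_singleton_iff.1 hh).mul_right
        ((show Commute h z from mem_center_iff.1 hzc h).pow_right _)
    rw [mem_Fx, ← mul_app, ← h1.eq, mul_app, mem_Fx.1 hw]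
  · intro i
    refine ⟨u * z ^ (i : ℕ), mem_centralizer_singleton_iff.2 ?_, fun h => ?_, fun w hw => hw⟩
    · exact ((Commute.refl u).mul_left (hcm.symm.pow_left _)).eq
    · exact huz (eq_inv_of_mul_eq_one_left h ▸ inv_mem (pow_mem (mem_zpowers z) _))
  · intro g hg
    obtain ⟨k, hk⟩ := hk g
    have hk0 : k ≠ 0 := by
      rintro rfl
      apply hg
      rw [mem_centralizer_singleton_iff]
      simp only [Fin.val_zero, pow_zero, mul_one] at hk
      exact mul_inv_eq_iff_eq_mul.1 hk
    refine ⟨Equiv.addRight k, orderOf_eq_prime ?_ fun h => hk0 ?_, fun i => map_W hzc hz hk i⟩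
    · have h0 : p • k = 0 := by
        have := card_nsmul_eq_zero (x := k)
        rwa [Fintype.card_fin] at this
      have h1 : ∀ (n : ℕ) (x : Fin p), (Equiv.addRight k ^ n) x = x + n • k := by
        intro n
        induction n with
        | zero => simp
        | succ n ih =>
          intro x
          rw [pow_succ', Equiv.Perm.mul_apply, ih, Equiv.coe_addRight, succ_nsmul, ← add_assoc]
      ext x
      rw [h1, h0]; simp
    · have := congrArg (fun σ : Equiv.Perm (Fin p) => σ 0) h
      simpa using this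

end Cfsg.Agent.S3380
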