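import Cfsg.Statements.S3382
import Cfsg.Agent.H10.Cyc2

set_option autoImplicit false
open Cfsg

namespace Cfsg.Agent.S3382

open Subgroup

theorem aut_res {X : Type*} [Group X] [Finite X] {φ : MulAut X} (hφ : Odd (orderOf φ))
    {D : Subgroup X} (h : ∀ x, x ∈ D ↔ φ x ∈ D) (hD : IsPGroup 2 (MulAut D)) :
    ∀ x ∈ D, φ x = x := by
  let ψ : MulAut D :=
    { toFun := fun x => ⟨φ x, (h x).1 x.2⟩
      invFun := fun x => ⟨φ.symm x, (h _).2 (by simpa using x.2)⟩
      left_inv := fun x => Subtype.ext (by simp)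
      right_inv := fun x => Subtype.ext (by simp)
      map_mul' := fun x y => Subtype.ext (by simp) }
  have hp : ∀ n : ℕ, ∀ x : D, (((ψ ^ n) x : D) : X) = (φ ^ n) x := by
    intro n
    induction n with
    | zero => intro x; rfl
    | succ n ih => intro x; rw [pow_succ', pow_succ', MulAut.mul_apply, MulAut.mul_apply, ← ih]; rfl
  have h1 : ψ ^ orderOf φ = 1 := by
    ext x; rw [hp, pow_orderOf_eq_one]; rfl
  obtain ⟨k, hk⟩ := hD ψ
  have h2 : ψ = 1 := by
    have := pow_gcd_eq_one.2 ⟨h1, hk⟩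
    rwa [Nat.Coprime.gcd_eq_one (Nat.Coprime.pow_right k (Nat.coprime_two_right.2 hφ)),
      pow_one] at this
  intro x hx
  have := hp 1 ⟨x, hx⟩
  rw [h2] at this
  simpa using this.symm

theorem not_q8 {X : Type*} [Group X] {x y : X} (hx : x * x = 1) (hy : y * y = 1) (hx1 : x ≠ 1)
    (hy1 : y ≠ 1) (hxy : x ≠ y) : ¬ Nonempty (X ≃* QuaternionGroup 2) := by
  rintro ⟨e⟩
  have : ∀ a b : QuaternionGroup 2, a * a = 1 → b * b = 1 → a ≠ 1 → b ≠ 1 → a = b := by decide
  exact hxy (e.injective (this _ _ (by rw [← map_mul, hx, map_one]) (by rw [← map_mul, hy, map_one])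
    (by simpa using hx1) (by simpa using hy1)))

theorem not_k4 {X : Type*} [Group X] {x : X} (hx : x * x ≠ 1) : ¬ IsKleinFour X := fun h =>
  hx (by rw [← pow_two, ← h.exponent_two, Monoid.pow_exponent_eq_one])

theorem z2 : ∀ a : ZMod 2, a ≠ 0 → a = 1 := by decide
theorem z3 : ∀ a : ZMod 3, a ≠ 0 → a = 1 ∨ a = -1 := by decide
theorem z3' : (-1 : ZMod 3) ≠ 1 := by decide

section
variable {F : Type*} [Field F]

/-- diagonal maps -/
def IsD (f : (Fin 2 → F) ≃ₗ[F] (Fin 2 → F)) (a b : F) : Prop := ∀ v, f v = ![a * v 0, b * v 1]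
/-- antidiagonal maps -/
def IsA (f : (Fin 2 → F) ≃ₗ[F] (Fin 2 → F)) (a b : F) : Prop := ∀ v, f v = ![b * v 1, a * v 0]

variable {f g : (Fin 2 → F) ≃ₗ[F] (Fin 2 → F)} {a b c d : F}

theorem IsD.mul (h : IsD f a b) (k : IsD g c d) : IsD (f * g) (a * c) (b * d) := fun v => by
  rw [LinearEquiv.mul_apply, k, h]; simp [mul_assoc]
theorem IsA.mul (h : IsA f a b) (k : IsA g c d) : IsD (f * g) (b * c) (a * d) := fun v => by
  rw [LinearEquiv.mul_apply, k, h]; simp [mul_assoc]
theorem IsD.mulA (h : IsD f a b) (k : IsA g c d) : IsA (f * g) (b * c) (a * d) := fun v => by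
  rw [LinearEquiv.mul_apply, k, h]; simp [mul_assoc]
theorem IsA.mulD (h : IsA f a b) (k : IsD g c d) : IsA (f * g) (a * c) (b * d) := fun v => by
  rw [LinearEquiv.mul_apply, k, h]; simp [mul_assoc]
theorem IsD.one : IsD (1 : (Fin 2 → F) ≃ₗ[F] (Fin 2 → F)) 1 1 := fun v => by
  ext i; fin_cases i <;> simp
theorem IsD.ext (h : IsD f a b) (k : IsD g a b) : f = g := by
  ext v : 1; rw [h, k]
theorem IsA.ext (h : IsA f a b) (k : IsA g a b) : f = g := by
  ext v : 1; rw [h, k]
theorem IsD.pow (h : IsD f a b) (n : ℕ) : IsD (f ^ n) (a ^ n) (b ^ n) := by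
  induction n with
  | zero => simpa using IsD.one
  | succ n ih => rw [pow_succ, pow_succ, pow_succ]; exact ih.mul h
theorem IsD.uniq (h : IsD f a b) (k : IsD f c d) : a = c ∧ b = d := by
  have := (h ![1, 1]).symm.trans (k ![1, 1])
  simpa using this
theorem IsA.uniq (h : IsA f a b) (k : IsA f c d) : a = c ∧ b = d := by
  have := (h ![1, 1]).symm.trans (k ![1, 1])
  simpa [and_comm] using this

/-- diagonal map -/
def dg (a b : F) (ha : a ≠ 0) (hb : b ≠ 0) : (Fin 2 → F) ≃ₗ[F] (Fin 2 → F) where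
  toFun v := ![a * v 0, b * v 1]
  invFun v := ![a⁻¹ * v 0, b⁻¹ * v 1]
  map_add' v w := by ext i; fin_cases i <;> simp [mul_add]
  map_smul' r v := by ext i; fin_cases i <;> simp [mul_left_comm]
  left_inv v := by ext i; fin_cases i <;> simp [ha, hb]
  right_inv v := by ext i; fin_cases i <;> simp [ha, hb]

theorem isD_dg (ha : a ≠ 0) (hb : b ≠ 0) : IsD (dg a b ha hb) a b := fun _ => rfl

/-- rotation -/
def rot : (Fin 2 → F) ≃ₗ[F] (Fin 2 → F) where
  toFun v := ![-1 * v 1, 1 * v 0]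
  invFun v := ![v 1, -v 0]
  map_add' v w := by ext i; fin_cases i <;> simp [add_comm]
  map_smul' r v := by ext i; fin_cases i <;> simp
  left_inv v := by ext i; fin_cases i <;> simp
  right_inv v := by ext i; fin_cases i <;> simp

theorem isA_rot : IsA (rot : (Fin 2 → F) ≃ₗ[F] (Fin 2 → F)) 1 (-1) := fun _ => rfl
end

/-- Let q = 2^m + 1 be a prime other than 5. Then the automorphism group of the group of linear maps of F_q² of the forms (x, y) ↦ (a x, ± a⁻¹ y) and (x, y) ↦ (± a⁻¹ y, a x) with a ≠ 0 is itself a 2-group. -/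
theorem result (q m : ℕ) [Fact q.Prime] (hq : q = 2 ^ m + 1) (hq5 : q ≠ 5)
    (T : Subgroup ((Fin 2 → ZMod q) ≃ₗ[ZMod q] (Fin 2 → ZMod q)))
    (hT : ∀ f, f ∈ T ↔ ∃ a s : ZMod q, a ≠ 0 ∧ (s = 1 ∨ s = -1) ∧
      ((∀ v, f v = ![a * v 0, s * a⁻¹ * v 1]) ∨ (∀ v, f v = ![s * a⁻¹ * v 1, a * v 0]))) :
    IsPGroup 2 (MulAut T) := by
  classical
  have hT' : ∀ f, f ∈ T ↔ ∃ a s : ZMod q, a ≠ 0 ∧ (s = 1 ∨ s = -1) ∧
      (IsD f a (s * a⁻¹) ∨ IsA f a (s * a⁻¹)) := hT
  clear hT
  haveI : Finite ((Fin 2 → ZMod q) ≃ₗ[ZMod q] (Fin 2 → ZMod q)) := DFunLike.finite _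
  have hfer : ∀ a : ZMod q, a ≠ 0 → a ^ 2 ^ m = 1 := fun a ha => by
    have := ZMod.pow_card_sub_one_eq_one ha
    have hq1 : q - 1 = 2 ^ m := by rw [hq]; rfl
    rwa [hq1] at this
  have hA4 : ∀ f : T, ∀ a s : ZMod q, a ≠ 0 → (s = 1 ∨ s = -1) → IsA f.1 a (s * a⁻¹) →
      f ^ 4 = 1 := by
    intro f a s ha hs h
    apply Subtype.ext
    have h1 := (h.mul h).pow 2
    have e1 : (s * a⁻¹ * a) ^ 2 = 1 := by rcases hs with rfl | rfl <;> field_simp
    have e2 : (a * (s * a⁻¹)) ^ 2 = 1 := by rcases hs with rfl | rfl <;> field_simp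
    rw [e1, e2, ← pow_two, ← pow_mul] at h1
    exact h1.ext IsD.one
  have hs0 : ∀ s : ZMod q, (s = 1 ∨ s = -1) → s ≠ 0 := by
    rintro s (rfl | rfl) <;> simp
  have hP : IsPGroup 2 T := by
    intro f
    obtain ⟨a, s, ha, hs, h | h⟩ := (hT' f).1 f.2
    · refine ⟨m, Subtype.ext ?_⟩
      have h1 := h.pow (2 ^ m)
      rw [hfer a ha, hfer _ (mul_ne_zero (hs0 s hs) (inv_ne_zero ha))] at h1
      exact h1.ext IsD.one
    · exact ⟨2, hA4 f a s ha hs h⟩
  let w : T := ⟨rot, (hT' _).2 ⟨1, -1, one_ne_zero, Or.inr rfl, Or.inr (by simpa using isA_rot)⟩⟩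
  have hw : IsA w.1 1 (-1) := isA_rot
  let e : T := ⟨dg 1 (-1) one_ne_zero (by simp), (hT' _).2 ⟨1, -1, one_ne_zero, Or.inr rfl,
    Or.inl (by simpa using isD_dg _ _)⟩⟩
  have he : IsD e.1 1 (-1) := fun _ => rfl
  have hww : IsD (w * w).1 (-1) (-1) := by simpa using hw.mul hw
  have hee : e * e = 1 := Subtype.ext ((he.mul he).ext (by simpa using IsD.one))
  rcases Nat.lt_or_ge m 3 with hm | hm
  · have hm' : m = 0 ∨ m = 1 := by
      interval_cases m
      · simp
      · simp
      · exact absurd hq hq5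
    rcases hm' with rfl | rfl
    · have hq2 : q = 2 := by simpa using hq
      subst hq2
      have h1 : ∀ a : ZMod 2, a ≠ 0 → a = 1 := z2
      have hall : ∀ f : T, f = 1 ∨ f = w := by
        intro f
        obtain ⟨a, s, ha, hs, h | h⟩ := (hT' f).1 f.2
        · left
          rw [h1 _ (mul_ne_zero (hs0 s hs) (inv_ne_zero ha)), h1 a ha] at h
          exact Subtype.ext (h.ext IsD.one)
        · right
          rw [h1 _ (mul_ne_zero (hs0 s hs) (inv_ne_zero ha)), h1 a ha] at h
          exact Subtype.ext (h.ext hw)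
      intro φ
      refine ⟨0, ?_⟩
      ext f : 1
      rw [pow_zero, pow_one, MulAut.one_apply]
      rcases hall f with rfl | rfl
      · simp
      · rcases hall (φ w) with h | h
        · rw [h]; exact ((MulEquiv.map_eq_one_iff φ).1 h).symm
        · exact h
    · have hq3 : q = 3 := by simpa using hq
      subst hq3
      have h1 : ∀ a : ZMod 3, a ≠ 0 → a = 1 ∨ a = -1 := z3
      have hn : (-1 : ZMod 3) ≠ 1 := z3'
      have hwww : IsA (w * w * w).1 (-1) 1 := by simpa using hww.mulA hw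
      have hw2 : w * w ∈ zpowers w := mul_mem (mem_zpowers _) (mem_zpowers _)
      have hw3 : w * w * w ∈ zpowers w := mul_mem hw2 (mem_zpowers _)
      have hw1 : w * w ≠ 1 := fun h => hn ((h ▸ hww).uniq IsD.one).1
      refine H10.isPGroup_mulAut_two hP (a := w) ?_ (not_k4 hw1)
        (not_q8 (x := e) (y := w * w) hee (Subtype.ext ((hww.mul hww).ext (by simpa using IsD.one)))
          (fun h => hn ((h ▸ he).uniq IsD.one).2) hw1 (fun h => hn ((h ▸ he).uniq hww).1.symm))
      refine index_dvd_two_iff.2 ⟨e, fun f => ?_⟩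
      obtain ⟨a, s, ha, hs, h | h⟩ := (hT' f).1 f.2
      · have h' := h.mul he
        rcases h1 a ha with rfl | rfl <;> rcases hs with rfl | rfl
        · right; rw [show f = 1 from Subtype.ext (h.ext (by simpa using IsD.one))]; exact one_mem _
        · left; rw [show f * e = 1 from Subtype.ext (h'.ext (by simpa using IsD.one))]
          exact one_mem _
        · right; rw [show f = w * w from Subtype.ext (h.ext (by simpa using hww))]; exact hw2
        · left; rw [show f * e = w * w from Subtype.ext (h'.ext (by simpa using hww))]; exact hw2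
      · have h' := h.mulD he
        rcases h1 a ha with rfl | rfl <;> rcases hs with rfl | rfl
        · left; rw [show f * e = w from Subtype.ext (h'.ext (by simpa using hw))]
          exact mem_zpowers _
        · right; rw [show f = w from Subtype.ext (h.ext (by simpa using hw))]
          exact mem_zpowers _
        · left; rw [show f * e = w * w * w from Subtype.ext (h'.ext (by simpa using hwww))]
          exact hw3
        · right; rw [show f = w * w * w from Subtype.ext (h.ext (by simpa using hwww))]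
          exact hw3
  obtain ⟨c, hc⟩ := IsCyclic.exists_generator (α := (ZMod q)ˣ)
  have hoc : orderOf (c : ZMod q) = 2 ^ m := by
    rw [orderOf_units, orderOf_eq_card_of_forall_mem_zpowers hc, Nat.card_eq_fintype_card,
      ZMod.card_units, hq]
    rfl
  have h8 : 2 ^ 3 ≤ 2 ^ m := Nat.pow_le_pow_right (by norm_num) hm
  have hc4 : (c : ZMod q) ^ 4 ≠ 1 := fun h => by
    have := Nat.le_of_dvd (by norm_num) (orderOf_dvd_of_pow_eq_one h)
    omega
  have hn : (-1 : ZMod q) ≠ 1 := fun h => by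
    have h2 : ((2 : ℕ) : ZMod q) = 0 := by
      push_cast; linear_combination -h
    have := Nat.le_of_dvd (by norm_num) ((ZMod.natCast_eq_zero_iff 2 q).1 h2)
    omega
  let d : T := ⟨dg c (c : ZMod q)⁻¹ c.ne_zero (inv_ne_zero c.ne_zero), (hT' _).2
    ⟨c, 1, c.ne_zero, Or.inl rfl, Or.inl (by rw [one_mul]; exact fun _ => rfl)⟩⟩
  have hd : IsD d.1 c (c : ZMod q)⁻¹ := fun _ => rfl
  have hd4 : d ^ 4 ≠ 1 := fun h => hc4 ((hd.pow 4).uniq (by
    rw [← Subgroup.coe_pow, h]; exact IsD.one)).1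
  have key : ∀ g : T, g ^ 4 ≠ 1 → ∀ f : T, f * g = g * f ↔ ∃ a b, IsD f.1 a b := by
    intro g hg f
    obtain ⟨a, s, ha, hs, h | h⟩ := (hT' g).1 g.2
    swap
    · exact absurd (hA4 g a s ha hs h) hg
    constructor
    · intro hfg
      obtain ⟨a', s', ha', hs', h' | h'⟩ := (hT' f).1 f.2
      · exact ⟨_, _, h'⟩
      · exfalso
        have e1 := h'.mulD h
        have e2 := h.mulA h'
        rw [← Subgroup.coe_mul, hfg] at e1
        have e3 := (e1.uniq e2).1
        have e4 : a = s * a⁻¹ := mul_left_cancel₀ ha' (e3.trans (mul_comm _ _))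
        rw [← e4] at h
        have e5 : a ^ 4 = 1 := by
          have : a ^ 2 = s := by rw [pow_two]; nth_rewrite 1 [e4]; field_simp
          rw [show a ^ 4 = (a ^ 2) ^ 2 by ring, this]
          rcases hs with rfl | rfl <;> simp
        have e6 := h.pow 4
        rw [e5] at e6
        exact hg (Subtype.ext (e6.ext IsD.one))
    · rintro ⟨a', b', h'⟩
      refine Subtype.ext ((h'.mul h).ext ?_)
      rw [mul_comm a', mul_comm b']
      exact h.mul h'
  let D : Subgroup T := centralizer {d}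
  have hD : ∀ f, f ∈ D ↔ ∃ a b, IsD f.1 a b := fun f => by
    rw [mem_centralizer_singleton_iff, key d hd4]
  have hdD : d ∈ D := (hD _).2 ⟨_, _, hd⟩
  have heD : e ∈ D := (hD _).2 ⟨_, _, he⟩
  have hwD : w * w ∈ D := (hD _).2 ⟨_, _, hww⟩
  have hAD : IsPGroup 2 (MulAut D) := by
    refine H10.isPGroup_mulAut_two (hP.to_subgroup D) (a := ⟨d, hdD⟩) ?_
      (not_k4 (x := ⟨d, hdD⟩) fun h => hd4 ?_)
      (not_q8 (x := ⟨e, heD⟩) (y := ⟨w * w, hwD⟩) (Subtype.ext hee)
        (Subtype.ext (Subtype.ext ((hww.mul hww).ext (by simpa using IsD.one)))) ?_ ?_ ?_)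
    · refine index_dvd_two_iff.2 ⟨⟨e, heD⟩, fun f => ?_⟩
      obtain ⟨a, s, ha, hs, h | h⟩ := (hT' f).1 f.1.2
      · obtain ⟨n, hn⟩ := (mem_powers_iff_mem_zpowers.2 (hc (Units.mk0 a ha)))
        have hn' : (c : ZMod q) ^ n = a := by simpa using congrArg Units.val hn
        have hdn := hd.pow n
        rw [inv_pow, hn'] at hdn
        rcases hs with rfl | rfl
        · right
          rw [show f = ⟨d, hdD⟩ ^ n from Subtype.ext (Subtype.ext (h.ext (by simpa using hdn)))]
          exact pow_mem (mem_zpowers _) _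
        · left
          rw [show f * ⟨e, heD⟩ = ⟨d, hdD⟩ ^ n from
            Subtype.ext (Subtype.ext ((h.mul he).ext (by simpa using hdn)))]
          exact pow_mem (mem_zpowers _) _
      · exfalso
        obtain ⟨a', b', h'⟩ := (hD f).1 f.2
        have := (h ![1, 0]).symm.trans (h' ![1, 0])
        simp [ha] at this
    · have : d * d = 1 := congrArg Subtype.val h
      rw [show (4 : ℕ) = 2 * 2 from rfl, pow_mul, pow_two d, this, one_pow]
    · intro h
      have : e = 1 := congrArg Subtype.val h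
      exact hn ((this ▸ he).uniq IsD.one).2
    · intro h
      have : w * w = 1 := congrArg Subtype.val h
      exact hn ((this ▸ hww).uniq IsD.one).2
    · intro h
      have : e = w * w := congrArg Subtype.val h
      exact hn ((this ▸ he).uniq hww).1.symm
  refine H10.isPGroup_of_coprime_eq_one fun φ hφ => ?_
  have hφ' : Odd (orderOf φ) := by simpa using hφ
  refine H10.aut_eq_one_of_fix hP hφ' (A := D) ?_ (aut_res hφ' (fun x => ?_) hAD)
  · refine index_dvd_two_iff.2 ⟨w, fun f => ?_⟩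
    obtain ⟨a, s, ha, hs, h | h⟩ := (hT' f).1 f.2
    · exact Or.inr ((hD _).2 ⟨_, _, h⟩)
    · exact Or.inl ((hD _).2 ⟨_, _, h.mul hw⟩)
  · rw [hD (φ x), ← key (φ d) (by rw [← map_pow]; exact fun h => hd4 ((MulEquiv.map_eq_one_iff φ).1 h)), mem_centralizer_singleton_iff,
      ← map_mul, ← map_mul, φ.apply_eq_iff_eq]

end Cfsg.Agent.S3382
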