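import Cfsg.Statements.S3383
import Cfsg.Agent.H3.Frobenius
-- import your own Cfsg.Agent.* helpers here

set_option autoImplicit false
set_option maxHeartbeats 400000
open Cfsg

namespace Cfsg.Agent.S3383

open Subgroup
open scoped Pointwise

/-- Let H be a Frobenius complement in a finite group L and K the Frobenius kernel (as a subgroup). Then K is characteristic in L, and every normal subgroup of L either contains K or is contained in K. -/
theorem result {L : Type*} [Group L] [Finite L]
    (H : Subgroup L) (hH : Cfsg.IsFrobeniusComplement H)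
    (K : Subgroup L) (hK : (K : Set L) = Cfsg.frobeniusKernel H) :
    K.Characteristic ∧ ∀ N : Subgroup L, N.Normal → K ≤ N ∨ N ≤ K := by
  obtain ⟨K', h1, h2, -, -, h3, -⟩ := H3.exists_frobeniusKernel hH
  obtain rfl : K = K' := SetLike.coe_injective (hK.trans h1.symm)
  have h4 : ∀ N : Subgroup L, N.Normal → K ≤ N ∨ N ≤ K := fun N hN => or_iff_not_imp_right.2 fun h => by
    obtain ⟨x, hx, h5⟩ := SetLike.not_le_iff_exists.1 h
    rw [← SetLike.mem_coe, hK] at h5
    obtain ⟨h6, h7⟩ := not_or.1 h5
    obtain ⟨g, y, hy, rfl⟩ := not_forall_not.1 h7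
    have hyN : y ∈ N := by simpa [mul_assoc] using hN.conj_mem _ hx g⁻¹
    have hy1 : y ≠ 1 := by rintro rfl; simp at h6
    let f : K → K := fun k => ⟨(k : L)⁻¹ * (y * k * y⁻¹), K.mul_mem (K.inv_mem k.2) (h2.conj_mem _ k.2 y)⟩
    have hf : Function.Injective f := fun k l e => by
      have e : (k : L)⁻¹ * (y * k * y⁻¹) = (l : L)⁻¹ * (y * l * y⁻¹) := congrArg Subtype.val e
      have : (k : L) * (l : L)⁻¹ ∈ K ⊓ centralizer {y} := ⟨K.mul_mem k.2 (K.inv_mem l.2),
        mem_centralizer_singleton_iff.2 (by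
          calc (k : L) * (l : L)⁻¹ * y = k * ((l : L)⁻¹ * (y * l * y⁻¹)) * y * (l : L)⁻¹ := by group
            _ = _ := by rw [← e]; group)⟩
      exact Subtype.ext (mul_inv_eq_one.1 ((h3 y hy hy1).le this))
    intro k hk
    obtain ⟨l, e⟩ := Finite.injective_iff_surjective.1 hf ⟨k, hk⟩
    rw [← show _ = k from congrArg Subtype.val e]
    simpa [f, mul_assoc] using mul_mem (hN.conj_mem' _ hyN l) (inv_mem hyN)
  refine ⟨characteristic_iff_map_eq.2 fun φ => ?_, h4⟩
  have h5 := card_map_of_injective (K := K) (f := φ.toMonoidHom) φ.injective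
  rcases h4 _ (h2.map φ.toMonoidHom φ.surjective) with h | h
  · exact (eq_of_le_of_card_ge h h5.le).symm
  · exact eq_of_le_of_card_ge h h5.ge

end Cfsg.Agent.S3383
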