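import Cfsg.Statements.S3420
import Cfsg.Agent.H7.Spec1

set_option autoImplicit false
open Cfsg

open H7.Spec

namespace Cfsg.Agent.S3420

/-- Let n ≥ 11 and let G be a finite group with the same order and the same set of element orders as the alternating group of degree n. Then G has normal subgroups N < H such that H/N is a non-abelian simple group whose order is divisible by every prime p with n/2 < p ≤ n. -/
theorem result {G : Type*} [Group G] [Finite G] (n : ℕ) (hn : 11 ≤ n)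
    (hcard : Nat.card G = Nat.card ↥(alternatingGroup (Fin n)))
    (hspec : Set.range (orderOf : G → ℕ) = Set.range (orderOf : ↥(alternatingGroup (Fin n)) → ℕ)) :
    ∃ (N H : Subgroup G) (_ : N.Normal), H.Normal ∧ N < H ∧
      IsSimpleGroup (↥H ⧸ N.subgroupOf H) ∧ ¬ IsMulCommutative (↥H ⧸ N.subgroupOf H) ∧
      ∀ p : ℕ, p.Prime → n < 2 * p → p ≤ n → p ∣ Nat.card (↥H ⧸ N.subgroupOf H) := by
  have hno : ∀ p q : ℕ, p.Prime → q.Prime → p ≠ q → n < p + q → ¬ ∃ g : G, orderOf g = p * q := by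
    rintro p q hp hq hpq h ⟨g, hg⟩
    obtain ⟨σ, hσ⟩ : p * q ∈ Set.range (orderOf : ↥(alternatingGroup (Fin n)) → ℕ) := hspec ▸ ⟨g, hg⟩
    exact no_pq hp hq hpq h σ.1 (by rw [Subgroup.orderOf_coe, hσ])
  have hnd : ∀ p q : ℕ, p.Prime → q.Prime → n < 2 * p → p ≤ n → n < 2 * q → q ≤ n → ¬ q ∣ p - 1 := by
    intro p q hp hq h1 h2 h3 h4 ⟨c, hc⟩
    have := hp.eq_two_or_odd
    have := hq.eq_two_or_odd
    rcases c with _ | _ | c
    · omega
    · omega
    · have : q * 2 ≤ q * (c + 1 + 1) := Nat.mul_le_mul_left _ (by omega)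
      omega
  have hdG : ∀ p : ℕ, p.Prime → n < 2 * p → p ≤ n → p ∣ Nat.card G := fun p hp h1 h2 => hcard ▸ dvd_alt hp (by omega) h2
  have hsG : ∀ p : ℕ, p.Prime → n < 2 * p → ¬ p ^ 2 ∣ Nat.card G := fun p hp h1 => hcard ▸ not_sq hp h1
  obtain ⟨p, q, hp, hq, hpq, p1, p2, q1, q2⟩ := two_primes n hn
  obtain ⟨N, -, hmax⟩ := Finite.exists_le_maximal (p := fun M : Subgroup G => M.Normal ∧ ¬ p ∣ Nat.card M) (a := ⊥)
    ⟨inferInstance, by simpa using hp.one_lt.ne'⟩
  haveI hN := hmax.prop.1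
  haveI : Nontrivial (G ⧸ N) := by
    rw [QuotientGroup.nontrivial_iff]
    intro h
    exact hmax.prop.2 (by rw [h, Subgroup.card_top]; exact hdG p hp p1 p2)
  obtain ⟨K, hK, hK0, hKmin⟩ := H1.exists_minimal_normal (G := G ⧸ N)
  set H := K.comap (QuotientGroup.mk' N) with hH
  have hNH : N ≤ H := fun x hx => by
    rw [hH, Subgroup.mem_comap, QuotientGroup.mk'_apply, (QuotientGroup.eq_one_iff x).2 hx]; exact K.one_mem
  have hmap : H.map (QuotientGroup.mk' N) = K := Subgroup.map_comap_eq_self_of_surjective (QuotientGroup.mk'_surjective N) K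
  have hlt : N < H := lt_of_le_of_ne hNH (fun h => hK0 (by rw [← hmap, ← h]; simp))
  have e : (H ⧸ N.subgroupOf H) ≃* K := by
    refine (QuotientGroup.quotientMulEquivOfEq ?_).trans ((QuotientGroup.quotientKerEquivRange ((QuotientGroup.mk' N).comp H.subtype)).trans
      (MulEquiv.subgroupCongr ?_))
    · ext x; simp [Subgroup.mem_subgroupOf]
    · rw [MonoidHom.range_comp, Subgroup.range_subtype, hmap]
  have hc : Nat.card H = Nat.card K * Nat.card N := by
    rw [← Nat.card_congr e.toEquiv, ← Nat.card_congr (Subgroup.subgroupOfEquivOfLe hNH).toEquiv]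
    exact Subgroup.card_eq_card_quotient_mul_card_subgroup _
  have hpH : p ∣ Nat.card H := by
    by_contra h
    exact hlt.not_ge (hmax.2 ⟨inferInstance, h⟩ hNH)
  have hall : ∀ r : ℕ, r.Prime → n < 2 * r → r ≤ n → r ∣ Nat.card K := by
    intro r hr r1 r2
    have hrN : ¬ r ∣ Nat.card N := by
      intro h
      by_cases hrp : r = p
      · exact hmax.prop.2 (hrp ▸ h)
      exact hno r p hr hp hrp (by omega) (exists_pq N hr hp (hsG r hr r1) h hmax.prop.2 (hdG p hp p1 p2) (hnd r p hr hp r1 r2 p1 p2))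
    have hrH : r ∣ Nat.card H := by
      by_contra h
      exact hno p r hp hr (fun h' => h (h' ▸ hpH)) (by omega) (exists_pq H hp hr (hsG p hp p1) hpH h (hdG r hr r1 r2) (hnd p r hp hr p1 p2 r1 r2))
    exact (hr.dvd_mul.1 (hc ▸ hrH)).resolve_right hrN
  have hs : IsSimpleGroup K := simple_of K hK0 hKmin hp (hall p hp p1 p2) (fun h => hsG p hp p1
    (h.trans ((Dvd.intro _ hc.symm).trans H.card_subgroup_dvd_card)))
  refine ⟨N, H, hN, inferInstance, hlt, e.isSimpleGroup, fun hcomm => ?_, fun r hr r1 r2 => ?_⟩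
  · haveI := e.isSimpleGroup
    letI : CommGroup (H ⧸ N.subgroupOf H) := { mul_comm := hcomm.is_comm.comm }
    have h1 := IsSimpleGroup.prime_card (α := H ⧸ N.subgroupOf H)
    rw [Nat.card_congr e.toEquiv] at h1
    exact hpq (((Nat.prime_dvd_prime_iff_eq hp h1).1 (hall p hp p1 p2)).trans ((Nat.prime_dvd_prime_iff_eq hq h1).1 (hall q hq q1 q2)).symm)
  · rw [Nat.card_congr e.toEquiv]; exact hall r hr r1 r2

end Cfsg.Agent.S3420
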