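import Cfsg.Statements.S3419
import Cfsg.Agent.H7.Spec1
import Cfsg.Agent.S3420

set_option autoImplicit false
open Cfsg

open H7.Spec

namespace Cfsg.Agent.S3419

/-- Let n ≥ 5 and let G be a finite group with the same order and the same set of element orders as the alternating group of degree n. Then G is not solvable. -/
theorem result {G : Type*} [Group G] [Finite G] (n : ℕ) (hn : 5 ≤ n)
    (hcard : Nat.card G = Nat.card ↥(alternatingGroup (Fin n)))
    (hspec : Set.range (orderOf : G → ℕ) = Set.range (orderOf : ↥(alternatingGroup (Fin n)) → ℕ)) :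
    ¬ Group.IsSolvable G := by
  intro hsol
  by_cases h11 : 11 ≤ n
  · obtain ⟨N, H, hN, -, -, h1, h2, -⟩ := Cfsg.Agent.S3420.result n h11 hcard hspec
    exact h2 ⟨⟨IsSimpleGroup.comm_iff_isSolvable.2 inferInstance⟩⟩
  have key : ∀ p q : ℕ, p.Prime → q.Prime → p ≠ q → p ≠ 2 → q ≠ 2 → p ≤ n → q ≤ n → n < 2 * p → n < p + q →
      ¬ q ^ 3 ∣ Nat.card G → ¬ q ∣ p - 1 → q % p ≠ 1 → q ^ 2 % p ≠ 1 → False := by
    intro p q hp hq hpq p2 q2 p1 q1 h1 h2 h3 h4 h5 h6
    haveI := Fact.mk hp
    obtain ⟨H, hH⟩ := (H2.dPi_of_isSolvable {p, q} G).exists_hall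
    have hd : ∀ r : ℕ, r.Prime → r ∈ ({p, q} : Set ℕ) → r ∣ Nat.card G → r ∣ Nat.card H := fun r hr h h' =>
      (hr.dvd_mul.1 (H.card_mul_index ▸ h')).resolve_right (hH.2 r hr h)
    have hpH := hd p hp (by simp) (hcard ▸ dvd_alt hp p2 p1)
    have hqH := hd q hq (by simp) (hcard ▸ dvd_alt hq q2 q1)
    have hsH : ¬ p ^ 2 ∣ Nat.card H := fun h => not_sq hp h1 (hcard ▸ h.trans H.card_subgroup_dvd_card)
    obtain ⟨P⟩ : Nonempty (Sylow p H) := inferInstance
    have hi : (P : Subgroup H).index = q ^ (P : Subgroup H).index.primeFactorsList.length :=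
      Nat.eq_prime_pow_of_unique_prime_dvd Subgroup.index_ne_zero_of_finite fun {s} hs hs' => by
        rcases hH.1 s hs (hs'.trans (P : Subgroup H).index_dvd_card) with h | h
        · exact absurd (h ▸ hs') P.not_dvd_index
        · exact h
    have hn1 : Nat.card (Sylow p H) = 1 := by
      have a := P.card_dvd_index
      have b := card_sylow_modEq_one p H
      rw [hi] at a
      obtain ⟨j, -, hj⟩ := (Nat.dvd_prime_pow hq).1 a
      have c : j ≤ 2 := by
        by_contra h
        exact h3 ((pow_dvd_pow q (by omega)).trans (hj ▸ P.card_dvd_index.trans ((P : Subgroup H).index_dvd_card.trans H.card_subgroup_dvd_card)))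
      rw [hj] at b ⊢
      rw [Nat.ModEq, Nat.mod_eq_of_lt hp.one_lt] at b
      interval_cases j
      · rfl
      · exact absurd (by simpa using b) h5
      · exact absurd b h6
    haveI : Subsingleton (Sylow p H) := (Nat.card_eq_one_iff_unique.1 hn1).1
    haveI : (P : Subgroup H).Normal := Sylow.normal_of_subsingleton P
    have hPc : p ∣ Nat.card P := (hp.dvd_mul.1 ((P : Subgroup H).card_mul_index ▸ hpH)).resolve_right P.not_dvd_index
    obtain ⟨g, hg⟩ := exists_pq (P : Subgroup H) hp hq hsH hPc (fun h => by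
      obtain ⟨k, hk⟩ := P.2.exists_card_eq
      exact hpq ((Nat.prime_dvd_prime_iff_eq hq hp).1 (hq.dvd_of_dvd_pow (hk ▸ h))).symm) hqH h4
    obtain ⟨σ, hσ⟩ : p * q ∈ Set.range (orderOf : ↥(alternatingGroup (Fin n)) → ℕ) :=
      hspec ▸ ⟨g.1, by rw [Subgroup.orderOf_coe, hg]⟩
    exact no_pq hp hq hpq h2 σ.1 (by rw [Subgroup.orderOf_coe, hσ])
  have hG : Nat.card G ∣ n.factorial := by
    have := (alternatingGroup (Fin n)).card_subgroup_dvd_card
    rwa [Nat.card_perm, Nat.card_eq_fintype_card (α := Fin n), Fintype.card_fin, ← hcard] at this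
  by_cases h7 : 7 ≤ n
  · refine key 7 5 (by norm_num) (by norm_num) (by norm_num) (by norm_num) (by norm_num) h7 hn (by omega) (by omega)
      (fun h => ?_) (by norm_num) (by norm_num) (by norm_num)
    exact absurd (h.trans (hG.trans (Nat.factorial_dvd_factorial (by omega : n ≤ 10)))) (by decide)
  · refine key 5 3 (by norm_num) (by norm_num) (by norm_num) (by norm_num) (by norm_num) hn (by omega) (by omega) (by omega)
      (fun h => ?_) (by norm_num) (by norm_num) (by norm_num)
    exact absurd (h.trans (hG.trans (Nat.factorial_dvd_factorial (by omega : n ≤ 6)))) (by decide)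

end Cfsg.Agent.S3419
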