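import Cfsg.Statements.S3421
import Cfsg.Agent.H5.CS3
import Cfsg.Agent.H5.Fib
-- import your own Cfsg.Agent.* helpers here

set_option autoImplicit false
open Cfsg

namespace Cfsg.Agent.S3421
open H5


/-- Let F be a finite field with more than 3 elements. A finite group G is isomorphic to PSL(2, F) if and only if G has the same set of element orders and the same order as PSL(2, F). -/
theorem result {G : Type*} [Group G] [Finite G] {F : Type*} [Field F] [Fintype F] (hF : 3 < Fintype.card F) :
    Nonempty (G ≃* Matrix.ProjectiveSpecialLinearGroup (Fin 2) F) ↔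
      (Set.range (orderOf : G → ℕ) = Set.range (orderOf : Matrix.ProjectiveSpecialLinearGroup (Fin 2) F → ℕ) ∧
        Nat.card G = Nat.card (Matrix.ProjectiveSpecialLinearGroup (Fin 2) F)) := by
  refine ⟨fun ⟨e⟩ => ⟨range_ord.2 fun n => ord_congr e, Nat.card_congr e.toEquiv⟩, fun ⟨a, b⟩ => ?_⟩
  exact (l2_of_spec (l2_self rfl) hF (range_ord.1 a) b).equiv

end Cfsg.Agent.S3421
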