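import Cfsg.Statements.S3699
import Cfsg.Agent.H5.PG
-- import your own Cfsg.Agent.* helpers here

set_option autoImplicit false
open Cfsg

namespace Cfsg.Agent.S3699
open H5

open H19


/-- Let `q = 2^(2m+1) ≥ 8` and `S = Sz(q)` the Suzuki group. If a finite group `G` has the same prime graph as `S` (same prime divisors of the order; for distinct primes `r, s` an element of order `rs` in one iff in the other), then `G/O₂(G)` is isomorphic to `S`. The known proof uses the classification of finite simple groups. -/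
theorem result {F : Type*} [Field F] [Fintype F] (m : ℕ) (hm : 1 ≤ m)
    (hF : Fintype.card F = 2 ^ (2 * m + 1)) {G : Type*} [Group G] [Finite G]
    (h : ((∀ r : ℕ, r.Prime → (r ∣ Nat.card ↥(Cfsg.Lie.Sz F (2 ^ (m + 1))) ↔ r ∣ Nat.card G)) ∧
      (∀ r s : ℕ, r.Prime → s.Prime → r ≠ s → ((∃ x : ↥(Cfsg.Lie.Sz F (2 ^ (m + 1))), orderOf x = r * s) ↔ (∃ y : G, orderOf y = r * s))))) :
    Nonempty (G ⧸ Cfsg.pCore 2 G ≃* ↥(Cfsg.Lie.Sz F (2 ^ (m + 1)))) := by
  haveI : Finite (Lie.Sz F (2 ^ (m + 1))) := inferInstance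
  have h : SPG _ G := h
  have s := szM_self hF
  obtain ⟨c, o⟩ := s.data hm
  obtain ⟨e, d⟩ := sz_arith hm
  have l : 2 ^ 3 ≤ 2 ^ (2 * m + 1) := Nat.pow_le_pow_right two_pos (by omega)
  obtain ⟨r, hr, d1⟩ := Nat.exists_prime_and_dvd (show 2 ^ (2 * m + 1) - 1 ≠ 1 by omega)
  have k : ∀ {r}, r.Prime → r ∣ 2 ^ (2 * m + 1) - 1 → r ≠ 2 ∧ ¬ r ∣ (2 ^ (2 * m + 1)) ^ 2 + 1 :=
    fun {r} hr a => by
    have h2 : r ≠ 2 := by rintro rfl; exact (odd_pow_sub (by omega)).not_two_dvd_nat a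
    refine ⟨h2, fun b => h2 ((Nat.prime_dvd_prime_iff_eq hr Nat.prime_two).1 ?_)⟩
    have := Nat.dvd_sub b (H27.sq_sub_one_eq _ ▸ a.mul_left _)
    have l := Nat.one_le_pow 2 _ (show 0 < 2 ^ (2 * m + 1) by omega)
    rwa [show ∀ a, 1 ≤ a → a + 1 - (a - 1) = 2 by omega] at this
    exact l
  have hc := h.cit (s.cit hm)
  have n3 : ¬ 3 ∣ Nat.card G := fun a => s.not_three hm ((h.1 3 Nat.prime_three).2 a)
  rcases hc.all (h.not_sol (s.cit hm) hr Nat.prime_five (k hr d1).1 (by decide)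
    (fun e => (k hr d1).2 (e ▸ d)) (c ▸ ((dvd_pow (dvd_pow_self 2 (by omega)) two_ne_zero).mul_right
      _).mul_right _) (c ▸ (d1.mul_left _).mul_right _) (c ▸ d.mul_left _) fun a => by
      rcases (o _).1 a with a | a | a | a
      · exact absurd ((dvd_mul_left 5 r).trans a) (by decide)
      · exact (k Nat.prime_five ((dvd_mul_left 5 r).trans a)).2 d
      · exact (k hr d1).2 (e ▸ ((dvd_mul_right r 5).trans a).mul_right _)
      · exact (k hr d1).2 (e ▸ ((dvd_mul_right r 5).trans a).mul_left _))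
    with (a | a) | a | a | a
  · obtain ⟨k, -, a⟩ := a.l2
    exact (n3 ((dvd_quot Nat.prime_three (by decide)).1 a.three)).elim
  · obtain ⟨n, hn, a⟩ := szM_of a
    obtain rfl := le_antisymm (s.dvd_of a hm hn fun r p p2 d => (dvd_quot p p2).2 ((h.1 r p).1 d))
      (a.dvd_of s hn hm fun r p p2 d => (h.1 r p).2 ((dvd_quot p p2).1 d))
    exact a.equiv hF
  · obtain ⟨F, _, _, k, -, -, a⟩ := a
    exact (n3 (L2.three ⟨F, inferInstance, inferInstance, rfl, a⟩)).elim
  · exact (n3 (by rw [l34_card a]; decide)).elim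
  · exact (n3 (by rw [a.ord.1]; decide)).elim

end Cfsg.Agent.S3699
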