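import Cfsg.Statements.S3700
import Cfsg.Agent.H5.PG
-- import your own Cfsg.Agent.* helpers here

set_option autoImplicit false
open Cfsg

namespace Cfsg.Agent.S3700
open H5

open H19


/-- Let `F` be a finite field with `2^m` elements, `m ≥ 4`. If a finite group `G` has the same prime graph as `PSL(2, F)` (same prime divisors of the order; for distinct primes `r, s` an element of order `rs` in one iff in the other), then `G/O₂(G)` is isomorphic to `PSL(2, F)`. The known proof uses the classification of finite simple groups. -/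
theorem result {F : Type*} [Field F] [Fintype F] (m : ℕ) (hm : 4 ≤ m)
    (hF : Fintype.card F = 2 ^ m) {G : Type*} [Group G] [Finite G]
    (h : ((∀ r : ℕ, r.Prime → (r ∣ Nat.card (Matrix.ProjectiveSpecialLinearGroup (Fin 2) F) ↔ r ∣ Nat.card G)) ∧
      (∀ r s : ℕ, r.Prime → s.Prime → r ≠ s → ((∃ x : (Matrix.ProjectiveSpecialLinearGroup (Fin 2) F), orderOf x = r * s) ↔ (∃ y : G, orderOf y = r * s))))) :
    Nonempty (G ⧸ Cfsg.pCore 2 G ≃* Matrix.ProjectiveSpecialLinearGroup (Fin 2) F) := by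
  have h : SPG _ G := h
  have s := l2_self hF
  have m1 : 1 ≤ m := by omega
  obtain ⟨c, o⟩ := s.even m1
  have l : 2 ^ 4 ≤ 2 ^ m := Nat.pow_le_pow_right two_pos hm
  have o1 := odd_pow_sub m1
  have o2 := odd_pow_add m1
  have n2 : ∀ {r a}, Odd a → r ∣ a → r ≠ 2 := fun o d e => o.not_two_dvd_nat (e ▸ d)
  have k : ∀ {r}, r.Prime → r ∣ 2 ^ m - 1 → ¬ r ∣ 2 ^ m + 1 := fun {r} hr a b => by
    have := Nat.dvd_sub b a
    rw [show 2 ^ m + 1 - (2 ^ m - 1) = 2 by omega] at this
    exact n2 o1 a ((Nat.prime_dvd_prime_iff_eq hr Nat.prime_two).1 this)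
  obtain ⟨r, hr, d1⟩ := Nat.exists_prime_and_dvd (show 2 ^ m - 1 ≠ 1 by omega)
  obtain ⟨t, ht, d2⟩ := Nat.exists_prime_and_dvd (show 2 ^ m + 1 ≠ 1 by omega)
  have hc := h.cit (s.cit m1)
  obtain ⟨z, hz, z1, z2⟩ := zsig_two (n := 2 * m) (by omega)
  have z3 := (h.1 z hz).1 ((s.dvd_iff m1 hz (by omega)).2 ((z2 _).2 dvd_rfl))
  have sm : ∀ {c}, Nat.card G = c → c ∣ 210 ^ 6 → False := fun a b => by
    have := Nat.le_of_dvd (by decide) (hz.dvd_of_dvd_pow ((a ▸ z3).trans b))
    have := hz.dvd_of_dvd_pow ((a ▸ z3).trans b)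
    rw [show 210 = 2 * 3 * 5 * 7 from rfl] at this
    simp only [hz.dvd_mul] at this
    rcases this with ((h | h) | h) | h <;> have := Nat.le_of_dvd (by decide) h <;> omega
  rcases hc.all (h.not_sol (s.cit m1) hr ht (n2 o1 d1) (n2 o2 d2) (fun e => k hr d1 (e ▸ d2))
    (c ▸ (dvd_pow_self 2 (by omega)).mul_right _) (c ▸ (d1.mul_left _).mul_left _)
    (c ▸ (d2.mul_right _).mul_left _) fun a => by
      rcases (o _).1 a with a | a | a
      · exact n2 o1 d1 ((Nat.prime_dvd_prime_iff_eq hr Nat.prime_two).1 ((dvd_mul_right _ _).trans a))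
      · exact k ht ((dvd_mul_left _ _).trans a) d2
      · exact k hr d1 ((dvd_mul_right _ _).trans a))
    with (a | a) | a | a | a
  · obtain ⟨n, hn, a⟩ := a.l2
    have d := s.dvd_of a hm (by omega) fun r p p2 d => (dvd_quot p p2).2 ((h.1 r p).1 d)
    have := Nat.le_of_dvd (by omega) d
    obtain rfl := Nat.dvd_antisymm d
      (a.dvd_of s (by omega) m1 fun r p p2 d => (h.1 r p).2 ((dvd_quot p p2).1 d))
    exact L2.equiv (hF ▸ a)
  · obtain ⟨n, hn, a⟩ := szM_of a
    exact (a.not_three hn ((dvd_quot Nat.prime_three (by decide)).2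
      ((h.1 _ Nat.prime_three).1 s.three))).elim
  · rcases a.l2 with a | ⟨p, j, hp, hj, e, a⟩
    · have := (a.odd (f := 2) Nat.prime_three rfl (by decide)).1
      exact (sm (c := 360) (by omega) (by decide)).elim
    exfalso
    have := Nat.pow_le_pow_right two_pos hj
    have po : Odd p := hp.odd_of_ne_two (by omega)
    obtain ⟨c', o'⟩ := a.odd hp (pow_one p).symm po
    have pp : ∀ {A u}, u.Prime → A = 2 ^ m + 1 ∨ A + 1 = 2 ^ m → (∀ s, s.Prime → s ∣ A → s = u) →
        A = u := fun {A u} hu a b => by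
      have : IsPrimePow A := isPrimePow_iff_unique_prime_dvd.2 (by
        obtain ⟨s, hs, d⟩ := Nat.exists_prime_and_dvd (show A ≠ 1 by omega)
        exact ⟨s, ⟨hs, d⟩, fun t ht => (b t ht.1 ht.2).trans (b s hs d).symm⟩)
      rcases prime_or_nine this (by omega) a with rfl | h
      · omega
      · exact b A h dvd_rfl
    have f : ∀ {A B}, (∀ n, n ∣ A → Ord _ n) → p ∣ A → A = 2 ^ m + 1 ∨ A + 1 = 2 ^ m →
        B = 2 ^ m + 1 ∨ B + 1 = 2 ^ m → B ∣ Nat.card (Matrix.ProjectiveSpecialLinearGroup (Fin 2) F) →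
        A ≠ B → False := fun {A B} a1 a2 a3 b1 b2 ab => by
      obtain rfl := pp hp a3 fun s hs d => by_contra fun e => by
        have g := (h.2 p s hp hs (Ne.symm e)).1 (a1 _
          (((Nat.coprime_primes hp hs).2 (Ne.symm e)).mul_dvd_of_dvd_of_dvd a2 d))
        have := Nat.mul_le_mul_left p hs.two_le
        rcases (o' _).1 g with g | g | g <;> have := Nat.le_of_dvd (by omega) g <;> omega
      have := pp Nat.prime_three b1 fun s hs d => by
        have d' := ((h.1 s hs).1 (d.trans b2)).mul_left 2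
        have w : ∀ {x y}, s ∣ x → x = B + y ∨ B = x + y → s ∣ y := by
          rintro x y a (rfl | e)
          exacts [(Nat.dvd_add_right d).1 a, (Nat.dvd_add_right a).1 (e ▸ d)]
        have s2 : s ≠ 2 := by
          rintro rfl
          have := dvd_pow_self 2 (show m ≠ 0 by omega)
          omega
        have w2 : ∀ {y}, ¬ s ∣ 2 ^ y := fun d =>
          s2 ((Nat.prime_dvd_prime_iff_eq hs Nat.prime_two).1 (hs.dvd_of_dvd_pow d))
        rw [c', hs.dvd_mul, hs.dvd_mul] at d'
        rw [← Nat.prime_dvd_prime_iff_eq hs Nat.prime_three]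
        rcases d' with d' | d' | d'
        · exact (w2 (y := 1) (w d' (by omega))).elim
        · rcases a3 with a3 | a3
          exacts [w d' (by omega), (w2 (a3 ▸ d')).elim]
        · rcases a3 with a3 | a3
          exacts [(w2 (y := m) (by simpa [a3] using d')).elim, w d' (by omega)]
      omega
    have pd := (h.1 p hp).2 (((Nat.coprime_two_right.2 po).dvd_of_dvd_mul_left
      (c' ▸ dvd_mul_right _ _)))
    rw [s.dvd_iff m1 hp (by omega), mul_comm, pow_mul, H27.sq_sub_one_eq, hp.dvd_mul] at pd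
    rcases pd with pd | pd
    · exact f (fun n d => (o n).2 (.inr (.inr d))) pd (.inl rfl) (B := 2 ^ m - 1) (.inr (by omega))
        (c ▸ (dvd_mul_left _ _).mul_left _) (by omega)
    · exact f (fun n d => (o n).2 (.inr (.inl d))) pd (.inr (by omega)) (.inl rfl)
        (c ▸ (dvd_mul_right _ _).mul_left _) (by omega)
  · exact (sm (l34_card a) (by decide)).elim
  · exact (sm a.ord.1 (by decide)).elim

end Cfsg.Agent.S3700
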