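import Cfsg.Statements.S3704
import Cfsg.Agent.H8.SD1

set_option autoImplicit false
open Cfsg

namespace Cfsg.Agent.S3704

open H8

/-- Let G be a finite group acting faithfully and 2-transitively on a finite set Ω of size n, and let H be a subgroup of index n in G which is not transitive on Ω and fixes no point of Ω. Then H has exactly two orbits on Ω. -/
theorem result {G Ω : Type*} [Group G] [Finite G] [MulAction G Ω] [FaithfulSMul G Ω] [Finite Ω] (h2 : MulAction.IsMultiplyPretransitive G Ω 2) (H : Subgroup G) (hidx : H.index = Nat.card Ω) (hnt : ¬ MulAction.IsPretransitive H Ω) (hfix : ∀ a : Ω, ∃ h : H, h • a ≠ a) : Nat.card (MulAction.orbitRel.Quotient H Ω) = 2 := by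
  haveI := Fintype.ofFinite H
  obtain ⟨a⟩ : Nonempty Ω := by
    by_contra h0
    exact hnt ⟨fun x => absurd ⟨x⟩ h0⟩
  have h := PG.exists_sd h2 H hidx hnt hfix a
  have e : Nat.card (MulAction.orbitRel.Quotient H Ω) =
      Nat.card (MulAction.orbitRel.Quotient H (G ⧸ H)) := by
    have e1 := H5.classInner_perm_one (G := H) Ω
    have e2 := H5.classInner_perm_one (G := H) (G ⧸ H)
    have : ∀ g : H, Nat.card (MulAction.fixedBy Ω g) = Nat.card (MulAction.fixedBy (G ⧸ H) g) :=
      fun g => (h.fixeq g).symm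
    simp only [this] at e1
    exact_mod_cast e1.symm.trans e2
  haveI := h.ntB
  obtain ⟨y, hy⟩ := exists_ne ((1 : G) : G ⧸ H)
  have hs : ∀ g : G, g • ((1 : G) : G ⧸ H) = (1 : G) ↔ g ∈ H := fun g => by
    rw [← MulAction.mem_stabilizer_iff, MulAction.stabilizer_quotient]
  rw [e, Nat.card_eq_two_iff]
  refine ⟨Quotient.mk _ y, Quotient.mk _ ((1 : G) : G ⧸ H), fun e => ?_,
    Set.eq_univ_of_forall fun q => ?_⟩
  · obtain ⟨g, eg⟩ := Quotient.exact e
    exact hy (eg.symm.trans ((hs g).2 g.2))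
  · induction q using Quotient.ind with | _ z =>
    by_cases hz : z = ((1 : G) : G ⧸ H)
    · exact Or.inr (by rw [hz]; rfl)
    · obtain ⟨g, g1, g2⟩ := h.twoB hy.symm (Ne.symm hz)
      exact Or.inl (Quotient.sound ⟨⟨g, (hs g).1 g1⟩, g2⟩)

end Cfsg.Agent.S3704
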