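import Cfsg.Statements.S3732
import Cfsg.Agent.H8.OW4

set_option autoImplicit false
open Cfsg

namespace Cfsg.Agent.S3732

open H8

/-- The Ostrom–Wagner Theorem. Let Π be a finite projective plane (points P, lines L) whose collineation group is 2-transitive on points: for any two ordered pairs of distinct points there is a permutation of the points, together with a compatible permutation of the lines preserving incidence, carrying the first pair to the second. Then Π is Desarguesian: there is a finite field F and a bijection from P onto the points of the projective plane over F (the 1-dimensional subspaces of F³) under which the lines of Π correspond exactly to the 2-dimensional subspaces of F³. -/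
theorem result
    {P L : Type*} [Membership P L] [Fintype P] [Fintype L] [Configuration.ProjectivePlane P L]
    (h2t : ∀ p₁ p₂ q₁ q₂ : P, p₁ ≠ p₂ → q₁ ≠ q₂ →
      ∃ (σ : Equiv.Perm P) (τ : Equiv.Perm L), (∀ (p : P) (l : L), σ p ∈ τ l ↔ p ∈ l) ∧ σ p₁ = q₁ ∧ σ p₂ = q₂) :
    ∃ (F : Type) (_ : Field F) (_ : Fintype F) (φ : P ≃ Projectivization F (Fin 3 → F)),
      (∀ l : L, ∃ W : Submodule F (Fin 3 → F), Module.finrank F W = 2 ∧
          ∀ p : P, p ∈ l ↔ (φ p).submodule ≤ W) ∧
      (∀ W : Submodule F (Fin 3 → F), Module.finrank F W = 2 →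
          ∃ l : L, ∀ p : P, p ∈ l ↔ (φ p).submodule ≤ W) := by
  let G : Subgroup (Equiv.Perm P × Equiv.Perm L) :=
    { carrier := {g | ∀ (p : P) (l : L), g.1 p ∈ g.2 l ↔ p ∈ l}
      one_mem' := fun _ _ => Iff.rfl
      mul_mem' := fun {a b} ha hb p l => (ha _ _).trans (hb p l)
      inv_mem' := fun {a} ha p l => by simpa using (ha (a.1⁻¹ p) (a.2⁻¹ l)).symm }
  letI : MulAction G P := MulAction.compHom P ((MonoidHom.fst _ _).comp G.subtype)
  letI : MulAction G L := MulAction.compHom L ((MonoidHom.snd _ _).comp G.subtype)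
  obtain ⟨n, h⟩ := PG.exists_pa (G := G) (inc := fun (p : P) (l : L) => p ∈ l)
    (fun e => ⟨_, Configuration.HasLines.mkLine_ax e⟩)
    (fun e => ⟨_, Configuration.HasPoints.mkPoint_ax e⟩) Configuration.Nondegenerate.eq_or_eq (by
      obtain ⟨p₁, p₂, p₃, l₁, l₂, l₃, k⟩ := @Configuration.ProjectivePlane.exists_config P L _ _
      exact ⟨p₁, trivial, p₂, trivial, p₃, trivial, l₁, trivial, l₂, trivial, l₃, trivial, k⟩)
    fun g p l e => (g.2 p l).2 e
  obtain ⟨F, _, _, φ, k, -⟩ := h.desarg (fun {a b c d} h1 h2 => by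
      obtain ⟨σ, τ, e1, e2⟩ := h2t a b c d h1 h2
      exact ⟨⟨(σ, τ), e1⟩, e2⟩) fun g hg =>
    Subtype.ext (Prod.ext (Equiv.ext hg) (Equiv.ext (h.triv_dual hg)))
  exact ⟨F, inferInstance, inferInstance, φ, k⟩

end Cfsg.Agent.S3732
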