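import Cfsg.Statements.S3733
import Cfsg.Agent.H23.Fpf

set_option autoImplicit false
open Cfsg

namespace Cfsg.Agent.S3733

open Subgroup H23
open scoped IsMulCommutative

/-- Let A and V be subgroups of a finite group with V abelian and nontrivial and A normalizing V. Suppose a nonempty finite family of proper subgroups of A partitions A: every non-identity element of A lies in exactly one member. If the number of members minus one is coprime to the order of V, then some member B of the family has a non-identity fixed point on V, that is V ∩ C(B) ≠ 1. -/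
theorem result {G : Type*} [Group G] [Finite G] (A V : Subgroup G) (hVab : IsMulCommutative V) (hV : V ≠ ⊥) (hAV : A ≤ Subgroup.normalizer (V : Set G)) (𝒜 : Finset (Subgroup G)) (hne : 𝒜.Nonempty) (hprop : ∀ B ∈ 𝒜, B < A) (hpart : ∀ a ∈ A, a ≠ 1 → ∃! B, B ∈ 𝒜 ∧ a ∈ B) (hk : (𝒜.card - 1).Coprime (Nat.card V)) : ∃ B ∈ 𝒜, V ⊓ Subgroup.centralizer (B : Set G) ≠ ⊥ := by
  by_contra hc
  push Not at hc
  obtain ⟨⟨v, hv⟩, hv1⟩ := (ne_bot_iff_exists_ne_one).1 hV
  have := pow_eq_one_of_partition (H2.conjAut hAV) 𝒜 hne (fun B => B.subgroupOf A)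
    (fun a ha => hpart a a.2 (fun h => ha (Subtype.ext h))) (fun B hB w hw => by
      have : (w : G) ∈ V ⊓ centralizer (B : Set G) := ⟨w.2, fun b hb => by
        have := congrArg Subtype.val (hw ⟨b, (hprop B hB).le hb⟩ hb)
        rw [H2.coe_conjAut_apply, mul_inv_eq_iff_eq_mul] at this
        exact this⟩
      rw [hc B hB, mem_bot] at this
      exact Subtype.ext this) ⟨v, hv⟩
  exact hv1 (orderOf_eq_one_iff.1 (Nat.eq_one_of_dvd_coprimes hk (orderOf_dvd_of_pow_eq_one this)
    (orderOf_dvd_natCard _)))

end Cfsg.Agent.S3733
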