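import Cfsg.Statements.S3735
import Cfsg.Agent.H1.Wielandt

set_option autoImplicit false
open Cfsg

namespace Cfsg.Agent.S3735

open Subgroup
open scoped Pointwise

/-- Clifford's Theorem for actions on finite abelian groups, first part. Let H and V be subgroups of a finite group with V abelian and H normalizing V, and let A be a normal subgroup of H. If every H-invariant subgroup of V has an H-invariant complement in V, then every A-invariant subgroup of V has an A-invariant complement in V. -/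
theorem result {G : Type*} [Group G] [Finite G] (H A V : Subgroup G) (hVab : IsMulCommutative V) (hHV : H ≤ Subgroup.normalizer (V : Set G)) (hAH : A ≤ H) (hAn : H ≤ Subgroup.normalizer (A : Set G)) (hss : ∀ U : Subgroup G, U ≤ V → H ≤ Subgroup.normalizer (U : Set G) → ∃ W : Subgroup G, W ≤ V ∧ H ≤ Subgroup.normalizer (W : Set G) ∧ U ⊓ W = ⊥ ∧ U ⊔ W = V) (U : Subgroup G) (hUV : U ≤ V) (hAU : A ≤ Subgroup.normalizer (U : Set G)) : ∃ W : Subgroup G, W ≤ V ∧ A ≤ Subgroup.normalizer (W : Set G) ∧ U ⊓ W = ⊥ ∧ U ⊔ W = V := by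
  have hAV : A ≤ normalizer (V : Set G) := hAH.trans hHV
  have hVn : ∀ X : Subgroup G, X ≤ V → V ≤ normalizer (X : Set G) := fun X hX =>
    ((le_centralizer V).trans (H1.centralizer_anti hX)).trans (centralizer_le_normalizer _)
  set S : Set (Subgroup G) := {M | M ≤ V ∧ A ≤ normalizer (M : Set G) ∧ M ≠ ⊥ ∧
    ∀ K : Subgroup G, A ≤ normalizer (K : Set G) → K ≤ M → K = ⊥ ∨ K = M} with hS
  have hSV : sSup S ≤ V := sSup_le fun M hM => hM.1
  have hSn : H ≤ normalizer ((sSup S : Subgroup G) : Set G) := by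
    refine H1.le_normalizer_sSup_of_conj_mem fun g hg M hM => le_sSup ⟨?_, ?_, ?_, ?_⟩
    · exact H1.conj_smul_le_of_le_of_mem hM.1 (hHV hg)
    · have := H1.conj_smul_le_normalizer (g := g) hM.2.1
      rwa [H1.conj_smul_eq_of_mem_normalizer (hAn hg)] at this
    · exact fun h => hM.2.2.1 (H1.conj_smul_eq_bot_iff.1 h)
    · intro K hK hle
      have h1 := H1.conj_smul_le_normalizer (g := g⁻¹) hK
      rw [H1.conj_smul_eq_of_mem_normalizer (inv_mem (hAn hg))] at h1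
      rcases hM.2.2.2 _ h1 (H1.conj_smul_le_iff.2 (by rwa [inv_inv])) with h | h
      · exact Or.inl (H1.conj_smul_eq_bot_iff.1 h)
      · exact Or.inr (by rw [← h, H1.conj_smul_conj_inv_smul])
  have hSeq : V ≤ sSup S := by
    obtain ⟨W, hW1, hW2, hW3, hW4⟩ := hss _ hSV hSn
    by_cases h0 : W = ⊥
    · rw [← hW4, h0, sup_bot_eq]
    obtain ⟨M, h1, h2, h3, h4⟩ := H1.exists_minimal_invariant_le (hAH.trans hW2) h0
    exact absurd (le_bot_iff.1 (hW3 ▸ le_inf (le_sSup ⟨h1.trans hW1, h2, h3, h4⟩) h1)) h3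
  obtain ⟨W, -, ⟨hW1, hW2, hW3⟩, hmax⟩ := H1.exists_maximal_ge
    (P := fun W : Subgroup G => W ≤ V ∧ A ≤ normalizer (W : Set G) ∧ U ⊓ W = ⊥) (H := ⊥)
    ⟨bot_le, le_top.trans (normalizer_eq_top _).ge, inf_bot_eq _⟩
  refine ⟨W, hW1, hW2, hW3, le_antisymm (sup_le hUV hW1) (hSeq.trans (sSup_le fun M hM => ?_))⟩
  rcases hM.2.2.2 (M ⊓ (U ⊔ W)) (H1.le_normalizer_inf hM.2.1 (H1.le_normalizer_sup hAU hW2))
    inf_le_left with h | h
  · have := hmax (W ⊔ M) ⟨sup_le hW1 hM.1, H1.le_normalizer_sup hW2 hM.2.1, ?_⟩ le_sup_left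
    · exact (le_sup_right.trans this.le).trans le_sup_right
    rw [eq_bot_iff]
    rintro u ⟨hu, hu2⟩
    obtain ⟨w, hw, m, hm, rfl⟩ := (H1.mem_sup_of_le_normalizer (hW1.trans (hVn M hM.1))).1 hu2
    have hm1 : m ∈ M ⊓ (U ⊔ W) := mem_inf.2 ⟨hm, by
      have := mul_mem (mem_sup_right (inv_mem hw) : w⁻¹ ∈ U ⊔ W) (mem_sup_left hu)
      rwa [inv_mul_cancel_left] at this⟩
    rw [h, mem_bot] at hm1
    rw [hm1, mul_one] at hu ⊢
    exact hW3 ▸ mem_inf.2 ⟨hu, hw⟩
  · exact inf_eq_left.1 h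

end Cfsg.Agent.S3735
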