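import Cfsg.Statements.S3736
import Cfsg.Agent.H23.CopAux
import Cfsg.Agent.H1.Frattini
import Cfsg.Agent.H4.Critical

set_option autoImplicit false
open Cfsg

namespace Cfsg.Agent.S3736

open Subgroup
open scoped commutatorElement

/-- The Hall–Higman reduction for a minimal non-trivial action. Let B, A and P be subgroups of a finite group with P a p-group, B normalizing P, and A a normal subgroup of B of order prime to p. Suppose A does not centralize P but centralizes every proper B-invariant subgroup of P. Then [P, A] = P; P is elementary abelian or special; B acts irreducibly on P/Φ(P), that is, the only B-invariant subgroups of P containing Φ(P) are Φ(P) and P; and if p is odd then every element of P has order dividing p. -/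
theorem result {X : Type*} [Group X] [Finite X] {p : ℕ} [Fact p.Prime] (B A P : Subgroup X) (hP : IsPGroup p P) (hBP : B ≤ Subgroup.normalizer (P : Set X)) (hAB : A ≤ B) (hAn : B ≤ Subgroup.normalizer (A : Set X)) (hAp : (Nat.card A).Coprime p) (hnt : ⁅P, A⁆ ≠ ⊥) (hmin : ∀ U : Subgroup X, U < P → B ≤ Subgroup.normalizer (U : Set X) → ⁅U, A⁆ = ⊥) : ⁅P, A⁆ = P ∧ (Cfsg.IsElementaryAbelian p P ∨ Cfsg.IsSpecial p ↥P) ∧ (∀ U : Subgroup X, (frattini ↥P).map P.subtype ≤ U → U ≤ P → B ≤ Subgroup.normalizer (U : Set X) → U = (frattini ↥P).map P.subtype ∨ U = P) ∧ (p ≠ 2 → ∀ x ∈ P, x ^ p = 1) := by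
  have hAP : A ≤ normalizer (P : Set X) := hAB.trans hBP
  have hcop : (Nat.card A).Coprime (Nat.card P) := H2.coprime_card_of_isPGroup hP hAp
  have h1 : ⁅P, A⁆ = P := by
    by_contra h
    have := hmin _ (lt_of_le_of_ne (H2.commutator_le_of_le_normalizer hAP) h)
      (H1.le_normalizer_commutator hBP hAn)
    rw [H2.commutator_commutator_eq hAP hcop] at this
    exact hnt this
  have hP0 : P ≠ ⊥ := fun h => hnt (by rw [h, commutator_bot_left])
  have hC := H23.inf_centralizer_le_commutator hAP hcop h1
  set F := (frattini P).map P.subtype with hF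
  have hPF : ⁅P, P⁆ ≤ F := H1.commutator_le_frattiniOf_of_isNilpotent hP.isNilpotent
  have key : ∀ U : Subgroup X, U < P → B ≤ normalizer (U : Set X) → U ≤ ⁅P, P⁆ :=
    fun U h h' => (le_inf h.le (H1.le_centralizer_of_commutator_eq_bot (hmin U h h'))).trans hC
  have hFP : F < P := by
    refine lt_of_le_of_ne (map_subtype_le _) fun h => ?_
    haveI : Nontrivial P := (nontrivial_iff_ne_bot P).2 hP0
    exact H1.frattini_ne_top (H1.map_subtype_eq_self_iff.1 h)
  have hBF : B ≤ normalizer (F : Set X) := H1.le_normalizer_map_subtype_of_char _ hBP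
  have hFA := hmin F hFP hBF
  have hF' : F = ⁅P, P⁆ := le_antisymm (key F hFP hBF) hPF
  have hPnF : P ≤ normalizer (F : Set X) := H1.le_normalizer_map_subtype _
  have hFZ : ⁅P, F⁆ = ⊥ := by
    rw [← h1]
    refine commutator_commutator_eq_bot_of_rotate ?_ ?_
    · rw [commutator_comm A, hFA, commutator_bot_left]
    · exact le_bot_iff.1 (hFA ▸ commutator_mono (H1.commutator_le_of_le_normalizer_left hPnF) le_rfl)
  have hcen : ∀ x ∈ P, ∀ y ∈ F, Commute x y := fun x hx y hy =>
    commutatorElement_eq_one_iff_commute.1 (mem_bot.1 (hFZ ▸ commutator_mem_commutator hx hy))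
  refine ⟨h1, ?_, ?_, ?_⟩
  · by_cases hab : IsMulCommutative P
    · refine Or.inl ⟨hab, fun a ha => ?_⟩
      have := H4.pow_mem_map_frattini hP ha
      rw [← hF, hF', commutator_eq_bot_iff_le_centralizer.2 (le_centralizer P)] at this
      exact this
    · have hZ : (center P).map P.subtype = F := by
        refine le_antisymm ((key _ (lt_of_le_of_ne (map_subtype_le _) fun h => hab ?_)
          (H1.le_normalizer_map_subtype_of_char _ hBP)).trans hPF) ?_
        · rw [H1.map_subtype_center] at h
          exact le_centralizer_iff_isMulCommutative.1 (inf_eq_left.1 h)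
        · rw [H1.map_subtype_center]
          exact le_inf hFP.le (fun y hy x hx => hcen x hx y hy)
      refine Or.inr ⟨hP, map_injective P.subtype_injective hZ.symm,
        map_injective P.subtype_injective ?_⟩
      rw [map_subtype_commutator, hZ, hF']
  · intro U hU1 hU2 hU3
    rcases hU2.lt_or_eq with h | h
    · exact Or.inl (le_antisymm (hF' ▸ key U h hU3) hU1)
    · exact Or.inr h
  · intro hp2
    have hmul : ∀ x ∈ P, ∀ y ∈ P, (x * y) ^ p = x ^ p * y ^ p := fun x hx y hy =>
      H4.mul_pow_of_critical hp2 (H := P)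
        (fun x hx y hy => hcen y hy _ (H4.pow_mem_map_frattini hP hx))
        (fun x hx y hy z hz => hcen z hz _ (H4.commutator_mem_map_frattini hP hx hy)) hx hy
    let U : Subgroup X :=
      { carrier := {x | x ∈ P ∧ x ^ p = 1}
        one_mem' := ⟨one_mem _, one_pow _⟩
        mul_mem' := fun {a b} ha hb => ⟨mul_mem ha.1 hb.1, by
          rw [hmul a ha.1 b hb.1, ha.2, hb.2, mul_one]⟩
        inv_mem' := fun {a} ha => ⟨inv_mem ha.1, by rw [inv_pow, ha.2, inv_one]⟩ }
    have hPU : ⁅P, A⁆ ≤ U := by
      rw [commutator_le]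
      intro x hx a ha
      refine ⟨H2.commutator_le_of_le_normalizer hAP (commutator_mem_commutator hx ha), ?_⟩
      have e : ⁅x, a⁆ = x * (a * x⁻¹ * a⁻¹) := by rw [commutatorElement_def]; group
      have hc : Commute (x ^ p) a := commutatorElement_eq_one_iff_commute.1
        (mem_bot.1 (hFA ▸ commutator_mem_commutator (H4.pow_mem_map_frattini hP hx) ha))
      rw [e, hmul x hx _ (H1.conj_mem_of_mem_normalizer (hAP ha) (inv_mem hx)), conj_pow, inv_pow,
        ← hc.inv_left.eq]
      group
    intro x hx
    exact (hPU (h1.symm ▸ hx)).2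

end Cfsg.Agent.S3736
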