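import Cfsg.Statements.S3738
import Cfsg.Agent.H4.R2c

set_option autoImplicit false
open Cfsg

namespace Cfsg.Agent.S3738

/-- Let d be a non-identity 3-element of a finite group and P a 2-subgroup normalized by d on which ⟨d⟩ acts faithfully (no non-identity power of d centralizes P) and without non-identity fixed points (C_P(d) = 1). If every abelian subgroup of P has 2-rank at most 2, then d has order 3. -/
theorem result {X : Type*} [Group X] [Finite X] (d : X) (n : ℕ) (hn : 1 ≤ n) (hd : orderOf d = 3 ^ n) (P : Subgroup X) (hP : IsPGroup 2 P) (hdP : d ∈ Subgroup.normalizer (P : Set X)) (hfaith : Subgroup.zpowers d ⊓ Subgroup.centralizer (P : Set X) = ⊥) (hfpf : P ⊓ Subgroup.centralizer {d} = ⊥) (hrank : ∀ V : Subgroup X, V ≤ P → IsMulCommutative V → Cfsg.PRankLE 2 2 V) : orderOf d = 3 := by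
  let g := P.normalizerMonoidHom ⟨d, hdP⟩
  have h1 : orderOf g = 3 ^ n := by
    rw [← hd]
    refine orderOf_eq_orderOf_iff.2 fun k => ?_
    rw [← map_pow, ← MonoidHom.mem_ker, Subgroup.normalizerMonoidHom_ker, Subgroup.mem_subgroupOf]
    exact ⟨fun h => Subgroup.mem_bot.1 (hfaith ▸ ⟨pow_mem (Subgroup.mem_zpowers d) k, h⟩), fun h => by
      rw [show ((⟨d, hdP⟩ ^ k : Subgroup.normalizer (P : Set X)) : X) = d ^ k from rfl, h]
      exact one_mem _⟩
  obtain ⟨D, W, h⟩ := H4.exists_cr hP (H4.card_le_four_of_fpf hP (g := g) (fun A hA h => by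
    have hV : IsMulCommutative (A.map P.subtype) := inferInstance
    have := hrank _ (Subgroup.map_subtype_le A) hV ⊤ inferInstance (by
      rintro ⟨_, x, hx, rfl⟩ -
      exact Subtype.ext (congrArg Subtype.val (h x hx) :))
    rwa [Subgroup.card_top, Subgroup.card_map_of_injective P.subtype_injective] at this) fun x _ _ e => Subtype.ext (Subgroup.mem_bot.1 (hfpf ▸
      ⟨x.2, Subgroup.mem_centralizer_singleton_iff.2
        (eq_mul_inv_iff_mul_eq.1 (congrArg Subtype.val e).symm)⟩)))
  obtain ⟨m, rfl⟩ := Nat.exists_eq_add_of_le' hn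
  rcases m with _ | m
  · exact hd
  · exact absurd ((H4.orderOf_pow_prime_pow h1 (i := m) (by omega)).trans (by simp [add_assoc]))
      (h.orderOf_ne_nine _)

end Cfsg.Agent.S3738
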