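import Cfsg.Statements.S3740
import Cfsg.Agent.H13.SL2Tet

set_option autoImplicit false
open Cfsg

namespace Cfsg.Agent.S3740

open H13.GL2 Subgroup H27

/-- Let F be a finite field of odd characteristic p and let a be a p-element of SL₂(F) normalizing a subgroup R of order prime to p with [R, a] ≠ 1. Then p = 3, R is a quaternion group of order 8, and R⟨a⟩ is isomorphic to SL₂(3). -/
theorem result (F : Type) [Field F] [Fintype F] {p : ℕ} [Fact p.Prime] [CharP F p] (hp : p ≠ 2) (a : Matrix.SpecialLinearGroup (Fin 2) F) (ha : IsPGroup p ↥(Subgroup.zpowers a)) (R : Subgroup (Matrix.SpecialLinearGroup (Fin 2) F)) (hR : (Nat.card R).Coprime p) (haR : a ∈ Subgroup.normalizer (R : Set (Matrix.SpecialLinearGroup (Fin 2) F))) (hnt : ⁅R, Subgroup.zpowers a⁆ ≠ ⊥) : p = 3 ∧ Nonempty (↥R ≃* QuaternionGroup 2) ∧ Nonempty (↥(R ⊔ Subgroup.zpowers a) ≃* Matrix.SpecialLinearGroup (Fin 2) (ZMod 3)) := by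
  classical
  have pp : p.Prime := Fact.out
  have h2 : (2 : F) ≠ 0 := (CharP.cast_eq_zero_iff F p 2).not.2
    (mt (Nat.prime_dvd_prime_iff_eq pp Nat.prime_two).1 hp)
  obtain ⟨r, hr, hra⟩ : ∃ r ∈ R, a * r ≠ r * a := by
    by_contra! H
    exact hnt (commutator_eq_bot_iff_le_centralizer.2 fun r hr => by
      rw [zpowers_eq_closure, centralizer_closure]; rintro _ rfl; exact H r hr)
  obtain ⟨k, hk⟩ := IsPGroup.iff_orderOf.1 ha ⟨a, mem_zpowers a⟩
  replace hk : orderOf a = p ^ k := (orderOf_coe _).trans hk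
  have hc : a ∉ center _ := fun e => hra (mem_center_iff.1 e r).symm
  have hk0 : p ∣ orderOf a := hk ▸ dvd_pow_self p (by
    rintro rfl; exact hc (orderOf_eq_one_iff.1 hk ▸ one_mem _))
  have key : ∀ x ∈ R, ∀ m : ℤ, ¬ (p : ℤ) ∣ m → ts (x * a ^ m) ^ 2 = 4 := fun x hx m hm => by
    by_contra e
    obtain ⟨T, w, hT, hg⟩ := exists_tor e
    let π := QuotientGroup.mk' (R.subgroupOf (normalizer (R : Set _)))
    have h1 : π (⟨x, le_normalizer hx⟩ * ⟨a, haR⟩ ^ m) ^ Nat.card T = 1 := by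
      have : (x * a ^ m) ^ Nat.card T = 1 :=
        congrArg Subtype.val (pow_card_eq_one' (x := (⟨_, hg⟩ : T)))
      rw [← map_pow, ← map_one π]
      exact congrArg π (Subtype.ext this)
    rw [map_mul, show π ⟨x, _⟩ = 1 from (QuotientGroup.eq_one_iff _).2 hx, one_mul, ← map_pow, QuotientGroup.mk'_apply,
      QuotientGroup.eq_one_iff] at h1
    have h3 : ((a ^ m) ^ Nat.card T) ^ Nat.card R = 1 :=
      congrArg Subtype.val (pow_card_eq_one' (x := (⟨_, h1⟩ : R)))
    rw [← pow_mul, ← zpow_natCast, ← zpow_mul, ← orderOf_dvd_iff_zpow_eq_one] at h3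
    have h4 := ((Nat.prime_iff_prime_int.1 pp).dvd_or_dvd
      ((Int.natCast_dvd_natCast.2 hk0).trans h3)).resolve_left hm
    rcases pp.dvd_mul.1 (Int.natCast_dvd_natCast.1 h4) with h | h
    · rcases hT.card with b | b <;> rw [b] at h
      exacts [not_dvd_sub _ h, not_dvd_add _ h]
    · exact (pp.coprime_iff_not_dvd.1 hR.symm) h
  have d1 : ¬ (p : ℤ) ∣ 1 := by exact_mod_cast pp.not_dvd_one
  have d2 : ¬ (p : ℤ) ∣ 2 := by
    exact_mod_cast mt (Nat.prime_dvd_prime_iff_eq pp Nat.prime_two).1 hp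
  have hodd : ∀ g, IsConj a g → g ≠ -a := by
    rintro _ hg rfl
    have := pow_orderOf_eq_one (-a)
    rw [← H10.orderOf_eq_of_isConj hg, hk, (pp.odd_of_ne_two hp).pow.neg_pow, ← hk,
      pow_orderOf_eq_one] at this
    exact neg_one_ne_SL h2 this
  have ha2 : ts a = 2 := by
    obtain ⟨x, hx⟩ := par_of_ts_sq hc (by simpa using key 1 (one_mem R) 1 d1)
    obtain ⟨h1, b, -, h3⟩ := exists_conj_upS hx
    have h4 := pow_orderOf_eq_one (upS x b)
    rw [← H10.orderOf_eq_of_isConj h3, hk] at h4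
    have h5 := (upper_pow (Matrix.SpecialLinearGroup.toGL (upS x b)) rfl (p ^ k)).2.1
    rw [← map_pow, h4, toGL_upS, up_00] at h5
    rw [ts_eq, tc_of_isConj hx, tc_par]
    rcases mul_self_eq_one_iff.1 (congrArg Units.val (mul_eq_one_iff_eq_inv.2 h1.symm)) with e | e
    · rw [e]; norm_num
    · rw [e, (pp.odd_of_ne_two hp).pow.neg_one_pow] at h5
      exact absurd (by simp at h5; linear_combination h5) h2
  have main : ∀ x ∈ R, x ∉ center _ → ts x = 0 ∧ (3 : F) = 0 := fun x hx hc => by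
    have k1 := key x hx 1 d1
    have k2 := key x hx 2 d2
    have k3 := key x hx (-1) (by simpa using d1)
    have e1 := ts_mul_sq x a
    have e2 := ts_mul_sq (x * a⁻¹) a
    simp only [zpow_one, zpow_neg, zpow_two, ← mul_assoc, inv_mul_cancel_right, ha2] at k1 k2 k3 e1 e2
    have h3 : ts (x * a) - ts x ≠ 0 := fun e => by
      obtain ⟨y, hy⟩ := par_of_ts_sq hc (by rw [← sub_eq_zero.1 e, k1])
      exact (pp.coprime_iff_not_dvd.1 hR.symm) (((pow_of_par p hy).2 _ (by
        rw [show x ^ Nat.card R = 1 from congrArg Subtype.val (pow_card_eq_one' (x := (⟨x, hx⟩ : R)))]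
        exact one_mem _)))
    have h4 : ts x = 0 := mul_left_cancel₀ (mul_ne_zero (mul_ne_zero h2 h2) h3) (by
      rw [show ts (x * a⁻¹) = 2 * ts x - ts (x * a) by linear_combination e2] at k3
      linear_combination k1 - k3)
    rw [e1, h4] at k2
    exact ⟨h4, mul_left_cancel₀ (mul_ne_zero h2 h2) (by linear_combination k2 - 4 * k1)⟩
  have hrc : r ∉ center _ := fun e => hra (mem_center_iff.1 e a)
  obtain ⟨r0, h3⟩ := main r hr hrc
  obtain rfl : p = 3 := (Nat.prime_dvd_prime_iff_eq pp Nat.prime_three).1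
    ((CharP.cast_eq_zero_iff F p 3).1 h3)
  wlog hs : ts (r * a) = -1 generalizing r
  · have e : r⁻¹ = -r := by rw [inv_eq_iff_mul_eq_one, mul_neg, sq_of_ts r0, neg_neg]
    refine this (-r) (e ▸ inv_mem hr) (by simpa using hra) (e ▸ mt inv_mem_iff.1 hrc)
      (by rw [ts_neg, r0, neg_zero]) ?_
    have := key r hr 1 d1
    rw [neg_mul, ts_neg, neg_inj]
    exact (sq_eq_one_iff.1 (by simp only [zpow_one] at this; linear_combination this + h3)).resolve_right hs
  have hr' := (mem_normalizer_iff.1 haR r).1 hr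
  obtain ⟨e⟩ := equiv_q8 h2 r0 ((ts_conj a r).trans r0) (main _ (mul_mem hr hr') fun e => by
    rcases mem_center_SL.1 e with e | e
    · refine hodd _ (isConj_iff.2 ⟨r, rfl⟩) ?_
      calc r * a * r⁻¹ = r * (a * r * a⁻¹) * a * (r * r)⁻¹ := by group
        _ = _ := by rw [e, sq_of_ts r0]; simp
    · rw [← sq_of_ts r0, mul_right_inj, mul_inv_eq_iff_eq_mul] at e
      exact hra e).1
  have hQ : zpowers r ⊔ zpowers (a * r * a⁻¹) = R := eq_of_le_of_card_ge
    (sup_le (zpowers_le.2 hr) (zpowers_le.2 hr')) (by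
      rw [Nat.card_congr e.toEquiv, Nat.card_eq_fintype_card (α := QuaternionGroup 2),
        QuaternionGroup.card]
      refine card_le_eight h2 fun x hx => ?_
      by_cases h : x ∈ center _
      · rcases mem_center_SL.1 h with rfl | rfl
        exacts [one_pow _, (show Even 4 by decide).neg_one_pow]
      · rw [show 4 = 2 * 2 from rfl, pow_mul, _root_.sq x, sq_of_ts (main x hx h).1]; simp)
  have m1 : r ∈ closure {r, a} := subset_closure (by simp)
  have m2 : a ∈ closure {r, a} := subset_closure (by simp)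
  refine ⟨rfl, hQ ▸ ⟨e⟩, (show closure {r, a} = R ⊔ zpowers a from le_antisymm
    ((closure_le _).2 (Set.pair_subset (mem_sup_left hr) (mem_sup_right (mem_zpowers a))))
    (sup_le (hQ ▸ sup_le (zpowers_le.2 m1) (zpowers_le.2 (mul_mem (mul_mem m2 m1) (inv_mem m2))))
      (zpowers_le.2 m2))) ▸ equiv_tet h2 r0 (by linear_combination ha2 + h3) hs⟩

end Cfsg.Agent.S3740
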