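import Cfsg.Statements.S3741
import Cfsg.Agent.H4.Centralizer
import Cfsg.Agent.H1.Basic
import Cfsg.Agent.H24.ClassSize

set_option autoImplicit false
open Cfsg

namespace Cfsg.Agent.S3741

open Subgroup
open scoped commutatorElement

theorem aux {G : Type*} [Group G] [Fintype G] [DecidableEq G] {p : ℕ} [hp : Fact p.Prime] (hG : IsPGroup p G)
    (A B : Subgroup G) (hcard : Nat.card ↥⁅B, A⁆ ≤ p) [DecidablePred (· ∈ A)] [DecidablePred (· ∈ B)] :
    p * ∑ a : A, ∑ b : B, (if (a : G) * b = b * a then 1 else 0) =
      Nat.card A * Nat.card B + (p - 1) * (Nat.card B * Nat.card (A ⊓ centralizer (B : Set G) : Subgroup G)) := by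
  classical
  have h1 : ∀ a : A, p * ∑ b : B, (if (a : G) * b = b * a then 1 else 0) =
      Nat.card B + (p - 1) * (Nat.card B * if (a : G) ∈ centralizer (B : Set G) then 1 else 0) := by
    intro a
    have e : ∑ b : B, (if (a : G) * b = b * a then 1 else 0) =
        Nat.card ((centralizer ({(a : G)} : Set G)).subgroupOf B) := by
      rw [Finset.sum_boole, Nat.card_eq_fintype_card, Fintype.card_subtype]
      simp only [Nat.cast_id, mem_subgroupOf, H24.mem_cent, eq_comm]
    rw [e]
    split_ifs with h
    · have : (centralizer ({(a : G)} : Set G)).subgroupOf B = ⊤ :=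
        subgroupOf_eq_top.2 fun b hb => H24.mem_cent.2 (h b hb)
      rw [this, card_top, mul_one, ← Nat.succ_pred_eq_of_pos hp.out.pos]
      simp; ring
    · have h2 : (centralizer ({(a : G)} : Set G)).relIndex B ≤ p :=
        (H4.relIndex_centralizer_le (S := (⁅B, A⁆ : Subgroup G))
          fun d hd => commutator_mem_commutator hd a.2).trans hcard
      obtain ⟨k, hk⟩ := (hG.to_subgroup B).index ((centralizer ({(a : G)} : Set G)).subgroupOf B)
      have h3 : k = 1 := by
        change (centralizer ({(a : G)} : Set G)).relIndex B = _ at hk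
        rw [hk] at h2
        have h4 : k ≤ 1 := (Nat.pow_le_pow_iff_right hp.out.one_lt).1 (by simpa using h2)
        have h5 : k ≠ 0 := by
          rintro rfl
          rw [pow_zero, relIndex_eq_one] at hk
          exact h fun b hb => H24.mem_cent.1 (hk hb)
        omega
      rw [h3, pow_one] at hk
      rw [← hk, index_mul_card]; simp
  rw [Finset.mul_sum, Finset.sum_congr rfl fun a _ => h1 a, Finset.sum_add_distrib, ← Finset.mul_sum,
    ← Finset.mul_sum, Finset.sum_boole, inf_comm, ← H1.card_subgroupOf]
  congr 1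
  · simp
  · rw [Nat.card_eq_fintype_card (α := (centralizer (B : Set G)).subgroupOf A), Fintype.card_subtype]
    simp only [Nat.cast_id, mem_subgroupOf]

/-- Let A and B be subgroups of a finite p-group with [A, B] ≤ A ∩ B and [A, B] of order at most p. Then |A : C_A(B)| = |B : C_B(A)|. -/
theorem result {G : Type*} [Group G] [Finite G] {p : ℕ} [Fact p.Prime] (hG : IsPGroup p G) (A B : Subgroup G) (hAB : ⁅A, B⁆ ≤ A ⊓ B) (hcard : Nat.card ↥⁅A, B⁆ ≤ p) : (A ⊓ Subgroup.centralizer (B : Set G)).relIndex A = (B ⊓ Subgroup.centralizer (A : Set G)).relIndex B := by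
  classical
  have := Fintype.ofFinite G
  have hp : p.Prime := Fact.out
  have h1 := aux hG A B (by rwa [Subgroup.commutator_comm])
  have h2 := aux hG B A hcard
  rw [Finset.sum_comm] at h2
  have e : ∑ a : A, ∑ b : B, (if (b : G) * a = a * b then 1 else 0) =
      ∑ a : A, ∑ b : B, (if (a : G) * b = b * a then 1 else 0) :=
    Finset.sum_congr rfl fun a _ => Finset.sum_congr rfl fun b _ => if_congr eq_comm rfl rfl
  rw [e, h1, mul_comm (Nat.card B) (Nat.card A), add_right_inj, mul_right_inj' (by have := hp.two_le; omega)] at h2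
  have h3 := H1.relIndex_mul_card (inf_le_left : A ⊓ centralizer (B : Set G) ≤ A)
  have h4 := H1.relIndex_mul_card (inf_le_left : B ⊓ centralizer (A : Set G) ≤ B)
  have p1 : 0 < Nat.card (A ⊓ centralizer (B : Set G) : Subgroup G) := Nat.card_pos
  have p2 : 0 < Nat.card (B ⊓ centralizer (A : Set G) : Subgroup G) := Nat.card_pos
  refine Nat.eq_of_mul_eq_mul_right (Nat.mul_pos p1 p2) ?_
  calc _ = Nat.card A * Nat.card (B ⊓ centralizer (A : Set G) : Subgroup G) := by rw [← mul_assoc, h3]
    _ = Nat.card B * Nat.card (A ⊓ centralizer (B : Set G) : Subgroup G) := h2.symm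
    _ = _ := by nth_rewrite 1 [← h4]; ring

end Cfsg.Agent.S3741
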