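import Cfsg.Statements.S3746
import Cfsg.Agent.H1.Layer

set_option autoImplicit false
open Cfsg

namespace Cfsg.Agent.S3746

open Subgroup

/-- Let Z ≤ Z(G) be a central subgroup of a finite group G and E a subgroup of G containing Z whose image E/Z is a component of G/Z (subnormal and quasisimple). Then the derived subgroup [E, E] is a component of G. -/
theorem result {G : Type*} [Group G] [Finite G] (Z : Subgroup G) (hZ : Z ≤ Subgroup.center G) [Z.Normal] (E : Subgroup G) (hZE : Z ≤ E) (hE : Cfsg.IsComponent (E.map (QuotientGroup.mk' Z))) : Cfsg.IsComponent ⁅E, E⁆ := by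
  have hc : (E.map (QuotientGroup.mk' Z)).comap (QuotientGroup.mk' Z) = E := by
    rw [H1.comap_map_mk', sup_eq_left.2 hZE]
  have hs : E.IsSubnormal := hc ▸ hE.1.comap _
  obtain ⟨h1, h2, h3⟩ := H1.isQuasisimple_subgroup_iff.1 hE.2
  have hZc : ∀ K : Subgroup G, Z ≤ centralizer (K : Set G) := fun K => hZ.trans (center_le_centralizer _)
  have hle : ⁅E, E⁆ ≤ E := commutator_le_self E
  have hEn : E ≤ normalizer ((⁅E, E⁆ : Subgroup G) : Set G) := H1.le_normalizer_commutator le_normalizer le_normalizer
  have h4 : E ≤ ⁅E, E⁆ ⊔ Z := by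
    rw [← H1.map_mk'_le_map_mk'_iff, map_commutator, h1]
  have h5 : ⁅⁅E, E⁆, ⁅E, E⁆⁆ = ⁅E, E⁆ := by
    refine le_antisymm (commutator_mono hle hle) ?_
    refine H1.commutator_le_of_sup_centralizer (H1.le_normalizer_commutator hEn hEn)
      ((commutator_le_self _).trans hle) (hZc E) ?_
    rw [← H1.map_mk'_le_map_mk'_iff]
    simp only [map_commutator, h1, le_refl]
  refine ⟨H1.isSubnormal_of_le_normalizer hle hEn hs, H1.isQuasisimple_subgroup_iff.2 ⟨h5, ?_, ?_⟩⟩
  · intro h
    apply h2
    rw [← h1, ← map_commutator, h, Subgroup.map_bot]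
  · intro N hN hn
    have e : (⁅E, E⁆ : Subgroup G).map (QuotientGroup.mk' Z) = E.map (QuotientGroup.mk' Z) := by
      rw [map_commutator, h1]
    rcases h3 (N.map (QuotientGroup.mk' Z)) (map_mono (hN.trans hle))
      (e ▸ (map_mono hn).trans (le_normalizer_map _)) with h | h
    · left
      refine le_antisymm hN ?_
      rw [← h5]
      refine H1.commutator_le_of_sup_centralizer hn hN (hZc _) ?_
      rw [← H1.map_mk'_le_map_mk'_iff, e, h]
    · right
      refine H1.le_centralizer_of_commutator_eq_bot (H1.commutator_eq_bot_of_perfect h5 ?_)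
      rw [commutator_eq_bot_iff_le_centralizer]
      refine le_trans ?_ (hZc _)
      rw [H1.commutator_le_iff_map_mk', e, commutator_eq_bot_iff_le_centralizer]
      exact h

end Cfsg.Agent.S3746
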