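import Cfsg.Statements.S3747
import Cfsg.Agent.H1.GFitting

set_option autoImplicit false
open Cfsg

namespace Cfsg.Agent.S3747

open Subgroup
open scoped Pointwise

theorem aux {G : Type*} [Group G] [Finite G] (K : Subgroup G) (hK : IsComponent K)
    (hz : K ⊓ centralizer (K : Set G) = ⊥) : (Subgroup.normalClosure (K : Set G) ≠ ⊥ ∧
      ∀ N : Subgroup G, N.Normal → N ≤ Subgroup.normalClosure (K : Set G) →
        N = ⊥ ∨ N = Subgroup.normalClosure (K : Set G)) := by
  refine ⟨fun h => H1.Quasisimple.ne_bot hK.2 (le_bot_iff.1 (h ▸ le_normalClosure)), ?_⟩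
  intro N hN hle
  rcases H1.component_le_or_le_centralizer hK hN.isSubnormal with h | h
  · exact Or.inr (le_antisymm hle (normalClosure_le_normal h))
  left
  set S : Set (Subgroup G) := {L | ∃ g : G, L = MulAut.conj g • K} with hS
  have hnorm : (sSup S).Normal := by
    refine H1.normal_of_top_le_normalizer fun g _ => H1.mem_normalizer_of_conj_smul_le ?_
    rw [H1.conj_smul_eq_map, map_le_iff_le_comap]
    refine sSup_le ?_
    rintro _ ⟨x, rfl⟩
    rw [← map_le_iff_le_comap, ← H1.conj_smul_eq_map, H1.conj_smul_conj_smul]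
    exact le_sSup ⟨_, rfl⟩
  have h1 : normalClosure (K : Set G) ≤ sSup S :=
    normalClosure_le_normal (le_sSup ⟨1, (H1.conj_one_smul K).symm⟩ : K ≤ sSup S)
  have h2 : sSup S ≤ centralizer (N : Set G) := by
    refine sSup_le ?_
    rintro _ ⟨x, rfl⟩
    exact H1.conj_smul_le_of_le_of_mem h (by rw [normalizer_eq_top]; trivial)
  have h3 := H1.sSup_inf_centralizer_sSup (S := S) (by
    rintro _ ⟨x, rfl⟩ _ ⟨y, rfl⟩ hne
    exact H1.le_centralizer_of_commutator_eq_bot (H1.commutator_eq_bot_of_component_ne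
      (H1.isComponent_conj hK x) (H1.isComponent_conj hK y) hne))
  have h4 : N ≤ sSup S ⊓ centralizer ((sSup S : Subgroup G) : Set G) :=
    le_inf (hle.trans h1) (le_centralizer_iff.1 h2)
  rw [h3] at h4
  refine le_bot_iff.1 (h4.trans (iSup₂_le ?_))
  rintro _ ⟨x, rfl⟩
  rw [← H1.conj_smul_centralizer, ← smul_inf, hz]
  simp

/-- Let G be a finite group. (a) If K is a component of G with trivial centre, then the normal closure of K in G is a minimal normal subgroup of G. (b) If the Fitting subgroup of G is trivial, then the layer E(G) is generated by the minimal normal subgroups of G. -/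
theorem result {G : Type*} [Group G] [Finite G] : (∀ K : Subgroup G, Cfsg.IsComponent K → Subgroup.center ↥K = ⊥ → (Subgroup.normalClosure (K : Set G) ≠ ⊥ ∧ ∀ N : Subgroup G, N.Normal → N ≤ Subgroup.normalClosure (K : Set G) → N = ⊥ ∨ N = Subgroup.normalClosure (K : Set G))) ∧ (Cfsg.fittingSubgroup G = ⊥ → sSup {N : Subgroup G | N ≠ ⊥ ∧ N.Normal ∧ ∀ N' : Subgroup G, N'.Normal → N' ≤ N → N' = ⊥ ∨ N' = N} = Cfsg.layer G) := by
  refine ⟨fun K hK hz => aux K hK ?_, fun hF => le_antisymm (sSup_le ?_) ?_⟩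
  · rw [← H1.map_subtype_center, hz, Subgroup.map_bot]
  · rintro N ⟨-, hN, hmin⟩
    have := H1.minimal_normal_le_gf N hmin
    rwa [H1.gf_def, hF, sup_bot_eq] at this
  · rw [H1.layer_le_iff]
    intro K hK
    have := aux K hK (le_bot_iff.1 (hF ▸ H1.component_inf_centralizer_le_fitting hK))
    exact le_normalClosure.trans (le_sSup ⟨this.1, inferInstance, this.2⟩)

end Cfsg.Agent.S3747
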