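import Cfsg.Statements.S3749
import Cfsg.Agent.H23.Prim

set_option autoImplicit false
open Cfsg

namespace Cfsg.Agent.S3749

open Subgroup
open scoped Pointwise

/-- Call a proper subgroup M of G primitive when M = N_G(N) for every non-trivial normal subgroup N of M. Let M be a primitive subgroup of the finite group G, p a prime with O_p(M) ≠ 1, and N a normal subgroup of G with M ∩ N = 1. Then p does not divide the order of N; for every prime q there is exactly one Sylow q-subgroup of N normalized by M; and if the order of N has at least two prime divisors then M is not a maximal subgroup of G. -/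
theorem result {G : Type*} [Group G] [Finite G] (M : Subgroup G) (hM : M ≠ ⊤) (hprim : ∀ N : Subgroup G, N ≤ M → M ≤ Subgroup.normalizer (N : Set G) → N ≠ ⊥ → Subgroup.normalizer (N : Set G) = M) {p : ℕ} [Fact p.Prime] (hOp : Cfsg.pCore p ↥M ≠ ⊥) (N : Subgroup G) [N.Normal] (hMN : M ⊓ N = ⊥) : ¬ p ∣ Nat.card N ∧ (∀ q : ℕ, [Fact q.Prime] → ∃! Q : Sylow q ↥N, M ≤ Subgroup.normalizer ((Q : Subgroup ↥N).map N.subtype : Set G)) ∧ ((∃ q r : ℕ, q.Prime ∧ r.Prime ∧ q ≠ r ∧ q ∣ Nat.card N ∧ r ∣ Nat.card N) → ¬ IsCoatom M) := by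
  set P := (pCore p M).map M.subtype with hP
  have hP0 : P ≠ ⊥ := fun h => hOp (H1.map_subtype_eq_bot_iff.1 h)
  have hPp : IsPGroup p P := H1.pCoreOf_isPGroup M
  have hMP : M ≤ normalizer (P : Set G) := H1.le_normalizer_pCoreOf M
  have hC : N ⊓ centralizer (P : Set G) = ⊥ := by
    rw [eq_bot_iff, ← hMN, inf_comm]
    exact inf_le_inf_right _ ((centralizer_le_normalizer _).trans
      (hprim P (map_subtype_le _) hMP hP0).le)
  have hPN : P ≤ normalizer (N : Set G) := le_top.trans (normalizer_eq_top _).ge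
  have hp : ¬ p ∣ Nat.card N := by
    intro h
    obtain ⟨S, hS⟩ := hPp.exists_le_sylow
    have h1 := H1.not_dvd_relIndex_sylow_of_subnormal S (Normal.isSubnormal (inferInstance : N.Normal))
    have h2 : (S : Subgroup G) ⊓ N ≠ ⊥ := by
      intro h0
      have := H1.relIndex_mul_card_inf (S : Subgroup G) N
      rw [h0, card_bot, mul_one] at this
      exact h1 (this ▸ h)
    refine H1.inf_centralizer_ne_bot_of_isPGroup hPp (S.isPGroup'.to_inf_left)
      (H1.le_normalizer_inf (hS.trans le_normalizer) hPN) h2 ?_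
    rw [eq_bot_iff, ← hC]
    exact inf_le_inf_right _ inf_le_right
  have hcop : (Nat.card P).Coprime (Nat.card N) :=
    H1.coprime_card_of_isPGroup hPp (H1.coprime_iff_not_dvd.2 hp)
  have hsolv : Group.IsSolvable P ∨ Group.IsSolvable N := Or.inl (H2.isSolvable_of_isPGroup hPp)
  have huniq : ∀ (q : ℕ) [Fact q.Prime] (U Q : Subgroup G), U ≤ N → IsPGroup q U →
      P ≤ normalizer (U : Set G) → Q ≤ N → IsPGroup q Q → ¬ q ∣ Q.relIndex N →
      P ≤ normalizer (Q : Set G) → U ≤ Q := by
    intro q _ U Q h1 h2 h3 h4 h5 h6 h7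
    obtain ⟨c, hc, h⟩ := H2.exists_centralizer_conj_le_sylow hPN hcop hsolv h1 h2 h3 h4 h5 h6 h7
    rw [hC, mem_bot] at hc
    rwa [hc, H1.conj_one_smul] at h
  have hex : ∀ q : ℕ, [Fact q.Prime] → ∃! Q : Sylow q ↥N,
      M ≤ Subgroup.normalizer ((Q : Subgroup ↥N).map N.subtype : Set G) := by
    intro q _
    obtain ⟨Q, h1, h2, h3, h4⟩ := H2.exists_invariant_sylow hPN hcop hsolv q
    obtain ⟨T, hT⟩ := H2.exists_sylow_map_eq h1 h2 h3
    refine ⟨T, ?_, ?_⟩
    · intro m hm
      rw [hT]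
      refine H1.mem_normalizer_of_conj_smul_le (huniq q _ Q ?_ (H2.isPGroup_conj_smul h2 m) ?_
        h1 h2 h3 h4)
      · exact H1.conj_smul_le_of_le_of_mem h1 (by rw [normalizer_eq_top]; trivial)
      · have := H1.conj_smul_le_normalizer (g := m) h4
        rwa [H1.conj_smul_eq_of_mem_normalizer (hMP hm)] at this
    · intro T' hT'
      have := huniq q _ Q (map_subtype_le _) (H1.isPGroup_sylow_map T')
        ((map_subtype_le _).trans hT') h1 h2 h3 h4
      rw [← hT, map_le_map_iff_of_injective N.subtype_injective] at this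
      exact Sylow.ext (T'.is_maximal' T.isPGroup' this).symm
  refine ⟨hp, hex, ?_⟩
  rintro ⟨q, r, hq, hr, hqr, hqN, hrN⟩ hco
  haveI := Fact.mk hq
  obtain ⟨T, hT, -⟩ := hex q
  set Q := (T : Subgroup N).map N.subtype with hQ
  have hQN : Q ≤ N := map_subtype_le _
  have hQ0 : Q ≠ ⊥ := by
    intro h0
    have := H2.sylow_map_not_dvd_relIndex T
    rw [← hQ, h0, relIndex_bot_left] at this
    exact this hqN
  have hlt : M < Q ⊔ M := by
    refine lt_of_le_of_ne le_sup_right fun h => hQ0 ?_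
    rw [eq_bot_iff, ← hMN]
    exact le_inf (h ▸ le_sup_left) hQN
  have h1 := H1.sup_inf_assoc_of_le_normalizer' (A := Q) (B := M) (C := N) hT hQN
  rw [hco.2 _ hlt, hMN, sup_bot_eq, top_inf_eq] at h1
  have h2 : IsPGroup q N := h1 ▸ H1.isPGroup_sylow_map T
  exact hqr ((H1.isPGroup_iff_forall_prime.1 h2) r hr hrN).symm

end Cfsg.Agent.S3749
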