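import Cfsg.Statements.S3750
import Cfsg.Agent.H23.Prim
import Cfsg.Agent.H1.GFitting

set_option autoImplicit false
open Cfsg

namespace Cfsg.Agent.S3750

open Subgroup

/-- Call a proper subgroup M of G primitive when M = N_G(N) for every non-trivial normal subgroup N of M. Let M be a primitive subgroup of the finite group G and N a normal subgroup of G with M ∩ F*(N) ≠ 1. Then F(G) = 1 and F*(N) = F*(G) = E(G); in particular every minimal normal subgroup of G is contained in N. -/
theorem result {G : Type*} [Group G] [Finite G] (M : Subgroup G) (hM : M ≠ ⊤) (hprim : ∀ N : Subgroup G, N ≤ M → M ≤ Subgroup.normalizer (N : Set G) → N ≠ ⊥ → Subgroup.normalizer (N : Set G) = M) (N : Subgroup G) [N.Normal] (hMF : M ⊓ (Cfsg.generalizedFittingSubgroup ↥N).map N.subtype ≠ ⊥) : Cfsg.fittingSubgroup G = ⊥ ∧ (Cfsg.generalizedFittingSubgroup ↥N).map N.subtype = Cfsg.generalizedFittingSubgroup G ∧ Cfsg.generalizedFittingSubgroup G = Cfsg.layer G ∧ ∀ K : Subgroup G, K.Normal → K ≠ ⊥ → (∀ K' : Subgroup G, K'.Normal → K' ≤ K → K' = ⊥ ∨ K' = K) → K ≤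 N := by
  rw [H1.gfOf_eq_inf_of_normal] at hMF ⊢
  set D := M ⊓ (generalizedFittingSubgroup G ⊓ N) with hD
  have hn : M ≤ normalizer (D : Set G) :=
    H1.le_normalizer_inf le_normalizer (le_top.trans (normalizer_eq_top _).ge)
  have hC : centralizer (D : Set G) ≤ M :=
    (centralizer_le_normalizer _).trans (hprim D inf_le_left hn hMF).le
  have hF : fittingSubgroup G = ⊥ := by
    by_contra hne
    have h1 := H1.inf_centralizer_ne_bot_of_isNilpotent H1.fitting_isNilpotent le_rfl
      le_normalizer hne
    rw [← H1.centralizer_gf_eq] at h1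
    exact h1 (H23.eq_bot_of_primitive hM hprim (Normal.isSubnormal inferInstance)
      ((H1.centralizer_anti (inf_le_right.trans inf_le_left)).trans hC))
  have hE : generalizedFittingSubgroup G = layer G := by rw [H1.gf_def, hF, sup_bot_eq]
  have hN : generalizedFittingSubgroup G ≤ N := by
    rw [hE, H1.layer_le_iff]
    intro K hK
    rcases H1.component_le_or_le_centralizer hK (Normal.isSubnormal (inferInstance : N.Normal))
      with h | h
    · exact h
    · exact absurd (H23.eq_bot_of_primitive hM hprim hK.1
        (h.trans ((H1.centralizer_anti (inf_le_right.trans inf_le_right)).trans hC)))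
        (H1.Quasisimple.ne_bot hK.2)
  refine ⟨hF, inf_eq_left.2 hN, hE, fun K hK _ hmin => ?_⟩
  exact (H1.minimal_normal_le_gf K hmin).trans hN

end Cfsg.Agent.S3750
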