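import Cfsg.Statements.S3751
import Cfsg.Agent.H28.SPE
-- import your own Cfsg.Agent.* helpers here

set_option autoImplicit false
open Cfsg

namespace Cfsg.Agent.S3751

open H28 Subgroup
open scoped Pointwise commutatorElement

/-- Two distinct subgroups M₁, M₂ of G form a primitive pair when, for {i, j} = {1, 2}, every non-trivial normal subgroup A of M_i contained in M₁ ∩ M₂ satisfies N_{M_j}(A) = M₁ ∩ M₂; the pair has characteristic p when moreover C_{M_i}(O_p(M_i)) ≤ O_p(M_i) for both i and O_p(M₁)O_p(M₂) ≤ M₁ ∩ M₂. Let G be a finite group, p a prime dividing its order, with O_p(G) = 1 and every p-local subgroup of characteristic p. Then either G has a primitive pair of characteristic p, or every maximal p-local subgroup M of G is strongly p-embedded in G: M is a proper subgroup, p divides its order, and for every g ∉ M the order of M ∩ gMg⁻¹ is prime to p. -/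
theorem result {G : Type*} [Group G] [Finite G] {p : ℕ} [Fact p.Prime] (hloc : Cfsg.IsOfLocalCharacteristic p G) (hOp : Cfsg.pCore p G = ⊥) : (∃ M₁ M₂ : Subgroup G, M₁ ≠ M₂ ∧ (∀ A : Subgroup G, A ≠ ⊥ → A ≤ M₁ ⊓ M₂ → (M₁ ≤ Subgroup.normalizer (A : Set G) → M₂ ⊓ Subgroup.normalizer (A : Set G) = M₁ ⊓ M₂) ∧ (M₂ ≤ Subgroup.normalizer (A : Set G) → M₁ ⊓ Subgroup.normalizer (A : Set G) = M₁ ⊓ M₂)) ∧ Subgroup.centralizer (Cfsg.pCore p ↥M₁ : Set ↥M₁) ≤ Cfsg.pCore p ↥M₁ ∧ Subgroup.centralizer (Cfsg.pCore p ↥M₂ : Set ↥M₂) ≤ Cfsg.pCore p ↥M₂ ∧ (Cfsg.pCore p ↥M₁).map M₁.subtype ⊔ (Cfsg.pCore p ↥M₂).map M₂.subtype ≤ M₁ ⊓ M₂) ∨ (∀ M : Subgroup G, (∃ T : Subgroup G, IsPGroup p T ∧ T ≠ ⊥ ∧ M = Subgroup.normalizer (T : Set G)) → (∀ L : Subgroup G, (∃ T : Subgroup G, IsPGroup p T ∧ T ≠ ⊥ ∧ L = Subgroup.normalizer (T : Set G)) → M ≤ L → L = M) → M ≠ ⊤ ∧ p ∣ Nat.card M ∧ ∀ g : G, g ∉ M → ¬ p ∣ Nat.card ↥(M ⊓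 M.map (MulAut.conj g).toMonoidHom)) := by
  let P : Subgroup G → Prop := fun L => ∃ T : Subgroup G, IsPGroup p T ∧ T ≠ ⊥ ∧ L = 𝐍 T
  let Q : Subgroup G → Prop := fun M => P M ∧ ∀ L, P L → M ≤ L → L = M
  have ch : ∀ L, P L → IsCharP p L := by
    rintro L ⟨T, h1, h2, rfl⟩
    exact isCharP_iff.2 (hloc.2 T h1 h2)
  have ex : ∀ R : Subgroup G, IsPGroup p R → R ≠ ⊥ → ∃ M, Q M ∧ 𝐍 R ≤ M := fun R h1 h2 => by
    obtain ⟨M, a, b⟩ := exists_maximal_ge_of_wellFoundedGT P (𝐍 R) ⟨R, h1, h2, rfl⟩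
    exact ⟨M, ⟨b.prop, fun L c d => b.eq_of_ge c d⟩, a⟩
  have nrm : ∀ M A, Q M → A ≠ ⊥ → A ≤ M → M ≤ 𝐍 A → 𝐍 A ≤ M := fun M A m h0 h1 h2 =>
    (normalizer_le_normalizer_pCoreOf p A).trans (m.2 _ ⟨_, isPGroup_pCoreOf p A,
      ((ch M m.1).of_normal h1 h2).pCoreOf_ne_bot h0, rfl⟩ (le_normalizer_pCoreOf' h2)).le
  have cjP : ∀ g L, P L → P (cj g L) := by
    rintro g L ⟨T, h1, h2, rfl⟩
    exact ⟨cj g T, isPGroup_cj g h1, mt cj_eq_bot.1 h2, cj_normalizer g T⟩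
  have cjQ : ∀ g L, Q L → Q (cj g L) := fun g L m => ⟨cjP g L m.1, fun X a b => by
    rw [← m.2 _ (cjP g⁻¹ X a) (cj_le_iff.1 b), cj_cj_inv]⟩
  refine or_iff_not_imp_left.2 fun hno => ?_
  have pair : ∀ T M₁ M₂, Q M₁ → Q M₂ → IsSylowIn p T M₁ → IsSylowIn p T M₂ → M₁ = M₂ :=
    fun T M₁ M₂ m1 m2 s1 s2 => by
      by_contra ne
      refine hno ⟨M₁, M₂, ne, fun A h0 h1 => ⟨fun h2 => le_antisymm (le_inf (inf_le_right.trans
        (nrm _ A m1 h0 (h1.trans inf_le_left) h2)) inf_le_left)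
        (le_inf inf_le_right (inf_le_left.trans h2)), fun h2 => le_antisymm
        (inf_le_inf_left _ (nrm _ A m2 h0 (h1.trans inf_le_right) h2))
        (inf_le_inf_left _ h2)⟩, isCharP_iff.1 (ch _ m1.1), isCharP_iff.1 (ch _ m2.1),
        sup_le (s1.pCoreOf_le.trans (le_inf s1.le s2.le))
          (s2.pCoreOf_le.trans (le_inf s1.le s2.le))⟩
  have key : ∀ T : Subgroup G, T ≠ ⊥ → IsPGroup p T → ∀ M₁ M₂, Q M₁ → Q M₂ → T ≤ M₁ → T ≤ M₂ →
      M₁ = M₂ := by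
    intro T
    induction T using WellFoundedGT.induction with
    | ind T ih =>
    intro h0 hT M₁ M₂ m1 m2 l1 l2
    obtain ⟨S, hS, hTS⟩ := exists_isSylowIn_ge hT (le_top : T ≤ ⊤)
    rcases hTS.eq_or_lt with rfl | hlt
    · exact pair T _ _ m1 m2 (hS.mono l1 le_top) (hS.mono l2 le_top)
    · obtain ⟨M₃, m3, l3⟩ := ex T hT h0
      have lt := lt_inf_normalizer hS.isPGroup hlt
      have e : ∀ X, Q X → T ≤ X → X = M₃ := fun X m l => by
        obtain ⟨U, hU, hTU⟩ := exists_isSylowIn_ge hT l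
        rcases hTU.eq_or_lt with rfl | hlt'
        · obtain ⟨g, hg, hg'⟩ := SetLike.exists_of_lt lt
          have e1 := pair T _ _ (cjQ g X m) m (cj_eq_self hg.2 ▸ hU.conj g) hU
          have e2 : g ∈ X := nrm X X m (ne_bot_of_le_ne_bot h0 l) le_rfl le_normalizer
            (mem_normalizer_iff_cj.2 e1)
          exact absurd (hU.le_of_le_normalizer (hS.isPGroup.to_le (zpowers_le.2 hg.1))
            (zpowers_le.2 e2) (zpowers_le.2 hg.2) (mem_zpowers g)) hg'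
        · have lt' := lt_inf_normalizer hU.isPGroup hlt'
          exact ih _ lt' (ne_bot_of_gt lt') (hU.isPGroup.to_le inf_le_left) X M₃ m m3
            (inf_le_left.trans hU.le) (inf_le_right.trans l3)
      exact (e _ m1 l1).trans (e _ m2 l2).symm
  intro M h1 h2
  refine spe_iff_classical.1 ?_
  obtain ⟨R, r1, r2, rfl⟩ := id h1
  refine spe_of_normalizer (fun e => r2 ?_) (dvd_card_of_isPGroup_ne_bot r1 le_normalizer r2)
    fun T h3 h4 h5 => ?_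
  · haveI := normalizer_eq_top_iff.1 e
    exact eq_bot_iff.2 (hOp ▸ le_pCore r1)
  · obtain ⟨X, m, l⟩ := ex T h4 h5
    exact l.trans (key T h5 h4 X _ m ⟨h1, h2⟩ (le_normalizer.trans l) h3).le

end Cfsg.Agent.S3751
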