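import Cfsg.Statements.S3752
import Cfsg.Agent.H1.GFitting
import Cfsg.Agent.H2.Coprime
import Cfsg.Agent.H1.Wielandt

set_option autoImplicit false
open Cfsg

namespace Cfsg.Agent.S3752

open Subgroup
open scoped Pointwise commutatorElement

section
variable {G : Type*} [Group G] [Finite G] {M₁ M₂ : Subgroup G}

theorem layer_le (h₁ : (generalizedFittingSubgroup M₁).map M₁.subtype ≤ M₂)
    (h₂ : (generalizedFittingSubgroup M₂).map M₂.subtype ≤ M₁) :
    (layer M₁).map M₁.subtype ≤ (layer M₂).map M₂.subtype := by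
  rw [H1.layerOf_le_iff]
  intro K hK hq
  have hK2 : K ≤ M₂ := (H1.le_layerOf hK hq).trans ((map_mono H1.layer_le_gf).trans h₁)
  have hKB : H1.SubnIn K (M₁ ⊓ M₂) := hK.mono (le_inf hK.le hK2) inf_le_left
  have hF : H1.SubnIn ((generalizedFittingSubgroup M₂).map M₂.subtype) (M₁ ⊓ M₂) :=
    H1.SubnIn.of_le_normalizer (le_inf h₂ (map_subtype_le _))
      (inf_le_right.trans (H1.le_normalizer_map_subtype _))
  rcases H1.le_or_commutator_eq_bot_of_subnIn hq hKB hF with h | h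
  · refine H1.le_layerOf ?_ hq
    exact (hKB.mono h hF.le).trans (H1.SubnIn.of_le_normalizer (map_subtype_le _)
      (H1.le_normalizer_map_subtype _))
  · exact absurd ((le_inf hK2 (H1.le_centralizer_of_commutator_eq_bot h)).trans
      (H1.inf_centralizer_gfOf_le_fittingOf M₂))
      (H1.Quasisimple.not_le_of_isSolvable hq (haveI := H1.fittingOf_isNilpotent M₂; inferInstance))

theorem le_pCoreOf_nil {p : ℕ} {X H K : Subgroup G} (hX : IsPGroup p X) (h1 : X ≤ H)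
    (hH : Group.IsNilpotent H) (hK : H1.SubnIn H K) : X ≤ (pCore p K).map K.subtype :=
  H1.le_pCoreOf_of_subnormal (h1.trans hK.le)
    ((H1.SubnIn.of_isNilpotent h1 hH).trans hK).isSubnormal hX

theorem aux (hC : M₁ ⊓ centralizer (((fittingSubgroup M₁).map M₁.subtype : Subgroup G) : Set G) ≤
      (fittingSubgroup M₁).map M₁.subtype)
    (h₁ : (fittingSubgroup M₁).map M₁.subtype ≤ M₂) (h₂ : (fittingSubgroup M₂).map M₂.subtype ≤ M₁)
    {p q : ℕ} [Fact p.Prime] [Fact q.Prime] (hpq : p ≠ q)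
    (hN : M₁ ⊓ normalizer (((pCore p M₂).map M₂.subtype : Subgroup G) : Set G) ≤ M₂) :
    (pCore q M₂).map M₂.subtype ≤ (pCore q M₁).map M₁.subtype := by
  set F₁ := (fittingSubgroup M₁).map M₁.subtype with hF₁
  set T := (fittingSubgroup (M₁ ⊓ M₂ : Subgroup G)).map (M₁ ⊓ M₂).subtype with hT
  have hTn : Group.IsNilpotent T := H1.fittingOf_isNilpotent _
  have hF₁n : Group.IsNilpotent F₁ := H1.fittingOf_isNilpotent _
  have hF₁T : F₁ ≤ T := H1.le_fittingOf (le_inf (map_subtype_le _) h₁)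
    (inf_le_left.trans (H1.le_normalizer_fittingOf _)) hF₁n
  have hPM : ∀ (r : ℕ) [Fact r.Prime], (pCore r M₂).map M₂.subtype ≤ M₁ := fun r _ =>
    (map_mono H1.pCore_le_fitting).trans h₂
  have hPT : ∀ (r : ℕ) [Fact r.Prime], (pCore r M₂).map M₂.subtype ≤ T := fun r _ =>
    H1.le_fittingOf (le_inf (hPM r) (map_subtype_le _))
      (inf_le_right.trans (H1.le_normalizer_pCoreOf _)) (H1.pCoreOf_isPGroup M₂).isNilpotent
  let D : ℕ → Subgroup G := fun r => (pPrimeCore r F₁).map F₁.subtype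
  have hDn : ∀ r, M₁ ≤ normalizer ((M₁ ⊓ centralizer (D r : Set G) : Subgroup G) : Set G) :=
    fun r => H1.le_normalizer_inf le_normalizer (H1.le_normalizer_centralizer
      ((H1.le_normalizer_fittingOf M₁).trans (H1.normalizer_le_normalizer_pPrimeCoreOf F₁)))
  have hPD : ∀ (r : ℕ) [Fact r.Prime], (pCore r M₂).map M₂.subtype ≤
      M₁ ⊓ centralizer (D r : Set G) := fun r _ =>
    le_inf (hPM r) (H1.le_centralizer_of_commutator_eq_bot
      (H1.commutator_eq_bot_of_isNilpotent_of_coprime hTn (hPT r) ((map_subtype_le _).trans hF₁T)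
        (H1.coprime_card_of_isPGroup (H1.pCoreOf_isPGroup M₂) (H1.pPrimeCoreOf_coprime F₁))))
  have hDq : ∀ X : Subgroup G, X ≤ F₁ → IsPGroup p X → X ≤ D q := fun X h hX =>
    H1.le_pPrimeCoreOf_of_subnormal h (H1.SubnIn.of_isNilpotent h hF₁n).isSubnormal
      (H1.coprime_card_of_isPGroup_of_ne hX hpq)
  have hDD : F₁ ≤ D q ⊔ D p := by
    rw [← H1.pCoreOf_sup_pPrimeCoreOf hF₁n p]
    exact sup_le_sup_right (hDq _ (map_subtype_le _) (H1.pCoreOf_isPGroup _)) _
  set P := (pCore p M₂).map M₂.subtype with hP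
  set Y := (pCore q M₂).map M₂.subtype with hY
  have key : ∀ g ∈ M₁, MulAut.conj g • Y ≤ M₁ ⊓ M₂ := by
    intro g hg
    have hY' : MulAut.conj g • Y ≤ M₁ ⊓ centralizer (D q : Set G) :=
      H1.conj_smul_le_of_le_of_mem (hPD q) (hDn q hg)
    have hYq : IsPGroup q (MulAut.conj g • Y : Subgroup G) :=
      H2.isPGroup_conj_smul (H1.pCoreOf_isPGroup M₂) g
    have h3 : ⁅P, MulAut.conj g • Y⁆ ≤ F₁ := by
      refine le_trans (le_inf ?_ ((le_inf ?_ ?_).trans
        ((H1.centralizer_sup _ _).ge.trans (H1.centralizer_anti hDD)))) hC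
      · exact (commutator_mono (hPM p) (hY'.trans inf_le_left)).trans 
          (H1.commutator_le_of_le_normalizer_left le_normalizer)
      · exact ((commutator_mono (hPM p) hY').trans
          (H1.commutator_le_of_le_normalizer_right (hDn q))).trans inf_le_right
      · exact ((commutator_mono (hPD p) (hY'.trans inf_le_left)).trans
          (H1.commutator_le_of_le_normalizer_left (hDn p))).trans inf_le_right
    set R := (pCore p T).map T.subtype with hR
    have hPR : P ≤ R := le_pCoreOf_nil (H1.pCoreOf_isPGroup M₂) (hPT p) hTn (H1.SubnIn.refl _)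
    have h4 : ⁅P, MulAut.conj g • Y⁆ ≤ R ⊓ F₁ := by
      refine le_inf ?_ h3
      rw [commutator_le]
      intro x hx y hy
      have h5 : y * x⁻¹ * y⁻¹ ∈ T := by
        have := mul_mem (inv_mem (hPT p hx)) (hF₁T (h3 (commutator_mem_commutator hx hy)))
        rwa [show x⁻¹ * ⁅x, y⁆ = y * x⁻¹ * y⁻¹ by rw [commutatorElement_def]; group] at this
      have h6 : y * x⁻¹ * y⁻¹ ∈ R := by
        refine le_pCoreOf_nil (X := T ⊓ MulAut.conj y • P) ?_ inf_le_left hTn (H1.SubnIn.refl _)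
          (mem_inf.2 ⟨h5, H1.conj_mem_conj_smul (inv_mem hx)⟩)
        exact (H2.isPGroup_conj_smul (H1.pCoreOf_isPGroup M₂) y).to_inf_right
      rw [show ⁅x, y⁆ = x * (y * x⁻¹ * y⁻¹) by rw [commutatorElement_def]; group]
      exact mul_mem (hPR hx) h6
    have hRp : IsPGroup p (R ⊓ F₁ : Subgroup G) := (H1.pCoreOf_isPGroup T).to_inf_left
    have h7 := H2.le_centralizer_of_stable (H1.coprime_card_of_isPGroup hYq
      (H1.coprime_card_of_isPGroup_of_ne hRp hpq))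
      ((hY'.trans inf_le_right).trans (H1.centralizer_anti (hDq _ inf_le_right hRp))) h4
    exact le_inf (hY'.trans inf_le_left) ((le_inf (hY'.trans inf_le_left)
      (h7.trans (centralizer_le_normalizer _))).trans hN)
  set X := sSup {L : Subgroup G | ∃ g ∈ M₁, L = MulAut.conj g • Y} with hX
  have hXB : X ≤ M₁ ⊓ M₂ := sSup_le (by rintro _ ⟨g, hg, rfl⟩; exact key g hg)
  have hXn : M₁ ≤ normalizer (X : Set G) := by
    refine H1.le_normalizer_sSup_of_conj_mem ?_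
    rintro g hg _ ⟨a, ha, rfl⟩
    exact le_sSup ⟨g * a, mul_mem hg ha, H1.conj_smul_conj_smul _ _ _⟩
  have hYX : Y ≤ X := le_sSup ⟨1, one_mem _, (H1.conj_one_smul _).symm⟩
  exact H1.le_pCoreOf_of_subnormal (hPM q) ((H1.SubnIn.of_le_normalizer hYX
    ((hXB.trans inf_le_right).trans (H1.le_normalizer_pCoreOf M₂))).trans
    (H1.SubnIn.of_le_normalizer (hXB.trans inf_le_left) hXn)).isSubnormal
    (H1.pCoreOf_isPGroup M₂)

theorem pCore_ne (hC : M₂ ⊓ centralizer (((fittingSubgroup M₂).map M₂.subtype : Subgroup G) : Set G)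
      ≤ (fittingSubgroup M₂).map M₂.subtype)
    (h₁ : (fittingSubgroup M₁).map M₁.subtype ≤ M₂) (h₂ : (fittingSubgroup M₂).map M₂.subtype ≤ M₁)
    {p : ℕ} [Fact p.Prime] (h : (pCore p M₂).map M₂.subtype = ⊥) :
    (pCore p M₁).map M₁.subtype = ⊥ := by
  set F₂ := (fittingSubgroup M₂).map M₂.subtype with hF₂
  have hF₂n : Group.IsNilpotent F₂ := H1.fittingOf_isNilpotent _
  have hsub : H1.SubnIn F₂ M₂ :=
    H1.SubnIn.of_le_normalizer (map_subtype_le _) (H1.le_normalizer_fittingOf _)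
  have h0 : (pCore p F₂).map F₂.subtype = ⊥ := le_bot_iff.1
    (h ▸ le_pCoreOf_nil (H1.pCoreOf_isPGroup _) (map_subtype_le _) hF₂n hsub)
  have h1 := H1.pCoreOf_sup_pPrimeCoreOf hF₂n p
  rw [h0, bot_sup_eq, H1.pPrimeCoreOf_eq_self_iff] at h1
  have hP2 : (pCore p M₁).map M₁.subtype ≤ M₂ := (map_mono H1.pCore_le_fitting).trans h₁
  have h3 : ⁅(pCore p M₁).map M₁.subtype, F₂⁆ = ⊥ :=
    H1.commutator_eq_bot_of_inf_eq_bot (hP2.trans (H1.le_normalizer_fittingOf _))
      (h₂.trans (H1.le_normalizer_pCoreOf _))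
      (H1.inf_eq_bot_of_isPGroup_of_coprime (H1.pCoreOf_isPGroup _) h1)
  rw [eq_bot_iff, ← h]
  exact le_pCoreOf_nil (H1.pCoreOf_isPGroup _)
    ((le_inf hP2 (H1.le_centralizer_of_commutator_eq_bot h3)).trans hC) hF₂n hsub

end

/-- Bender's Theorem on primitive pairs. Two distinct subgroups M₁, M₂ of G form a primitive pair when, for {i, j} = {1, 2}, every non-trivial normal subgroup A of M_i contained in M₁ ∩ M₂ satisfies N_{M_j}(A) = M₁ ∩ M₂; the pair has characteristic p when moreover C_{M_i}(O_p(M_i)) ≤ O_p(M_i) for both i and O_p(M₁)O_p(M₂) ≤ M₁ ∩ M₂. If (M₁, M₂) is a primitive pair of the finite group G with F*(M₁) ≤ M₂ and F*(M₂) ≤ M₁, then for some prime p the pair has characteristic p. -/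
theorem result {G : Type*} [Group G] [Finite G] (M₁ M₂ : Subgroup G) (hne : M₁ ≠ M₂) (hP : ∀ A : Subgroup G, A ≠ ⊥ → A ≤ M₁ ⊓ M₂ → (M₁ ≤ Subgroup.normalizer (A : Set G) → M₂ ⊓ Subgroup.normalizer (A : Set G) = M₁ ⊓ M₂) ∧ (M₂ ≤ Subgroup.normalizer (A : Set G) → M₁ ⊓ Subgroup.normalizer (A : Set G) = M₁ ⊓ M₂)) (h₁ : (Cfsg.generalizedFittingSubgroup ↥M₁).map M₁.subtype ≤ M₂) (h₂ : (Cfsg.generalizedFittingSubgroup ↥M₂).map M₂.subtype ≤ M₁) : ∃ p : ℕ, p.Prime ∧ Subgroup.centralizer (Cfsg.pCore p ↥M₁ : Set ↥M₁) ≤ Cfsg.pCore p ↥M₁ ∧ Subgroup.centralizer (Cfsg.pCore p ↥M₂ : Set ↥M₂) ≤ Cfsg.pCore p ↥M₂ ∧ (Cfsg.pCore p ↥M₁).map M₁.subtype ⊔ (Cfsg.pCore p ↥M₂).map M₂.subtype ≤ M₁ ⊓ M₂ := by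
  have hboth : ∀ A : Subgroup G, A ≤ M₁ ⊓ M₂ → M₁ ≤ normalizer (A : Set G) →
      M₂ ≤ normalizer (A : Set G) → A = ⊥ := by
    intro A h1 h2 h3
    by_contra h0
    have e1 := (hP A h0 h1).1 h2
    have e2 := (hP A h0 h1).2 h3
    rw [inf_eq_left.2 h3] at e1
    rw [inf_eq_left.2 h2] at e2
    exact hne (e2.trans e1.symm)
  have hE : (layer M₁).map M₁.subtype = (layer M₂).map M₂.subtype :=
    le_antisymm (layer_le h₁ h₂) (layer_le h₂ h₁)
  have hE1 : (layer M₁).map M₁.subtype = ⊥ := hboth _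
    (le_inf (map_subtype_le _) (hE ▸ map_subtype_le _)) (H1.le_normalizer_map_subtype _)
    (hE ▸ H1.le_normalizer_map_subtype _)
  have hG1 := H1.gf_eq_fitting_iff.2 (H1.map_subtype_eq_bot_iff.1 hE1)
  have hG2 := H1.gf_eq_fitting_iff.2 (H1.map_subtype_eq_bot_iff.1 (hE ▸ hE1))
  have hC1 := H1.inf_centralizer_gfOf_le M₁
  have hC2 := H1.inf_centralizer_gfOf_le M₂
  rw [hG1] at h₁ hC1
  rw [hG2] at h₂ hC2
  have hle : ∀ (p : ℕ) [Fact p.Prime], (pCore p M₁).map M₁.subtype ≤ M₁ ⊓ M₂ ∧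
      (pCore p M₂).map M₂.subtype ≤ M₁ ⊓ M₂ := fun p _ =>
    ⟨le_inf (map_subtype_le _) ((map_mono H1.pCore_le_fitting).trans h₁),
      le_inf ((map_mono H1.pCore_le_fitting).trans h₂) (map_subtype_le _)⟩
  obtain ⟨p, hp, hp1⟩ : ∃ p : ℕ, p.Prime ∧ (pCore p M₁).map M₁.subtype ≠ ⊥ := by
    by_contra! h
    have key : ∀ M : Subgroup G, generalizedFittingSubgroup M = fittingSubgroup M →
        (∀ (p : ℕ) [Fact p.Prime], (pCore p M).map M.subtype = ⊥) → M = ⊥ := by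
      intro M h1 h2
      have : fittingSubgroup M ≤ ⊥ :=
        H1.fitting_le_iff.2 fun p _ => (H1.map_subtype_eq_bot_iff.1 (h2 p)).le
      rw [← h1, le_bot_iff, H1.gf_eq_bot_iff] at this
      exact eq_bot_of_subsingleton M
    exact hne ((key M₁ hG1 fun p _ => h p Fact.out).trans
      (key M₂ hG2 fun p _ => pCore_ne hC1 h₂ h₁ (h p Fact.out)).symm)
  haveI := Fact.mk hp
  have hp2 : (pCore p M₂).map M₂.subtype ≠ ⊥ := fun h => hp1 (pCore_ne hC2 h₁ h₂ h)
  have hq : ∀ (q : ℕ) [Fact q.Prime], p ≠ q → (pCore q M₁).map M₁.subtype = ⊥ ∧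
      (pCore q M₂).map M₂.subtype = ⊥ := by
    intro q _ hpq
    have e1 := aux hC1 h₁ h₂ hpq (((hP _ hp2 (hle p).2).2
      (H1.le_normalizer_pCoreOf _)).le.trans inf_le_right)
    have e2 := aux hC2 h₂ h₁ hpq (((hP _ hp1 (hle p).1).1
      (H1.le_normalizer_pCoreOf _)).le.trans inf_le_left)
    have e := le_antisymm e1 e2
    have := hboth _ (hle q).1 (H1.le_normalizer_pCoreOf _) (e ▸ H1.le_normalizer_pCoreOf _)
    exact ⟨this, e ▸ this⟩
  have key : ∀ M : Subgroup G, generalizedFittingSubgroup M = fittingSubgroup M →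
      (∀ (q : ℕ) [Fact q.Prime], p ≠ q → (pCore q M).map M.subtype = ⊥) →
      centralizer (pCore p M : Set M) ≤ pCore p M := by
    intro M h1 h2
    rw [← H1.gf_eq_pCore_iff, h1]
    refine le_antisymm (H1.fitting_le_iff.2 fun q _ => ?_) H1.pCore_le_fitting
    by_cases hpq : p = q
    · subst hpq; exact le_rfl
    · exact (H1.map_subtype_eq_bot_iff.1 (h2 q hpq)).le.trans bot_le
  exact ⟨p, hp, key M₁ hG1 fun q _ h => (hq q h).1, key M₂ hG2 fun q _ h => (hq q h).2,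
    sup_le (hle p).1 (hle p).2⟩

end Cfsg.Agent.S3752
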