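import Cfsg.Statements.S3754
import Cfsg.Agent.H28.S3Free
-- import your own Cfsg.Agent.* helpers here

set_option autoImplicit false
open Cfsg

namespace Cfsg.Agent.S3754

open H28 Subgroup
open scoped Pointwise commutatorElement

/-- Let M be a finite p-soluble group and A a p-subgroup of M with Φ(A) ≤ O_p(M) but A ≰ O_p(M). Then there is x ∈ O_{p,p'}(M) such that L = ⟨A, xAx⁻¹⟩ satisfies: x ∈ O^p(L) and O^p(L) ≤ O_{p,p'}(M); [O^p(L), A] = O^p(L); A ∩ O_p(L) has index p in A; and [A ∩ O_p(L), L] ≤ O_p(M). Here O^p(L) is the subgroup generated by the p'-elements of L and O_{p,p'}(M) the preimage of O_{p'}(M/O_p(M)). -/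
theorem result {M : Type*} [Group M] [Finite M] {p : ℕ} [Fact p.Prime] (hM : Cfsg.IsPSolvable p M) (A : Subgroup M) (hA : IsPGroup p A) (hΦ : (frattini ↥A).map A.subtype ≤ Cfsg.pCore p M) (hnot : ¬ A ≤ Cfsg.pCore p M) : ∃ x ∈ (Cfsg.pPrimeCore p (M ⧸ Cfsg.pCore p M)).comap (QuotientGroup.mk' (Cfsg.pCore p M)), x ∈ (Cfsg.pResidual p ↥(A ⊔ A.map (MulAut.conj x).toMonoidHom)).map (A ⊔ A.map (MulAut.conj x).toMonoidHom).subtype ∧ (Cfsg.pResidual p ↥(A ⊔ A.map (MulAut.conj x).toMonoidHom)).map (A ⊔ A.map (MulAut.conj x).toMonoidHom).subtype ≤ (Cfsg.pPrimeCore p (M ⧸ Cfsg.pCore p M)).comap (QuotientGroup.mk' (Cfsg.pCore p M)) ∧ ⁅(Cfsg.pResidual p ↥(A ⊔ A.map (MulAut.conj x).toMonoidHom)).map (A ⊔ A.map (MulAut.conj x).toMonoidHom).subtype, A⁆ = (Cfsg.pResidual p ↥(A ⊔ A.map (MulAut.conj x).toMonoidHom)).map (A ⊔ A.map (MulAut.conj x).toMonoidHom).subtype ∧ (A ⊓ (Cfsg.pCore p ↥(A ⊔ A.map (MulAut.conj x).toMonoidHom)).map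 (A ⊔ A.map (MulAut.conj x).toMonoidHom).subtype).relIndex A = p ∧ ⁅A ⊓ (Cfsg.pCore p ↥(A ⊔ A.map (MulAut.conj x).toMonoidHom)).map (A ⊔ A.map (MulAut.conj x).toMonoidHom).subtype, A ⊔ A.map (MulAut.conj x).toMonoidHom⁆ ≤ Cfsg.pCore p M := by
  set Q := pCore p M
  let f := QuotientGroup.mk' Q
  have hf : ∀ g, f g = 1 ↔ g ∈ Q := fun g => QuotientGroup.eq_one_iff g
  set N := (pPrimeCore p (M ⧸ Q)).comap f
  have hodd : (Nat.card (pPrimeCore p (M ⧸ Q))).Coprime p := H1.pPrimeCore_coprime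
  have hNp : ∀ g ∈ N, (∃ k : ℕ, g ^ p ^ k = 1) → g ∈ Q := fun g hg ⟨k, hk⟩ => (hf g).1
    (eq_one_of_coprime_of_pow (p := p) (k := k) (hodd.coprime_dvd_left
      ((pPrimeCore p (M ⧸ Q)).orderOf_dvd_natCard hg)) (by rw [← map_pow, hk, map_one]))
  have nQ : ∀ X : Subgroup M, X ≤ 𝐍 Q := fun X => le_normalizer_of_normal
  have hQ : IsPGroup p Q := isPGroup_pCore p M
  have hea := H9.ea_map_of_frattini_le hA f (by rw [QuotientGroup.ker_mk']; exact hΦ)
  have hcz : ∀ (X : Subgroup M) g, g ∈ Cz Q X ↔ f g ∈ 𝐂 (X.map f) := fun X g => by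
    refine ⟨fun h => ?_, fun h => ⟨nQ ⊤ (mem_top g), fun k hk => (hf _).1 ?_⟩⟩
    · rintro _ ⟨k, hk, rfl⟩
      rw [← commutatorElement_eq_one_iff_mul_comm, ← map_commutatorElement]
      exact (hf _).2 (h.2 k hk)
    · rw [map_commutatorElement, commutatorElement_eq_one_iff_mul_comm]
      exact h _ (mem_map_of_mem f hk)
  have hJ : ¬ pPrimeCore p (M ⧸ Q) ≤ 𝐂 (A.map f) := fun e => hnot fun a ha => hNp a
    (H1.centralizer_pPrimeCore_le_of_isPSolvable (H1.isPSolvable_quotient hM Q)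
      (pCore_quotient_pCore p M) (le_centralizer_comm.1 e (mem_map_of_mem f ha)))
    (isPGroup_iff_mem.1 hA a ha)
  have := mt (H9.le_of_hyperplanes hea le_normalizer_of_normal hodd) hJ
  push Not at this
  obtain ⟨B, hB, hB2, hB3⟩ := this
  set A₀ := A ⊓ B.comap f
  have hA0 : A₀.map f = B := map_inf_comap_eq f hB
  have ne : {y | y ∈ N ∧ y ∈ Cz Q A₀ ∧ y ∉ Cz Q A}.Nonempty := by
    obtain ⟨y, h1, h2⟩ := SetLike.not_le_iff_exists.1 hB3
    obtain ⟨y, rfl⟩ := QuotientGroup.mk'_surjective Q y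
    exact ⟨y, h1.1, (hcz _ _).2 (hA0 ▸ h1.2), mt (hcz _ _).1 h2⟩
  obtain ⟨y, ⟨y1, y2, y3⟩, hmin⟩ := Set.exists_min_image _
    (fun y => Nat.card ↥(A ⊔ cj y A)) (Set.toFinite _) ne
  have hAc : A ≤ Cz Q A₀ := fun a ha => (hcz _ _).2 (centralizer_anti (map_mono inf_le_left)
    (ea_le_centralizer hea (mem_map_of_mem f ha)))
  have hL : ∀ z ∈ N, pResidualOf p (A ⊔ cj z A) ≤ N := fun z hz =>
    (pResidualOf_mono (sup_le le_sup_left (cj_le_of_mem le_sup_left (mem_sup_right hz)))).trans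
      (pResidualOf_sup_le hA le_normalizer_of_normal)
  have hLc : ∀ z ∈ Cz Q A₀, A ⊔ cj z A ≤ Cz Q A₀ := fun z hz => sup_le hAc (cj_le_of_mem hAc hz)
  have pAQ : IsPGroup p (A ⊔ Q : Subgroup M) := isPGroup_sup_of_le_normalizer hA hQ (nQ _)
  have hK : ¬ pResidualOf p (A ⊔ cj y A) ≤ Cz Q A := fun e => y3 ⟨nQ ⊤ (mem_top y), fun a ha => by
    obtain ⟨T, hT, hAT⟩ := exists_isSylowIn_ge hA (le_sup_left : A ≤ A ⊔ cj y A)
    have h1 : T ≤ A ⊔ Q := fun t ht => by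
      obtain ⟨b, hb, n, hn, rfl⟩ := (mem_sup_of_le_normalizer le_normalizer_of_normal).1
        ((sup_le le_sup_left (cj_le_of_mem le_sup_left (mem_sup_right y1)) :
          A ⊔ cj y A ≤ A ⊔ N) (hT.le ht))
      exact mul_mem (mem_sup_left hb) (mem_sup_right (hNp n hn (isPGroup_iff_mem.1 hT.isPGroup n
        ((T.mul_mem_cancel_left (hAT hb)).1 ht))))
    have h2 : A ⊔ cj y A ≤ 𝐍 (A ⊔ Q) := hT.pResidualOf_sup.ge.trans (sup_le
      (le_normalizer_sup_of_commutator_le (nQ _) (le_Cz.1 e).2) (le_normalizer_of_le h1))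
    obtain ⟨g, hg, h3⟩ := hT.exists_le_conj (isPGroup_cj y hA) le_sup_right
    have h4 : cj y A ≤ A ⊔ Q := h3.trans (cj_le_of_mem_normalizer h1 (h2 hg))
    refine hNp _ (mul_mem (Normal.conj_mem inferInstance y y1 a) (inv_mem y1))
      (isPGroup_iff_mem.1 pAQ _ ?_)
    rw [commutatorElement_def, mul_assoc, mul_assoc, ← mul_assoc y]
    exact mul_mem (mem_sup_left ha) (h4 (conj_mem_cj (inv_mem ha)))⟩
  obtain ⟨x, x1, x2⟩ := SetLike.not_le_iff_exists.1 hK
  have x3 := pResidualOf_le _ _ x1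
  have e : A ⊔ cj x A = A ⊔ cj y A := eq_of_le_of_card_le
    (sup_le le_sup_left (cj_le_of_mem le_sup_left x3)) (hmin x ⟨hL y y1 x1, hLc y y2 x3, x2⟩)
  have xN := hL y y1 x1
  have xc := hLc y y2 x3
  rw [← e] at x1 x3
  set L := A ⊔ cj x A
  have nK := le_normalizer_pResidualOf p L
  have hA1 : A₀ ≤ pCoreOf p L := (le_inf (inf_le_left.trans le_sup_left) (le_sup_left.trans
    (le_pCoreOf (R := A₀ ⊔ Q) (H := L ⊔ Q) (pAQ.to_le (sup_le_sup_right inf_le_left Q))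
      (sup_le_sup_right (inf_le_left.trans le_sup_left) Q) (sup_le
      (le_normalizer_sup_of_commutator_le (nQ _) (le_Cz.1 (hLc x xc)).2)
      (le_normalizer_of_le le_sup_right))))).trans (inf_pCoreOf_le le_sup_left)
  have hA2 : ¬ A ≤ pCoreOf p L := fun h => x2 (by
    have : IsPGroup p L := (isPGroup_pCoreOf p L).to_le (sup_le h
      (cj_le_of_mem_normalizer h (le_normalizer_pCoreOf p L x3)))
    rw [pResidualOf_eq_bot this, mem_bot] at x1
    exact x1 ▸ one_mem _)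
  have i1 : A₀.relIndex A ≤ p := by
    have a := card_mul_relIndex hB
    have b : A₀.relIndex A = B.relIndex (A.map f) := by
      rw [← relIndex_comap]; exact inf_relIndex_left _ _
    rw [b]
    exact Nat.le_of_mul_le_mul_left (by rw [a, mul_comm]; exact hB2) (Nat.card_pos (α := B))
  have pw : ∀ X : Subgroup M, X.relIndex A ≤ p → ¬ A ≤ X → X.relIndex A = p := fun X a b => by
    obtain ⟨n, hn⟩ := hA.index (X.subgroupOf A)
    change X.relIndex A = _ at hn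
    have hp := (Fact.out : p.Prime).one_lt
    rw [hn] at a ⊢
    have c : n ≠ 0 := fun e => b (relIndex_eq_one.1 (by rw [hn, e, pow_zero]))
    have d : n ≤ 1 := (Nat.pow_le_pow_iff_right hp).1 (by rwa [pow_one])
    rw [show n = 1 by omega, pow_one]
  have i2 := pw _ i1 fun h => hA2 (h.trans hA1)
  have e2 : A ⊓ pCoreOf p L = A₀ := (eq_or_eq_of_relIndex_prime (by rw [i2]; exact Fact.out)
    (le_inf inf_le_left hA1) inf_le_left).resolve_right fun h => hA2 (h.ge.trans inf_le_right)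
  refine ⟨x, xN, x1, hL x xN, le_antisymm (commutator_le_of_le_normalizer (le_sup_left.trans nK))
    ?_, e2 ▸ i2, e2 ▸ (le_Cz.1 (hLc x xc)).2⟩
  have n1 : pResidualOf p L ≤ 𝐍 (A ⊔ ⁅pResidualOf p L, A⁆) := le_normalizer_sup_of_commutator_le
    (le_normalizer_commutator_left _ _) (comm_comm _ _).le
  exact (pResidualOf_mono (sup_le le_sup_left
    (cj_le_of_mem_normalizer le_sup_left (n1 x1)))).trans
      (pResidualOf_sup_le hA (le_normalizer_commutator_right _ _))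

end Cfsg.Agent.S3754
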