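import Cfsg.Statements.S3763
import Cfsg.Agent.H0.ES2

set_option autoImplicit false
open Cfsg

open Subgroup H19 H0
open scoped commutatorElement

namespace Cfsg.Agent.S3763

/-- Let E be an extraspecial 2-group of order 2^(2n+1). Then the largest elementary abelian subgroups of E have order 2^n or 2^(n+1); and two extraspecial 2-groups of the same order whose largest elementary abelian subgroups have the same order are isomorphic. -/
theorem result {E : Type*} [Group E] [Finite E] (hE : Cfsg.IsExtraspecial 2 E) (n : ℕ) (hn : Nat.card E = 2 ^ (2 * n + 1)) : ((Cfsg.PRankLE 2 n E ∧ ¬ Cfsg.PRankLE 2 (n - 1) E) ∨ (Cfsg.PRankLE 2 (n + 1) E ∧ ¬ Cfsg.PRankLE 2 n E)) ∧ ∀ (E' : Type*) [Group E'] [Finite E'], Cfsg.IsExtraspecial 2 E' → Nat.card E' = Nat.card E → (∀ k : ℕ, Cfsg.PRankLE 2 k E ↔ Cfsg.PRankLE 2 k E') → Nonempty (E ≃* E') := by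
  obtain ⟨z, h⟩ := exists_ES_top hE
  have hn' := card_top.trans hn
  have h1 := h.width_pos hn'
  refine ⟨?_, fun E' _ _ hE' hc hk => ?_⟩
  · simp only [h.prank_iff, not_not]
    by_cases ht : HasEA (⊤ : Subgroup E) (n + 1)
    · exact Or.inr ⟨h.not_hasEA hn', ht⟩
    · exact Or.inl ⟨ht, by rw [Nat.sub_add_cancel h1]; exact h.hasEA_width hn'⟩
  · obtain ⟨z', h'⟩ := exists_ES_top hE'
    have := hk n
    rw [h.prank_iff, h'.prank_iff] at this
    exact h.iso_top h' hn (hc.trans hn) (not_iff_not.1 this)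

end Cfsg.Agent.S3763
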