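import Cfsg.Statements.S3764
import Cfsg.Agent.H23.ExtBr
import Cfsg.Agent.H23.Count
import Cfsg.Agent.H4.Centralizer

set_option autoImplicit false
open Cfsg

namespace Cfsg.Agent.S3764

open Subgroup H23 H19

/-- Let p, q, r be distinct primes and let X, Q, V be subgroups of a finite group with X of order r, Q an extraspecial q-group normalized by X with C_Q(X) = Z(Q), and V an elementary abelian p-group normalized by X and Q on which XQ acts faithfully ((X ⊔ Q) ∩ C(V) = 1). If C_V(X) = 1, then q = 2, r = 2^n + 1 for some n, and Q has order 2^(2n+1). -/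
theorem result {G : Type*} [Group G] [Finite G] {p q r : ℕ} (hp : p.Prime) (hq : q.Prime) (hr : r.Prime) (hpq : p ≠ q) (hpr : p ≠ r) (hqr : q ≠ r) (X Q V : Subgroup G) (hX : Nat.card X = r) (hQ : Cfsg.IsExtraspecial q ↥Q) (hXQ : X ≤ Subgroup.normalizer (Q : Set G)) (hCQ : Q ⊓ Subgroup.centralizer (X : Set G) = (Subgroup.center ↥Q).map Q.subtype) (hV : Cfsg.IsElementaryAbelian p V) (hXV : X ≤ Subgroup.normalizer (V : Set G)) (hQV : Q ≤ Subgroup.normalizer (V : Set G)) (hfaith : (X ⊔ Q) ⊓ Subgroup.centralizer (V : Set G) = ⊥) (hCV : V ⊓ Subgroup.centralizer (X : Set G) = ⊥) : q = 2 ∧ ∃ n : ℕ, r = 2 ^ n + 1 ∧ Nat.card Q = 2 ^ (2 * n + 1) := by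
  haveI := Fact.mk hq
  have hE := extraspecial_amb hq hQ
  have hZ : #Z(Q) = q := by rw [← H1.map_subtype_center, card_subtype, hQ.2]
  have hQq : PG q Q := PiN.of_isPGroup hq hQ.1.1
  have hX1 : X ≠ ⊥ := by rintro rfl; exact hr.one_lt.ne (by simpa using hX)
  haveI := Fact.mk hr
  obtain ⟨d, h1, h2⟩ := H18.extraspecial_cyclic_cent (H := X) hp hE hXQ
    (by rw [hZ, hX]; exact (Nat.coprime_primes hq hr).2 hqr) hX1 (isCyclic_of_prime_card hX)
    (fun x hx x1 => by
      rw [← H1.map_subtype_center, ← hCQ, ← (eq_zpowers_of_card_prime hr hX hx x1).2,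
        H4.centralizer_zpowers])
    hV (sup_le hQV hXV) (fun h => by
      rcases hp.dvd_mul.1 (h.trans (H1.card_sup_dvd' hXQ)) with h | h
      · exact hpq (hQq p hp h)
      · exact hpr ((Nat.prime_dvd_prime_iff_eq hp hr).1 (hX ▸ h)))
    (fun h => hq.one_lt.ne' (by
      rw [← hZ, card_eq_one, eq_bot_iff, ← hfaith]
      exact le_inf (inf_le_left.trans le_sup_right) h)) hCV
  obtain ⟨m, hm⟩ := IsPGroup.iff_card.1 hQ.1.1
  have h3 : q * d ^ 2 = q ^ m := by
    rw [h1, ← hm]; nth_rewrite 1 [← hZ]; exact card_mul_relIndex inf_le_left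
  obtain ⟨n, -, rfl⟩ := (Nat.dvd_prime_pow hq).1
    (((dvd_pow_self d two_ne_zero).trans (dvd_mul_left _ q)).trans h3.dvd)
  rw [hX] at h2
  have hn : 0 < n := Nat.pos_of_ne_zero (by
    rintro rfl
    rw [pow_zero, one_pow, eq_comm, relIndex_eq_one] at h1
    have := commutator_eq_bot_iff_le_centralizer.2 (h1.trans inf_le_right)
    rw [hE.der] at this
    exact hq.one_lt.ne (by simpa [this] using hZ))
  obtain rfl := eq_two_of_pow_add_one hq hr hn h2
  exact ⟨rfl, n, h2.symm, by rw [hm, ← h3]; ring⟩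

end Cfsg.Agent.S3764
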