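import Cfsg.Statements.S3765
import Cfsg.Agent.H23.ExtBr
import Cfsg.Agent.H23.Count
import Cfsg.Agent.H4.Centralizer

set_option autoImplicit false
open Cfsg

namespace Cfsg.Agent.S3765

open Subgroup H23 H19

/-- Let p, q, r be distinct primes and let X, Q, V be subgroups of a finite group with X of order r normalizing the q-group Q and acting faithfully on it (X ∩ C(Q) = 1), and V a nontrivial elementary abelian p-group normalized by X and Q on which XQ acts faithfully. If q = 2 and r has the form 2^n + 1, assume in addition that Q is abelian. Then C_V(X) ≠ 1. -/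
theorem result {G : Type*} [Group G] [Finite G] {p q r : ℕ} (hp : p.Prime) (hq : q.Prime) (hr : r.Prime) (hpq : p ≠ q) (hpr : p ≠ r) (hqr : q ≠ r) (X Q V : Subgroup G) (hX : Nat.card X = r) (hQ : IsPGroup q Q) (hXQ : X ≤ Subgroup.normalizer (Q : Set G)) (hXfaith : X ⊓ Subgroup.centralizer (Q : Set G) = ⊥) (hV : Cfsg.IsElementaryAbelian p V) (hV1 : V ≠ ⊥) (hXV : X ≤ Subgroup.normalizer (V : Set G)) (hQV : Q ≤ Subgroup.normalizer (V : Set G)) (hfaith : (X ⊔ Q) ⊓ Subgroup.centralizer (V : Set G) = ⊥) (hexc : q = 2 → (∃ n : ℕ, r = 2 ^ n + 1) → IsMulCommutative Q) : V ⊓ Subgroup.centralizer (X : Set G) ≠ ⊥ := by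
  intro h0
  have hX1 : X ≠ ⊥ := by rintro rfl; exact hr.one_lt.ne (by simpa using hX)
  obtain ⟨t, ht, t1⟩ := (bot_or_exists_ne_one X).resolve_left hX1
  obtain ⟨ho, rfl⟩ := eq_zpowers_of_card_prime hr hX ht t1
  have hQq : PG q Q := PiN.of_isPGroup hq hQ
  rcases shult hp hr (ho ▸ pow_orderOf_eq_one t) hV (hXQ ht) (hXV ht) hQV
    (fun h => hpq (hQq p hp h)) (fun h => hqr (hQq r hr h).symm) hfaith
    (H4.centralizer_zpowers t ▸ h0) with h | ⟨s, d, R, hs, hd, e, h1, h2, h3⟩
  · exact t1 (hXfaith.le ⟨ht, h⟩)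
  · have hR : R ≠ ⊥ := by rintro rfl; exact h3 inferInstance
    have hl := Nat.minFac_prime (mt card_eq_one.1 hR)
    have : s = q := (h2 _ hl (Nat.minFac_dvd _)).symm.trans
      (hQq _ hl ((Nat.minFac_dvd _).trans (card_dvd_of_le h1)))
    subst this
    obtain rfl := eq_two_of_pow_add_one hs hr hd e
    exact h3 (H1.isMulCommutative_of_le h1 (hexc rfl ⟨d, e.symm⟩))

end Cfsg.Agent.S3765
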