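import Cfsg.Statements.S3766
import Cfsg.Agent.H23.Nil
import Mathlib

set_option autoImplicit false
open Cfsg

namespace Cfsg.Agent.S3766

open Subgroup

theorem key {G : Type*} [Group G] [Finite G] (hG : Group.IsSolvable G) (N : Subgroup G) [N.Normal] {g : G} (hg : g ∈ N)
    (h : ∀ U V : Subgroup G, (U.Normal ∧ V.Normal ∧ V < U ∧ ∀ W : Subgroup G, W.Normal → V ≤ W → W ≤ U → W = V ∨ W = U) →
      U ≤ fittingSubgroup G ⊓ N → ∀ u ∈ U, u * g * u⁻¹ * g⁻¹ ∈ V) : g ∈ fittingSubgroup G := by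
  by_contra hn
  have hs := QuotientGroup.mk'_surjective (fittingSubgroup G ⊓ N)
  have hC : normalClosure {g} ≤ N := normalClosure_le_normal (by simpa)
  have := Normal.map (normalClosure_normal (s := {g})) _ hs
  obtain ⟨M, h1, h2, h3, h4⟩ := H1.exists_abelian_normal_le
    ((normalClosure {g}).map (QuotientGroup.mk' (fittingSubgroup G ⊓ N)))
    (fun e => hn (H1.map_mk'_eq_bot_iff.1 e (subset_normalClosure rfl)).1) inferInstance
  refine h3 (eq_bot_iff.2 fun x hx => ?_)
  obtain ⟨x, x1, rfl⟩ := h1 hx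
  refine (QuotientGroup.eq_one_iff x).2 ⟨H1.le_fitting (N := M.comap (QuotientGroup.mk' _) ⊓ normalClosure {g})
    inferInstance (H23.nilp_of_forall fun L a b c => by_contra fun d => ?_) ⟨hx, x1⟩, hC x1⟩
  obtain ⟨V, v1, v2, v3⟩ := H23.exists_chief_below L d
  refine v2.not_ge (c.trans ((commutator_mono le_rfl inf_le_right).trans ?_))
  have := Normal.map a _ (QuotientGroup.mk'_surjective V)
  rw [H1.commutator_le_iff_map_mk', commutator_eq_bot_iff_le_centralizer, ← le_centralizer_iff, map_le_iff_le_comap]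
  refine normalClosure_le_normal ?_
  rintro y rfl _ ⟨u, hu, rfl⟩
  rw [← mul_inv_eq_one, ← map_mul, ← map_mul, ← map_inv, ← map_mul]
  refine (QuotientGroup.eq_one_iff _).2 ?_
  have := h L V ⟨a, v1, v2, v3⟩ (b.trans (H1.commutator_le_iff_map_mk'.2 (eq_bot_iff.2 ((commutator_mono
    (map_le_iff_le_comap.2 inf_le_left) (map_le_iff_le_comap.2 inf_le_left)).trans
    (commutator_eq_bot_iff_le_centralizer.2 (le_centralizer_iff_isMulCommutative.2 h4)).le)))) u hu
  simpa [mul_assoc] using this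

/-- Let G be a finite solvable group and N a normal subgroup of G. Call a pair V < U of normal subgroups of G a chief factor of G when no normal subgroup of G lies strictly between them; an element g centralizes the chief factor U/V when u g u⁻¹ g⁻¹ ∈ V for all u ∈ U. Then an element of G lies in the Fitting subgroup F(N) if and only if it lies in N and centralizes every chief factor of G; and also if and only if it lies in N and centralizes every chief factor U/V of G with U ≤ F(N). -/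
theorem result {G : Type*} [Group G] [Finite G] (hG : Group.IsSolvable G) (N : Subgroup G) [N.Normal] (g : G) : (g ∈ (Cfsg.fittingSubgroup ↥N).map N.subtype ↔ g ∈ N ∧ ∀ U V : Subgroup G, (U.Normal ∧ V.Normal ∧ V < U ∧ ∀ W : Subgroup G, W.Normal → V ≤ W → W ≤ U → W = V ∨ W = U) → ∀ u ∈ U, u * g * u⁻¹ * g⁻¹ ∈ V) ∧ (g ∈ (Cfsg.fittingSubgroup ↥N).map N.subtype ↔ g ∈ N ∧ ∀ U V : Subgroup G, (U.Normal ∧ V.Normal ∧ V < U ∧ ∀ W : Subgroup G, W.Normal → V ≤ W → W ≤ U → W = V ∨ W = U) → U ≤ (Cfsg.fittingSubgroup ↥N).map N.subtype → ∀ u ∈ U, u * g * u⁻¹ * g⁻¹ ∈ V) := by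
  rw [H1.fittingOf_eq_inf_of_normal]
  have h1 : g ∈ fittingSubgroup G ⊓ N → g ∈ N ∧ ∀ U V : Subgroup G, (U.Normal ∧ V.Normal ∧ V < U ∧
      ∀ W : Subgroup G, W.Normal → V ≤ W → W ≤ U → W = V ∨ W = U) → ∀ u ∈ U, u * g * u⁻¹ * g⁻¹ ∈ V :=
    fun h => ⟨h.2, fun U V ⟨a, b, c, d⟩ u hu => H23.fitting_chief c.le d (commutator_mem_commutator hu h.1)⟩
  exact ⟨⟨h1, fun h => ⟨key hG N h.1 fun U V a _ => h.2 U V a, h.1⟩⟩,
    fun h => ⟨h.2, fun U V a _ => (h1 h).2 U V a⟩, fun h => ⟨key hG N h.1 h.2, h.1⟩⟩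

end Cfsg.Agent.S3766
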