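import Cfsg.Statements.S3770
import Cfsg.Agent.H23.ExtBr
import Cfsg.Agent.H3.Frobenius
import Cfsg.Agent.H23.Nil

set_option autoImplicit false
open Cfsg

namespace Cfsg.Agent.S3770

open Subgroup H23 H19

/-- Let G and V be subgroups of a finite group with G a Frobenius group with complement R of prime order and kernel K, G normalizing V, and V an elementary abelian ℓ-group for a prime ℓ not dividing the order of G. If C_V(R) has order ℓ, then the derived subgroup of K centralizes V. -/
theorem result {X : Type*} [Group X] [Finite X] (G : Subgroup X) (V : Subgroup X) {ℓ : ℕ} (hℓ : ℓ.Prime) (hV : Cfsg.IsElementaryAbelian ℓ V) (hℓG : ¬ ℓ ∣ Nat.card G) (hGV : G ≤ Subgroup.normalizer (V : Set X)) (R : Subgroup ↥G) (hR : Cfsg.IsFrobeniusComplement R) (hRp : (Nat.card R).Prime) (hCV : Nat.card ↥(V ⊓ Subgroup.centralizer ((R.map G.subtype : Subgroup X) : Set X)) = ℓ) : ⁅Subgroup.closure (Subtype.val '' Cfsg.frobeniusKernel R), Subgroup.closure (Subtype.val '' Cfsg.frobeniusKernel R)⁆ ≤ Subgroup.centralizer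 (V : Set X) := by
  obtain ⟨K, e, _, hc, -, hf, hn⟩ := H3.exists_frobeniusKernel hR
  have e1 : closure (Subtype.val '' frobeniusKernel R) = K.map G.subtype := by
    rw [← e]; exact closure_eq (K.map G.subtype)
  rw [e1]
  have hs : Group.IsSolvable G := solvable_of_quot K inferInstance
    ((H1.isSolvable_congr hc.symm.QuotientMulEquiv).2 (H3.isSolvable_of_prime_card hRp))
  obtain ⟨a, ha, a1⟩ := (bot_or_exists_ne_one R).resolve_left hR.1
  refine H18.G3_5.Frobenius_prime_cent_prime (M := G) (R := R.map G.subtype) hs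
    ⟨(map_subtype_le R).trans (H1.le_normalizer_map_subtype K), by
      rw [← Subgroup.map_sup, hc.sup_eq_top, H1.map_subtype_top], by
      rw [← map_inf _ _ _ G.subtype_injective, hc.disjoint.eq_bot, Subgroup.map_bot]⟩
    (by rwa [card_subtype]) (eq_bot_iff.2 ?_) hℓ hV hGV ((piN_compl_singleton hℓ).2 hℓG) hCV
  rintro _ ⟨⟨k, hk, rfl⟩, h⟩
  rw [H3.eq_one_of_fpf (hf a ha a1) hk (Subtype.ext (h a ⟨a, ha, rfl⟩))]
  exact one_mem _

end Cfsg.Agent.S3770
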