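import Cfsg.Statements.S3772
import Cfsg.Agent.H0.ES2

set_option autoImplicit false
open Cfsg

open Subgroup H19 H0
open scoped commutatorElement

namespace Cfsg.Agent.S3772

/-- Let G be a finite 2-group whose Frattini subgroup Φ(G) has order 2, with |G : Φ(G)| = 2^d, and let j be the number of elements x of G with x² = 1. Then j = 2^d, or j = 2^d + 2^(d−r) or j = 2^d − 2^(d−r) for some positive integer r with 2r ≤ d. Moreover if d = 2r and j is 2^d + 2^r or 2^d − 2^r, then G is extraspecial. -/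
theorem result {G : Type*} [Group G] [Finite G] (hG : IsPGroup 2 G) (hΦ : Nat.card (frattini G) = 2) (d : ℕ) (hd : (frattini G).index = 2 ^ d) : (Nat.card {x : G // x ^ 2 = 1} = 2 ^ d ∨ ∃ r : ℕ, 1 ≤ r ∧ 2 * r ≤ d ∧ (Nat.card {x : G // x ^ 2 = 1} = 2 ^ d + 2 ^ (d - r) ∨ Nat.card {x : G // x ^ 2 = 1} + 2 ^ (d - r) = 2 ^ d)) ∧ (∀ r : ℕ, d = 2 * r → (Nat.card {x : G // x ^ 2 = 1} = 2 ^ d + 2 ^ r ∨ Nat.card {x : G // x ^ 2 = 1} + 2 ^ r = 2 ^ d) → Cfsg.IsExtraspecial 2 G) := by
  classical
  have : Fact (Nat.Prime 2) := ⟨Nat.prime_two⟩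
  have := Fintype.ofFinite G
  obtain ⟨z, hz, h1⟩ := exists_ne_one (ne_bot_of_prime (hΦ ▸ Nat.prime_two))
  have e := eq_zpowers_of_prime (hΦ ▸ Nat.prime_two) hz h1
  have zz : z * z = 1 := mul_self_of_order (by rw [← Nat.card_zpowers, e, hΦ])
  have hm : ∀ x, x ∈ frattini G ↔ x = 1 ∨ x = z := fun x => by rw [← e, mem_zpowers_inv zz]
  have h : CE z := ⟨h1, zz, fun x y => (hm _).1 (H4.commutatorElement_mem_frattini hG x y),
    fun x => (hm _).1 (by rw [← pow_two]; exact H4.pow_mem_frattini hG x), fun x => by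
      rcases (hm _).1 ((inferInstance : (frattini G).Normal).conj_mem z hz x) with a | a
      · exact absurd (by simpa using a) h1
      · exact mul_inv_eq_iff_eq_mul.1 a⟩
  have hc : Nat.card G = 2 ^ (d + 1) := by
    rw [← card_mul_index (frattini G), hΦ, hd, pow_succ']
  obtain ⟨c, hcd, hZ⟩ := (Nat.dvd_prime_pow Nat.prime_two).1 (hc ▸ card_subgroup_dvd_card (center G))
  have hzZ : z ∈ center G := mem_center_iff.2 h.cent
  have hc1 : 1 ≤ c := by
    by_contra h0
    rw [show c = 0 by omega, pow_zero, card_eq_one] at hZ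
    exact h1 (mem_bot.1 (hZ ▸ hzZ))
  have hne : center G = ⊤ → ¬ ∀ y ∈ center G, y * y = 1 := fun ht hy => by
    have : frattini G ≤ ⊥ := H4.frattini_le (p := 2)
      (commutator_le.2 fun x _ y _ => mem_bot.2 (commutatorElement_eq_one_iff_mul_comm.2
        (mem_center_iff.1 (ht ▸ mem_top y : y ∈ center G) x)))
      fun x => mem_bot.2 (by rw [pow_two, hy x (ht ▸ mem_top x)])
    exact h1 (mem_bot.1 (this hz))
  have e1 := CE.two_mul_card (G := G)
  have e2 := h.sum_sq
  rw [hc, hZ] at e2
  rw [hc] at e1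
  set T := ∑ x : G, sg (x * x)
  set j := Nat.card {x : G // x ^ 2 = 1}
  push_cast at e1 e2
  refine ⟨?_, fun r hr hj => ?_⟩
  · split_ifs at e2 with hy
    · have hcd' : c ≠ d + 1 := fun a => hne (eq_top_of_card_eq _ (by rw [hZ, hc, a])) hy
      rw [← pow_add] at e2
      have e3 : T.natAbs ^ 2 = 2 ^ (d + 1 + c) := by
        have := congrArg Int.natAbs e2
        simpa [Int.natAbs_pow] using this
      obtain ⟨k, -, hk⟩ := (Nat.dvd_prime_pow Nat.prime_two).1
        (e3 ▸ dvd_pow_self T.natAbs two_ne_zero)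
      rw [hk, ← pow_mul] at e3
      have e4 := Nat.pow_right_injective le_rfl e3
      refine Or.inr ⟨d + 1 - k, by omega, by omega, ?_⟩
      obtain ⟨k, rfl⟩ : ∃ l, k = l + 1 := ⟨k - 1, by omega⟩
      rw [show d - (d + 1 - (k + 1)) = k by omega]
      rcases Int.natAbs_eq_iff.1 hk with a | a <;> rw [a] at e1 <;> push_cast at e1
      · left; zify; rw [pow_succ, pow_succ] at e1; linarith
      · right; zify; rw [pow_succ, pow_succ] at e1; linarith
    · left
      rw [pow_eq_zero_iff two_ne_zero] at e2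
      zify; rw [e2, pow_succ] at e1; linarith
  · have e3 : T ^ 2 = 2 ^ (d + 1) * 2 := by
      have : T = 2 * 2 ^ r ∨ T = -(2 * 2 ^ r) := by
        rw [pow_succ] at e1
        rcases hj with a | a <;> zify at a
        · left; linarith
        · right; linarith
      rcases this with a | a <;> rw [a, hr] <;> ring
    rw [e3] at e2
    split_ifs at e2 with hy
    · have e4 : Nat.card (center G) = 2 := by
        have := mul_left_cancel₀ (by positivity) e2
        rw [hZ]; exact_mod_cast this.symm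
      have e5 := eq_zpowers_of_prime (e4 ▸ Nat.prime_two) hzZ h1
      refine ES.extraspecial_top (z := z) ⟨trivial, h1, zz, fun x _ y _ => h.comm x y,
        fun x _ => h.sq x, fun x _ => h.cent x, fun x _ hx => (mem_zpowers_inv zz).1
          (e5 ▸ mem_center_iff.2 fun y => (hx y trivial).symm), ?_⟩
      by_contra hn
      push Not at hn
      exact hne (eq_top_iff.2 fun x _ => mem_center_iff.2 fun y => hn y trivial x trivial) hy
    · exact absurd e2 (by positivity)

end Cfsg.Agent.S3772
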