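import Cfsg.Statements.S3773
import Cfsg.Agent.H4.R2b

set_option autoImplicit false
open Cfsg

namespace Cfsg.Agent.S3773

/-- Let G be a finite 2-group of nilpotency class at most 2 and exponent dividing 4 in which the elements x with x² = 1 form a subgroup N. Then |G| ≤ |N|³, and |G| < |N|³ unless G is special. -/
theorem result {G : Type*} [Group G] [Finite G] (hG : IsPGroup 2 G) (hcl : (⊤ : Subgroup G).lowerCentralSeries 2 = ⊥) (hexp : ∀ x : G, x ^ 4 = 1) (hN : ∀ x y : G, x ^ 2 = 1 → y ^ 2 = 1 → (x * y) ^ 2 = 1) : Nat.card G ≤ Nat.card {x : G // x ^ 2 = 1} ^ 3 ∧ (¬ Cfsg.IsSpecial 2 G → Nat.card G < Nat.card {x : G // x ^ 2 = 1} ^ 3) := by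
  let N : Subgroup G := ⟨⟨⟨{x | x ^ 2 = 1}, fun {a b} ha hb => hN a b ha hb⟩, one_pow 2⟩,
    fun {a} ha => by simpa using ha⟩
  have := H4.card_le_cube_om hG (H4.commutator_mem_center_of_class_two hcl) (N := N)
    (fun x => by rw [← sq]; rfl) fun x => by
      change _ ^ 2 = 1
      rw [← sq, ← pow_mul]; exact hexp x
  exact ⟨this.1, fun h => lt_of_not_ge fun h' => h (this.2 h')⟩

end Cfsg.Agent.S3773
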