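import Cfsg.Statements.S3774
import Cfsg.Agent.H4.R2b

set_option autoImplicit false
open Cfsg

namespace Cfsg.Agent.S3774

/-- Let G be a nontrivial finite 2-group whose automorphism group permutes the involutions of G transitively. Then every involution of G is central, so that the involutions together with 1 form the subgroup Ω₁(Z(G)), and if this subgroup has order q then |G| is a power of q. -/
theorem result {G : Type*} [Group G] [Finite G] [Nontrivial G] (hG : IsPGroup 2 G) (htrans : ∀ x y : G, x ≠ 1 → x ^ 2 = 1 → y ≠ 1 → y ^ 2 = 1 → ∃ a : MulAut G, a x = y) : (∀ x : G, x ^ 2 = 1 → x ∈ Subgroup.center G) ∧ ∃ m : ℕ, Nat.card G = Nat.card {z : G // z ^ 2 = 1} ^ m := by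
  simp only [sq] at htrans ⊢
  have h := H4.central_of_trans hG htrans
  obtain ⟨m, hm⟩ := H4.card_pow_of_trans hG htrans
  exact ⟨h, m, hm.trans (congrArg (· ^ m)
    (Nat.card_congr (Equiv.subtypeEquivRight fun _ => H4.mem_Om_of_central h)))⟩

end Cfsg.Agent.S3774
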