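import Cfsg.Statements.S3775

set_option autoImplicit false
open Cfsg

namespace Cfsg.Agent.S3775

theorem idem_pow {M : Type*} [Monoid M] [Finite M] (a : M) :
    ∃ n, 0 < n ∧ a ^ n * a ^ n = a ^ n := by
  obtain ⟨i, j, hij, h⟩ : ∃ i j : ℕ, i < j ∧ a ^ i = a ^ j := by
    obtain ⟨i, j, hne, h⟩ := Finite.exists_ne_map_eq_of_infinite (fun n : ℕ => a ^ n)
    rcases lt_or_gt_of_ne hne with h1 | h1
    · exact ⟨i, j, h1, h⟩
    · exact ⟨j, i, h1, h.symm⟩
  obtain ⟨d, rfl⟩ := Nat.exists_eq_add_of_lt hij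
  have key : ∀ k m, a ^ (i + m + k * (d + 1)) = a ^ (i + m) := by
    intro k
    induction k with
    | zero => intro m; simp
    | succ k ih =>
      intro m
      have : i + m + (k + 1) * (d + 1) = (i + d + 1) + (m + k * (d + 1)) := by ring
      rw [this, pow_add, ← h, ← pow_add, ← add_assoc, ih]
  refine ⟨(i + 1) * (d + 1), by positivity, ?_⟩
  have h1 : (i + 1) * (d + 1) = i + ((i + 1) * d + 1) := by ring
  rw [← pow_add]
  conv_lhs => enter [2, 1]; rw [h1]
  rw [key, ← h1]

theorem hom_cyc {G A : Type*} [CommGroup G] [Finite G] [Group A] [Finite A] (a : A)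
    (hG : ∀ g : G, g ^ orderOf a = 1) {g : G} (hg : g ≠ 1) :
    ∃ φ : G →* A, φ g ≠ 1 ∧ ∀ x, φ x ∈ Subgroup.zpowers a := by
  classical
  obtain ⟨ι, _, n, hn, ⟨e⟩⟩ := CommGroup.equiv_prod_multiplicative_zmod_of_finite G
  obtain ⟨i, hi⟩ : ∃ i : ι, e g i ≠ 1 := by
    contrapose! hg
    exact (MulEquiv.map_eq_one_iff e).mp <| funext hg
  have hd : n i ∣ orderOf a := by
    have : n i = orderOf (e.symm <| Pi.mulSingle i <| .ofAdd 1) := by
      simpa only [MulEquiv.orderOf_eq, orderOf_piMulSingle, orderOf_ofAdd_eq_addOrderOf]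
        using (ZMod.addOrderOf_one (n i)).symm
    rw [this]; exact orderOf_dvd_of_pow_eq_one (hG _)
  have : NeZero (n i) := ⟨by have := hn i; omega⟩
  let b := a ^ (orderOf a / n i)
  have hb : orderOf b = n i := orderOf_pow_orderOf_div (orderOf_pos a).ne' hd
  have hc : Nat.card (Multiplicative (ZMod (n i))) = Nat.card (Subgroup.zpowers b) := by
    rw [Nat.card_zpowers, hb]; simp
  let f := mulEquivOfCyclicCardEq hc
  refine ⟨((Subgroup.zpowers b).subtype.comp f.toMonoidHom).comp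
    ((Pi.evalMonoidHom (fun (i : ι) ↦ Multiplicative (ZMod (n i))) i).comp e.toMonoidHom), ?_, ?_⟩
  · intro h
    apply hi
    apply f.injective
    rw [map_one]
    exact Subtype.ext h
  · intro x
    exact (Subgroup.zpowers_le.2 (Subgroup.pow_mem _ (Subgroup.mem_zpowers a) _)) (f _).2

theorem proj {A : Type*} [CommGroup A] [Finite A] {p : ℕ} [hp : Fact p.Prime] {e : ℕ}
    (hA : ∀ a : A, a ^ p ^ (e + 1) = 1) (s : Finset A) (hs : ∀ u ∈ s, ∃ a : A, a ^ p ^ e = u) :
    ∃ π : A →* A, (∀ u ∈ Subgroup.closure (s : Set A), π u = u) ∧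
      ∀ w, w ^ p = 1 → π w ∈ Subgroup.closure (s : Set A) := by
  classical
  induction s using Finset.induction_on with
  | empty => exact ⟨1, by simp, by simp⟩
  | insert u s hu ih =>
    obtain ⟨π, h1, h2⟩ := ih (fun v hv => hs v (Finset.mem_insert_of_mem hv))
    have hle : Subgroup.closure (s : Set A) ≤ Subgroup.closure ((insert u s : Finset A) : Set A) :=
      Subgroup.closure_mono (by simp)
    have hum : u ∈ Subgroup.closure ((insert u s : Finset A) : Set A) :=
      Subgroup.subset_closure (by simp)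
    by_cases hus : u ∈ Subgroup.closure (s : Set A)
    · have : Subgroup.closure ((insert u s : Finset A) : Set A) = Subgroup.closure (s : Set A) := by
        refine le_antisymm ((Subgroup.closure_le _).2 ?_) hle
        intro v hv
        rcases Finset.mem_insert.1 (Finset.mem_coe.1 hv) with rfl | hv
        · exact hus
        · exact Subgroup.subset_closure hv
      rw [this]; exact ⟨π, h1, h2⟩
    obtain ⟨a, ha⟩ := hs u (Finset.mem_insert_self u s)
    have hu1 : u ≠ 1 := fun h => hus (h ▸ Subgroup.one_mem _)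
    have hoa : orderOf a = p ^ (e + 1) := orderOf_eq_prime_pow (ha ▸ hu1) (hA a)
    have hup : u ^ p = 1 := by rw [← ha, ← pow_mul, ← pow_succ, hA]
    have hou : orderOf u = p := orderOf_eq_prime hup hu1
    let U := Subgroup.closure (s : Set A)
    obtain ⟨φ, hφ1, hφ2⟩ := hom_cyc (G := A ⧸ U) a (fun g => by
      obtain ⟨g, rfl⟩ := QuotientGroup.mk_surjective g
      rw [hoa, ← QuotientGroup.mk_pow, hA]; rfl)
      (g := (u : A ⧸ U)) (fun h => hus ((QuotientGroup.eq_one_iff u).1 h))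
    let ρ : A →* A := φ.comp (QuotientGroup.mk' U)
    have hρU : ∀ v ∈ U, ρ v = 1 := by
      intro v hv
      change φ (v : A ⧸ U) = 1
      rw [(QuotientGroup.eq_one_iff v).2 hv, map_one]
    have hρ : ∀ w, w ^ p = 1 → ρ w ∈ Subgroup.zpowers u := by
      intro w hw
      obtain ⟨k, hk⟩ := (Submonoid.mem_powers_iff _ _).1
        (mem_powers_iff_mem_zpowers.2 (hφ2 (w : A ⧸ U)))
      have hk' : a ^ k = ρ w := hk
      have : a ^ (k * p) = 1 := by rw [pow_mul, hk', ← map_pow, hw, map_one]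
      have hd := orderOf_dvd_of_pow_eq_one this
      rw [hoa, pow_succ] at hd
      obtain ⟨c, rfl⟩ := Nat.dvd_of_mul_dvd_mul_right hp.out.pos hd
      rw [← hk', pow_mul, ha]
      exact Subgroup.pow_mem _ (Subgroup.mem_zpowers u) _
    have hgen : u ∈ Subgroup.zpowers (ρ u) := by
      have hρu : ρ u ≠ 1 := hφ1
      have : Subgroup.zpowers (ρ u) = Subgroup.zpowers u := by
        apply Subgroup.eq_of_le_of_card_ge (Subgroup.zpowers_le.2 (hρ u hup))
        rw [Nat.card_zpowers, Nat.card_zpowers, hou,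
          orderOf_eq_prime (p := p) (by rw [← map_pow, hup, map_one]) hρu]
      rw [this]; exact Subgroup.mem_zpowers u
    obtain ⟨k, hk⟩ := hgen
    have hk' : ρ u ^ k = u := hk
    let ρ' : A →* A := (zpowGroupHom k).comp ρ
    have hρ' : ∀ x, ρ' x = ρ x ^ k := fun _ => rfl
    refine ⟨π * ρ' * (π.comp ρ')⁻¹, ?_, ?_⟩
    · intro v hv
      have : Subgroup.closure ((insert u s : Finset A) : Set A) ≤
          (π * ρ' * (π.comp ρ')⁻¹).eqLocus (MonoidHom.id A) := by
        rw [Subgroup.closure_le]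
        intro v hv
        change (π * ρ' * (π.comp ρ')⁻¹) v = v
        rcases Finset.mem_insert.1 (Finset.mem_coe.1 hv) with rfl | hv
        · simp only [MonoidHom.mul_apply, MonoidHom.inv_apply, MonoidHom.comp_apply, hρ', hk']
          rw [mul_comm (π v), mul_inv_cancel_right]
        · have hv' : v ∈ U := Subgroup.subset_closure hv
          simp [hρ', hρU v hv', h1 v hv']
      exact this hv
    · intro w hw
      simp only [MonoidHom.mul_apply, MonoidHom.inv_apply, MonoidHom.comp_apply]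
      refine Subgroup.mul_mem _ (Subgroup.mul_mem _ (hle (h2 w hw)) ?_)
        (Subgroup.inv_mem _ (hle (h2 _ (by rw [← map_pow, hw, map_one]))))
      exact Subgroup.zpow_mem _ (Subgroup.zpowers_le.2 hum (hρ w hw)) _

theorem key {A : Type*} [CommGroup A] [Finite A] {p : ℕ} [hp : Fact p.Prime] {e : ℕ}
    (hA : ∀ a : A, a ^ p ^ (e + 1) = 1) (X : Subgroup (MulAut A)) (hX : (Nat.card X).Coprime p)
    (hind : ¬ ∃ B C : Subgroup A, B ≠ ⊥ ∧ C ≠ ⊥ ∧ (∀ x ∈ X, B.map x.toMonoidHom = B) ∧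
      (∀ x ∈ X, C.map x.toMonoidHom = C) ∧ B ⊓ C = ⊥ ∧ B ⊔ C = ⊤)
    (U : Subgroup A) (hU : U ≠ ⊥) (hUX : ∀ x ∈ X, ∀ u ∈ U, x u ∈ U)
    (hUe : ∀ u ∈ U, ∃ a : A, a ^ p ^ e = u) : ∀ w, w ^ p = 1 → w ∈ U := by
  classical
  have := Fintype.ofFinite X
  have := Fintype.ofFinite A
  obtain ⟨π, h1, h2⟩ := proj hA (Finset.univ.filter (· ∈ U)) (fun u hu => hUe u (by simpa using hu))
  have hcl : Subgroup.closure ((Finset.univ.filter (· ∈ U) : Finset A) : Set A) = U := by
    have : ((Finset.univ.filter (· ∈ U) : Finset A) : Set A) = U := by ext; simp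
    rw [this, Subgroup.closure_eq]
  rw [hcl] at h1 h2
  let f : Monoid.End A :=
    { toFun := fun a => ∏ x : X, (x : MulAut A) (π ((x : MulAut A)⁻¹ a))
      map_one' := by simp
      map_mul' := by intro a b; simp [Finset.prod_mul_distrib] }
  have hf : ∀ a, f a = ∏ x : X, (x : MulAut A) (π ((x : MulAut A)⁻¹ a)) := fun _ => rfl
  have hfU : ∀ u ∈ U, f u = u ^ Nat.card X := by
    intro u hu
    rw [hf, Finset.prod_congr rfl (g := fun _ => u)]
    · simp
    · intro x _
      rw [h1 _ (hUX _ (X.inv_mem x.2) u hu)]; simp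
  have hfΩ : ∀ w, w ^ p = 1 → f w ∈ U := by
    intro w hw
    rw [hf]
    exact Subgroup.prod_mem _ (fun x _ => hUX _ x.2 _ (h2 _ (by rw [← map_pow, hw, map_one])))
  have hfX : ∀ y ∈ X, ∀ a, f (y a) = y (f a) := by
    intro y hy a
    rw [hf, hf, map_prod]
    refine (Fintype.prod_equiv (Equiv.mulLeft (⟨y, hy⟩ : X)) _ _ (fun x => ?_)).symm
    simp
  have : Finite (Monoid.End A) :=
    Finite.of_injective (fun g : Monoid.End A => (g : A → A)) DFunLike.coe_injective
  obtain ⟨n, hn, hid⟩ := idem_pow f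
  have hfnX : ∀ k : ℕ, ∀ y ∈ X, ∀ a, (f ^ k) (y a) = y ((f ^ k) a) := by
    intro k y hy
    induction k with
    | zero => intro a; rfl
    | succ k ih =>
      intro a
      rw [pow_succ]
      change (f ^ k) (f (y a)) = y ((f ^ k) (f a))
      rw [hfX y hy, ih]
  have hfnU : ∀ k : ℕ, ∀ u ∈ U, (f ^ k) u = u ^ Nat.card X ^ k := by
    intro k
    induction k with
    | zero => intro u _; simp
    | succ k ih =>
      intro u hu
      rw [pow_succ]
      change (f ^ k) (f u) = _
      rw [hfU u hu, ih _ (U.pow_mem hu _), ← pow_mul, pow_succ']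
  set g : A →* A := (f ^ n : Monoid.End A) with hg
  have hgg : ∀ a, g (g a) = g a := fun a => DFunLike.congr_fun hid a
  have hgX : ∀ y ∈ X, ∀ a, g (y a) = y (g a) := hfnX n
  have hker : g.ker = ⊥ := by
    by_contra hk
    refine hind ⟨g.ker, g.range, hk, ?_, ?_, ?_, ?_, ?_⟩
    · intro hr
      obtain ⟨⟨u, hu⟩, hu1⟩ := (Subgroup.ne_bot_iff_exists_ne_one).1 hU
      have : g u ∈ g.range := ⟨u, rfl⟩
      rw [hr, Subgroup.mem_bot] at this
      have h3 : u ^ Nat.card X ^ n = 1 := (hfnU n u hu).symm.trans this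
      exact hu1 (Subtype.ext ((pow_eq_one_iff_of_coprime
        ((hX.pow_left n).pow_right (e + 1))).1 ⟨h3, hA u⟩))
    · intro x hx
      ext a
      constructor
      · rintro ⟨b, hb, rfl⟩
        change g (x b) = 1
        rw [hgX x hx, show g b = 1 from hb, map_one]
      · intro ha
        refine ⟨x⁻¹ a, ?_, by simp⟩
        change g (x⁻¹ a) = 1
        rw [hgX _ (X.inv_mem hx), show g a = 1 from ha, map_one]
    · intro x hx
      ext a
      constructor
      · rintro ⟨_, ⟨b, rfl⟩, rfl⟩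
        exact ⟨x b, hgX x hx b⟩
      · rintro ⟨b, rfl⟩
        refine ⟨g (x⁻¹ b), ⟨_, rfl⟩, ?_⟩
        rw [hgX _ (X.inv_mem hx)]; simp
    · rw [eq_bot_iff]
      rintro _ ⟨ha, ⟨b, rfl⟩⟩
      have : g (g b) = 1 := ha
      rw [hgg] at this
      exact Subgroup.mem_bot.2 this
    · rw [eq_top_iff]
      intro a _
      have : a = (a * (g a)⁻¹) * g a := by simp
      rw [this]
      refine Subgroup.mul_mem_sup ?_ ⟨a, rfl⟩
      change g _ = 1
      rw [map_mul, map_inv, hgg, mul_inv_cancel]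
  have hginj : Function.Injective g := (MonoidHom.ker_eq_bot_iff g).1 hker
  have hfinj : Function.Injective f := by
    obtain ⟨m, rfl⟩ := Nat.exists_eq_succ_of_ne_zero hn.ne'
    intro a b hab
    apply hginj
    change (f ^ (m + 1)) a = (f ^ (m + 1)) b
    rw [pow_succ]
    change (f ^ m) (f a) = (f ^ m) (f b)
    rw [hab]
  intro w hw
  have hsurj : Function.Surjective (fun u : U => (⟨f u, by rw [hfU u u.2]; exact U.pow_mem u.2 _⟩ : U)) := by
    apply Finite.injective_iff_surjective.1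
    intro a b hab
    exact Subtype.ext (hfinj (congrArg Subtype.val hab))
  obtain ⟨u, hu⟩ := hsurj ⟨f w, hfΩ w hw⟩
  have : (u : A) = w := hfinj (congrArg Subtype.val hu)
  exact this ▸ u.2

/-- Let A be a finite abelian p-group and X a group of automorphisms of A of order prime to p. Call a subgroup of A invariant when every element of X maps it onto itself. Then the following are equivalent: (i) A is not the direct product of two nontrivial invariant subgroups; (ii) every invariant subgroup of A is one of the subgroups Ω_i(A) = {a : a^(p^i) = 1}; (iii) the subgroup Ω₁(A) of elements of order dividing p has no invariant subgroups other than 1 and itself. -/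
theorem result {A : Type*} [CommGroup A] [Finite A] {p : ℕ} [Fact p.Prime] (hA : IsPGroup p A) (X : Subgroup (MulAut A)) (hX : (Nat.card X).Coprime p) : ((¬ ∃ B C : Subgroup A, B ≠ ⊥ ∧ C ≠ ⊥ ∧ (∀ x ∈ X, B.map x.toMonoidHom = B) ∧ (∀ x ∈ X, C.map x.toMonoidHom = C) ∧ B ⊓ C = ⊥ ∧ B ⊔ C = ⊤) ↔ (∀ B : Subgroup A, (∀ x ∈ X, B.map x.toMonoidHom = B) → ∃ i : ℕ, ∀ a : A, a ∈ B ↔ a ^ p ^ i = 1)) ∧ ((∀ B : Subgroup A, (∀ x ∈ X, B.map x.toMonoidHom = B) → ∃ i : ℕ, ∀ a : A, a ∈ B ↔ a ^ p ^ i = 1) ↔ (∀ B : Subgroup A, (∀ x ∈ X, B.map x.toMonoidHom = B) → (∀ b ∈ B, b ^ p = 1) → B = ⊥ ∨ ∀ a : A, a ∈ B ↔ a ^ p = 1)) := by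
  have hp : p.Prime := Fact.out
  have inv : ∀ B : Subgroup A, (∀ x ∈ X, B.map x.toMonoidHom = B) → ∀ x ∈ X, ∀ u ∈ B, x u ∈ B := by
    intro B hB x hx u hu
    rw [← hB x hx]; exact ⟨u, hu, rfl⟩
  have inv' : ∀ B : Subgroup A, (∀ x ∈ X, ∀ u ∈ B, x u ∈ B) → ∀ x ∈ X, B.map x.toMonoidHom = B := by
    intro B hB x hx
    ext a
    constructor
    · rintro ⟨b, hb, rfl⟩; exact hB x hx b hb
    · intro ha; exact ⟨x⁻¹ a, hB _ (X.inv_mem hx) a ha, by simp⟩
  have h32 : (∀ B : Subgroup A, (∀ x ∈ X, B.map x.toMonoidHom = B) → (∀ b ∈ B, b ^ p = 1) →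
      B = ⊥ ∨ ∀ a : A, a ∈ B ↔ a ^ p = 1) →
      (∀ B : Subgroup A, (∀ x ∈ X, B.map x.toMonoidHom = B) →
        ∃ i : ℕ, ∀ a : A, a ∈ B ↔ a ^ p ^ i = 1) := by
    classical
    intro h B hB
    have hex : ∃ i, ∀ b ∈ B, b ^ p ^ i = 1 := by
      obtain ⟨n, hn⟩ := hA.exists_card_eq
      exact ⟨n, fun b _ => by rw [← hn]; exact pow_card_eq_one'⟩
    refine ⟨Nat.find hex, fun a => ⟨fun ha => Nat.find_spec hex a ha, ?_⟩⟩
    have step : ∀ j, j ≤ Nat.find hex → ∀ a : A, a ^ p ^ j = 1 → a ∈ B := by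
      intro j
      induction j with
      | zero => intro _ a ha; rw [pow_zero, pow_one] at ha; exact ha ▸ B.one_mem
      | succ j ih =>
        intro hj a ha
        let C : Subgroup A := (B ⊓ (powMonoidHom (p ^ (j + 1)) : A →* A).ker).map
          (powMonoidHom (p ^ j))
        have hC : ∀ x ∈ X, C.map x.toMonoidHom = C := by
          apply inv'
          rintro x hx _ ⟨b, ⟨hb1, hb2⟩, rfl⟩
          refine ⟨x b, ⟨inv B hB x hx b hb1, ?_⟩, by simp⟩
          change x b ^ p ^ (j + 1) = 1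
          rw [← map_pow, show b ^ p ^ (j + 1) = 1 from hb2, map_one]
        rcases h C hC (by
          rintro _ ⟨b, ⟨_, hb2⟩, rfl⟩
          change (b ^ p ^ j) ^ p = 1
          rw [← pow_mul, ← pow_succ]; exact hb2) with h0 | h0
        · exfalso
          obtain ⟨d, hd⟩ := Nat.exists_eq_add_of_le hj
          apply Nat.find_min hex (m := j + d) (by omega)
          intro b hb
          have : (b ^ p ^ d) ^ p ^ j ∈ C := by
            refine ⟨b ^ p ^ d, ⟨B.pow_mem hb _, ?_⟩, rfl⟩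
            change (b ^ p ^ d) ^ p ^ (j + 1) = 1
            rw [← pow_mul, ← pow_add, add_comm, ← hd]
            exact Nat.find_spec hex b hb
          rw [h0, Subgroup.mem_bot, ← pow_mul, ← pow_add, add_comm] at this
          exact this
        · obtain ⟨b, ⟨hb1, -⟩, hb⟩ := (h0 (a ^ p ^ j)).2 (by rw [← pow_mul, ← pow_succ]; exact ha)
          have hb' : b ^ p ^ j = a ^ p ^ j := hb
          have : a * b⁻¹ ∈ B := ih (by omega) _ (by rw [mul_pow, inv_pow, hb', mul_inv_cancel])
          simpa using B.mul_mem this hb1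
    exact step _ le_rfl a
  have h23 : (∀ B : Subgroup A, (∀ x ∈ X, B.map x.toMonoidHom = B) →
        ∃ i : ℕ, ∀ a : A, a ∈ B ↔ a ^ p ^ i = 1) →
      (∀ B : Subgroup A, (∀ x ∈ X, B.map x.toMonoidHom = B) → (∀ b ∈ B, b ^ p = 1) →
      B = ⊥ ∨ ∀ a : A, a ∈ B ↔ a ^ p = 1) := by
    intro h B hB hBp
    obtain ⟨i, hi⟩ := h B hB
    rcases i with _ | i
    · left
      rw [eq_bot_iff]
      intro a ha
      simpa using (hi a).1 ha
    · right
      intro a
      refine ⟨hBp a, fun ha => (hi a).2 ?_⟩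
      rw [pow_succ', pow_mul, ha, one_pow]
  refine ⟨⟨fun h => h32 ?_, fun h => ?_⟩, h23, h32⟩
  · classical
    intro B hB hBp
    by_cases hB0 : B = ⊥
    · exact Or.inl hB0
    right
    have hex : ∃ i, ∀ b : A, b ^ p ^ i = 1 := by
      obtain ⟨n, hn⟩ := hA.exists_card_eq
      exact ⟨n, fun b => by rw [← hn]; exact pow_card_eq_one'⟩
    have hne : Nat.find hex ≠ 0 := by
      intro h0
      apply hB0
      rw [eq_bot_iff]
      intro a _
      have := Nat.find_spec hex a
      rw [h0, pow_zero, pow_one] at this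
      exact this
    obtain ⟨e, he⟩ := Nat.exists_eq_succ_of_ne_zero hne
    have hAe : ∀ a : A, a ^ p ^ (e + 1) = 1 := fun a => by
      have := Nat.find_spec hex a
      rwa [he] at this
    have h0 := key hAe X hX h (powMonoidHom (p ^ e) : A →* A).range (by
      intro h0
      apply Nat.find_min hex (m := e) (by omega)
      intro b
      have : b ^ p ^ e ∈ (powMonoidHom (p ^ e) : A →* A).range := ⟨b, rfl⟩
      rwa [h0, Subgroup.mem_bot] at this) (by
      rintro x _ _ ⟨b, rfl⟩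
      exact ⟨x b, by simp⟩) (fun u hu => hu)
    intro a
    exact ⟨hBp a, key hAe X hX h B hB0 (inv B hB) (fun u hu => h0 u (hBp u hu)) a⟩
  · rintro ⟨B, C, hB0, hC0, hB, hC, hi, -⟩
    obtain ⟨i, hi'⟩ := h B hB
    obtain ⟨j, hj⟩ := h C hC
    rcases le_total i j with hij | hij
    · apply hB0
      rw [← hi, left_eq_inf]
      intro a ha
      obtain ⟨d, rfl⟩ := Nat.exists_eq_add_of_le hij
      rw [hj, pow_add, pow_mul, (hi' a).1 ha, one_pow]
    · apply hC0
      rw [← hi, right_eq_inf]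
      intro a ha
      obtain ⟨d, rfl⟩ := Nat.exists_eq_add_of_le hij
      rw [hi', pow_add, pow_mul, (hj a).1 ha, one_pow]

end Cfsg.Agent.S3775
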