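import Cfsg.Statements.S3778
import Cfsg.Agent.H4.VL2

set_option autoImplicit false
open Cfsg

namespace Cfsg.Agent.S3778

/-- If G is a finite p-group in which every conjugacy class has at most p^b elements (every element has centralizer of index at most p^b), then G is abelian when b = 0, and when b ≥ 1 its nilpotency class c satisfies (c − 1)(p − 1) < bp, that is c < bp/(p − 1) + 1, and hence c ≤ 2b. -/
theorem result {G : Type*} [Group G] [Finite G] {p : ℕ} [Fact p.Prime] (hG : IsPGroup p G) (b : ℕ) (hb : ∀ x : G, (Subgroup.centralizer ({x} : Set G)).index ≤ p ^ b) : ∃ c : ℕ, (⊤ : Subgroup G).lowerCentralSeries c = ⊥ ∧ (b ≠ 0 → (c - 1) * (p - 1) < b * p ∧ c ≤ 2 * b) ∧ (b = 0 → c ≤ 1) := by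
  have := hG.isNilpotent
  refine ⟨Group.nilpotencyClass G, Subgroup.lowerCentralSeries_nilpotencyClass, fun h => ?_, ?_⟩
  · have h1 := H4.breadth_class hG h hb
    refine ⟨h1, ?_⟩
    obtain ⟨q, rfl⟩ : ∃ q, p = q + 2 := ⟨p - 2, by have := (Fact.out : p.Prime).two_le; omega⟩
    by_contra hc
    have h2 : 2 * b ≤ Group.nilpotencyClass G - 1 := by omega
    have h3 := Nat.mul_le_mul_right (q + 2 - 1) h2
    rw [show q + 2 - 1 = q + 1 from rfl] at h1 h3
    nlinarith
  · rintro rfl
    refine Group.IsNilpotent.nilpotencyClass_le_one_iff.2 (H4.isMulCommutative_iff'.2 fun a c => ?_)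
    have h1 := (hb c).trans_eq (pow_zero p)
    have h2 : (Subgroup.centralizer ({c} : Set G)).index ≠ 0 := Subgroup.index_ne_zero_of_finite
    have h3 : Subgroup.centralizer ({c} : Set G) = ⊤ := Subgroup.index_eq_one.1 (by omega)
    exact Subgroup.mem_centralizer_singleton_iff.1 (h3 ▸ Subgroup.mem_top a)

end Cfsg.Agent.S3778
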