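import Cfsg.Statements.S3780
import Cfsg.Agent.H4.Max1

set_option autoImplicit false
open Cfsg

namespace Cfsg.Agent.S3780

/-- Let V be a finite abelian p-group and α an automorphism of V of order p whose fixed-point subgroup has order p^n. Then V can be generated by pn elements: some subset of V with at most pn elements generates V. -/
theorem result {V : Type*} [CommGroup V] [Finite V] {p : ℕ} [Fact p.Prime] (hV : IsPGroup p V) (α : MulAut V) (hα : orderOf α = p) (n : ℕ) (hfix : Nat.card {v : V // α v = v} = p ^ n) : ∃ S : Finset V, S.card ≤ p * n ∧ Subgroup.closure (S : Set V) = ⊤ := by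
  have hp : p.Prime := Fact.out
  let A : Module.End ℤ (Additive V) := (MonoidHom.toAdditive α.toMonoidHom).toIntLinearMap
  have hA : ∀ (k : ℕ) (v : V), (A ^ k) (Additive.ofMul v) = Additive.ofMul ((α ^ k) v) := fun k => by
    induction k with
    | zero => exact fun v => rfl
    | succ k ih => exact fun v => by rw [pow_succ, pow_succ, Module.End.mul_apply]; exact ih (α v)
  have hAp : A ^ p = 1 := LinearMap.ext fun v =>
    (hA p v.toMul).trans (by rw [← hα, pow_orderOf_eq_one]; rfl)
  have h1 : ∀ k : ℕ, Nat.card (LinearMap.ker ((A - 1) ^ k)) ≤ p ^ (k * n) := fun k => by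
    induction k with
    | zero => simp
    | succ k ih =>
      let f := (A - 1).domRestrict (LinearMap.ker ((A - 1) ^ (k + 1)))
      have e1 : Nat.card (LinearMap.range f) ≤ Nat.card (LinearMap.ker ((A - 1) ^ k)) :=
        Nat.card_mono (Set.toFinite _) (by rintro _ ⟨x, rfl⟩; exact x.2)
      have e2 : Nat.card (LinearMap.ker f) ≤ p ^ n := hfix ▸ Nat.card_le_card_of_injective
        (fun x => (⟨x.1.1.toMul, (sub_eq_zero.1 x.2 :)⟩ : {v : V // α v = v}))
        fun x y e => Subtype.ext (Subtype.ext (Additive.toMul.injective (Subtype.mk.inj e)))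
      rw [Submodule.card_eq_card_quotient_mul_card (LinearMap.ker f),
        Nat.card_congr f.quotKerEquivRange.toEquiv, add_mul, one_mul, pow_add p, mul_comm]
      exact Nat.mul_le_mul (e1.trans ih) e2
  have h2 : Nat.card (powMonoidHom p : V →* V).ker ≤ p ^ (p * n) := by
    refine le_trans (Nat.card_le_card_of_injective (fun x => (⟨Additive.ofMul x.1, ?_⟩ :
      LinearMap.ker ((A - 1) ^ p))) fun x y e => Subtype.ext
        (Additive.ofMul.injective (Subtype.mk.inj e))) (h1 p)
    have hx : p • Additive.ofMul x.1 = 0 := x.2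
    have k : ∀ T : Module.End ℤ (Additive V), (p * T) (Additive.ofMul x.1) = 0 := fun T => by
      rw [← nsmul_eq_mul, LinearMap.smul_apply, ← map_nsmul, hx, map_zero]
    obtain ⟨r, hr⟩ := (Commute.neg_one_right A).exists_add_pow_prime_eq hp
    rw [LinearMap.mem_ker, sub_eq_add_neg, hr, hAp, LinearMap.add_apply, mul_assoc, mul_assoc, k,
      add_zero]
    rcases hp.eq_two_or_odd' with rfl | ho
    · simpa [one_add_one_eq_two] using k 1
    · rw [ho.neg_one_pow, add_neg_cancel]; rfl
  refine H4.exists_gens hV (K := (powMonoidHom p : V →* V).range) ?_ ?_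
  · rintro _ ⟨x, rfl⟩; exact H4.pow_mem_frattini hV x
  · rwa [Subgroup.index_range]

end Cfsg.Agent.S3780
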