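import Cfsg.Statements.S3783
import Cfsg.Agent.H10.HH6

set_option autoImplicit false
open Cfsg

namespace Cfsg.Agent.S3783

/-- Let G be a finite p-soluble group in which, for every prime q ≠ p, the Sylow q-subgroups are abelian. If the Sylow p-subgroups of G have exponent dividing p^n, then G has p-length at most n. -/
theorem result {G : Type*} [Group G] [Finite G] {p : ℕ} [Fact p.Prime] (hG : Cfsg.IsPSolvable p G) (hab : ∀ (q : ℕ) [Fact q.Prime], q ≠ p → ∀ Q : Sylow q G, IsMulCommutative (Q : Subgroup G)) (n : ℕ) (hexp : ∀ (P : Sylow p G), ∀ x ∈ (P : Subgroup G), x ^ p ^ n = 1) : Cfsg.PLengthLE p n G := by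
  refine H10.HH.plength_of_exp hG (H10.HH.forall_pg (fun _ _ h h' x hx => h' x (h hx)) hexp)
    fun q d k hq hd e => ?_
  haveI := Fact.mk hq
  refine H10.HH.forall_pg (fun _ _ h h' => H19.comm_mono h' h) (hab q ?_)
  rintro rfl
  exact hq.one_lt.ne' (Nat.dvd_one.1 ((Nat.dvd_add_right (dvd_pow_self q hd.ne')).1
    (e ▸ dvd_pow_self q k.succ_ne_zero)))

end Cfsg.Agent.S3783
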