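import Cfsg.Statements.S3785
import Cfsg.Agent.H18.GA
import Cfsg.Agent.H18.Top

set_option autoImplicit false
open Cfsg

namespace Cfsg.Agent.S3785


open Subgroup H19 H18

/-- Let G be a finite solvable group whose Fitting subgroup F(G) has odd order. If an element g of G commutes with every element of prime order of F(G), then g ∈ F(G). -/
theorem result {G : Type*} [Group G] [Finite G] (hG : Group.IsSolvable G) (hodd : Odd (Nat.card (Cfsg.fittingSubgroup G))) (g : G) (hg : ∀ x ∈ Cfsg.fittingSubgroup G, (orderOf x).Prime → g * x = x * g) : g ∈ Cfsg.fittingSubgroup G := by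
  have hs : Sol (⊤ : Subgroup G) := sol_top
  rw [← Fit_top] at hodd hg ⊢
  set F := Fit (⊤ : Subgroup G)
  set M := centralizer {x | x ∈ F ∧ (orderOf x).Prime}
  have hM : M ⊴ ⊤ := ⟨le_top, fun a _ => mem_norm_of_cj_le fun y hy x hx => by
    obtain ⟨z, hz, rfl⟩ := mem_cj'.1 hy
    have := hz (a⁻¹ * x * a) ⟨conj_mem_of_norm' (Fit_norm ⊤ trivial) hx.1, by
      rw [← orderOf_conj' a]; simpa [mul_assoc] using hx.2⟩
    calc _ = a * (a⁻¹ * x * a * z) * a⁻¹ := by group
      _ = _ := by rw [this]; group⟩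
  have h1 : ∀ q Q, PG q Q → Q ≤ M → Q ≤ C(Oc {q}ᶜ F) := fun q Q hQ hle =>
    cents_symm (le_of_syl fun r R hr hR => ?_)
  · refine (le_of_syl (M := M) fun p P hp hP => ?_) fun x hx => (hg x hx.1 hx.2).symm
    have hD := hM.inf ((Fit_normal ⊤).Oc {p}ᶜ).inf_cent
    have hK := hD.inf ((Fit_normal ⊤).Oc {p}ᶜ)
    have hn := hK.norms (le_top (a := M ⊓ (⊤ ⊓ C(Oc {p}ᶜ F))))
    refine (le_inf hP.le (le_inf le_top (h1 p P hP.pi hP.le))).trans (le_Fit hD (nil_of_quo_cent hn
      (inf_le_left.trans (cents_symm ?_)) (PiN.nil (p := p) ((piG_quo_iff hn).2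
        (piN_relIndex_of_syl fun q Q hq hqp hQ hle => le_inf hle ?_)))))
    · exact (inf_le_right.trans inf_le_right).trans (cent_mono inf_le_right)
    refine nil_le_Oc (Fit_nil ⊤) ((le_inf le_top ?_).trans (cent_Fit_le hs)) (hQ.sing_ne hqp)
    rw [← (nil_dprod (Fit_nil (⊤ : Subgroup G)) {p}).sup]
    exact cents_sup ((h1 q Q hQ (hle.trans inf_le_left)).trans (cent_mono (Oc_mono
      (Set.singleton_subset_iff.2 (Ne.symm hqp)) _))) (hle.trans (inf_le_right.trans inf_le_right))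
  rcases eq_or_ne R ⊥ with rfl | h0
  · exact bot_le
  have h2 := hR.pi.le_Oc_of_le_Fit (hR.le.trans (Oc_le _ _))
  have h3 : r ≠ q := hR.pi.mem_of_ne_bot h0 ((Oc_pi _ _).of_le hR.le)
  refine h2.trans (cents_symm (coprime_odd_faithful_elt (Oc_pi _ _) (le_top.trans (Oc_norm _ _))
    ((Oc_pi _ _).coprime (hQ.sing_ne h3.symm)) (odd_mono hodd (Oc_le_Fit _ _)) fun x hx e => ?_))
  rcases eq_or_ne x 1 with rfl | hx1
  · exact one_mem _
  exact mem_cent.2 fun y hy => (hle hy x ⟨Oc_le_Fit _ _ hx, (orderOf_of_pow hr e hx1).symm ▸ hr⟩).symm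

end Cfsg.Agent.S3785
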