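import Cfsg.Statements.S3786
import Cfsg.Agent.H10.HH6
import Cfsg.Agent.S3784

set_option autoImplicit false
open Cfsg

namespace Cfsg.Agent.S3786

/-- The Hall–Higman bound on p-length. Let p be an odd prime and G a finite p-soluble group whose Sylow p-subgroups have exponent dividing p^e. (a) If p is not of the form 2^k + 1, or if the Sylow 2-subgroups of G are abelian, then G has p-length at most e. (b) In every case G has p-length at most 2e. -/
theorem result {G : Type*} [Group G] [Finite G] {p : ℕ} [Fact p.Prime] (hp : p ≠ 2) (hG : Cfsg.IsPSolvable p G) (e : ℕ) (hexp : ∀ (P : Sylow p G), ∀ x ∈ (P : Subgroup G), x ^ p ^ e = 1) : (((¬ ∃ k : ℕ, p = 2 ^ k + 1) ∨ ∀ S : Sylow 2 G, IsMulCommutative (S : Subgroup G)) → Cfsg.PLengthLE p e G) ∧ Cfsg.PLengthLE p (2 * e) G := by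
  have he : H10.HH.ExpP p e G := H10.HH.forall_pg (fun _ _ h h' x hx => h' x (h hx)) hexp
  refine ⟨fun h => H10.HH.plength_of_exp hG he fun q d k hq hd e => ?_,
    H10.HH.plength_of_exp' hp hG he⟩
  have hp' : p.Prime := Fact.out
  have h1 : q = 2 ∧ ∃ k, p = 2 ^ k + 1 := by
    rcases S3784.result p q (k + 1) d hp' hq (by omega) hd e.symm with h | h | h
    · exact absurd h.1 hp
    · exact ⟨h.1, d, h.2.2.2⟩
    · exact ⟨(Nat.prime_dvd_prime_iff_eq hq Nat.prime_two).1 (hq.dvd_of_dvd_pow (n := 3)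
        ((dvd_pow_self q hd.ne').trans h.2.dvd)), 1, (Nat.prime_dvd_prime_iff_eq hp'
        Nat.prime_three).1 (hp'.dvd_of_dvd_pow (n := 2)
        ((dvd_pow_self p k.succ_ne_zero).trans h.1.dvd))⟩
  obtain ⟨rfl, h1⟩ := h1
  exact H10.HH.forall_pg (fun _ _ h h' => H19.comm_mono h' h) (h.resolve_left (not_not.2 h1))

end Cfsg.Agent.S3786
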