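import Cfsg.Statements.S3787
import Cfsg.Agent.H10.HH7
import Cfsg.Agent.H29.Sec

set_option autoImplicit false
open Cfsg

namespace Cfsg.Agent.S3787


open Subgroup H19 H18 H10.HH Module Polynomial
open scoped commutatorElement

theorem cyc_sub {F U : Type*} [Field F] [AddCommGroup U] [Module F U] [FiniteDimensional F U]
    (T : End F U) (n : ℕ) : ∀ v, (T ^ n) v = 0 → (∀ k < n, (T ^ k) v ≠ 0) → ∃ S : Submodule F U,
    S.map T ⊔ F ∙ v = S ∧ finrank F S = n ∧ finrank F (S.map T) = n - 1 ∧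
      S ≤ LinearMap.ker (T ^ n) := by
  induction n with
  | zero => intro v h _; exact ⟨⊥, by simpa using h, by simp, by simp, bot_le⟩
  | succ n ih =>
    intro v h h'
    obtain ⟨S, h1, h2, -, h4⟩ := ih (T v) (by rwa [pow_succ] at h) fun k hk => by
      simpa only [pow_succ, End.mul_apply] using h' (k + 1) (by omega)
    have h5 : (S ⊔ F ∙ v).map T = S := by rw [Submodule.map_sup, Submodule.map_span]; simpa using h1
    refine ⟨S ⊔ F ∙ v, by rw [h5], ?_, by rw [h5, h2]; rfl, sup_le (fun x hx => ?_)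
      ((Submodule.span_singleton_le_iff_mem _ _).2 h)⟩
    · rw [Submodule.finrank_sup_span_singleton fun e => h' n (by omega) (h4 e), h2]
    · rw [LinearMap.mem_ker, pow_succ', End.mul_apply, h4 hx, map_zero]

/-- the data describing the wreath product -/
def Wr (p : ℕ) (W : Type) [Group W] : Prop := ∃ (B : Subgroup W) (t : W), B.Normal ∧
  IsMulCommutative B ∧ (∀ b ∈ B, b ^ p = 1) ∧ Nat.card B = p ^ p ∧ orderOf t = p ∧ t ∉ B ∧
  Nat.card W = p ^ (p + 1) ∧ Nat.card ↥(B ⊓ Subgroup.centralizer ({t} : Set W)) = p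

theorem wr_of {Y : Type*} [Group Y] [Finite Y] {p : ℕ} (hp : p.Prime) {B : Subgroup Y} {t : Y}
    (hB : Abelem p B) (ht : t ∈ N(B)) (h1 : #B = p ^ p) (h2 : t ^ p = 1) (h3 : t ∉ B)
    (h4 : #(B ⊓ C[t]) = p) : ∃ (W : Type) (_ : Group W) (_ : Finite W), Wr p W ∧
      Nonempty (↥(B ⊔ zpowers t) ≃* W) := by
  let e : Shrink.{0} ↥(B ⊔ zpowers t) ≃* ↥(B ⊔ zpowers t) := Shrink.mulEquiv
  let f := (B ⊔ zpowers t).subtype.comp e.toMonoidHom
  have hf : Function.Injective f := (subtype_injective _).comp e.injective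
  have hr : f.range = B ⊔ zpowers t := by
    rw [MonoidHom.range_comp, MonoidHom.range_eq_top.2 e.surjective, ← MonoidHom.range_eq_map,
      range_subtype]
  have hc : ∀ H, H ≤ B → #(H.comap f) = #H := fun H h => by
    rw [← card_map_of_injective hf, map_comap_eq_self ((le_sup_of_le_left h).trans hr.ge)]
  obtain ⟨s, hs⟩ := hr.ge (mem_sup_right (mem_zpowers t))
  refine ⟨_, inferInstance, Finite.of_injective _ hf, ⟨B.comap f, s, ⟨fun x hx g => ?_⟩,
    ⟨⟨fun x y => Subtype.ext (hf ?_)⟩⟩, fun b hb => hf (by rw [map_pow, hB.2 _ hb, map_one]),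
    (hc B le_rfl).trans h1, (orderOf_injective f hf s).symm.trans ((congrArg _ hs).trans
      (orderOf_of_pow hp h2 fun e => h3 (e ▸ one_mem _))), mt (fun e => hs ▸ e) h3, ?_, ?_⟩, ⟨e.symm⟩⟩
  · rw [mem_comap, map_mul, map_mul, map_inv]
    exact conj_mem_of_norm (sup_le le_normalizer (zpowers_le.2 ht) (e g).2) hx
  · simpa using mul_comm_of_comm hB.1 x.2 y.2
  · rw [Nat.card_congr e.toEquiv, H4.card_sup_zpowers_prime hp ht h3 (h2 ▸ one_mem _), h1, pow_succ]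
  · rw [← h4, ← hc _ inf_le_left]
    congr 2
    ext x
    simp only [mem_inf, mem_comap, mem_cent1, ← hs, ← map_mul, hf.eq_iff]

theorem wr_of' {Y : Type*} [Group Y] [Finite Y] {p : ℕ} (hp : p.Prime) {B P : Subgroup Y} {t : Y}
    (hB : Abelem p B) (ht : t ∈ N(B)) (h1 : #B = p ^ p) (h2 : zpowers (t ^ p) ⊓ B = ⊥)
    (h2' : t ^ p ∈ C(B)) (h3 : t ∉ zpowers (t ^ p) ⊔ B) (h4 : #(B ⊓ C[t]) = p) (hP : B ≤ P)
    (htP : t ∈ P) : ∃ (W : Type) (_ : Group W) (_ : Finite W), Wr p W ∧ Involves W P := by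
  have a1 : B ≤ N(zpowers (t ^ p)) := norms_of_cents (cents_symm (zpowers_le.2 h2'))
  have a2 : zpowers t ≤ N(zpowers (t ^ p)) :=
    norms_of_comm (comm_zpowers t) le_rfl (zpowers_le.2 (npow_mem_zpowers _ _))
  have a3 := a2 (mem_zpowers t)
  obtain ⟨W, _, _, h5, ⟨e⟩⟩ := wr_of (t := qmk _ ⟨t, a3⟩) hp (abelem_quo hB (zpowers (t ^ p)))
    (zpowers_le.1 (quo_zpowers a3 ▸ quo_norms (zpowers_le.2 ht)))
    ((card_quo_of_disjoint a1 h2).trans h1) (by rw [← map_pow]; exact qmk_eq_one.2 (mem_zpowers _))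
    (mt (qmk_mem_quo a1).1 h3) (by
      rw [← cent_zpowers, ← quo_zpowers, quo_inf_cent a2 (zpowers_le.2 ht) (by simp [h2])
        (Or.inl (sol_zpowers t)), card_quo_of_disjoint (inf_le_left.trans a1)
        (H19.eq_bot_mono (inf_le_inf_left _ inf_le_left) h2), cent_zpowers, h4])
  rw [← quo_zpowers, ← quo_sup a1 a2] at e
  exact ⟨W, inferInstance, inferInstance, h5, H29.involves_trans (H29.involves_of_surjective
    (e.toMonoidHom.comp (imHom _ (sup_le a1 a2))) (e.surjective.comp (imHom_surj _ _)))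
    (H29.involves_of_le (sup_le hP (zpowers_le.2 htP)))⟩

theorem aux {G : Type*} [Group G] [Finite G] {p : ℕ} [hp : Fact p.Prime] {V P : Subgroup G}
    [V.Normal] (h : Red p V) (hp2 : p ≠ 2) (hnf : ¬ ∃ k : ℕ, p = 2 ^ k + 1) (hP : PG p P)
    (hV : V ≤ P) (hne : ¬ P ≤ V) :
    ∃ (W : Type) (_ : Group W) (_ : Finite W), Wr p W ∧ Involves W P := by
  obtain ⟨_, ⟨g, hg, rfl⟩, h1, h2⟩ := H4.exists_pow_eq_one (pg_map hP (QuotientGroup.mk' V))
    (mt H1.map_mk'_eq_bot_iff.1 hne)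
  have h3 : g ∉ V := mt (QuotientGroup.eq_one_iff g).2 h1
  have h4 : g ^ p ∈ V := (QuotientGroup.eq_one_iff (g ^ p)).1 h2
  have e1 : (X - C 1 : (ZMod p)[X]) ^ p = X ^ p - 1 := by rw [sub_pow_char, C_1, one_pow]
  have e0 := Nat.sub_add_cancel hp.out.pos
  have e2 : (∑ i ∈ Finset.range p, X ^ i : (ZMod p)[X]) = (X - C 1) ^ (p - 1) :=
    mul_left_cancel₀ (X_sub_C_ne_zero 1) (by rw [← pow_succ', e0, e1, C_1, mul_geom_sum])
  set T := h.rep g - 1 with hT
  have e3 : ∀ n, aeval (h.rep g) ((X - C 1 : (ZMod p)[X]) ^ n) = T ^ n := fun n => by simp [hT]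
  obtain ⟨v, hv⟩ : ∃ v, (T ^ (p - 1)) v ≠ 0 := by
    by_contra e
    push Not at e
    have hd : ((X - C 1 : (ZMod p)[X]) ^ (p - 1)).natDegree = p - 1 := by
      rw [natDegree_pow, natDegree_X_sub_C, mul_one]
    rcases h.hh (n := 0) (by simpa using h4) (pow_ne_zero _ (X_sub_C_ne_zero 1))
      ((e3 _).trans (LinearMap.ext e)) (by rw [hd, zero_add, pow_one]; omega) with
      e | ⟨q, d, a, k, -, e, hq, hd, e', -⟩
    · exact h3 (by simpa using e)
    obtain ⟨-, rfl⟩ := Nat.add_eq_zero_iff.1 e.symm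
    rw [zero_add, pow_one] at e'
    rcases hq.eq_two_or_odd' with rfl | ho
    · exact hnf ⟨d, e'.symm⟩
    · exact Nat.not_even_iff_odd.2 (hp.out.odd_of_ne_two hp2) (e' ▸ ho.pow.add_one)
  have e4 : T ^ p = 0 := by
    rw [← e3, e1, map_sub, map_pow, aeval_X, map_one, ← map_pow, sub_eq_zero]
    exact (congrArg h.rep h2).trans (map_one _)
  obtain ⟨S, a1, a2, a3, -⟩ := cyc_sub T p v (by rw [e4]; rfl) fun k hk e => hv (by
    rw [show p - 1 = p - 1 - k + k by omega, pow_add, End.mul_apply, e, map_zero])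
  have a4 : ∀ x ∈ S, T x ∈ S := fun x hx => a1.le (Submodule.mem_sup_left ⟨x, hx, rfl⟩)
  have a5 : v ∈ S := a1.le (Submodule.mem_sup_right (Submodule.mem_span_singleton_self v))
  have a6 := finrank_map_add_inf_ker T S
  replace a6 : finrank (ZMod p) ↥(S ⊓ LinearMap.ker T) = 1 := by omega
  have hle := H9.EA.grp_le h.ab S
  have a7 : ∀ u ∈ V, ∀ x : H9.EA h.ab, ⁅u * g, x.val⁆ = (T x).val := fun u hu x => by
    rw [commutatorElement_mul_left_eq_conj_mul, ← h.val_sub, commutatorElement_eq_one_iff_mul_comm.2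
      (mul_comm_of_comm h.ab.1 hu x.val_mem), mul_comm_of_comm h.ab.1 hu (H9.EA.val_mem _)]
    simp [hT]
  have a8 : ∀ u ∈ V, H9.EA.grp h.ab S ⊓ C[u * g] = H9.EA.grp h.ab (S ⊓ LinearMap.ker T) :=
    fun u hu => by
      have : ∀ x : H9.EA h.ab, x.val ∈ C[u * g] ↔ T x = 0 := fun x => by
        rw [mem_cent1, eq_comm, ← commutatorElement_eq_one_iff_mul_comm, a7 u hu, H9.EA.val_eq_one]
      ext x
      exact ⟨fun ⟨⟨y, hy, e⟩, hx⟩ => ⟨y, ⟨hy, (this y).1 (e ▸ hx)⟩, e⟩,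
        fun ⟨y, hy, e⟩ => ⟨⟨y, hy.1, e⟩, e ▸ (this y).2 hy.2⟩⟩
  have key : ∀ u ∈ V, (u * g) ^ p ∈ V → zpowers ((u * g) ^ p) ⊓ H9.EA.grp h.ab S = ⊥ →
      ∃ (W : Type) (_ : Group W) (_ : Finite W), Wr p W ∧ Involves W P := fun u hu b1 b2 => by
    refine wr_of' hp.out (H19.abelem_mono h.ab hle) (mem_norm_of_cj_le fun y hy => ?_) ?_ b2
      (cent_mono hle (comm_iff_le_cent.1 h.ab.1 b1))
      (fun e => h3 ((mul_mem_cancel_left hu).1 (sup_le (zpowers_le.2 b1) hle e))) ?_ (hle.trans hV)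
      (mul_mem (hV hu) hg)
    · obtain ⟨_, ⟨x, hx, rfl⟩, rfl⟩ := mem_cj'.1 hy
      exact ⟨T x + x, add_mem (a4 x hx) hx, by
        rw [H9.EA.val_add, ← a7 u hu, commutatorElement_def, inv_mul_cancel_right]⟩
    · rw [H9.EA.card_grp, Module.natCard_eq_pow_finrank (K := ZMod p), Nat.card_zmod, a2]
    · rw [a8 u hu, H9.EA.card_grp, Module.natCard_eq_pow_finrank (K := ZMod p), Nat.card_zmod,
        a6, pow_one]
  by_cases e : g ^ p ∈ H9.EA.grp h.ab S
  · obtain ⟨y, hy, e'⟩ := (a8 1 (one_mem _)).le ⟨e, by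
      rw [one_mul]; exact pow_mem (mem_cent1_self g) p⟩
    have b1 : (T ^ (p - 1)) v ∈ S ⊓ LinearMap.ker T := ⟨End.pow_apply_mem_of_forall_mem _ a4 v a5, by
      rw [SetLike.mem_coe, LinearMap.mem_ker, ← End.mul_apply, ← pow_succ', e0, e4]; rfl⟩
    obtain ⟨c, hc⟩ := (finrank_eq_one_iff_of_nonzero' (⟨_, b1⟩ : ↥(S ⊓ LinearMap.ker T))
      (fun e => hv (congrArg Subtype.val e))).1 a6 ⟨y, hy⟩
    have b2 : ((-(c • v)).val * g) ^ p = 1 := by
      rw [h.mul_pow, e2, e3, map_neg, map_smul, ← e', ← H9.EA.val_add, H9.EA.val_eq_one]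
      exact neg_add_eq_zero.2 (congrArg Subtype.val hc)
    exact key _ (H9.EA.val_mem _) (b2 ▸ one_mem _) (by rw [b2, zpowers_one_eq_bot, bot_inf_eq])
  · refine key 1 (one_mem _) (by rwa [one_mul]) ?_
    rw [one_mul]
    exact inf_eq_bot_of_prime (el1_zpowers' hp.out (mem_top _) (h.ab.2 _ h4)
      fun e' => e (e' ▸ one_mem _)).prime_card (mt zpowers_le.1 e)

/-- Let G be a finite p-soluble group, p an odd prime not of the form 2^k + 1, and suppose the wreath product C_p ≀ C_p (of order p^(p+1)) is not involved in a Sylow p-subgroup of G: no section of a Sylow p-subgroup is isomorphic to it. Then G has p-length at most 1. -/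
theorem result {G : Type*} [Group G] [Finite G] {p : ℕ} [Fact p.Prime] (hp2 : p ≠ 2) (hnf : (¬ ∃ k : ℕ, p = 2 ^ k + 1)) (hG : Cfsg.IsPSolvable p G) (P : Sylow p G) (hwr : ∀ (W : Type) [Group W] [Finite W], (∃ (B : Subgroup W) (t : W), B.Normal ∧ IsMulCommutative B ∧ (∀ b ∈ B, b ^ p = 1) ∧ Nat.card B = p ^ p ∧ orderOf t = p ∧ t ∉ B ∧ Nat.card W = p ^ (p + 1) ∧ Nat.card ↥(B ⊓ Subgroup.centralizer ({t} : Set W)) = p) → ¬ Cfsg.Involves W ↥(P : Subgroup G)) : Cfsg.PLengthLE p 1 G := by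
  obtain ⟨G', _, _, π, V, _, hπ, hV, e⟩ := exists_red hG
  have h1 := (syl_sylow_top P).map π
  rw [map_top_of_surjective _ hπ] at h1
  rw [H1.pLengthLE_one_iff_sylow_le P, ← e, ← map_le_iff_le_comap]
  by_contra hne
  obtain ⟨W, _, _, h2, h3⟩ := aux hV hp2 hnf h1.pi
    (h1.le_of_norm' le_top hV.pg le_normalizer_of_normal) hne
  exact hwr W h2 (H29.involves_trans h3 (H29.involves_of_surjective _ (π.subgroupMap_surjective _)))

end Cfsg.Agent.S3787
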