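import Cfsg.Statements.S3788
import Cfsg.Agent.H10.HH7
import Cfsg.Agent.H9.PQuot
import Cfsg.Agent.H3.ThompsonNPC
import Cfsg.Agent.H4.ClassTwo

set_option autoImplicit false
open Cfsg

namespace Cfsg.Agent.S3788


open Subgroup H19 H18 H10.HH
open scoped commutatorElement

theorem aux {G : Type*} [Group G] [Finite G] {p : ℕ} [hp : Fact p.Prime] {V : Subgroup G}
    [V.Normal] (h : Red p V) {a : G} (ha : PG p (zpowers a)) (hn : V ≤ N(zpowers a))
    (h2 : p ≠ 2 ∨ ¬ Involves (Equiv.Perm (Fin 4)) G) : a ∈ V := by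
  classical
  obtain ⟨K, hK, hN, h1⟩ := h.exists_compl
  by_contra hne
  obtain ⟨v, hv, hvn⟩ := exists_mul_mem_norm h.pg hK (cj_le_of_mem_norm
    (le_normalizer_of_normal (mem_top a)) le_sup_right)
  have hc := h.pg.coprime hK
  have h3 : ∀ u ∈ V, ⁅u, a⁆ ∈ V ⊓ zpowers a := fun u hu =>
    commg_le_inf le_normalizer_of_normal hn (commutator_mem_commutator hu (mem_zpowers a))
  have h4 : ∀ x ∈ zpowers a, Commute a x := fun x hx =>
    mul_comm_of_comm (comm_zpowers a) (mem_zpowers a) hx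
  have h5 : a ^ p ∈ V := h.cent fun u hu => commutatorElement_eq_one_iff_mul_comm.1 (by
    rw [H4.commutator_pow_right (h4 _ (h3 u hu).2), h.ab.2 _ (h3 u hu).1])
  have h6 : V ⊓ zpowers a ≤ zpowers (a ^ p) := fun x hx => by
    obtain ⟨i, -, rfl⟩ := Finset.mem_image.1 (mem_zpowers_iff_mem_range_orderOf.1 hx.2)
    by_cases e : p ∣ i
    · obtain ⟨j, rfl⟩ := e
      exact pow_mul a p j ▸ npow_mem_zpowers _ _
    · exact absurd (zpowers_le.2 hx.1 (mem_zpowers_pow_iff.2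
        ((PiN.of_not_dvd e).coprime' (piG_zpowers.1 ha)))) hne
  have h7 : ∀ u ∈ V, ⁅u, v * a⁆ ∈ zpowers (a ^ p) := fun u hu => by
    rw [commutatorElement_mul_right_eq_mul_conj, commutatorElement_eq_one_iff_mul_comm.2
      (mul_comm_of_comm h.ab.1 hu hv), one_mul, mul_comm_of_comm h.ab.1 hv (h3 u hu).1,
      mul_inv_cancel_right]
    exact h6 (h3 u hu)
  have hz := zpowers_le.2 hvn
  have h8 : ¬ ⁅K, zpowers (v * a)⁆ ≤ V := fun e => hne ((mul_mem_cancel_left hv).1 (h1 _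
    ((h.pg_sup ha).of_le (zpowers_le.2 (mul_mem_sup hv (mem_zpowers a)))) e (mem_zpowers _)))
  rcases eq_or_ne p 2 with rfl | hp2
  swap
  · have e1 : ⁅a, v⁆ ∈ V ⊓ zpowers a := commutatorElement_inv v a ▸ inv_mem (h3 v hv)
    have e2 := inf_norm_le_cent h.pg hK ⟨h5, show a ^ p ∈ N(K) by
      rw [← one_mul (a ^ p), ← h.ab.2 v hv, ← H4.mul_pow_of_odd (hp.out.odd_of_ne_two hp2)
        (mul_comm_of_comm h.ab.1 hv e1.1) (h4 _ e1.2) (h.ab.2 _ e1.1)]
      exact pow_mem hvn p⟩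
    refine h8 ((le_inf le_rfl (commg_le_left hz)).trans (h.le_of_cent hK fun w hw =>
      commutatorElement_eq_one_iff_mul_comm.1 (mem_bot.1 (ab_commg_inf_cent h.ab.1
        le_normalizer_of_normal hc ▸ ⟨commg_le_left (norms_comm le_normalizer_of_normal hz)
        (commutator_mem_commutator hw (mem_zpowers _)), zpowers_le.2 e2
        (h7 w (commg_le_left le_normalizer_of_normal hw))⟩))))
  refine h2.resolve_left (not_not.2 rfl) ?_
  have e1 : (v * a) ^ 2 ∈ V := by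
    simpa [sq, mul_assoc] using mul_mem (mul_mem hv (Normal.conj_mem inferInstance v hv a)) h5
  have e2 := inf_norm_le_cent h.pg hK ⟨e1, pow_mem hvn 2⟩
  set t := v * a
  obtain ⟨k, hk, e3⟩ : ∃ k ∈ K, ⁅k, t⁆ ≠ 1 := by
    by_contra e
    push Not at e
    refine h8 ((commg_eq_bot.2 ?_).le.trans bot_le)
    rw [cent_zpowers]
    exact fun k hk => mem_cent1.2 (commutatorElement_eq_one_iff_mul_comm.1 (e k hk))
  have e4 : ⁅k, t⁆ ∈ K := commg_le_left hz (commutator_mem_commutator hk (mem_zpowers t))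
  have e5 : t * ⁅k, t⁆ * t⁻¹ = ⁅k, t⁆⁻¹ := by
    calc _ = t * k * t⁻¹ * (t ^ 2 * k⁻¹) * (t ^ 2)⁻¹ := by
          simp only [commutatorElement_def]; group
      _ = _ := by rw [← e2 _ (inv_mem hk), commutatorElement_def]; group
  have e0 : ∀ x ∈ K, x ∈ C(V) → x = 1 := fun x h1 h2 =>
    mem_bot.1 (h.pg.inf_eq_bot hK ▸ ⟨h.cent h2, h1⟩)
  set y := ⁅k, t⁆ with hy
  have hyV : zpowers y ≤ N(V) := le_normalizer_of_normal
  have hy' := hK.of_le (zpowers_le.2 e4)
  have e6 : #(⁅V, zpowers y⁆) ≤ 4 := by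
    have a1 : ∀ g, cj g (zpowers (a ^ 2)) ≤ V := fun g =>
      cj_le_of_mem_norm (le_normalizer_of_normal (mem_top g)) (zpowers_le.2 h5)
    have a2 : #(zpowers (a ^ 2)) ∣ 2 := by
      rw [Nat.card_zpowers]; exact orderOf_dvd_of_pow_eq_one (h.ab.2 _ h5)
    refine (card_le (K := cj k (zpowers (a ^ 2)) ⊔ cj y (zpowers (a ^ 2))) fun x hx => ?_).trans
      (Nat.le_of_dvd four_pos ((card_sup_dvd (norms_of_comm h.ab.1 (a1 _) (a1 _))).trans ?_))
    · obtain ⟨u, hu, rfl⟩ := (H9.mem_commutator_zpowers_iff (comm_iff_le_cent.1 h.ab.1)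
        (hyV (mem_zpowers y))).1 hx
      have : ⁅u, y⁆ = k * ⁅k⁻¹ * u * k, t⁆ * k⁻¹ * (y * ⁅u, t⁆⁻¹ * y⁻¹) := by
        simp only [hy, commutatorElement_def]; group
      rw [this]
      exact mul_mem_sup (conj_mem_cj.2 (h7 _ (Normal.conj_mem' inferInstance u hu k)))
        (conj_mem_cj.2 (inv_mem (h7 u hu)))
    · rw [card_cj, card_cj]; exact mul_dvd_mul a2 a2
  have e7 : C(⁅V, zpowers y⁆).relIndex (zpowers y) ∣ 2 ^ 3 * 3 :=
    (relIndex_cent_dvd (commg_normr _ _)).trans ((card_dvd_of_injective (MulAut.toPerm _)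
      fun f g e => MulEquiv.ext fun x => DFunLike.congr_fun e x).trans
      (by rw [Nat.card_perm]; exact Nat.factorial_dvd_factorial e6))
  have e8 : y ^ 3 ∈ C(V) := by
    obtain ⟨m, hm⟩ := ((hy'.relIndex _).coprime' (PiN.prime_pow Nat.prime_two 3)).dvd_of_dvd_mul_left
      e7
    rw [← (ab_cent_dprod h.ab.1 hyV (h.pg.coprime hy')).sup, cent_sup]
    refine ⟨cents_symm inf_le_right (npow_mem_zpowers y 3), ?_⟩
    haveI := (inf_cent_normal (commg_normr V (zpowers y))).subgroupOf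
    rw [hm, pow_mul, ← inf_relIndex_left]
    exact pow_mem (pow_index_mem (H := (zpowers y ⊓ C(⁅V, zpowers y⁆)).subgroupOf (zpowers y))
      ⟨y, mem_zpowers y⟩).2 m
  haveI := Fact.mk Nat.prime_three
  exact H3.involves_S4_of_S3 h.ab (hyV (mem_zpowers y)) (le_normalizer_of_normal (mem_top t))
    (mem_norm_iff_cj.2 (by rw [cj_zpowers, e5, zpowers_inv])) (H1.isPGroup_zpowers_of_orderOf_eq
      (orderOf_eq_prime (e0 _ (pow_mem e4 3) e8) e3)) (fun e => e3 (e0 y e4 e)) e8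
    (comm_iff_le_cent.1 h.ab.1 e1) (by rw [e5, mul_inv_cancel]; exact one_mem _)

/-- Let G be a finite p-soluble group, P a Sylow p-subgroup of G and A a cyclic normal subgroup of P. If p is odd, or if no section of G is isomorphic to the symmetric group of degree 4, then A ≤ O_{p',p}(G). -/
theorem result {G : Type*} [Group G] [Finite G] {p : ℕ} [Fact p.Prime] (hG : Cfsg.IsPSolvable p G) (P : Sylow p G) (A : Subgroup G) (hAP : A ≤ (P : Subgroup G)) (hAn : (P : Subgroup G) ≤ Subgroup.normalizer (A : Set G)) (hA : IsCyclic A) (h : p ≠ 2 ∨ ¬ Cfsg.Involves (Equiv.Perm (Fin 4)) G) : A ≤ Cfsg.pPrimePCore p G := by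
  obtain ⟨G', _, _, π, V, _, hπ, hV, e⟩ := exists_red hG
  obtain ⟨a, rfl⟩ := cyc_iff.1 hA
  have h1 := (syl_sylow_top P).map π
  rw [map_top_of_surjective _ hπ] at h1
  rw [← e, zpowers_le, mem_comap]
  refine aux hV ?_ ?_ (h.imp_right (mt fun h => H29.involves_trans h
    (H29.involves_of_surjective π hπ))) <;> rw [← MonoidHom.map_zpowers]
  · exact h1.pi.of_le (map_mono hAP)
  · exact (h1.le_of_norm' le_top hV.pg le_normalizer_of_normal).trans
      ((map_mono hAn).trans (le_normalizer_map π))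

end Cfsg.Agent.S3788
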