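import Cfsg.Statements.S3790
import Cfsg.Agent.H10.HH6

set_option autoImplicit false
open Cfsg

namespace Cfsg.Agent.S3790


universe u

theorem aux {ι : Type} (p : ℕ) [Fact p.Prime] (q l : ι → ℕ) (hq : ∀ i, (q i).Prime ∧ q i ≠ p)
    (s : Finset ι) : ∀ (G : Type u) [Group G] [Finite G],
    (∀ t : ℕ, t.Prime → t ∣ Nat.card G → t ≠ p → ∃ i ∈ s, q i = t) →
    (∀ i ∈ s, PLengthLE (q i) (l i) G) → PLengthLE p (∏ i ∈ s, (1 + l i)) G := by
  classical
  induction s using Finset.induction_on with
  | empty =>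
    intro G _ _ h _
    refine H1.pLengthLE_one_of_isPGroup (IsPGroup.of_equiv (H19.pG_iff.1 fun t ht hd => ?_)
      Subgroup.topEquiv)
    by_contra e
    simpa using h t ht (Subgroup.card_top (G := G) ▸ hd) e
  | insert j s hj ih =>
    haveI := Fact.mk (hq j).1
    have h0 : ∀ (G : Type u) [Group G] [Finite G], (Nat.card G).Coprime (q j) →
        (∀ t : ℕ, t.Prime → t ∣ Nat.card G → t ≠ p → ∃ i ∈ insert j s, q i = t) →
        (∀ i ∈ s, PLengthLE (q i) (l i) G) → PLengthLE p (∏ i ∈ s, (1 + l i)) G :=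
      fun G _ _ hc h1 h2 => ih G (fun t ht hd e => by
        obtain ⟨i, hi, rfl⟩ := h1 t ht hd e
        rcases Finset.mem_insert.1 hi with rfl | hi
        · exact absurd hd (ht.coprime_iff_not_dvd.1 hc.symm)
        · exact ⟨i, hi, rfl⟩) h2
    rw [Finset.prod_insert hj]
    suffices ∀ (m : ℕ) (G : Type u) [Group G] [Finite G], PLengthLE (q j) m G →
        (∀ t : ℕ, t.Prime → t ∣ Nat.card G → t ≠ p → ∃ i ∈ insert j s, q i = t) →
        (∀ i ∈ s, PLengthLE (q i) (l i) G) → PLengthLE p ((1 + m) * ∏ i ∈ s, (1 + l i)) G from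
      fun G _ _ h1 h2 => this _ G (h2 j (by simp)) h1 fun i hi => h2 i (by simp [hi])
    intro m
    induction m with
    | zero => intro G _ _ h; simpa using h0 G (H1.pLengthLE_zero_iff.1 h)
    | succ m ihm =>
      intro G _ _ h h1 h2
      have h3 : ∀ (N : Subgroup G) [N.Normal], ∀ i ∈ s, PLengthLE (q i) (l i) N ∧
          PLengthLE (q i) (l i) (G ⧸ N) := fun N _ i hi =>
        haveI := Fact.mk (hq i).1
        ⟨H1.pLengthLE_subgroup (h2 i hi) N, H1.pLengthLE_quotient (h2 i hi) N⟩
      rw [add_comm m, add_mul, one_mul]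
      refine H10.HH.plength_add _ (h0 _ H1.pPrimeCore_coprime (fun t ht hd => h1 t ht
        (hd.trans (Subgroup.card_subgroup_dvd_card _))) fun i hi => (h3 _ i hi).1) ?_
      rw [← H1.pLengthLE_quotient_iff (pCore (q j) _) (H19.PiN.coprime_prime
        ((H19.pG_iff.2 H1.pCore_isPGroup).sing_ne (hq j).2) Fact.out)]
      have e := (QuotientGroup.quotientQuotientEquivQuotient _ _
        (H1.pPrimeCore_le_pPrimePCore (p := q j) (G := G))).symm.trans
        (QuotientGroup.quotientMulEquivOfEq H1.map_pPrimePCore_mk')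
      exact (H1.pLengthLE_congr e).1 (ihm _ (H1.pLengthLE_succ_iff.1 h) (fun t ht hd => h1 t ht
        (hd.trans (Subgroup.card_quotient_dvd_card _))) fun i hi => (h3 _ i hi).2)

/-- Let G be a finite solvable group and p a prime. Suppose p₁, …, p_r are distinct primes, all different from p, that include every prime dividing the order of G other than p, and that G has p_i-length at most l_i for each i. Then G has p-length at most the product of the numbers 1 + l_i. -/
theorem result {G : Type*} [Group G] [Finite G] (hG : Group.IsSolvable G) (p : ℕ) [Fact p.Prime] (r : ℕ) (q : Fin r → ℕ) (hq : ∀ i, (q i).Prime ∧ q i ≠ p) (hinj : Function.Injective q) (hcover : ∀ s : ℕ, s.Prime → s ∣ Nat.card G → s ≠ p → ∃ i, q i = s) (l : Fin r → ℕ) (hl : ∀ i, Cfsg.PLengthLE (q i) (l i) G) : Cfsg.PLengthLE p (Finset.univ.prod fun i => 1 + l i) G := by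
  exact aux p q l hq Finset.univ G (fun t ht hd e => by simpa using hcover t ht hd e)
    fun i _ => hl i

end Cfsg.Agent.S3790
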