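import Cfsg.Statements.S3791
import Cfsg.Agent.H10.HH6
import Cfsg.Agent.H10.FixAut

set_option autoImplicit false
open Cfsg

namespace Cfsg.Agent.S3791


universe u
open H10 H10.HH H19

theorem aux {ι : Type} [Fintype ι] (q d : ι → ℕ) (hq : ∀ i, (q i).Prime) (n : ℕ) :
    ∀ (G : Type u) [Group G] [Finite G] (l : ι → ℕ), Nat.card G = n → Group.IsSolvable G →
    (∀ s : ℕ, s.Prime → s ∣ Nat.card G → ∃ i, q i = s) → (∀ i, DerP (q i) (d i) G) →
    (∀ i, PLengthLE (q i) (l i) G) → derivedSeries G (∑ i, d i * l i) = ⊥ := by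
  classical
  induction n using Nat.strong_induction_on with
  | _ n ih =>
  intro G _ _ l hn hs h1 h2 h3
  have key : ∀ (N : Subgroup G) [N.Normal] (l : ι → ℕ), N ≠ ⊥ →
      (∀ i, PLengthLE (q i) (l i) (G ⧸ N)) → derivedSeries G (∑ i, d i * l i) ≤ N :=
    fun N _ l h0 h => derivedSeries_le_of_quotient (ih _ (hn ▸ H1.card_quotient_lt h0) _ l rfl
      inferInstance (fun s hs hd => h1 s hs (hd.trans (Subgroup.card_quotient_dvd_card _)))
      (fun i => haveI := Fact.mk (hq i); (h2 i).map (QuotientGroup.mk'_surjective _)) h)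
  have h4 : ∀ (N : Subgroup G) [N.Normal] i, PLengthLE (q i) (l i) (G ⧸ N) := fun N _ i =>
    haveI := Fact.mk (hq i); H1.pLengthLE_quotient (h3 i) N
  rcases subsingleton_or_nontrivial G with h0 | h0
  · exact Subsingleton.elim _ _
  by_cases h : ∃ i, pPrimeCore (q i) G = ⊥
  · obtain ⟨i, h⟩ := h
    haveI := Fact.mk (hq i)
    have h5 := (H1.pCore_ne_bot_or_of_isPSolvable (p := q i)
      (H1.isPSolvable_of_isSolvable hs)).resolve_right (not_not.2 h)
    obtain ⟨m, hm⟩ : ∃ m, l i = m + 1 := Nat.exists_eq_succ_of_ne_zero fun e => h5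
      ((pG_iff.2 H1.pCore_isPGroup).eq_bot ((PiN.of_coprime (H1.pLengthLE_zero_iff.1
        (e ▸ h3 i))).dvd (Subgroup.card_subgroup_dvd_card _)))
    have e : ∑ j, d j * l j = ∑ j, d j * Function.update l i m j + d i := by
      rw [← Finset.add_sum_erase _ _ (Finset.mem_univ i), ← Finset.add_sum_erase _
        (fun j => d j * Function.update l i m j) (Finset.mem_univ i), Function.update_self, hm,
        Finset.sum_congr (f := fun j => d j * Function.update l i m j) (g := fun j => d j * l j) rfl
          fun j hj => by rw [Function.update_of_ne (Finset.ne_of_mem_erase hj)]]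
      ring
    rw [e]
    refine derivedSeries_add_eq_bot (key _ _ h5 fun j => ?_)
      (dS_eq_bot.1 (h2 i _ (pG_iff.2 H1.pCore_isPGroup)))
    rcases eq_or_ne j i with rfl | hj
    · rw [Function.update_self]
      exact (H1.pLengthLE_congr (QuotientGroup.quotientMulEquivOfEq (H1.pPrimePCore_eq_pCore h))).1
        (H1.pLengthLE_succ_iff.1 (hm ▸ h3 j))
    · rw [Function.update_of_ne hj]; exact h4 _ j
  · push Not at h
    by_contra hne
    obtain ⟨s, hs, hd⟩ := exists_prime_dvd_card hne
    obtain ⟨i, rfl⟩ := h1 s hs (hd.trans (Subgroup.card_subgroup_dvd_card _))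
    exact hs.coprime_iff_not_dvd.1 H1.pPrimeCore_coprime.symm
      (hd.trans (card_dvd (key _ l (h i) (h4 _))))

/-- The Hall–Higman bound on derived length: let G be a finite solvable group, let p₁, …, p_r be distinct primes that include every prime dividing the order of G, and suppose that for each i the Sylow p_i-subgroups of G have derived length at most d_i and G has p_i-length at most l_i. Then G has derived length at most Σ d_i l_i. -/
theorem result {G : Type*} [Group G] [Finite G] (hG : Group.IsSolvable G) (r : ℕ) (q : Fin r → ℕ) (hq : ∀ i, (q i).Prime) (hinj : Function.Injective q) (hcover : ∀ s : ℕ, s.Prime → s ∣ Nat.card G → ∃ i, q i = s) (d l : Fin r → ℕ) (hd : ∀ i, ∀ P : Subgroup G, (haveI := Fact.mk (hq i); ∃ S : Sylow (q i) G, (S : Subgroup G) = P) → derivedSeries ↥P (d i) = ⊥) (hl : ∀ i, Cfsg.PLengthLE (q i) (l i) G) : derivedSeries G (Finset.univ.sum fun i => d i * l i) = ⊥ := by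
  exact aux q d hq _ G l rfl hG hcover (fun i => haveI := Fact.mk (hq i)
    forall_pg (fun _ _ h h' => le_bot_iff.1 ((dS_mono h _).trans h'.le))
      fun P => dS_eq_bot.2 (hd i P ⟨P, rfl⟩)) hl

end Cfsg.Agent.S3791
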