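import Cfsg.Statements.S3792
import Cfsg.Agent.H10.HH7

set_option autoImplicit false
open Cfsg

namespace Cfsg.Agent.S3792


open Subgroup H19 H18 H10.HH
open scoped commutatorElement

/-- Powell's Theorem: let G be a finite non-abelian simple group and p an odd prime dividing its order such that every proper subgroup of G is p-soluble. Then G can be generated by three elements. -/
theorem result {G : Type*} [Group G] [Finite G] [IsSimpleGroup G] (hna : ¬ IsMulCommutative G) {p : ℕ} [Fact p.Prime] (hp : p ≠ 2) (hdvd : p ∣ Nat.card G) (hprop : ∀ H : Subgroup G, H ≠ ⊤ → Cfsg.IsPSolvable p ↥H) : ∃ x y z : G, Subgroup.closure ({x, y, z} : Set G) = ⊤ := by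
  by_contra hne
  push Not at hne
  have hp' : p.Prime := Fact.out
  have hs : ∀ x y z : G, IsPSolvable p (closure {x, y, z}) := fun x y z => hprop _ (hne x y z)
  have m1 : ∀ x y z : G, x ∈ closure {x, y, z} := fun _ _ _ => subset_closure (by simp)
  have m2 : ∀ x y z : G, y ∈ closure {x, y, z} := fun _ _ _ => subset_closure (by simp)
  have m3 : ∀ x y z : G, z ∈ closure {x, y, z} := fun _ _ _ => subset_closure (by simp)
  have mono : ∀ x y s : G, (∀ g, s ∈ Opp p (closure {x, y, g})) → Good p s := fun x y s h g =>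
    mem_Opp_mono hp' ((closure_le _).2 (Set.insert_subset (Opp_le _ _ (h g))
      (Set.singleton_subset_iff.2 (m3 _ _ _)))) (subset_closure (by simp)) (h g)
  let S : Subgroup G :=
    { carrier := {s | Good p s}
      one_mem' := fun _ => one_mem _
      mul_mem' := fun {x y} hx hy => mono x y _ fun g =>
        mul_mem (hx.mem_Opp (hs _ _ _) (m1 _ _ _)) (hy.mem_Opp (hs _ _ _) (m2 _ _ _))
      inv_mem' := fun hx => hx.pow hp' (inv_mem (mem_zpowers _)) }
  have hS : S.Normal := ⟨fun s h g => Good.map (f := (MulAut.conj g).toMonoidHom) hp' h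
    (MulAut.conj g).surjective⟩
  have hsub : ∀ (H P : Subgroup G), PG p P → PG p ((P.subgroupOf H).map
      (QuotientGroup.mk' (pPrimePCore p H))) := fun H P hP =>
    pg_map (hP.dvd (card_comap_dvd_of_injective _ _ H.subtype_injective)) _
  have hS0 : S ≠ ⊥ := by
    have h1 : ∃ e, ExpP p e G := ⟨Nat.card G, fun P hP x hx => by
      obtain ⟨k, hk⟩ := (hP.elt hx).exists_pow (orderOf_pos x).ne'
      refine orderOf_dvd_iff_pow_eq_one.1 (hk ▸ pow_dvd_pow p ?_)
      exact (Nat.lt_pow_self hp'.one_lt).le.trans (hk ▸ orderOf_le_card)⟩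
    classical
    obtain ⟨n, hn⟩ := Nat.exists_eq_succ_of_ne_zero (n := Nat.find h1) fun e =>
      hp'.coprime_iff_not_dvd.1 (H1.pLengthLE_zero_iff.1 (e ▸ Nat.find_spec h1).zero).symm hdvd
    have h2 : ExpP p (n + 1) G := by have := Nat.find_spec h1; rwa [hn] at this
    have h3 : ∀ H : Subgroup G, ExpP p (n + 1) H := fun H P hP x hx =>
      Subtype.ext (h2 _ (pg_map hP H.subtype) x (mem_map_of_mem _ hx))
    by_cases hc : CommP p n G
    · have h4 := Nat.find_min h1 (hn ▸ n.lt_succ_self)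
      simp only [ExpP, not_forall] at h4
      obtain ⟨P, hP, x, hx, h4⟩ := h4
      refine ne_bot_of_mem (mono x x _ fun g => ⟨⟨x, m1 _ _ _⟩ ^ p ^ n, ?_, rfl⟩) h4
      exact (QuotientGroup.eq_one_iff _).1 ((h3 _).quo_of_comm hp (hs _ _ _) (fun P hP y hy z hz =>
        Subtype.ext (hc _ (pg_map hP (Subgroup.subtype _)) y (mem_map_of_mem _ hy) z
          (mem_map_of_mem _ hz))) _ (hsub _ P hP) _ (mem_map_of_mem _ hx))
    · simp only [CommP, not_forall] at hc
      obtain ⟨P, hP, x, hx, y, hy, h4⟩ := hc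
      refine ne_bot_of_mem (mono x y _ fun g =>
        ⟨⁅(⟨x, m1 _ _ _⟩ : closure {x, y, g}) ^ p ^ n, ⟨y, m2 _ _ _⟩ ^ p ^ n⁆, ?_, rfl⟩) h4
      exact (QuotientGroup.eq_one_iff _).1 ((h3 _).comm hp (hs _ _ _) _ (hsub _ P hP) _
        (mem_map_of_mem _ hx) _ (mem_map_of_mem _ hy))
  have h1 : ∀ x, Good p x := fun x => ((hS.eq_bot_or_eq_top.resolve_left hS0).ge (mem_top x) :)
  let T : Subgroup G :=
    { carrier := {s | PiE {p}ᶜ s}
      one_mem' := PiN.e_one
      mul_mem' := fun {x y} hx hy => (Oc_pi _ _).elt (mul_mem (mem_Oc_of_mem_Opp hp'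
        ((h1 x).mem_Opp (hs x y y) (m1 _ _ _)) hx) (mem_Oc_of_mem_Opp hp'
        ((h1 y).mem_Opp (hs x y y) (m2 _ _ _)) hy))
      inv_mem' := PiN.e_inv }
  rcases (⟨fun s h g => PiN.e_conj h g⟩ : T.Normal).eq_bot_or_eq_top with h | h
  · have h2 : PG p (⊤ : Subgroup G) := fun q hq hd => by
      by_contra e
      obtain ⟨x, -, hx⟩ := exists_orderOf_eq_prime hq hd
      have : x ∈ T := (show PiN _ _ from hx ▸ (piN_prime hq).2 e)
      rw [h, mem_bot] at this
      exact hq.one_lt.ne (by rw [← hx, this, orderOf_one])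
    haveI := (IsPGroup.of_equiv h2.isPGroup topEquiv).isNilpotent
    exact hna ⟨⟨IsSimpleGroup.comm_iff_isSolvable.2 inferInstance⟩⟩
  · obtain ⟨x, -, hx⟩ := exists_orderOf_eq_prime (H := ⊤) hp' (card_top (G := G) ▸ hdvd)
    exact (h.ge (mem_top x) : PiN _ _) p hp' (hx ▸ dvd_rfl) rfl

end Cfsg.Agent.S3792
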