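import Cfsg.Statements.S3794
import Cfsg.Agent.H10.HH9

set_option autoImplicit false
open Cfsg

namespace Cfsg.Agent.S3794

/-- Let G be a finite solvable group with an automorphism σ satisfying σ⁴ = 1 and fixing only the identity. Then the derived subgroup G' is nilpotent. -/
theorem result {G : Type*} [Group G] [Finite G] (hG : Group.IsSolvable G) (σ : MulAut G) (hσ : σ ^ 4 = 1) (hfpf : ∀ g : G, σ g = g → g = 1) : Group.IsNilpotent (commutator G) := by
  obtain ⟨X, _, _, i, t, h1, h2, h3⟩ := H10.HH.exists_act_cyc (n := 2) hG Nat.prime_two σ hσ hfpf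
  exact H10.HH.nil_der_of_le_Fit h1 (H10.HH.der_le_Fit_four h2 h3)

end Cfsg.Agent.S3794
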