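import Cfsg.Statements.S3796
import Cfsg.Agent.H10.HH10

set_option autoImplicit false
open Cfsg

namespace Cfsg.Agent.S3796

open H19 in

/-- Ward's Theorem: let G be a finite solvable group and A an elementary abelian group of automorphisms of G of order p² (p a prime) with no non-identity common fixed point. Then G has Fitting height at most 2: G has Fitting height at most m when there is a chain of normal subgroups 1 = F₀ ≤ F₁ ≤ ⋯ ≤ F_m = G with each F_{i+1}/F_i nilpotent. -/
theorem result {G : Type*} [Group G] [Finite G] (hG : Group.IsSolvable G) {p : ℕ} (hp : p.Prime) (A : Subgroup (MulAut G)) (hA : Cfsg.IsElementaryAbelian p A) (hcard : Nat.card A = p ^ 2) (hfpf : ∀ g : G, (∀ a ∈ A, a g = g) → g = 1) : ∃ F : Fin (2 + 1) → Subgroup G, F 0 = ⊥ ∧ F (Fin.last 2) = ⊤ ∧ Monotone F ∧ (∀ i, (F i).Normal) ∧ ∀ i : Fin 2, ∃ k : ℕ, (F i.succ).lowerCentralSeries k ≤ F i.castSucc := by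
  obtain ⟨X, _, _, i, j, h1, h2, h3, h4, h5⟩ := H10.HH.exists_amb A.subtype
    fun g hg => hfpf g fun a ha => hg ⟨a, ha⟩
  have e : Nat.card j.range = p ^ 2 := by
    rw [← hcard, Nat.card_congr (MonoidHom.ofInjective h2).toEquiv]
  have hE : El p 2 j.range j.range := ⟨hp, le_rfl, ⟨haveI := hA.1; inferInstance, by
    rintro _ ⟨a, rfl⟩
    rw [← map_pow, ← map_one j]
    exact congrArg j (Subtype.ext (hA.2 a a.2))⟩, e⟩
  exact (H10.HH.ward ⟨h3, h4, H10.HH.cop_of_fpf hp hE.pg Subgroup.le_normalizer_of_normal h5,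
    Group.isSolvable_of_surjective i.rangeRestrict_surjective, hE.pg.sol, h5⟩ hE).final h1

end Cfsg.Agent.S3796
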