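import Cfsg.Statements.S3798
import Cfsg.Agent.H10.HH7

set_option autoImplicit false
open Cfsg

namespace Cfsg.Agent.S3798


open Subgroup H19 H18 H10.HH

theorem aux {G : Type*} [Group G] [Finite G] {p : ℕ} [hp : Fact p.Prime] (hp2 : p ≠ 2)
    (hG : IsPSolvable p G) (h0 : pPrimeCore p G = ⊥) (h : ∀ H : Subgroup G, H.Characteristic →
      p ∣ #H → ∀ x, x ^ p = 1 → x ∈ H) : PLengthLE p 1 G := by
  rcases subsingleton_or_nontrivial G with h1 | h1
  · exact H1.pLengthLE_one_of_isPGroup (IsPGroup.of_card (n := 0) (by simp))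
  obtain ⟨P⟩ : Nonempty (Sylow p G) := inferInstance
  have hP := syl_sylow_top P
  rw [H1.pLengthLE_one_iff_sylow_le P, H1.pPrimePCore_eq_pCore h0]
  set S := pCore p G
  have hS : PG p S := pG_iff.2 H1.pCore_isPGroup
  have hC : C(S) ≤ S := H1.centralizer_pCore_le_of_isPSolvable hG h0
  have h2 := h Z(S) (H4.characteristic_inf inferInstance inferInstance) ((hS.infl _).dvd_of_ne_bot
    (hS.center_ne_bot ((H1.pCore_ne_bot_or_of_isPSolvable hG).resolve_right (not_not.2 h0))))
  set T := (pPrimeCore p (G ⧸ S)).comap (QuotientGroup.mk' S)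
  haveI : T.Characteristic := Characteristic.comap_quotient_mk inferInstance
  have h3 : S ≤ T := (QuotientGroup.ker_mk' S).ge.trans (ker_le_comap _ _)
  have h4 : T.map _ = _ := map_comap_eq_self_of_surjective (QuotientGroup.mk'_surjective S) (pPrimeCore p (G ⧸ S))
  have h5 : Syl p S T := ⟨h3, hS, by
    rw [← H1.card_map_mk', h4]; exact PiN.of_coprime H1.pPrimeCore_coprime⟩
  obtain ⟨K, hK⟩ := h5.exists_compl le_normalizer_of_normal
  have hK' := (hK.hall_right h5).pi
  rcases eq_or_ne (S ⊓ C(K)) ⊥ with e | e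
  · intro g hg
    obtain ⟨v, hv, hn⟩ := exists_mul_mem_norm hS hK' (cj_le_of_mem_norm
      (by rw [hK.sup]; exact le_normalizer_of_normal (mem_top g)) le_sup_right)
    rw [← mul_mem_cancel_left hv]
    by_contra hne
    obtain ⟨x, hx, hx1, hxp⟩ := H4.exists_pow_eq_one (hP.pi.of_le (zpowers_le.2 (mul_mem
      (hP.le_of_norm' le_top hS le_normalizer_of_normal hv) hg)))
      fun e => hne (zpowers_eq_bot.1 e ▸ one_mem _)
    exact hx1 (mem_bot.1 (e ▸ ⟨(h2 x hxp).1, inf_norm_le_cent hS hK'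
      ⟨(h2 x hxp).1, zpowers_le.2 hn hx⟩⟩))
  obtain ⟨x, hx, hx1, hxp⟩ := H4.exists_pow_eq_one (hS.infl _) e
  have h6 := h Z(T) (H4.characteristic_inf inferInstance inferInstance)
    (orderOf_of_pow hp.out hxp hx1 ▸ orderOf_dvd_card' ⟨h3 hx.1, by
      rw [← hK.sup, cent_sup]; exact ⟨(h2 x hxp).2, hx.2⟩⟩)
  have h7 : K = ⊥ := (hS.of_le ((coprime_odd_faithful_elt hS le_normalizer_of_normal
    (hS.coprime hK') (H4.odd_of_pG hS hp2) fun y _ hy =>
      cent_mono hK.right_le (h6 y hy).2).trans hC)).eq_bot hK'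
  rw [← H1.map_mk'_eq_bot_iff]
  refine eq_bot_of_le_cent (H1.isPSolvable_quotient hG S) H1.pCore_quotient_pCore (pg_map hP.pi _) ?_
  rw [← h4, ← hK.sup, h7, sup_bot_eq, H1.map_mk'_eq_bot_iff.2 le_rfl, cent_bot]
  exact le_top

/-- The Gaschütz–Yen Theorem: let G be a finite p-soluble group, p an odd prime dividing its order, such that the automorphism group of G permutes the subgroups of G of order p transitively. Then G has p-length at most 1. -/
theorem result {G : Type*} [Group G] [Finite G] {p : ℕ} [Fact p.Prime] (hp : p ≠ 2) (hdvd : p ∣ Nat.card G) (hG : Cfsg.IsPSolvable p G) (htrans : ∀ U V : Subgroup G, Nat.card U = p → Nat.card V = p → ∃ a : MulAut G, U.map a.toMonoidHom = V) : Cfsg.PLengthLE p 1 G := by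
  have hp' : p.Prime := Fact.out
  have hs := QuotientGroup.mk'_surjective (pPrimeCore p G)
  refine (H1.pLengthLE_quotient_iff _ H1.pPrimeCore_coprime).1 (aux hp
    (H1.isPSolvable_quotient hG _) H1.pPrimeCore_quotient_pPrimeCore fun H hH hd x hx => ?_)
  have key : ∀ x : G ⧸ pPrimeCore p G, x ^ p = 1 → x ≠ 1 → ∃ U : Subgroup G, #U = p ∧
      U.map (QuotientGroup.mk' _) = zpowers x := fun x hx h1 => by
    have h2 := (el1_zpowers' hp' (mem_top x) hx h1).card1
    obtain ⟨U, hU, e⟩ := lift_pg hs (PiN.of_card hp' h2)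
    refine ⟨U, ?_, e⟩
    rw [← h2, ← e, H1.card_map_mk', ← inf_relIndex_left, hU.inf_eq_bot
      (PiN.of_coprime H1.pPrimeCore_coprime), relIndex_bot_left]
  rcases eq_or_ne x 1 with rfl | h1
  · exact one_mem _
  obtain ⟨y, hy, ho⟩ := exists_orderOf_eq_prime hp' hd
  obtain ⟨U, hU, e⟩ := key y (orderOf_dvd_iff_pow_eq_one.1 ho.dvd) fun e =>
    hp'.one_lt.ne (ho.symm.trans (orderOf_eq_one_iff.2 e)).symm
  obtain ⟨W, hW, e'⟩ := key x hx h1
  obtain ⟨a, rfl⟩ := htrans U W hU hW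
  rw [← zpowers_le, ← e', map_le_iff_le_comap, ← characteristic_iff_map_eq.1
    (Characteristic.comap_quotient_mk hH) a]
  exact map_mono (map_le_iff_le_comap.1 (e.le.trans (zpowers_le.2 hy)))

end Cfsg.Agent.S3798
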