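import Cfsg.Statements.S3799
import Cfsg.Agent.H4.Basic
import Cfsg.Agent.H4.ClassTwo
import Mathlib

set_option autoImplicit false
open Cfsg

namespace Cfsg.Agent.S3799

open Subgroup Matrix
open scoped commutatorElement

section
variable {F : Type} [Field F] {n : ℕ}

/-- Heisenberg group. -/
@[ext] structure Heis (F : Type) (n : ℕ) where
  a : Fin n → F
  b : Fin n → F
  c : F

instance : Group (Heis F n) where
  mul x y := ⟨x.a + y.a, x.b + y.b, x.c + y.c + x.a ⬝ᵥ y.b⟩
  one := ⟨0, 0, 0⟩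
  inv x := ⟨-x.a, -x.b, x.a ⬝ᵥ x.b - x.c⟩
  mul_assoc x y z := Heis.ext (add_assoc _ _ _) (add_assoc _ _ _) (by
    change x.c + y.c + x.a ⬝ᵥ y.b + z.c + (x.a + y.a) ⬝ᵥ z.b =
      x.c + (y.c + z.c + y.a ⬝ᵥ z.b) + x.a ⬝ᵥ (y.b + z.b)
    rw [add_dotProduct, dotProduct_add]; ring)
  one_mul x := Heis.ext (zero_add _) (zero_add _) (by
    change 0 + x.c + 0 ⬝ᵥ x.b = x.c
    simp)
  mul_one x := Heis.ext (add_zero _) (add_zero _) (by
    change x.c + 0 + x.a ⬝ᵥ 0 = x.c
    simp)
  inv_mul_cancel x := Heis.ext (neg_add_cancel _) (neg_add_cancel _) (by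
    change x.a ⬝ᵥ x.b - x.c + x.c + -x.a ⬝ᵥ x.b = 0
    simp)

theorem mul_def (x y : Heis F n) :
    x * y = ⟨x.a + y.a, x.b + y.b, x.c + y.c + x.a ⬝ᵥ y.b⟩ := rfl
theorem one_def : (1 : Heis F n) = ⟨0, 0, 0⟩ := rfl
theorem inv_def (x : Heis F n) : x⁻¹ = ⟨-x.a, -x.b, x.a ⬝ᵥ x.b - x.c⟩ := rfl

theorem comm_def (x y : Heis F n) : ⁅x, y⁆ = ⟨0, 0, x.a ⬝ᵥ y.b - y.a ⬝ᵥ x.b⟩ := by
  simp only [commutatorElement_def, mul_def, inv_def, Heis.mk.injEq]
  refine ⟨by abel, by abel, ?_⟩
  simp only [add_dotProduct, dotProduct_neg, neg_dotProduct]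
  ring

theorem mem_center_heis (x : Heis F n) : x ∈ center (Heis F n) ↔ x.a = 0 ∧ x.b = 0 := by
  simp only [mem_center_iff, ← commutatorElement_eq_one_iff_mul_comm, comm_def, one_def,
    Heis.mk.injEq, true_and]
  constructor
  · intro h
    constructor
    · ext i
      simpa using h ⟨0, Pi.single i 1, 0⟩
    · ext i
      simpa using h ⟨Pi.single i 1, 0, 0⟩
  · rintro ⟨h1, h2⟩ g
    simp [h1, h2]

theorem pow_def (x : Heis F n) (k : ℕ) :
    x ^ k = ⟨k • x.a, k • x.b, k • x.c + k.choose 2 • (x.a ⬝ᵥ x.b)⟩ := by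
  induction k with
  | zero => simp [one_def]
  | succ k ih =>
    rw [pow_succ, ih, mul_def, Nat.choose_succ_succ' k 1, Nat.choose_one_right]
    simp only [Heis.mk.injEq, add_smul, one_smul, smul_dotProduct, true_and]
    abel

def heisEquiv : Heis F n ≃ (Fin n → F) × (Fin n → F) × F where
  toFun x := (x.a, x.b, x.c)
  invFun x := ⟨x.1, x.2.1, x.2.2⟩
  left_inv _ := rfl
  right_inv _ := rfl

def centerEquiv : center (Heis F n) ≃ F where
  toFun x := x.1.c
  invFun c := ⟨⟨0, 0, c⟩, (mem_center_heis _).2 ⟨rfl, rfl⟩⟩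
  left_inv x := Subtype.ext (Heis.ext ((mem_center_heis _).1 x.2).1.symm
    ((mem_center_heis _).1 x.2).2.symm rfl)
  right_inv _ := rfl

def io (a : Fin n → F) : Fin (n + 2) → F := Fin.cons 0 (Fin.snoc a 0)
def e0 : Fin (n + 2) → F := Pi.single 0 1
def eL : Fin (n + 2) → F := Pi.single (Fin.last _) 1

theorem io_add (a b : Fin n → F) : io (a + b) = io a + io b := by
  ext i
  refine Fin.cases (by simp [io]) (fun i => ?_) i
  refine Fin.lastCases (by simp [io]) (fun i => by simp [io]) i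

theorem io_zero : io (0 : Fin n → F) = 0 := by
  ext i
  refine Fin.cases (by simp [io]) (fun i => ?_) i
  refine Fin.lastCases (by simp [io]) (fun i => by simp [io]) i

theorem io_io (a b : Fin n → F) : io a ⬝ᵥ io b = a ⬝ᵥ b := by
  rw [dotProduct, Fin.sum_univ_succ, Fin.sum_univ_castSucc]
  simp [dotProduct, io]

theorem io_e0 (a : Fin n → F) : io a ⬝ᵥ e0 = 0 := by simp [e0, io]
theorem eL_io (a : Fin n → F) : eL ⬝ᵥ io a = 0 := by
  rw [eL, single_dotProduct, ← Fin.succ_last]; simp [io]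
theorem eL_e0 : (eL : Fin (n + 2) → F) ⬝ᵥ e0 = 0 := by
  rw [eL, single_dotProduct, ← Fin.succ_last]; simp [e0]

def mat (x : Heis F n) : Matrix (Fin (n + 2)) (Fin (n + 2)) F :=
  1 + (vecMulVec e0 (io x.a) + vecMulVec (io x.b) eL + x.c • vecMulVec e0 eL)

def matHom : Heis F n →* Matrix (Fin (n + 2)) (Fin (n + 2)) F where
  toFun := mat
  map_one' := by simp [mat, one_def, io_zero]
  map_mul' x y := by
    simp only [mat, mul_def, io_add, mul_add, add_mul, one_mul, mul_one, smul_mul_assoc,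
      mul_smul_comm, vecMulVec_mul_vecMulVec, io_io, io_e0, eL_io, eL_e0, zero_smul,
      vecMulVec_zero, smul_zero, add_zero, vecMulVec_add, add_vecMulVec, add_smul, vecMulVec_smul]
    abel

theorem matHom_inj : Function.Injective (matHom : Heis F n → _) := by
  rw [injective_iff_map_eq_one]
  intro x hx
  have h : vecMulVec e0 (io x.a) + vecMulVec (io x.b) eL + x.c • vecMulVec e0 eL = 0 :=
    add_eq_left.1 hx
  have hL : ∀ i : Fin n, (eL : Fin (n + 2) → F) i.castSucc.succ = 0 := fun i => by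
    rw [eL, ← Fin.succ_last, Pi.single_eq_of_ne]
    simp [(Fin.castSucc_lt_last i).ne]
  have hL' : ∀ a : Fin n → F, io a (Fin.last _) = 0 := fun a => by
    rw [← Fin.succ_last]; simp [io]
  refine Heis.ext (funext fun i => ?_) (funext fun i => ?_) ?_
  · have := congrFun (congrFun h 0) i.castSucc.succ
    simpa [vecMulVec_apply, hL, e0, io, one_def] using this
  · have := congrFun (congrFun h i.castSucc.succ) (Fin.last _)
    simpa [vecMulVec_apply, hL', e0, eL, io, one_def] using this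
  · have := congrFun (congrFun h 0) (Fin.last _)
    simp only [Matrix.add_apply, vecMulVec_apply, hL', Matrix.smul_apply] at this
    simpa [e0, eL, io, one_def] using this

end

/-- For every odd prime p and every n ≥ 1 there is an extraspecial p-group of order p^(1+2n) and exponent p; concretely, the general linear group of degree n + 2 over the field with p elements contains such a subgroup. -/
theorem result (p : ℕ) [Fact p.Prime] (hp : p ≠ 2) (n : ℕ) (hn : 1 ≤ n) : ∃ E : Subgroup (Matrix.GeneralLinearGroup (Fin (n + 2)) (ZMod p)), Cfsg.IsExtraspecial p ↥E ∧ Nat.card E = p ^ (1 + 2 * n) ∧ ∀ x ∈ E, x ^ p = 1 := by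
  have hp' : p.Prime := Fact.out
  let f : Heis (ZMod p) n →* GL (Fin (n + 2)) (ZMod p) := matHom.toHomUnits
  have hf : Function.Injective f := fun x y h => matHom_inj (congrArg Units.val h)
  let e := MonoidHom.ofInjective hf
  haveI : Finite (Heis (ZMod p) n) := Finite.of_equiv _ heisEquiv.symm
  have hexp : ∀ x : Heis (ZMod p) n, x ^ p = 1 := by
    intro x
    obtain ⟨c, hc⟩ := H4.prime_dvd_choose_two hp' hp
    rw [pow_def, hc, mul_smul, one_def]
    simp only [← Nat.cast_smul_eq_nsmul (ZMod p) p, ZMod.natCast_self, zero_smul, add_zero]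
  have hexp' : ∀ x : f.range, x ^ p = 1 := fun x => by
    obtain ⟨y, rfl⟩ := e.surjective x
    rw [← map_pow, hexp, map_one]
  have hP : IsPGroup p f.range := fun x => ⟨1, by rw [pow_one, hexp']⟩
  have hcen : ∀ x, e x ∈ center f.range ↔ x ∈ center (Heis (ZMod p) n) := fun x =>
    MulEquivClass.apply_mem_center_iff e
  have hcomm : commutator f.range = center f.range := by
    apply le_antisymm
    · rw [_root_.commutator_def, commutator_le]
      intro x _ y _
      obtain ⟨x, rfl⟩ := e.surjective x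
      obtain ⟨y, rfl⟩ := e.surjective y
      rw [← map_commutatorElement, hcen, comm_def, mem_center_heis]
      exact ⟨rfl, rfl⟩
    · intro x hx
      obtain ⟨x, rfl⟩ := e.surjective x
      rw [hcen, mem_center_heis] at hx
      have : x = ⁅(⟨Pi.single ⟨0, hn⟩ x.c, 0, 0⟩ : Heis (ZMod p) n), ⟨0, Pi.single ⟨0, hn⟩ 1, 0⟩⁆ := by
        rw [comm_def]
        exact Heis.ext hx.1 hx.2 (by simp)
      rw [this, map_commutatorElement]
      exact commutator_mem_commutator (mem_top _) (mem_top _)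
  haveI : Finite f.range := Finite.of_equiv _ e.toEquiv
  refine ⟨f.range, ⟨⟨hP, ?_, hcomm⟩, ?_⟩, ?_, fun x hx => congrArg Subtype.val (hexp' ⟨x, hx⟩)⟩
  · rw [← hcomm]
    exact le_antisymm (H4.frattini_le le_rfl fun x => hexp' x ▸ one_mem _)
      (H4.commutator_le_frattini hP)
  · rw [← Nat.card_congr (centerCongr e).toEquiv, Nat.card_congr centerEquiv, Nat.card_zmod]
  · rw [← Nat.card_congr e.toEquiv, Nat.card_congr heisEquiv]
    simp only [Nat.card_prod, Nat.card_fun, Nat.card_zmod, Nat.card_fin]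
    ring

end Cfsg.Agent.S3799
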