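import Cfsg.Statements.S3950
import Cfsg.Agent.H23.SchurProd
import Cfsg.Agent.H6.Degree

set_option autoImplicit false
open Cfsg

namespace Cfsg.Agent.S3950

/-- A finite abelian group has trivial Schur multiplier if and only if it is cyclic. -/
theorem result {G : Type*} [CommGroup G] [Finite G] : Cfsg.HasCyclicSchurMultiplier G 1 ↔ IsCyclic G := by
  refine ⟨fun h => ?_, fun _ => H23.schur_one_of_isCyclic⟩
  have hsymm : ∀ (β : G →* G →* ℂˣ) (x y : G), β x y = β y x := by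
    intro β x y
    obtain ⟨f, hf⟩ := H23.exists_hom_range_eq h (H23.Tw.proj β) (H23.Tw.proj_surjective β) (by
      rw [H23.Tw.ker_proj]; rintro _ ⟨t, rfl⟩; exact H23.Tw.incl_mem_center β t)
    have h1 := H23.Tw.commutatorElement_of_commute β (p := ⟨x, 1⟩) (q := ⟨y, 1⟩) (Commute.all _ _)
    have h2 : H23.Tw.incl β (β x y / β y x) ∈ f.range := by
      rw [hf]
      refine Subgroup.mem_inf.2 ⟨rfl, ?_⟩
      rw [← h1]; exact Subgroup.commutator_mem_commutator (Subgroup.mem_top _) (Subgroup.mem_top _)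
    obtain ⟨z, hz⟩ := h2
    haveI : Subsingleton (Multiplicative (ZMod 1)) := inferInstanceAs (Subsingleton (ZMod 1))
    rw [Subsingleton.elim z 1, map_one, ← map_one (H23.Tw.incl β)] at hz
    exact div_eq_one.1 (H23.Tw.incl_injective β hz).symm
  obtain ⟨a, ha⟩ := Monoid.exists_orderOf_eq_exponent (G := G) Monoid.ExponentExists.of_finite
  obtain ⟨χ₀, hχ₀⟩ := H6.exists_injective_hom (Subgroup.zpowers a)
  obtain ⟨χ, hχ⟩ := H23.exists_extend_of_divisible H23.complexUnits_divisible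
    (Subgroup.zpowers a).subtype Subtype.val_injective χ₀
  have hχa : orderOf (χ a) = Monoid.exponent G := by
    have : χ a = χ₀ ⟨a, Subgroup.mem_zpowers a⟩ := DFunLike.congr_fun hχ ⟨a, Subgroup.mem_zpowers a⟩
    rw [this, orderOf_injective _ hχ₀, ← ha, Subgroup.orderOf_mk]
  haveI : NeZero (Monoid.exponent G) := ⟨Monoid.exponent_ne_zero_of_finite⟩
  have hprim : IsPrimitiveRoot (χ a : ℂ) (Monoid.exponent G) := by
    rw [IsPrimitiveRoot.coe_units_iff, ← hχa]; exact IsPrimitiveRoot.orderOf _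
  have hk : ∀ g : G, ∃ k : ℕ, χ a ^ k = χ g := fun g => by
    obtain ⟨k, -, hk⟩ := hprim.eq_pow_of_pow_eq_one (ξ := (χ g : ℂ)) (by
      rw [← Units.val_pow_eq_pow_val, ← map_pow, Monoid.pow_exponent_eq_one, map_one,
        Units.val_one])
    exact ⟨k, Units.ext (by simpa using hk)⟩
  choose k hk using hk
  have hpow : ∀ (h : G) {i j : ℕ}, χ a ^ i = χ a ^ j → h ^ i = h ^ j := fun h i j hij => by
    rw [pow_eq_pow_iff_modEq] at hij ⊢
    exact hij.of_dvd (hχa ▸ Monoid.order_dvd_exponent h)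
  refine ⟨⟨a, fun g => ?_⟩⟩
  by_contra hg
  obtain ⟨ψ, hψ⟩ := CommGroup.exists_apply_ne_one_of_hasEnoughRootsOfUnity
    (G ⧸ Subgroup.zpowers a) ℂ (a := (g : G ⧸ Subgroup.zpowers a))
    (fun h => hg ((QuotientGroup.eq_one_iff g).1 h))
  let ψ' : G →* ℂˣ := ψ.comp (QuotientGroup.mk' _)
  let β : G →* G →* ℂˣ := MonoidHom.mk' (fun x => ψ'.comp (powMonoidHom (k x))) fun x y => by
    ext h
    have : h ^ k (x * y) = h ^ (k x + k y) := hpow h (by rw [pow_add, hk, hk, hk, map_mul])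
    simp [this, pow_add]
  have h1 : ψ' (g ^ k a) = ψ' (a ^ k g) := hsymm β a g
  have h2 : ψ' a = 1 := by
    show ψ (a : G ⧸ Subgroup.zpowers a) = 1
    rw [(QuotientGroup.eq_one_iff a).2 (Subgroup.mem_zpowers a), map_one]
  rw [hpow g (i := k a) (j := 1) (by rw [hk, pow_one]), pow_one, map_pow, h2, one_pow] at h1
  exact hψ h1

end Cfsg.Agent.S3950
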