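import Cfsg.Statements.S3951
import Cfsg.Agent.H23.SchurMeta

set_option autoImplicit false
open Cfsg

namespace Cfsg.Agent.S3951

/-- For positive integers `m` and `n` with `n` dividing `m`, the Schur multiplier of the abelian group `ZMod m × ZMod n` (written multiplicatively) is cyclic of order `n`. In particular the elementary abelian group of order `p ^ 2` has multiplier of order `p`. -/
theorem result (m n : ℕ) [NeZero m] [NeZero n] (hnm : n ∣ m) : Cfsg.HasCyclicSchurMultiplier (Multiplicative (ZMod m × ZMod n)) n := by
  have hm0 : 0 < m := Nat.pos_of_ne_zero (NeZero.ne m)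
  have hn0 : 0 < n := Nat.pos_of_ne_zero (NeZero.ne n)
  let a : Multiplicative (ZMod m × ZMod n) := Multiplicative.ofAdd (1, 0)
  let b : Multiplicative (ZMod m × ZMod n) := Multiplicative.ofAdd (0, 1)
  have ha : orderOf a = m := by
    rw [orderOf_ofAdd_eq_addOrderOf, Prod.addOrderOf_mk, ZMod.addOrderOf_one, addOrderOf_zero,
      Nat.lcm_one_right]
  refine H23.hasSchur_metacyclic (a := a) (b := b) (n := n) (r := 1) (t := 0) ?_ hn0 one_pos
    (by simp) ?_ ?_ ?_
  · rw [eq_top_iff]
    intro x _
    have : x = a ^ (Multiplicative.toAdd x).1.val * b ^ (Multiplicative.toAdd x).2.val := by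
      apply Multiplicative.toAdd.injective
      ext <;> simp [a, b]
    rw [this]
    exact mul_mem (pow_mem (Subgroup.subset_closure (by simp)) _)
      (pow_mem (Subgroup.subset_closure (by simp)) _)
  · apply Multiplicative.toAdd.injective
    ext <;> simp [b]
  · rintro j ⟨i, hi⟩
    have := congrArg (fun x => (Multiplicative.toAdd x).2) hi
    simp [a, b] at this
    exact (ZMod.intCast_zmod_eq_zero_iff_dvd j n).1 this.symm
  · rw [ha]
    simp [Nat.div_self hm0, Nat.gcd_eq_right hnm]

end Cfsg.Agent.S3951
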