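import Cfsg.Statements.S3952
import Cfsg.Agent.H23.Schur2
import Cfsg.Agent.H6.Det
import Cfsg.Agent.H5.Kernel

set_option autoImplicit false
open Cfsg

namespace Cfsg.Agent.S3952

open H5

theorem aux {Γ : Type*} [Group Γ] [Finite Γ] (K : Subgroup Γ) (hc : K ≤ Subgroup.center Γ)
    (hk : K ≤ commutator Γ) (l : K →* ℂˣ) : orderOf l ^ 2 ∣ K.index := by
  classical
  haveI := Fintype.ofFinite Γ
  haveI := Fintype.ofFinite K
  choose f hf using fun χ : IrrCharacter Γ =>
    χ.2.exists_centerHom K (hc.trans χ.2.center_le_charCenter)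
  choose d hd0 hd using fun χ : IrrCharacter Γ => χ.2.exists_apply_one
  have hfk : ∀ (χ : IrrCharacter Γ) (k : K), χ.1 k = f χ k * d χ := fun χ k => by
    rw [← hd, ← hf, mul_one]
  have hdet : ∀ χ : IrrCharacter Γ, orderOf (f χ) ∣ d χ := fun χ => by
    apply orderOf_dvd_of_pow_eq_one
    have h1 : (fun k : K => χ.1 k) = (d χ : ℂ) • fun k => (f χ k : ℂ) := by
      funext k; rw [hfk, mul_comm]; rfl
    have h2 := H6.detHom_res χ.2.isCharacter K
    rw [h1, H6.detHom_natCast_smul (isCharacter_unitsHom _), H6.detHom_hom] at h2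
    rw [h2]
    ext k
    have := Abelianization.commutator_subset_ker (H6.detHom χ.1) (hk k.2)
    exact congrArg Units.val this
  have h1 : ∑ k : K, ((l k)⁻¹ : ℂˣ) * regChar Γ k = Nat.card Γ := by
    rw [Finset.sum_eq_single 1]
    · simp [regChar_one]
    · intro k _ hk
      rw [regChar_of_ne_one (fun h => hk (Subtype.ext h)), mul_zero]
    · simp
  have h2 : ∀ χ : IrrCharacter Γ, ∑ k : K, (((l k)⁻¹ : ℂˣ) : ℂ) * (χ.1 1 * χ.1 k) =
      (if f χ = l then (d χ) ^ 2 else 0 : ℕ) * Nat.card K := by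
    intro χ
    have h3 := sum_hom_units ((Units.coeHom ℂ).comp (l⁻¹ * f χ))
    have h4 : ∀ k : K, (((l k)⁻¹ : ℂˣ) : ℂ) * (χ.1 1 * χ.1 k) =
        (d χ) ^ 2 * ((Units.coeHom ℂ).comp (l⁻¹ * f χ)) k := by
      intro k; rw [hd, hfk]; simp; ring
    simp only [h4]
    rw [← Finset.mul_sum, h3]
    by_cases h : f χ = l
    · rw [if_pos h, if_pos (by rw [h, inv_mul_cancel]; rfl)]; simp
    · rw [if_neg h, if_neg]
      · simp
      · intro h'
        apply h
        rw [eq_comm, ← inv_mul_eq_one]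
        ext k
        exact DFunLike.congr_fun h' k
  simp only [← sum_irr_one_mul_apply, Finset.mul_sum] at h1
  rw [Finset.sum_comm] at h1
  simp only [h2] at h1
  rw [← Finset.sum_mul, ← K.index_mul_card, Nat.cast_mul] at h1
  have h5 := mul_right_cancel₀ (card_ne_zero_complex K) h1
  have h6 : ∑ χ : IrrCharacter Γ, (if f χ = l then (d χ) ^ 2 else 0 : ℕ) = K.index := by
    exact_mod_cast h5
  rw [← h6]
  refine Finset.dvd_sum fun χ _ => ?_
  split_ifs with h
  · exact pow_dvd_pow_of_dvd (h ▸ hdet χ) 2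
  · exact dvd_zero _

/-- If `A` is the Schur multiplier of the finite group `Q`, then the square of the exponent of `A` divides the order of `Q`. -/
theorem result {Q : Type*} [Group Q] [Finite Q] {A : Type*} [CommGroup A] (hA : Cfsg.HasSchurMultiplier Q A) : Monoid.exponent A ^ 2 ∣ Nat.card Q := by
  haveI := H23.schur_finite hA
  obtain ⟨Γ, _, _, σ, hσ, ⟨e⟩⟩ := hA.1
  obtain ⟨a, ha⟩ := Monoid.exists_orderOf_eq_exponent (G := A) Monoid.ExponentExists.of_finite
  obtain ⟨e'⟩ := CommGroup.monoidHom_mulEquiv_of_hasEnoughRootsOfUnity A ℂ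
  have h := aux σ.ker hσ.2.1 hσ.2.2 ((e'.symm a).comp e.toMonoidHom)
  rw [Subgroup.index_ker, MonoidHom.range_eq_top.2 hσ.1, Subgroup.card_top] at h
  refine dvd_trans (pow_dvd_pow_of_dvd ?_ 2) h
  rw [← ha, ← e'.symm.orderOf_eq a]
  apply orderOf_dvd_of_pow_eq_one
  ext x
  obtain ⟨k, rfl⟩ := e.surjective x
  exact congrArg Units.val
    (DFunLike.congr_fun (pow_orderOf_eq_one ((e'.symm a).comp e.toMonoidHom)) k)

end Cfsg.Agent.S3952
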