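import Cfsg.Statements.S3953
import Cfsg.Agent.H23.SchurTransfer

set_option autoImplicit false
open Cfsg

namespace Cfsg.Agent.S3953

/-- Let `P` be a Sylow `p`-subgroup of the finite group `G`, let `A` be the Schur multiplier of `G` and `B` that of `P`. Then the `p`-primary component of `A` is isomorphic to a direct factor of `B`: there are subgroups `C` and `D` of `B` meeting trivially and generating `B`, with `C` isomorphic to the `p`-primary component of `A`. -/
theorem result {G : Type*} [Group G] [Finite G] (p : ℕ) [Fact p.Prime] (P : Sylow p G) {A B : Type*} [CommGroup A] [CommGroup B] (hA : Cfsg.HasSchurMultiplier G A) (hB : Cfsg.HasSchurMultiplier P B) : ∃ C D : Subgroup B, C ⊓ D = ⊥ ∧ C ⊔ D = ⊤ ∧ Nonempty (CommGroup.primaryComponent A p ≃* C) := by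
  haveI := H23.schur_finite hA
  haveI := H23.schur_finite hB
  obtain ⟨t, j, h⟩ := H23.exists_transfer_pair (P : Subgroup G) hA hB
  set Ap := CommGroup.primaryComponent A p
  have hp : IsPGroup p Ap := CommGroup.primaryComponent.isPGroup
  have hbij : Function.Bijective (fun a : Ap => a ^ (P : Subgroup G).index) :=
    (hp.powEquiv' P.not_dvd_index).bijective
  have hj : ∀ b, j b ∈ Ap := fun b => by
    obtain ⟨k, hk⟩ := IsPGroup.iff_card.1 P.isPGroup'
    refine CommGroup.mem_primaryComponent.2 ⟨k, ?_⟩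
    rw [← map_pow, ← hk, H23.schur_pow_card hB, map_one]
  have hinj : ∀ a : Ap, j (t a) = 1 → a = 1 := fun a ha =>
    hbij.1 (Subtype.ext (by simpa [h] using ha))
  refine ⟨(t.comp Ap.subtype).range, j.ker, ?_, ?_, ⟨MonoidHom.ofInjective ?_⟩⟩
  · rw [eq_bot_iff]
    rintro _ ⟨⟨a, rfl⟩, ha⟩
    rw [hinj a ha, map_one]; exact one_mem _
  · rw [eq_top_iff]
    intro b _
    obtain ⟨a, ha⟩ := hbij.2 ⟨j b, hj b⟩
    have h1 : (t a)⁻¹ * b ∈ j.ker := by
      rw [MonoidHom.mem_ker, map_mul, map_inv, h, inv_mul_eq_one]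
      exact congrArg Subtype.val ha
    have := mul_mem (Subgroup.mem_sup_left (T := j.ker) (show t a ∈ (t.comp Ap.subtype).range from
      ⟨a, rfl⟩)) (Subgroup.mem_sup_right h1)
    rwa [mul_inv_cancel_left] at this
  · rw [injective_iff_map_eq_one]
    intro a ha
    exact hinj a (by rw [show t a = 1 from ha, map_one])

end Cfsg.Agent.S3953
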