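import Cfsg.Statements.S3960
import Cfsg.Agent.H23.Schur2

set_option autoImplicit false
universe u
open Cfsg

namespace Cfsg.Agent.S3960

/-- A finite perfect group `Q` has a universal central extension: a finite perfect group `G` in the universe of `Q` and a surjective homomorphism `π : G →* Q` with central kernel such that for every group `X` in that universe and every surjective homomorphism `ξ : X →* Q` with central kernel there is exactly one homomorphism `η : G →* X` with `ξ ∘ η = π`. -/
theorem result {Q : Type u} [Group Q] [Finite Q] (hQ : Group.IsPerfect Q) : ∃ (G : Type u) (_ : Group G) (_ : Finite G) (π : G →* Q), Group.IsPerfect G ∧ Function.Surjective π ∧ π.ker ≤ Subgroup.center G ∧ ∀ (X : Type u) [Group X] (ξ : X →* Q), Function.Surjective ξ → ξ.ker ≤ Subgroup.center X → ∃! η : G →* X, ξ.comp η = π := by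
  have hπ := H23.canon_surjective Q
  set π := H23.canon Q
  have hs := H23.stem_commutator hQ (H23.hpi π) (H23.hpi_surjective π hπ) (H23.hpi_ker_le π)
  have hp := H23.perfect_of_stem hQ hs
  refine ⟨commutator (H23.HE π), inferInstance, inferInstance, _, hp, hs.1, hs.2.1,
    fun X _ ξ hξ hc => ?_⟩
  obtain ⟨φ, hφ⟩ := H23.exists_hlift π ξ hξ hc (MonoidHom.id Q)
  have h1 : ξ.comp (φ.comp (commutator (H23.HE π)).subtype) =
      (H23.hpi π).comp (commutator (H23.HE π)).subtype := by
    rw [← MonoidHom.comp_assoc, hφ]; rfl
  exact ⟨φ.comp (commutator _).subtype, h1,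
    fun η hη => H23.lift_unique_of_perfect hp ξ hc (hη.trans h1.symm)⟩

end Cfsg.Agent.S3960
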