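import Cfsg.Statements.S3967
import Cfsg.Agent.H23.SchurMeta

set_option autoImplicit false
open Cfsg

namespace Cfsg.Agent.S3967

/-- Let `m, n ≥ 1`, `r ≥ 1` with `r ^ n ≡ 1 (mod m)`, and `l` a natural number; put `d = gcd(m, r - 1)`, `t = m l / d` and `h = d · gcd(m, 1 + r + ⋯ + r^(n-1)) / m`. The group presented by generators `a, b` and relations `a ^ m = 1`, `b ^ n = a ^ t`, `b a b⁻¹ = a ^ r` (a metacyclic group of order `m n`) has Schur multiplier cyclic of order `gcd(l, h)`. -/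
theorem result (m n r l : ℕ) (hm : 0 < m) (hn : 0 < n) (hr : 0 < r) (hrn : r ^ n ≡ 1 [MOD m]) : Cfsg.HasCyclicSchurMultiplier (PresentedGroup ({FreeGroup.of true ^ m, (FreeGroup.of false) ^ n * (FreeGroup.of true ^ (m * l / Nat.gcd m (r - 1)))⁻¹, FreeGroup.of false * FreeGroup.of true * (FreeGroup.of false)⁻¹ * (FreeGroup.of true ^ r)⁻¹} : Set (FreeGroup Bool))) (Nat.gcd l (Nat.gcd m (r - 1) * Nat.gcd m (∑ i ∈ Finset.range n, r ^ i) / m)) := by
  obtain ⟨r, rfl⟩ : ∃ r', r = r' + 1 := ⟨r - 1, by omega⟩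
  rw [Nat.add_sub_cancel]
  set g := Nat.gcd m r with hg
  set s := ∑ i ∈ Finset.range n, (r + 1) ^ i with hs
  obtain ⟨m', hm'⟩ : g ∣ m := Nat.gcd_dvd_left _ _
  have hg0 : 0 < g := Nat.gcd_pos_of_pos_left _ hm
  have hm'0 : 0 < m' := Nat.pos_of_mul_pos_left (hm' ▸ hm)
  have hmg : m / g = m' := by rw [hm', Nat.mul_div_cancel_left _ hg0]
  have ht : m * l / g = m' * l := by rw [hm', mul_assoc, Nat.mul_div_cancel_left _ hg0]
  have hsr : m ∣ s * r := by
    have h1 := H23.geom_sum_mul_nat r n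
    rw [← hs] at h1
    rw [← h1] at hrn
    exact (Nat.modEq_zero_iff_dvd).1 (Nat.ModEq.add_right_cancel' 1 (by simpa using hrn))
  have hm's : m' ∣ s := by
    have h1 : m ∣ Nat.gcd (s * m) (s * r) := Nat.dvd_gcd (dvd_mul_left _ _) hsr
    rw [Nat.gcd_mul_left, ← hg] at h1
    have h2 : m' * g ∣ s * g := by rw [mul_comm m', ← hm']; exact h1
    exact Nat.dvd_of_mul_dvd_mul_right hg0 h2
  obtain ⟨s', hs'⟩ := hm's
  have hms : Nat.gcd m s = m' * Nat.gcd g s' := by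
    rw [← Nat.gcd_mul_left, ← hs', mul_comm m', ← hm']
  rw [ht]
  have htr : m' * l * (r + 1) ≡ m' * l [MOD m] := by
    rw [mul_add, mul_one]
    have : m ∣ m' * l * r := by
      obtain ⟨r', hr'⟩ : g ∣ r := Nat.gcd_dvd_right _ _
      exact ⟨l * r', by rw [hr']; conv_rhs => rw [hm']
                        ring⟩
    simpa using (Nat.modEq_zero_iff_dvd.2 this).add_right (m' * l)
  haveI : Finite (H23.MC m n (r + 1) (m' * l)) := H23.MC.finite hm hn
  have ho := H23.MC.orderOf_ga hm hn hrn htr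
  refine H23.hasSchur_metacyclic (G := H23.MC m n (r + 1) (m' * l)) H23.MC.gen hn hr
    H23.MC.gb_conj H23.MC.gb_pow (fun j => H23.MC.dvd_of_gb_zpow_mem) ?_
  rw [ho, Nat.add_sub_cancel, ← hg, ← hs, hmg, hms, ← mul_assoc, ← hm',
    Nat.mul_div_cancel_left _ hm, Nat.gcd_left_comm m, hms, Nat.gcd_mul_left, mul_comm]

end Cfsg.Agent.S3967
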