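import Cfsg.Statements.S3968
import Cfsg.Agent.H6.Degree
import Cfsg.Agent.H10.NPC1

set_option autoImplicit false
open Cfsg

namespace Cfsg.Agent.S3968

open H19 H18 H5 Subgroup in
open scoped ComplexOrder in

/-- Let `p` be a prime and `G` a finite group with a faithful irreducible complex character of degree `p` (so `G` is an irreducible linear group in `p` variables). If `p ^ 2` divides the order of `G`, then the centre of `G` is nontrivial. -/
theorem result {G : Type*} [Group G] [Finite G] (p : ℕ) (hp : p.Prime) (χ : Cfsg.IrrCharacter G) (hdeg : χ.1 1 = p) (hfaith : ∀ g : G, χ.1 g = χ.1 1 → g = 1) (hdiv : p ^ 2 ∣ Nat.card G) : Subgroup.center G ≠ ⊥ := by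
  intro h0
  haveI := Fact.mk hp
  classical
  haveI := Fintype.ofFinite G
  obtain ⟨P⟩ : Nonempty (Sylow p G) := inferInstance
  have hχ := χ.2.isCharacter
  have hk : charKer χ.1 = ⊥ := eq_bot_iff.2 fun g hg => hfaith g (hχ.mem_charKer_iff.1 hg)
  have h1 : ∀ z : P, z ∈ center P → z ≠ 1 → χ.1 z = 0 := fun z hz z1 =>
    (χ.2.eq_zero_or_mem_charCenter hdeg z ((hp.coprime_iff_not_dvd).2 fun e => P.not_dvd_index
      (e.trans (index_dvd_of_le fun y hy => mem_cent1.2 (congrArg Subtype.val
        (mem_center_iff.1 hz ⟨y, hy⟩)))))).resolve_right fun e => z1 (Subtype.ext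
          (mem_bot.1 (h0.le (hχ.charCenter_le_center hk e))))
  have h2 : p ^ 2 ∣ Nat.card P := (syl_sylow_top P).dvd (PiN.prime_pow hp 2) (card_top (G := G) ▸ hdiv)
  have hr := hχ.restrict P
  have h3 : commutator P ≤ charKer fun x : P => χ.1 x := H6.commutator_le_charKer hr fun ψ hψ e => by
    obtain ⟨n, -, a1, a2⟩ := hψ.exists_apply_one_dvd
    obtain ⟨k, rfl⟩ := ((syl_sylow_top P).pi.dvd a1).exists_pow (ne_zero_of_dvd_ne_zero (card_ne_zero _) a1)
    rcases k with _ | k
    · simpa using a2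
    exfalso
    have a3 := H6.eq_of_constituent_of_degree_le hr hψ e (by
      rw [a2, OneMemClass.coe_one, hdeg]
      exact_mod_cast Nat.le_self_pow k.succ_ne_zero p)
    haveI : Nontrivial P := Finite.one_lt_card_iff_nontrivial.1
      ((Nat.one_lt_pow two_ne_zero hp.one_lt).trans_le (Nat.le_of_dvd (card_pos _) h2))
    haveI := P.isPGroup'.center_nontrivial
    obtain ⟨z, z1⟩ := exists_ne (1 : center P)
    have a4 := hψ.isCharacter.mem_charCenter_iff.1 (hψ.center_le_charCenter z.2)
    rw [← congrFun a3 z, h1 z z.2 fun e => z1 (Subtype.ext e), norm_zero] at a4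
    exact hψ.apply_one_re_pos.ne a4
  have h4 : ∀ a b : P, a * b = b * a := H6.comm_of_commutator_le_bot fun x hx =>
    Subtype.ext (mem_bot.1 (hk.le (H6.charKer_res_le hχ _ x (h3 hx))))
  obtain ⟨n, hn⟩ := H6.inner_gen_int (H6.char_gen hr) (H6.char_gen H6.char_one')
  have h5 := card_mul_classInner (fun x : (P : Subgroup G) => χ.1 x) fun _ => 1
  rw [hn, Finset.sum_eq_single 1 (fun z _ z1 => by
    rw [h1 z (mem_center_iff.2 fun y => h4 y z) z1, zero_mul]) (by simp), OneMemClass.coe_one, hdeg,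
    map_one, mul_one] at h5
  have h6 : ((Nat.card (P : Subgroup G) : ℕ) : ℤ) * n = p := by exact_mod_cast h5
  have h7 := h2.trans (Int.natCast_dvd_natCast.1 ⟨n, h6.symm⟩)
  exact (Nat.pow_lt_pow_right hp.one_lt one_lt_two).not_ge ((pow_one p).symm ▸ Nat.le_of_dvd hp.pos h7)

end Cfsg.Agent.S3968
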