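import Cfsg.Statements.S3970
import Cfsg.Agent.H23.Auto
import Cfsg.Agent.H24.FTAux2
import Cfsg.Agent.H5.Burnside
import Mathlib

set_option autoImplicit false
open Cfsg

namespace Cfsg.Agent.S3970

/-- Let `G` be a finite group such that for every prime `p` dividing its order, other than the largest such prime, the Sylow `p`-subgroups are abelian and generated by at most two elements, and suppose `12` does not divide the order of `G`. Then `G` is solvable. In particular a group of cube-free order not divisible by `12` is solvable. -/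
theorem result {G : Type*} [Group G] [Finite G] (h : ∀ p : ℕ, p.Prime → p ∣ Nat.card G → (∃ q : ℕ, q.Prime ∧ q ∣ Nat.card G ∧ p < q) → ∀ P : Sylow p G, IsMulCommutative (P : Subgroup G) ∧ Group.rank (P : Subgroup G) ≤ 2) (h12 : ¬ 12 ∣ Nat.card G) : Group.IsSolvable G := by
  by_cases h2 : 2 ∣ Nat.card G
  swap
  · exact H24.solvable_of_not_two_dvd G h2
  have := Fact.mk Nat.prime_two
  obtain ⟨P⟩ : Nonempty (Sylow 2 G) := inferInstance
  by_cases h3 : ∃ q : ℕ, q.Prime ∧ q ∣ Nat.card G ∧ 2 < q
  · obtain ⟨h4, h5⟩ := h 2 Nat.prime_two h2 h3 P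
    refine H24.solvable_of_hasNPC_two (H23.npc_of_abelian P h4 fun q i hq a b c d => ?_)
    have h6 := (Nat.pow_dvd_pow_iff_le_right one_lt_two).1 (c.trans (H23.index_frattini_dvd P.2))
    obtain rfl | rfl : i = 1 ∨ i = 2 := by omega
    · exact hq.ne_one (Nat.dvd_one.1 d)
    · obtain rfl := (Nat.prime_dvd_prime_iff_eq hq Nat.prime_three).1 d
      exact h12 (Nat.Coprime.mul_dvd_of_dvd_of_dvd (show Nat.Coprime 3 4 by norm_num) a
        (c.trans ((frattini P).index_dvd_card.trans (P : Subgroup G).card_subgroup_dvd_card)))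
  · refine H5.isSolvable_of_primes_subset_pair Nat.prime_two Nat.prime_two fun r a b => Or.inl ?_
    exact le_antisymm (not_lt.1 fun c => h3 ⟨r, a, b, c⟩) a.two_le

end Cfsg.Agent.S3970
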