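import Cfsg.Statements.S3971
import Cfsg.Agent.H23.Auto
import Mathlib

set_option autoImplicit false
open Cfsg

namespace Cfsg.Agent.S3971

open Subgroup

/-- Let `G` be a finite group of order `2 ^ a * n` with `n` odd and not divisible by `3`, and suppose `G` has an element of order `2 ^ (a - 1)` (so a Sylow `2`-subgroup has a cyclic subgroup of index at most `2`). Then `G` has a normal subgroup of order `n`. -/
theorem result {G : Type*} [Group G] [Finite G] (a n : ℕ) (hG : Nat.card G = 2 ^ a * n) (hn : Odd n) (h3 : ¬ 3 ∣ n) (hx : ∃ x : G, orderOf x = 2 ^ (a - 1)) : ∃ N : Subgroup G, N.Normal ∧ Nat.card N = n := by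
  have := Fact.mk Nat.prime_two
  obtain ⟨x, hx⟩ := hx
  obtain ⟨P, hP⟩ := H24.exists_sylow_mem hx
  have h1 : Nat.card P = 2 ^ a := by
    rw [P.card_eq_multiplicity, hG, Nat.factorization_mul (by positivity) hn.pos.ne', Nat.prime_two.factorization_pow]
    simp [Nat.factorization_eq_zero_of_not_dvd hn.not_two_dvd_nat]
  have h2 : (zpowers x).relIndex P ∣ 2 := by
    have := H1.relIndex_mul_card (zpowers_le.2 hP)
    rw [h1, Nat.card_zpowers, hx] at this
    refine Nat.dvd_of_mul_dvd_mul_right (k := 2 ^ (a - 1)) (by positivity) (this ▸ ?_)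
    rw [← pow_succ']; exact pow_dvd_pow _ (by omega)
  obtain ⟨Q, N, h4, h5⟩ := H23.npc_of_auto P fun T hT q i hq b c d e => by
    have h6 : (zpowers x).relIndex T ∣ 2 := by
      obtain ⟨k, hk⟩ := IsPGroup.iff_card.1 (P.2.to_le hT)
      obtain ⟨j, -, hj⟩ := (Nat.dvd_prime_pow Nat.prime_two).1 (hk ▸ relIndex_dvd_card (zpowers x) T)
      have := (relIndex_le_of_le_right hT (ne_zero_of_dvd_ne_zero two_ne_zero h2)).trans (Nat.le_of_dvd two_pos h2)
      rw [hj] at this ⊢
      exact pow_dvd_pow 2 (show j ≤ 1 from (Nat.pow_le_pow_iff_right one_lt_two).1 this)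
    have h7 := (d.trans (H23.index_frattini_dvd_of_cyclic (P.2.to_le hT) (C := (zpowers x).subgroupOf T)
      (isCyclic_of_injective (T.subtype.subgroupComap (zpowers x)) fun a b e =>
        Subtype.ext (Subtype.ext (congrArg (fun z : zpowers x => (z : G)) e))))).trans (mul_dvd_mul_left 2 h6)
    have h8 : i ≤ 2 := (Nat.pow_dvd_pow_iff_le_right one_lt_two).1 h7
    obtain rfl | rfl : i = 1 ∨ i = 2 := by omega
    · exact hq.ne_one (Nat.dvd_one.1 e)
    · obtain rfl := (Nat.prime_dvd_prime_iff_eq hq Nat.prime_three).1 e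
      exact h3 ((Nat.Coprime.pow_right a (by norm_num)).dvd_of_dvd_mul_left (hG ▸ b))
  refine ⟨N, h4, ?_⟩
  have := h5.card_mul_card
  rw [Nat.card_congr (Q.equiv P).toEquiv, h1, hG, mul_comm] at this
  exact Nat.eq_of_mul_eq_mul_left (by positivity) this

end Cfsg.Agent.S3971
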