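import Cfsg.Statements.S3972
import Cfsg.Agent.H24.SRing
import Cfsg.Agent.H23.Cyc

set_option autoImplicit false
open Cfsg

namespace Cfsg.Agent.S3972


/-- Let `p` be a prime, `m ≥ 2`, and `G` a transitive but not doubly transitive permutation group on `p ^ m` points containing a permutation of order `p ^ m` (necessarily a full cycle). Then `G` is imprimitive, and the normal closure in `G` of the `p ^ (m - 1)`-th power of that permutation is an intransitive normal subgroup. -/
theorem result {Ω : Type*} [Fintype Ω] [DecidableEq Ω] (p m : ℕ) (hp : p.Prime) (hm : 2 ≤ m) (hΩ : Fintype.card Ω = p ^ m) (G : Subgroup (Equiv.Perm Ω)) (htr : MulAction.IsPretransitive G Ω) (h2 : ¬ MulAction.IsMultiplyPretransitive G Ω 2) (g : G) (hg : orderOf g = p ^ m) : ¬ MulAction.IsPreprimitive G Ω ∧ ¬ MulAction.IsPretransitive (Subgroup.normalClosure ({g ^ (p ^ (m - 1))} : Set G)) Ω := by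
  classical
  have := Fact.mk hp
  have hc := Nat.card_eq_fintype_card (α := Ω)
  have hC : Nat.card (Subgroup.zpowers g) = p ^ m := by rw [Nat.card_zpowers, hg]
  have hP := IsPGroup.of_card hC
  have hm' : m - 1 + 1 = m := by omega
  have o2 : ∀ H : Subgroup G, H ≤ Subgroup.zpowers g → H ≠ ⊥ → g ^ p ^ (m - 1) ∈ H :=
    fun H hH hb => by
      obtain ⟨j, hj, e⟩ := (Nat.dvd_prime_pow hp).1 (hC ▸ Subgroup.card_dvd_of_le hH)
      refine H23.le_of_card_dvd inferInstance (Subgroup.zpowers_le_of_mem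
        (Subgroup.npow_mem_zpowers g _)) hH ?_ (Subgroup.mem_zpowers _)
      rw [Nat.card_zpowers, e]
      refine (orderOf_dvd_of_pow_eq_one (by
        rw [← pow_mul, ← pow_succ, hm', ← hg, pow_orderOf_eq_one])).trans (dvd_pow_self p ?_)
      rintro rfl
      exact hb (Subgroup.card_eq_one.1 e)
  obtain ⟨a, ha⟩ : ∃ a : Ω, ¬ g ^ p ^ (m - 1) • a = a := by
    by_contra e
    push Not at e
    have := orderOf_dvd_of_pow_eq_one (eq_of_smul_eq_smul (α := Ω) fun a =>
      (e a).trans (one_smul G a).symm)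
    rw [hg, Nat.pow_dvd_pow_iff_le_right hp.one_lt] at this
    omega
  have hr : ∀ a : Ω, ¬ g ^ p ^ (m - 1) • a = a → MulAction.stabilizer (Subgroup.zpowers g) a = ⊥ :=
    fun a ha => by_contra fun e => ha (by
      obtain ⟨x, hx, e'⟩ := o2 ((MulAction.stabilizer _ a).map (Subgroup.zpowers g).subtype)
        (Subgroup.map_subtype_le _) (by
          rwa [Ne, Subgroup.map_eq_bot_iff_of_injective _ (Subgroup.subtype_injective _)])
      exact e' ▸ hx)
  have ht : MulAction.IsPretransitive (Subgroup.zpowers g) Ω :=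
    (MulAction.isPretransitive_iff_orbit_eq_univ a).2 ((Set.eq_univ_iff_ncard _).2 (by
      have := H17.card_orbit_mul (G := Subgroup.zpowers g) a
      rwa [hr a ha, Subgroup.card_bot, mul_one, hC, ← hΩ, ← hc] at this))
  have hr' : ∀ b : Ω, MulAction.stabilizer (Subgroup.zpowers g) b = ⊥ := fun b => by
    have := H17.card_mul_stabilizer (G := Subgroup.zpowers g) b
    rw [hC, ← hΩ, ← hc] at this
    exact Subgroup.card_eq_one.1 ((Nat.mul_eq_left (by rw [hc, hΩ]; exact pow_ne_zero _ hp.ne_zero)).1 this)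
  have h3 : ¬ MulAction.IsPreprimitive G Ω := fun h => h2 (H24.schur_cyclic _ ht hr' (by
    rw [hc, hΩ]; exact hp.two_le.trans (Nat.le_self_pow (by omega) p)) (by
    rw [hc, hΩ]; exact Nat.Prime.not_prime_pow hm))
  refine ⟨h3, fun h4 => h3 (H17.prim_of_rel fun r hr hinv => or_iff_not_imp_left.2 fun e => ?_)⟩
  push Not at e
  obtain ⟨x, y, h5, h6⟩ := e
  let K : Subgroup G := ⟨⟨⟨{g | ∀ x, r x (g • x)}, fun {a b} ha hb x =>
    hr.trans (hb x) (mul_smul a b x ▸ ha _)⟩, fun x => (one_smul G x).symm ▸ hr.refl x⟩,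
    fun {a} ha x => hr.symm (by simpa using ha (a⁻¹ • x))⟩
  have : K.Normal := ⟨fun a ha b x => by simpa [mul_smul] using hinv b _ _ (ha (b⁻¹ • x))⟩
  obtain ⟨u, rfl⟩ := ht.exists_smul_eq x y
  have h7 : (u : G) ∈ K := fun z => by
    obtain ⟨v, rfl⟩ := ht.exists_smul_eq x z
    have := hinv v _ _ h5
    rwa [show (v : G) • u • x = (u : G) • v • x by
      rw [← Subgroup.smul_def, ← mul_smul, (Subgroup.mul_comm_of_mem_isMulCommutative _ v.2 u.2 |>
        Subtype.ext : v * u = u * v), mul_smul]; rfl] at this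
  have h8 := Subgroup.normalClosure_le_normal (Set.singleton_subset_iff.2 (o2 (K ⊓ Subgroup.zpowers g)
    inf_le_right fun e => h6 (by
      rw [show u = 1 from Subtype.ext ((Subgroup.eq_bot_iff_forall _).1 e u ⟨h7, u.2⟩),
        one_smul])).1)
  intro x y
  obtain ⟨w, rfl⟩ := h4.exists_smul_eq x y
  exact h8 w.2 x

end Cfsg.Agent.S3972
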