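import Cfsg.Statements.S3973
import Cfsg.Agent.H23.Schur2

set_option autoImplicit false
open Cfsg

namespace Cfsg.Agent.S3973

open H23 Subgroup

theorem aux {Q : Type*} [Group Q] [Finite Q] {n : ℕ} (π : FreeGroup (Fin n) →* Q)
    (rels : Finset (FreeGroup (Fin n)))
    (hker : π.ker = normalClosure (rels : Set (FreeGroup (Fin n)))) :
    Group.rank (HM π) ≤ rels.card - n := by
  classical
  letI : CommGroup (hpi π).ker := centralCommGroup _ (hpi_ker_le π)
  have hrel : ∀ r : rels, ((r : FreeGroup (Fin n)) : HE π) ∈ (hpi π).ker := fun r => by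
    show (r : FreeGroup (Fin n)) ∈ π.ker
    rw [hker]; exact subset_normalClosure r.2
  let φ : (rels →₀ ℤ) →ₗ[ℤ] Additive (hpi π).ker :=
    Finsupp.linearCombination ℤ fun r => Additive.ofMul ⟨_, hrel r⟩
  have hφ : Function.Surjective φ := by
    let W : Subgroup (hpi π).ker := φ.range.toAddSubgroup.toSubgroup'
    haveI : (W.map (hpi π).ker.subtype).Normal :=
      normal_of_le_center ((map_subtype_le _).trans (hpi_ker_le π))
    have h1 : normalClosure (rels : Set (FreeGroup (Fin n))) ≤
        (W.map (hpi π).ker.subtype).comap (hmk π) :=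
      normalClosure_le_normal fun r hr => ⟨⟨_, hrel ⟨r, hr⟩⟩,
        ⟨Finsupp.single ⟨r, hr⟩ 1, by simp [φ]; rfl⟩, rfl⟩
    rintro ⟨x, hx⟩
    obtain ⟨x, rfl⟩ := QuotientGroup.mk_surjective x
    have hx' : x ∈ π.ker := hx
    rw [hker] at hx'
    obtain ⟨y, ⟨m, hm⟩, hy⟩ := h1 hx'
    exact ⟨m, hm.trans (Subtype.ext hy)⟩
  let θ : HE π →* Abelianization (FreeGroup (Fin n)) :=
    hlift π Abelianization.of fun _ _ => mem_center_iff.2 fun _ => mul_comm _ _
  have hθ : ∀ x, θ x = 1 ↔ x ∈ commutator (HE π) := fun x => by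
    refine ⟨fun h => ?_, fun h => Abelianization.commutator_subset_ker θ h⟩
    obtain ⟨x, rfl⟩ := QuotientGroup.mk_surjective x
    have : x ∈ commutator _ := by rw [← Abelianization.ker_of]; exact h
    have h2 : (commutator _).map (hmk π) ≤ commutator _ := by
      rw [_root_.commutator_def, map_commutator]; exact commutator_mono le_top le_top
    exact h2 (mem_map_of_mem _ this)
  let ψ : Additive (hpi π).ker →ₗ[ℤ] FreeAbelianGroup (Fin n) :=
    (MonoidHom.toAdditive (θ.comp (hpi π).ker.subtype)).toIntLinearMap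
  let Λ := ψ.comp φ
  haveI : Module.Finite ℤ (FreeAbelianGroup (Fin n)) :=
    Module.Finite.equiv (FreeAbelianGroup.equivFinsupp (Fin n)).toIntLinearEquiv.symm
  have hV : Module.finrank ℤ (FreeAbelianGroup (Fin n)) = n := by
    rw [(FreeAbelianGroup.equivFinsupp (Fin n)).toIntLinearEquiv.finrank_eq]; simp
  have hrange : n ≤ Module.finrank ℤ Λ.range := by
    have hmem : ∀ v : FreeAbelianGroup (Fin n), (Nat.card Q : ℤ) • v ∈ Λ.range := by
      intro v
      obtain ⟨x, hx⟩ : ∃ x : FreeGroup (Fin n), Additive.ofMul (Abelianization.of x) = v :=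
        QuotientGroup.mk_surjective (s := commutator (FreeGroup (Fin n))) v
      have h1 : ((x ^ Nat.card Q : FreeGroup (Fin n)) : HE π) ∈ (hpi π).ker := by
        show π _ = 1
        rw [map_pow, pow_card_eq_one']
      obtain ⟨m, hm⟩ := hφ (Additive.ofMul ⟨_, h1⟩)
      refine ⟨m, ?_⟩
      rw [LinearMap.comp_apply, hm, natCast_zsmul, ← hx]
      exact congrArg Additive.ofMul (map_pow Abelianization.of x _)
    let j : FreeAbelianGroup (Fin n) →ₗ[ℤ] Λ.range :=
      ((Nat.card Q : ℤ) • LinearMap.id).codRestrict _ hmem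
    have hj : Function.Injective j := by
      rw [injective_iff_map_eq_zero]
      intro v hv
      have : (Nat.card Q : ℤ) • v = 0 := congrArg Subtype.val hv
      exact (smul_eq_zero.1 this).resolve_left (by exact_mod_cast Nat.card_pos.ne')
    have h3 := LinearMap.finrank_le_finrank_of_injective hj
    rwa [hV] at h3
  have hrn : Module.finrank ℤ Λ.range + Module.finrank ℤ Λ.ker = rels.card := by
    rw [← Λ.quotKerEquivRange.finrank_eq, Submodule.finrank_quotient_add_finrank]
    simp
  let b := Module.finBasis ℤ Λ.ker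
  have hmem : ∀ m : Λ.ker, ((φ m).toMul : HE π) ∈ HM π := fun m =>
    mem_inf.2 ⟨(φ m).toMul.2, (hθ _).1 m.2⟩
  let g : Multiplicative Λ.ker →* HM π := MonoidHom.mk' (fun m => ⟨_, hmem m.toAdd⟩)
    fun x y => Subtype.ext (by simp)
  have hg : Function.Surjective g := by
    rintro ⟨x, hx⟩
    obtain ⟨m, hm⟩ := hφ (Additive.ofMul ⟨x, hx.1⟩)
    have : m ∈ Λ.ker := by
      rw [LinearMap.mem_ker, LinearMap.comp_apply, hm]
      exact (hθ x).2 hx.2
    exact ⟨Multiplicative.ofAdd ⟨m, this⟩, Subtype.ext (by
      show ((φ m).toMul : HE π) = x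
      rw [hm]; rfl)⟩
  let S : Finset (HM π) := Finset.univ.image fun i => g (Multiplicative.ofAdd (b i))
  have hS : closure (S : Set (HM π)) = ⊤ := by
    rw [eq_top_iff]
    intro x _
    obtain ⟨m, rfl⟩ := hg x
    have : m = ∏ i, Multiplicative.ofAdd (b i) ^ (b.repr m.toAdd i) := by
      apply Multiplicative.toAdd.injective
      simp [toAdd_prod]
    rw [this, map_prod]
    refine prod_mem fun i _ => ?_
    rw [map_zpow]
    exact zpow_mem (subset_closure (by simp [S])) _
  refine (Group.rank_le hS).trans (Finset.card_image_le.trans ?_)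
  rw [Finset.card_univ, Fintype.card_fin]
  omega

/-- If a finite group is presented by `n` generators and a finite set of `r` relators, then its Schur multiplier can be generated by `r - n` elements. In particular a finite group with a presentation having as many relators as generators has trivial Schur multiplier. -/
theorem result (n : ℕ) (rels : Finset (FreeGroup (Fin n))) [Finite (PresentedGroup (rels : Set (FreeGroup (Fin n))))] {A : Type*} [CommGroup A] [Finite A] (hA : Cfsg.HasSchurMultiplier (PresentedGroup (rels : Set (FreeGroup (Fin n)))) A) : Group.rank A ≤ rels.card - n := by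
  obtain ⟨e⟩ := schur_unique hA (hasSchur_HM (PresentedGroup.mk (rels : Set (FreeGroup (Fin n))))
    (PresentedGroup.mk_surjective _))
  rw [Group.rank_congr e]
  exact aux _ rels (QuotientGroup.ker_mk' _)

end Cfsg.Agent.S3973
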