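import Cfsg.Statements.S3974
import Cfsg.Agent.H23.Schur2

set_option autoImplicit false
universe u v
open Cfsg

namespace Cfsg.Agent.S3974

open H23 Subgroup

theorem exists_extend_of_coprime {A B D : Type*} [CommGroup A] [CommGroup B] [CommGroup D]
    [Finite D] (f : A →* B) (hf : Function.Injective f) {k : ℕ} (hk : ∀ b, b ^ k ∈ f.range)
    (hc : k.Coprime (Nat.card D)) (g : A →* D) : ∃ h : B →* D, h.comp f = g := by
  let e := MonoidHom.ofInjective hf
  let P : B →* f.range := (powMonoidHom k).codRestrict _ hk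
  let w : D ≃* D := MulEquiv.ofBijective (powMonoidHom k) (powCoprime hc.symm).bijective
  refine ⟨w.symm.toMonoidHom.comp (g.comp (e.symm.toMonoidHom.comp P)), ?_⟩
  ext a
  have : P (f a) = e (a ^ k) := Subtype.ext (map_pow f a k).symm
  show w.symm (g (e.symm (P (f a)))) = g a
  rw [this, e.symm_apply_apply, w.symm_apply_eq, map_pow]
  rfl

theorem exists_dual (K : Type*) {V W : Type*} [Field K] [AddCommGroup V] [Module K V]
    [AddCommGroup W] [Module K W] {x : V} (hx : x ≠ 0) (w : W) : ∃ f : V →+ W, f x = w := by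
  obtain ⟨f, hf⟩ := Module.Projective.exists_dual_eq_one K hx
  refine ⟨(f.smulRight w).toAddMonoidHom, ?_⟩
  show f x • w = w
  rw [hf, one_smul]

theorem exists_hom_apply_eq {A B : Type*} [CommGroup A] [CommGroup B] {p : ℕ} [Fact p.Prime]
    (hA : ∀ a : A, a ^ p = 1) (hB : ∀ b : B, b ^ p = 1) {a : A} (ha : a ≠ 1) (b : B) :
    ∃ φ : A →* B, φ a = b := by
  letI : Module (ZMod p) (Additive A) := AddCommGroup.zmodModule fun x =>
    congrArg Additive.ofMul (hA x.toMul)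
  letI : Module (ZMod p) (Additive B) := AddCommGroup.zmodModule fun x =>
    congrArg Additive.ofMul (hB x.toMul)
  obtain ⟨f, hf⟩ := exists_dual (ZMod p) (x := Additive.ofMul a) ha (Additive.ofMul b)
  exact ⟨AddMonoidHom.toMultiplicative f, hf⟩

theorem of_mem_HL {F Q : Type*} [Group F] [Group Q] {π : F →* Q} (hπ : Function.Surjective π)
    (x : HE π) : Abelianization.of x ∈ HL π ↔ Abelianization.of (hpi π x) = 1 := by
  have hm : (commutator (HE π)).map (hpi π) = commutator Q :=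
    map_commutator_of_central _ fun d => by
      obtain ⟨x, rfl⟩ := hpi_surjective π hπ d
      exact ⟨x, 1, one_mem _, (mul_one _).symm⟩
  rw [← MonoidHom.mem_ker, Abelianization.ker_of, ← hm]
  constructor
  · rintro ⟨r, hr, h⟩
    refine ⟨r⁻¹ * x, ?_, by rw [map_mul, map_inv, (show hpi π r = 1 from hr), inv_one, one_mul]⟩
    rw [SetLike.mem_coe, ← Abelianization.ker_of, MonoidHom.mem_ker, map_mul, map_inv, h,
      inv_mul_cancel]
  · rintro ⟨y, hy, h⟩
    refine ⟨y⁻¹ * x, ?_, ?_⟩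
    · show hpi π _ = 1
      rw [map_mul, map_inv, h, inv_mul_cancel]
    · rw [SetLike.mem_coe, ← Abelianization.ker_of, MonoidHom.mem_ker] at hy
      rw [map_mul, map_inv, hy, inv_one, one_mul]

/-- the difference of two lifts along a central extension -/
theorem exists_diff {E X Y : Type*} [Group E] [Group X] [Group Y] (ξ : X →* Y)
    (hc : ξ.ker ≤ center X) (α β : E →* X) (h : ξ.comp α = ξ.comp β) :
    ∃ μ : E →* ξ.ker, ∀ x, (μ x : X) = α x * (β x)⁻¹ := by
  have hm : ∀ x, α x * (β x)⁻¹ ∈ ξ.ker := fun x => by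
    rw [MonoidHom.mem_ker, map_mul, map_inv, ← MonoidHom.comp_apply, h, MonoidHom.comp_apply,
      mul_inv_cancel]
  refine ⟨MonoidHom.mk' (fun x => ⟨_, hm x⟩) fun x y => Subtype.ext ?_, fun _ => rfl⟩
  show α (x * y) * (β (x * y))⁻¹ = α x * (β x)⁻¹ * (α y * (β y)⁻¹)
  rw [mul_assoc, mem_center_iff.1 (hc (hm y)) (β x)⁻¹, map_mul, map_mul]
  group

/-- Let `Q` be a finite group with Schur multiplier `A`. Any two Schur covering groups of `Q` (finite stem extensions `σ₁ : Γ₁ →* Q`, `σ₂ : Γ₂ →* Q` with kernels isomorphic to `A`, `Γ₁, Γ₂` in the universe of `Q`) are isomorphic over `Q` — there is a group isomorphism `e : Γ₁ ≃* Γ₂` with `σ₂ ∘ e = σ₁` — if and only if the order of the commutator quotient of `Q` is coprime to the order of `A`. In particular a finite perfect group has a unique Schur covering group up to isomorphism over it. -/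
theorem result {Q : Type u} [Group Q] [Finite Q] {A : Type v} [CommGroup A] (hA : Cfsg.HasSchurMultiplier Q A) : (∀ (Γ₁ Γ₂ : Type u) [Group Γ₁] [Finite Γ₁] [Group Γ₂] [Finite Γ₂] (σ₁ : Γ₁ →* Q) (σ₂ : Γ₂ →* Q), Cfsg.IsStemExtension σ₁ → Cfsg.IsStemExtension σ₂ → Nonempty (σ₁.ker ≃* A) → Nonempty (σ₂.ker ≃* A) → ∃ e : Γ₁ ≃* Γ₂, σ₂.comp e.toMonoidHom = σ₁) ↔ Nat.Coprime (Nat.card (Abelianization Q)) (Nat.card A) := by
  haveI := schur_finite_group hA
  haveI := schur_finite hA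
  have hπ := canon_surjective Q
  obtain ⟨eA⟩ := hasSchur_iff.1 hA
  set π := canon Q
  have hab : ∀ t ∈ commutator (HE π), Abelianization.of t = 1 := fun t ht => by
    rwa [← Abelianization.ker_of] at ht
  constructor
  · intro huniq
    by_contra hcop
    obtain ⟨p, hp, hp1, hp2⟩ := Nat.Prime.not_coprime_iff_dvd.1 hcop
    haveI := Fact.mk hp
    haveI := fg_HL π
    obtain ⟨S, hS, hd, h₁⟩ := exists_complement π (hpi π).ker le_rfl
      (fun r hr => ⟨r, hr, 1, one_mem _, (mul_one r).symm⟩)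
    letI : CommGroup (hpi π).ker := centralCommGroup _ (hpi_ker_le π)
    obtain ⟨y, hy⟩ := exists_prime_orderOf_dvd_card' p hp1
    obtain ⟨q, rfl⟩ : ∃ q : Q, Abelianization.of q = y := QuotientGroup.mk_surjective y
    obtain ⟨f, rfl⟩ := hpi_surjective π hπ q
    have hf1 : Abelianization.of f ∉ HL π := by
      rw [of_mem_HL hπ]; intro h; rw [h, orderOf_one] at hy; exact hp.one_lt.ne hy
    have hf2 : Abelianization.of (f ^ p) ∈ HL π := by
      rw [of_mem_HL hπ, map_pow, map_pow, ← hy, pow_orderOf_eq_one]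
    let Lp := (powMonoidHom p : HL π →* HL π).range
    let Tp := (powMonoidHom p : HM π →* HM π).range
    have hl0 : ((⟨_, hf2⟩ : HL π) : HL π ⧸ Lp) ≠ 1 := by
      rw [Ne, QuotientGroup.eq_one_iff]
      rintro ⟨l, hl⟩
      have h2 : (l : Abelianization (HE π)) ^ p = Abelianization.of f ^ p := by
        rw [← map_pow]; exact congrArg Subtype.val hl
      have h3 := ab_torsionFree π ((l : Abelianization (HE π))⁻¹ * Abelianization.of f) p
        hp.ne_zero (by rw [mul_pow, inv_pow, h2, inv_mul_cancel])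
      rw [inv_mul_eq_one] at h3
      exact hf1 (h3 ▸ l.2)
    obtain ⟨t₀, ht₀⟩ : ∃ t : HM π, t ∉ Tp := by
      by_contra hall
      push Not at hall
      have hinj : Function.Injective (powMonoidHom p : HM π →* HM π) :=
        Finite.injective_iff_surjective.2 hall
      obtain ⟨t, ht⟩ := exists_prime_orderOf_dvd_card' (G := HM π) p
        (Nat.card_congr eA.toEquiv ▸ hp2)
      have := (injective_iff_map_eq_one _).1 hinj t (by
        rw [powMonoidHom_apply, ← ht, pow_orderOf_eq_one])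
      rw [this, orderOf_one] at ht; exact hp.one_lt.ne ht
    have hq : ∀ {C : Type _} [CommGroup C] (c : C ⧸ (powMonoidHom p : C →* C).range), c ^ p = 1 := by
      intro C _ c
      obtain ⟨c, rfl⟩ := QuotientGroup.mk_surjective c
      rw [← QuotientGroup.mk_pow, QuotientGroup.eq_one_iff]; exact ⟨c, rfl⟩
    obtain ⟨φ, hφ⟩ := exists_hom_apply_eq (A := HL π ⧸ Lp) (B := HM π ⧸ Tp) hq hq hl0 t₀
    obtain ⟨θ, hθ⟩ := exists_lift_of_torsionFree (HL_torsionFree π) (QuotientGroup.mk' Tp)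
      (QuotientGroup.mk'_surjective _) (φ.comp (QuotientGroup.mk' Lp))
    have hθ0 : θ ⟨_, hf2⟩ ∉ Tp := by
      rw [← QuotientGroup.eq_one_iff]
      have := DFunLike.congr_fun hθ ⟨_, hf2⟩
      rw [show ((θ ⟨_, hf2⟩ : HM π) : HM π ⧸ Tp) = t₀ from this.trans hφ, QuotientGroup.eq_one_iff]
      exact ht₀
    let j : S →* HL π := (Abelianization.of.comp S.subtype).codRestrict _
      (fun s => mem_map_of_mem _ (hS s.2))
    let g : S →* (hpi π).ker := inclusion hS * ((inclusion inf_le_left).comp (θ.comp j))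
    have hg : ∀ s : S, (g s : HE π) = s * θ (j s) := fun _ => rfl
    let S' := ((hpi π).ker.subtype.comp g).range
    have hS' : S' ≤ (hpi π).ker := by rintro _ ⟨s, rfl⟩; exact (g s).2
    have hd' : S' ⊓ commutator (HE π) = ⊥ := by
      rw [eq_bot_iff]
      rintro _ ⟨⟨s, rfl⟩, hs⟩
      have h2 : (s : HE π) ∈ S ⊓ commutator (HE π) := mem_inf.2 ⟨s.2, by
        have := mul_mem (show (s : HE π) * θ (j s) ∈ commutator (HE π) from hs)
          (inv_mem (θ (j s)).2.2)
        rwa [mul_inv_cancel_right] at this⟩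
      rw [hd] at h2
      rw [show s = 1 from Subtype.ext h2, map_one]; exact one_mem _
    have h₁' : ∀ r ∈ (hpi π).ker, ∃ s ∈ S', ∃ t ∈ HM π, r = s * t := fun r hr => by
      obtain ⟨s, hs, t, ht, rfl⟩ := h₁ r hr
      exact ⟨_, ⟨⟨s, hs⟩, rfl⟩, (θ (j ⟨s, hs⟩) : HE π)⁻¹ * t, mul_mem (inv_mem (θ _).2) ht, by
        show _ = s * θ (j ⟨s, hs⟩) * _
        group⟩
    haveI : S.Normal := normal_of_le_center (hS.trans (hpi_ker_le π))
    haveI : S'.Normal := normal_of_le_center (hS'.trans (hpi_ker_le π))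
    obtain ⟨hσ, ⟨e₁⟩⟩ := cover_of_complement π hπ S hS hd h₁
    obtain ⟨hσ', ⟨e₂⟩⟩ := cover_of_complement π hπ S' hS' hd' h₁'
    haveI := finite_of_stem hσ
    haveI := finite_of_stem hσ'
    obtain ⟨e, he⟩ := huniq _ _ _ _ hσ hσ' ⟨e₁.trans eA.symm⟩ ⟨e₂.trans eA.symm⟩
    obtain ⟨μ, hμ⟩ := exists_diff _ hσ'.2.1 (e.toMonoidHom.comp (QuotientGroup.mk' S))
      (QuotientGroup.mk' S') (by rw [← MonoidHom.comp_assoc, he]; rfl)
    letI := centralCommGroup _ hσ'.2.1
    obtain ⟨r, hr, hrf⟩ := hf2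
    obtain ⟨s, hs, t, ht, rfl⟩ := h₁ r hr
    rw [map_mul, hab t ht.2, mul_one] at hrf
    have h2 : μ (f ^ p) = μ s := by
      rw [← Abelianization.lift_apply_of μ, ← hrf, Abelianization.lift_apply_of]
    have h3 : (μ s : HE π ⧸ S') = (θ (j ⟨s, hs⟩) : HE π) := by
      rw [hμ]
      show e (s : HE π ⧸ S) * _ = _
      rw [(QuotientGroup.eq_one_iff s).2 hs, map_one, one_mul, inv_eq_iff_mul_eq_one]
      exact (QuotientGroup.eq_one_iff _).2 ⟨⟨s, hs⟩, rfl⟩
    obtain ⟨x, hx⟩ := QuotientGroup.mk_surjective (μ f : HE π ⧸ S')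
    obtain ⟨s', hs', t', ht', rfl⟩ := h₁' x (by
      have := (μ f).2
      rw [← hx] at this; exact this)
    rw [QuotientGroup.mk_mul, (QuotientGroup.eq_one_iff s').2 hs', one_mul] at hx
    have h4 : ((t' ^ p : HE π) : HE π ⧸ S') = (θ (j ⟨s, hs⟩) : HE π) := by
      rw [← h3, ← h2, map_pow, QuotientGroup.mk_pow, hx]; rfl
    rw [QuotientGroup.eq] at h4
    have h5 : (t' ^ p)⁻¹ * (θ (j ⟨s, hs⟩) : HE π) ∈ S' ⊓ commutator (HE π) :=
      mem_inf.2 ⟨h4, mul_mem (inv_mem (pow_mem ht'.2 p)) (θ _).2.2⟩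
    rw [hd', mem_bot, inv_mul_eq_one] at h5
    apply hθ0
    refine ⟨⟨t', ht'⟩, Subtype.ext (h5.trans ?_)⟩
    congr 2
    exact Subtype.ext hrf
  · intro hcop Γ₁ Γ₂ _ _ _ _ σ₁ σ₂ hσ₁ hσ₂ ⟨e₁⟩ ⟨e₂⟩
    obtain ⟨φ, hφ⟩ := exists_hlift π σ₁ hσ₁.1 hσ₁.2.1 (MonoidHom.id Q)
    replace hφ : σ₁.comp φ = hpi π := hφ
    obtain ⟨ψ, hψ⟩ := exists_hlift π σ₂ hσ₂.1 hσ₂.2.1 (MonoidHom.id Q)
    replace hψ : σ₂.comp ψ = hpi π := hψ
    have hφs := surjective_of_stem φ hσ₁ (hφ ▸ hpi_surjective π hπ)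
    have hd := ker_inf_commutator_eq_bot hπ hA hσ₁ (Nat.card_congr e₁.toEquiv).ge hφ
    have hm := map_HM π hπ hσ₁.2.1 hφ
    rw [inf_eq_left.2 hσ₁.2.2] at hm
    have h₀ : φ.ker ≤ (hpi π).ker := fun x hx => by
      show hpi π x = 1
      rw [← hφ, MonoidHom.comp_apply, (show φ x = 1 from hx), map_one]
    letI : CommGroup φ.ker := centralCommGroup _ (h₀.trans (hpi_ker_le π))
    letI : CommGroup σ₂.ker := centralCommGroup _ hσ₂.2.1
    let l : φ.ker →* σ₂.ker := (ψ.comp φ.ker.subtype).codRestrict _ (fun s => by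
      show σ₂ (ψ s) = 1
      rw [← MonoidHom.comp_apply, hψ]; exact h₀ s.2)
    let i : φ.ker →* Abelianization (HE π) := Abelianization.of.comp φ.ker.subtype
    have hi : Function.Injective i := by
      rw [injective_iff_map_eq_one]
      intro s hs
      have : (s : HE π) ∈ φ.ker ⊓ commutator (HE π) := mem_inf.2 ⟨s.2, by
        rw [← Abelianization.ker_of]; exact hs⟩
      rw [hd] at this
      exact Subtype.ext this
    obtain ⟨μ, hμ⟩ := exists_extend_of_coprime i hi (k := Nat.card (Abelianization Q)) (fun b => by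
      obtain ⟨x, rfl⟩ : ∃ x : HE π, Abelianization.of x = b := QuotientGroup.mk_surjective b
      obtain ⟨r, hr, hrx⟩ := (of_mem_HL hπ (x ^ Nat.card (Abelianization Q))).2 (by
        rw [map_pow, map_pow, pow_card_eq_one'])
      have : φ r ∈ σ₁.ker := by
        show σ₁ (φ r) = 1
        rw [← MonoidHom.comp_apply, hφ]; exact hr
      rw [← hm] at this
      obtain ⟨t, ht, hrt⟩ := this
      refine ⟨⟨r * t⁻¹, ?_⟩, ?_⟩
      · show φ (r * t⁻¹) = 1
        rw [map_mul, map_inv, hrt, mul_inv_cancel]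
      · show Abelianization.of (r * t⁻¹) = _
        rw [map_mul, map_inv, hab t ht.2, inv_one, mul_one, hrx, map_pow])
      (by rw [Nat.card_congr e₂.toEquiv]; exact hcop) l
    let ν : HE π → Γ₂ := fun x => (μ (Abelianization.of x) : Γ₂)
    have hν : ∀ x, ν x ∈ σ₂.ker := fun x => (μ (Abelianization.of x)).2
    have hνm : ∀ x y, ν (x * y) = ν x * ν y := fun x y => by simp [ν]
    let ρ₀ : HE π →* Γ₂ := MonoidHom.mk' (fun x => ψ x * (ν x)⁻¹) (fun x y => by
      rw [map_mul, hνm, mul_inv_rev]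
      have h1 := mem_center_iff.1 (inv_mem (hσ₂.2.1 (hν x))) (ψ y * (ν y)⁻¹)
      calc ψ x * ψ y * ((ν y)⁻¹ * (ν x)⁻¹) = ψ x * (ψ y * (ν y)⁻¹ * (ν x)⁻¹) := by group
        _ = ψ x * ((ν x)⁻¹ * (ψ y * (ν y)⁻¹)) := by rw [h1]
        _ = _ := by group)
    have hk : φ.ker ≤ ρ₀.ker := fun s hs => by
      show ψ s * (ν s)⁻¹ = 1
      have : ν s = ψ s := congrArg Subtype.val (DFunLike.congr_fun hμ ⟨s, hs⟩)
      rw [this, mul_inv_cancel]
    let ρ : Γ₁ →* Γ₂ := φ.liftOfSurjective hφs ⟨ρ₀, hk⟩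
    have hρ : σ₂.comp ρ = σ₁ := by
      ext g
      obtain ⟨x, rfl⟩ := hφs g
      rw [MonoidHom.comp_apply, MonoidHom.liftOfRightInverse_comp_apply,
        ← MonoidHom.comp_apply σ₁ φ, hφ, ← hψ]
      show σ₂ (ψ x * (ν x)⁻¹) = σ₂ (ψ x)
      rw [map_mul, map_inv, (show σ₂ (ν x) = 1 from hν x), inv_one, mul_one]
    have hs := surjective_of_stem ρ hσ₂ (hρ ▸ hσ₁.1)
    have hcard : ∀ {Γ : Type u} [Group Γ] (σ : Γ →* Q), Function.Surjective σ → (σ.ker ≃* A) →
        Nat.card Γ = Nat.card A * Nat.card Q := fun σ hσ e => by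
      rw [← σ.ker.card_mul_index, index_ker, MonoidHom.range_eq_top.2 hσ, card_top,
        Nat.card_congr e.toEquiv]
    exact ⟨MulEquiv.ofBijective ρ (hs.bijective_of_nat_card_le (by
      rw [hcard σ₁ hσ₁.1 e₁, hcard σ₂ hσ₂.1 e₂])), hρ⟩

end Cfsg.Agent.S3974
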