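import Cfsg.Statements.S3977
import Cfsg.Agent.H4.Count

set_option autoImplicit false
open Cfsg

namespace Cfsg.Agent.S3977

/-- Let `p` be a prime and `G` a group of order `p ^ m` which has exactly one subgroup of order `p ^ s`, where `1 ≤ s < m`, and where `s ≥ 2` if `p = 2`. Then `G` is cyclic. (For `p = 2` and `s = 1` the generalized quaternion groups also occur; that case is the classical criterion for a unique involution.) -/
theorem result {G : Type*} [Group G] [Finite G] (p m s : ℕ) (hp : p.Prime) (hG : Nat.card G = p ^ m) (hs : 1 ≤ s) (hsm : s < m) (h2 : p ≠ 2 ∨ 2 ≤ s) (huniq : ∀ H K : Subgroup G, Nat.card H = p ^ s → Nat.card K = p ^ s → H = K) : IsCyclic G := by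
  have := Fact.mk hp
  have hP : IsPGroup p G := IsPGroup.of_card hG
  obtain ⟨H, hH⟩ := Sylow.exists_subgroup_card_pow_prime p (G := G) (n := s)
    (hG ▸ pow_dvd_pow p hsm.le)
  have hle : ∀ (j : ℕ) (K : Subgroup G), Nat.card K = p ^ j → j ≤ s → K ≤ H := fun j K hK hj => by
    obtain ⟨L, h1, h2⟩ := Sylow.exists_subgroup_card_pow_prime_le p (hG ▸ pow_dvd_pow p hsm.le) K hK hj
    exact huniq L H h1 hH ▸ h2
  obtain ⟨K, hK, hHK⟩ := Sylow.exists_subgroup_card_pow_prime_le p
    (hG ▸ pow_dvd_pow p (show s + 1 ≤ m from hsm)) H hH (Nat.le_succ s)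
  have hc : IsCyclic K := by
    obtain ⟨x, hx, hxH⟩ := H4.exists_mem_notMem_of_card (K := H) (N := K)
      (by rw [hH, hK]; exact Nat.pow_lt_pow_right hp.one_lt (Nat.lt_succ_self s))
    obtain ⟨j, hj⟩ := H4.exists_card_eq_pow hP (Subgroup.zpowers x)
    have h3 : ¬ j ≤ s := fun h => hxH (hle j _ hj h (Subgroup.mem_zpowers x))
    rw [← Subgroup.eq_of_le_of_card_ge (Subgroup.zpowers_le.2 hx)
      (by rw [hK, hj]; exact Nat.pow_le_pow_right hp.pos (by omega))]
    infer_instance
  have huq : ∀ j ≤ s, ∀ x y : G, orderOf x = p ^ j → orderOf y = p ^ j →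
      Subgroup.zpowers x = Subgroup.zpowers y := fun j hj x y hx hy => by
    have hx' := (hle j _ ((Nat.card_zpowers x).trans hx) hj).trans hHK (Subgroup.mem_zpowers x)
    have hy' := (hle j _ ((Nat.card_zpowers y).trans hy) hj).trans hHK (Subgroup.mem_zpowers y)
    have h4 := H4.card_le_of_isCyclic hc (n := p ^ j) (pow_pos hp.pos j)
      (S := (Subgroup.zpowers x ⊔ Subgroup.zpowers y : Subgroup G)) fun g hg => by
        have hg' : g ∈ K := (sup_le (Subgroup.zpowers_le.2 hx') (Subgroup.zpowers_le.2 hy')) hg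
        refine ⟨hg', ?_⟩
        have hcm : IsMulCommutative K := inferInstance
        have : Subgroup.zpowers x ⊔ Subgroup.zpowers y ≤ H4.omegaComm K hcm (p ^ j) :=
          sup_le (Subgroup.zpowers_le.2 ⟨hx', by rw [← hx, pow_orderOf_eq_one]⟩)
            (Subgroup.zpowers_le.2 ⟨hy', by rw [← hy, pow_orderOf_eq_one]⟩)
        exact (this hg).2
    exact (Subgroup.eq_of_le_of_card_ge le_sup_left (by rwa [Nat.card_zpowers, hx])).trans
      (Subgroup.eq_of_le_of_card_ge le_sup_right (by rwa [Nat.card_zpowers, hy])).symm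
  rcases H4.cyclic_or_quaternion hP (H4.isCyclic_of_unique hP fun x y hx hy =>
    huq 1 hs x y (by rwa [pow_one]) (by rwa [pow_one])) with h | ⟨rfl, n, hn, ⟨e⟩⟩
  · exact h
  obtain ⟨a, b, ha, hb, hab, hba, -⟩ := H4.exists_gens_of_quaternion e
  have ha' : orderOf a = 2 ^ (n + 1) := by rw [ha, pow_succ']
  obtain ⟨n, rfl⟩ := Nat.exists_eq_add_of_le' hn
  have h5 : orderOf (a ^ 2 ^ n) = 2 ^ 2 := by
    rw [H4.orderOf_pow_prime_pow ha' (by omega)]; congr 1; omega
  have h6 : orderOf b = 2 ^ 2 := H4.orderOf_eq_pow_succ one_ne_zero (by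
    rw [hb, H4.orderOf_pow_prime_pow ha' (by omega)]; congr 1; omega)
  have := huq 2 (h2.resolve_left (by simp)) _ _ h5 h6
  exact (hba (Subgroup.zpowers_le.2 (pow_mem (Subgroup.mem_zpowers a) _)
    (this ▸ Subgroup.mem_zpowers b))).elim

end Cfsg.Agent.S3977
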