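import Cfsg.Statements.S3980
import Cfsg.Agent.H23.SchurProd

set_option autoImplicit false
universe u v w
open Cfsg

namespace Cfsg.Agent.S3980

/-- Let `Q₁` and `Q₂` be finite groups whose commutator quotients have coprime orders, with Schur multipliers `A` and `B`. Then the Schur multiplier of `Q₁ × Q₂` is isomorphic to `A × B`. -/
theorem result {Q₁ : Type u} {Q₂ : Type v} [Group Q₁] [Group Q₂] [Finite Q₁] [Finite Q₂] {A B : Type w} [CommGroup A] [CommGroup B] (hA : Cfsg.HasSchurMultiplier Q₁ A) (hB : Cfsg.HasSchurMultiplier Q₂ B) (hcop : Nat.Coprime (Nat.card (Abelianization Q₁)) (Nat.card (Abelianization Q₂))) : Cfsg.HasSchurMultiplier (Q₁ × Q₂) (A × B) := by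
  haveI := H23.tt_subsingleton hcop
  haveI : Unique (H23.TT Q₁ Q₂) := uniqueOfSubsingleton 1
  exact H23.schur_congr_right (H23.hasSchur_prod hA hB)
    (MulEquiv.prodCongr (MulEquiv.refl A) MulEquiv.prodUnique)

end Cfsg.Agent.S3980
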