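import Cfsg.Statements.S3992
import Cfsg.Agent.H23.PrimeGr
import Cfsg.Agent.H23.Nil
import Cfsg.Agent.H2.Coprime

set_option autoImplicit false
open Cfsg

namespace Cfsg.Agent.S3992

open Subgroup H23
open scoped Pointwise

theorem not_le_centralizer {G : Type*} [Group G] [Finite G] (h : EPPO G) {A B : Subgroup G}
    (hA : A ≠ ⊥) (hB : ¬ Group.IsSolvable B) : ¬ B ≤ centralizer (A : Set G) := by
  intro hc
  obtain ⟨q, hq, hd⟩ := Nat.exists_prime_and_dvd (mt card_eq_one.1 hA)
  obtain ⟨x, hx, ho⟩ := exists_mem_orderOf_eq hq hd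
  haveI : Fact q.Prime := ⟨hq⟩
  exact hB (H2.isSolvable_of_isPGroup ((h.isPGroup_centralizer hq ho).to_le
    (hc.trans (centralizer_le (Set.singleton_subset_iff.2 hx)))))

/-- Let G be a finite non-solvable group in which every element has prime-power order, and let R be its largest solvable normal subgroup. Then R is a p-group for some prime p; G/R has a non-abelian simple normal subgroup contained in every nontrivial normal subgroup of G/R (its unique minimal normal subgroup); and the order of every solvable subgroup of G has at most two prime divisors. -/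
theorem result {G : Type*} [Group G] [Finite G] (hns : ¬ Group.IsSolvable G) (hpp : ∀ g : G, g ≠ 1 → IsPrimePow (orderOf g))
    (R : Subgroup G) [R.Normal] (hRs : Group.IsSolvable ↥R) (hRmax : ∀ N : Subgroup G, N.Normal → Group.IsSolvable ↥N → N ≤ R) :
    (∃ p : ℕ, p.Prime ∧ IsPGroup p ↥R) ∧
      (∃ M : Subgroup (G ⧸ R), M.Normal ∧ IsSimpleGroup ↥M ∧ ¬ IsMulCommutative ↥M ∧
        ∀ N : Subgroup (G ⧸ R), N.Normal → N ≠ ⊥ → M ≤ N) ∧
      ∀ H : Subgroup G, Group.IsSolvable ↥H → (Nat.card ↥H).primeFactors.card ≤ 2 := by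
  have he := eppo_iff.2 hpp
  refine ⟨?_, ?_, fun H hH => (he.subgroup H).card_primeFactors_le hH⟩
  · by_cases hR : R = ⊥
    · exact ⟨2, Nat.prime_two, hR ▸ IsPGroup.of_bot⟩
    obtain ⟨V, p, hp, hVR, hVn, hV0, hV, -⟩ := H1.exists_minimal_normal_elementary_le R hR hRs
    haveI : Fact p.Prime := ⟨hp⟩
    refine ⟨p, hp, by_contra fun hn => ?_⟩
    set N := pCore p G
    have hNp : IsPGroup p N := H1.pCore_isPGroup
    have hN0 : N ≠ ⊥ := fun e => hV0 (eq_bot_iff.2
      (e ▸ H1.le_pCore hVn (H1.isPGroup_of_isElementaryAbelian hV)))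
    have hs := QuotientGroup.mk'_surjective N
    haveI := Normal.map ‹R.Normal› _ hs
    obtain ⟨M, q, hq, -, hMn, hM0, hM, -⟩ := H1.exists_minimal_normal_elementary_le
      (R.map (QuotientGroup.mk' N)) (fun e => hn (hNp.to_le (H1.map_mk'_eq_bot_iff.1 e)))
      (H1.isSolvable_map hRs _)
    haveI : Fact q.Prime := ⟨hq⟩
    have hMq := H1.isPGroup_of_isElementaryAbelian hM
    have hqp : q ≠ p := by
      rintro rfl
      exact hM0 (eq_bot_iff.2 (H1.pCore_quotient_pCore (p := q) (G := G) ▸ H1.le_pCore hMn hMq))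
    obtain ⟨k, hk⟩ := hMq.exists_card_eq
    obtain ⟨j, hj⟩ := hNp.exists_card_eq
    obtain ⟨X, ⟨e⟩, -, hf⟩ := (he {p}).exists_lift N (hj ▸ (PiNum.prime (π := {p}) hp rfl).pow j) (L := M)
      (hk ▸ (PiNum.prime (π := {p}ᶜ) hq hqp).pow k)
    haveI : IsMulCommutative X := ⟨⟨fun a b => e.injective (by
      rw [map_mul, map_mul]; exact hM.1.is_comm.comm _ _)⟩⟩
    haveI := H3.isCyclic_of_fpf le_normalizer_of_normal hN0 hf
    haveI : IsCyclic M := isCyclic_of_surjective e e.surjective
    have h1 := H2.commutator_le_centralizer_of_isCyclic M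
    have h2 : Group.IsSolvable (commutator (G ⧸ N)) := by_contra fun h3 =>
      not_le_centralizer (he.quotient N) hM0 h3 h1
    refine hns (solvable_of_quot N (H2.isSolvable_of_isPGroup hNp) (solvable_of_quot _ h2 ?_))
    exact inferInstanceAs (Group.IsSolvable (Abelianization (G ⧸ N)))
  · have hq := he.quotient R
    have hs := QuotientGroup.mk'_surjective R
    have h0 : ∀ N : Subgroup (G ⧸ R), N.Normal → Group.IsSolvable N → N = ⊥ := fun N hN h => by
      have := hRmax _ (hN.comap (QuotientGroup.mk' R)) (H1.isSolvable_comap _ h (by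
        rwa [QuotientGroup.ker_mk']))
      rw [← map_comap_eq_self_of_surjective hs N]
      exact H1.map_mk'_eq_bot_iff.2 this
    haveI : Nontrivial (G ⧸ R) := QuotientGroup.nontrivial_iff.2 fun e => hns (by
      rw [e] at hRs; exact (H1.isSolvable_congr topEquiv).1 hRs)
    obtain ⟨M, hMn, hM0, hM⟩ := H1.exists_minimal_normal (G := G ⧸ R)
    have hMs : ¬ Group.IsSolvable M := fun h => hM0 (h0 M hMn h)
    refine ⟨M, hMn, ?_, fun h => hMs (H2.isSolvable_of_isMulCommutative M), fun N hN hN0 => ?_⟩
    · haveI := (nontrivial_iff_ne_bot M).2 hM0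
      obtain ⟨S, hSn, hS0, hS⟩ := H1.exists_minimal_normal (G := M)
      have hSs : ¬ Group.IsSolvable S := fun h => by
        have := H1.le_solvRad hSn h
        have h2 := h0 _ (H1.solvRadOf_normal M) (H1.solvRadOf_isSolvable M)
        exact hS0 (eq_bot_iff.2 (H1.map_subtype_eq_bot_iff.1 h2 ▸ this))
      have hn : (S.map M.subtype).Normal := by
        refine H1.normal_of_top_le_normalizer fun g _ => ?_
        let φ : MulAut M := MulAut.conjNormal g
        haveI : (S.map φ.toMonoidHom).Normal := hSn.map _ φ.surjective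
        rcases hS (S ⊓ S.map φ.toMonoidHom) inferInstance inf_le_left with h1 | h1
        · exact absurd (H1.le_centralizer_of_commutator_eq_bot (H1.commutator_eq_bot_of_inf_eq_bot
            le_normalizer_of_normal le_normalizer_of_normal h1))
            (not_le_centralizer (hq.subgroup M)
              (fun e => hS0 ((map_eq_bot_iff_of_injective _ φ.injective).1 e)) hSs)
        · have h2 : S = S.map φ.toMonoidHom := eq_of_le_of_card_ge (inf_eq_left.1 h1)
            (card_map_of_injective φ.injective).le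
          refine H1.mem_normalizer_of_conj_mem ?_
          rintro _ ⟨x, hx, rfl⟩
          exact ⟨φ x, h2 ▸ mem_map_of_mem _ hx, rfl⟩
      have hS1 : S = ⊤ := H1.map_subtype_eq_self_iff.1 ((hM _ hn (map_subtype_le S)).resolve_left
        fun e => hS0 (H1.map_subtype_eq_bot_iff.1 e))
      exact ⟨fun K hK => hS1 ▸ hS K hK (hS1 ▸ le_top)⟩
    · rcases hM (M ⊓ N) inferInstance inf_le_left with h1 | h1
      · exact absurd (H1.le_centralizer_of_commutator_eq_bot (H1.commutator_eq_bot_of_inf_eq_bot
          le_normalizer_of_normal le_normalizer_of_normal h1)) (not_le_centralizer hq hN0 hMs)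
      · exact inf_eq_left.1 h1

end Cfsg.Agent.S3992
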