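import Cfsg.Statements.S3994
import Cfsg.Agent.H23.FrobThm

set_option autoImplicit false
open Cfsg

namespace Cfsg.Agent.S3994

open Subgroup H23

/-- Let G be a finite group and n a positive integer. The number of elements of G whose order is divisible by n is either 0 or divisible by the largest divisor of the order of G that is coprime to n. -/
theorem result {G : Type*} [Group G] [Finite G] (n : ℕ) (hn : 0 < n) :
    Nat.card {g : G // n ∣ orderOf g} = 0 ∨
      (Nat.card G / Nat.gcd (Nat.card G) (n ^ Nat.card G)) ∣ Nat.card {g : G // n ∣ orderOf g} := by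
  right
  have hG : Nat.card G ≠ 0 := Nat.card_pos.ne'
  rw [Nat.dvd_iff_prime_pow_dvd_dvd]
  intro r j hr hj
  rcases j with _ | j
  · simp
  haveI : Fact r.Prime := ⟨hr⟩
  have hd := Nat.div_dvd_of_dvd (Nat.gcd_dvd_left (Nat.card G) (n ^ Nat.card G))
  have hrn : ¬ r ∣ n := fun h => by
    have h1 : r ^ (Nat.card G).factorization r ∣ Nat.gcd (Nat.card G) (n ^ Nat.card G) :=
      Nat.dvd_gcd (Nat.ordProj_dvd _ _) ((pow_dvd_pow_of_dvd h _).trans
        (pow_dvd_pow n (Nat.factorization_lt r hG).le))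
    have h2 := mul_dvd_mul h1 ((dvd_pow_self r (Nat.succ_ne_zero j)).trans hj)
    rw [Nat.mul_div_cancel' (Nat.gcd_dvd_left _ _), ← pow_succ] at h2
    exact Nat.pow_succ_factorization_not_dvd hG hr h2
  obtain ⟨H, hH⟩ := Sylow.exists_subgroup_card_pow_prime r (hj.trans hd)
  rw [← hH]
  refine card_dvd_of_closed H {g | n ∣ orderOf g} (fun h _ x hx => ?_) fun x hx U hU hn u hu => ?_
  · exact hx.trans ((MulAut.conj h).orderOf_eq x).symm.dvd
  · have h1 := pow_shift_mem (fun g hg => H1.conj_mem_of_mem_normalizer hn hg) hu (orderOf (u * x))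
    rw [pow_orderOf_eq_one, one_mul, inv_mem_iff] at h1
    have h2 : orderOf x ∣ orderOf (u * x) * r ^ (j + 1) := by
      rw [orderOf_dvd_iff_pow_eq_one, pow_mul, ← orderOf_dvd_iff_pow_eq_one, ← hH]
      exact orderOf_dvd_natCard H (hU h1)
    exact (((Nat.Prime.coprime_iff_not_dvd hr).2 hrn).symm.pow_right _).dvd_of_dvd_mul_right
      (hx.trans h2)

end Cfsg.Agent.S3994
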