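import Cfsg.Statements.S3995
import Cfsg.Agent.H23.SoCount
import Cfsg.Agent.H23.Ord4
import Cfsg.Agent.H23.Fpf
import Cfsg.Agent.H4.TwoCyclic
import Cfsg.Agent.H3.NPC

set_option autoImplicit false
open Cfsg

namespace Cfsg.Agent.S3995

open Subgroup H23

/-- Let G be a finite group such that the numbers of elements of each order that occurs in G (the numbers #{g : o(g) = m}, m ranging over the element orders of G) take exactly two values, 1 and some n ≠ 1. Then either G is a p-group of exponent p and order at least 3 for some prime p, or G is the quaternion group of order 8, or G is cyclic of order 4, or G ≅ Z₂ × P for a p-group P of exponent p with p an odd prime. -/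
theorem result {G : Type*} [Group G] [Finite G] (n : ℕ) (hn : n ≠ 1) (h : ((fun m : ℕ => Nat.card {g : G // orderOf g = m}) '' Set.range (orderOf : G → ℕ)) = {1, n}) :
    (∃ p : ℕ, p.Prime ∧ IsPGroup p G ∧ 3 ≤ Nat.card G ∧ Monoid.exponent G = p) ∨
      Nonempty (G ≃* QuaternionGroup 2) ∨ (IsCyclic G ∧ Nat.card G = 4) ∨
      (∃ (p : ℕ) (P : Type) (_ : Group P) (_ : Finite P), p.Prime ∧ p ≠ 2 ∧ IsPGroup p P ∧ Monoid.exponent P = p ∧
        Nonempty (G ≃* Multiplicative (ZMod 2) × P)) := by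
  have h0 : ∀ m, so G m = 0 ∨ so G m = 1 ∨ so G m = n ∨ so G m = n := fun m =>
    or_iff_not_imp_left.2 fun h0 => by
      obtain ⟨g, rfl⟩ : ∃ g : G, orderOf g = m := by
        by_contra h4; push Not at h4; exact h0 (so_eq_zero_iff.2 h4)
      have : so G (orderOf g) ∈ ({1, n} : Set ℕ) := h ▸ ⟨_, ⟨g, rfl⟩, rfl⟩
      exact this.imp_right Or.inl
  have ht := tri_of h0
  obtain ⟨_, ⟨g, rfl⟩, hg⟩ : n ∈ ((fun m : ℕ => Nat.card {g : G // orderOf g = m}) ''
    Set.range (orderOf : G → ℕ)) := h ▸ Or.inr rfl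
  replace hg : so G (orderOf g) = n := hg
  have hn0 : n ≠ 0 := hg ▸ (so_pos g).ne'
  have hsq : ∀ p : ℕ, p.Prime → so G p = n → so G (p ^ 2) = 0 := fun p hp e => by
    have e1 := so_E1 hp (dvd_card_of_so (e ▸ hn0))
    have e2 := zm (dvd_so_sq_mul (G := G) hp 1)
    rw [mul_one] at e2
    refine (ht _ (by nlinarith [hp.two_le])).resolve_right fun e3 => ?_
    rw [e3.elim id id] at e2
    exact zm_one hp (by rw [e] at e1; linear_combination e1 - e2)
  have hexp : ∀ (p : ℕ) (X : Subgroup G), p.Prime → IsPGroup p X → so G p = n → p ∣ Nat.card X →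
      Monoid.exponent X = p := fun p X hp hX e hd => by
    haveI : Fact p.Prime := ⟨hp⟩
    haveI := (nontrivial_iff_ne_bot X).2 (by rintro rfl; exact hp.one_lt.ne' (by simpa using hd))
    refine (Monoid.exponent_eq_prime_iff hp).2 fun x hx => ?_
    obtain ⟨k, hk⟩ := exists_orderOf_eq_of_mem hX x.2
    rw [← orderOf_coe, hk]
    rcases k with _ | _ | k
    · exact absurd (Subtype.ext (orderOf_eq_one_iff.1 hk)) hx
    · simp
    · exact absurd (hsq p hp e) (so_ne_zero_of_dvd (hk ▸ (so_pos (x : G)).ne')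
        (pow_dvd_pow p (by omega)))
  have hcase : ∀ p : ℕ, p.Prime → so G p = n → (∀ r : ℕ, r.Prime → r ∣ Nat.card G → r = p) →
      ∃ p : ℕ, p.Prime ∧ IsPGroup p G ∧ 3 ≤ Nat.card G ∧ Monoid.exponent G = p := fun p hp e h => by
    have hG := isPGroup_of_piNum hp h
    refine ⟨p, hp, hG, ?_, ?_⟩
    · have := sum_le_card (G := G) {1, p}
      rw [Finset.sum_pair hp.one_lt.ne, so_one, e] at this
      omega
    · rw [← Monoid.exponent_eq_of_mulEquiv topEquiv]
      exact hexp p ⊤ hp (hG.to_subgroup _) e (by rw [card_top]; exact dvd_card_of_so (e ▸ hn0))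
  have hodd : ∀ p : ℕ, p.Prime → p ≠ 2 → p ∣ Nat.card G → so G p = n := fun p hp h2 hd =>
    (ht.prime hp h2 hd).elim id id
  haveI : Fact (Nat.Prime 2) := ⟨Nat.prime_two⟩
  rcases h0 2 with e | e | e
  · obtain ⟨p, hp, hd⟩ := Nat.exists_prime_and_dvd (n := Nat.card G) fun e => hn (by
      have := _root_.orderOf_dvd_natCard g
      rw [e, Nat.dvd_one] at this
      rw [← hg, this, so_one])
    have h2 : ∀ r : ℕ, r.Prime → r ∣ Nat.card G → r ≠ 2 := by
      rintro r hr hd rfl; exact so_ne_zero hr hd e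
    exact Or.inl (hcase p hp (hodd p hp (h2 p hp hd) hd) fun r hr hrd =>
      ht.eq_of_same hr hp (h2 r hr hrd) (h2 p hp hd) hrd hd)
  swap
  · replace e := e.elim id id
    refine Or.inl (hcase 2 Nat.prime_two e fun r hr hd => by_contra fun h2 => ?_)
    have e1 := so_E1 Nat.prime_two (dvd_card_of_so (e ▸ hn0))
    rw [e, ← hodd r hr h2 hd, zm (two_dvd_so (two_lt hr h2))] at e1
    exact absurd e1 (by decide)
  obtain ⟨z, hz, hc, hu⟩ := exists_invol_of_so e
  right
  by_cases h1 : ∃ p : ℕ, p.Prime ∧ p ≠ 2 ∧ p ∣ Nat.card G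
  · obtain ⟨p, hp, p2, hd⟩ := h1
    haveI : Fact p.Prime := ⟨hp⟩
    have e1 := so_E1 hp hd
    rw [hodd p hp p2 hd] at e1
    have h4 : so G 4 = 0 := by
      refine (ht 4 (by norm_num)).resolve_right fun e4 => ?_
      replace e4 := e4.elim id id
      have e2 := so_Esq hp Nat.prime_two p2 hd (dvd_card_of_so (m := 4) (e4 ▸ hn0))
      rw [show 2 ^ 2 = 4 from rfl, e4] at e2
      rcases ht (p * 4) (by nlinarith [hp.two_le]) with e3 | e3
      · rw [e3] at e2; exact zm_one hp (by linear_combination e1 - e2)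
      · rw [e3.elim id id] at e2; exact zm_two hp p2 (by linear_combination 2 * e1 - e2)
    obtain ⟨P⟩ := (inferInstance : Nonempty (Sylow p G))
    have hzc : Nat.card (zpowers z) = 2 := by rw [Nat.card_zpowers, hz]
    have hS : ∀ S : Sylow 2 G, (S : Subgroup G) ≤ zpowers z := fun S x hx => by
      obtain ⟨k, hk⟩ := exists_orderOf_eq_of_mem S.2 hx
      have : x ^ 2 = 1 := by
        rw [← orderOf_dvd_iff_pow_eq_one, hk]
        rcases k with _ | _ | k
        · simp
        · simp
        · exact absurd h4 (so_ne_zero_of_dvd (hk ▸ (so_pos x).ne')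
            (pow_dvd_pow 2 (show 2 ≤ k + 1 + 1 by omega)))
      rcases hu x this with rfl | rfl
      exacts [one_mem _, mem_zpowers _]
    have hi : (P : Subgroup G).index = 2 := by
      obtain ⟨S⟩ := (inferInstance : Nonempty (Sylow 2 G))
      obtain ⟨k, hk⟩ := (piNum_singleton_iff Nat.prime_two (P : Subgroup G).index_ne_zero_of_finite).1
        fun r hr hrd => by_contra fun h2 => P.not_dvd_index (ht.eq_of_same hr hp h2 p2
          (hrd.trans (index_dvd_card _)) hd ▸ hrd)
      have h5 : 2 ^ k ∣ 2 := (S.pow_dvd_card_of_pow_dvd_card (hk ▸ index_dvd_card _)).trans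
        ((card_dvd_of_le (hS S)).trans hzc.dvd)
      have h6 : 2 ∣ (P : Subgroup G).index := by
        obtain ⟨j, hj⟩ := P.2.exists_card_eq
        have := hz ▸ orderOf_dvd_natCard z
        rw [← (P : Subgroup G).card_mul_index, hj] at this
        exact (((Nat.coprime_primes hp Nat.prime_two).2 p2).symm.pow_right j).dvd_of_dvd_mul_left this
      rw [hk] at h6 ⊢
      exact Nat.dvd_antisymm h5 h6
    have hdis : Disjoint (zpowers z) (P : Subgroup G) :=
      IsPGroup.disjoint_of_ne 2 p p2.symm _ _ (IsPGroup.of_card (hzc.trans (pow_one 2).symm)) P.2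
    let f := (zpowers z).subtype.noncommCoprod (P : Subgroup G).subtype fun a b =>
      (mem_center_iff.1 (zpowers_le.2 hc a.2) b).symm
    have hf : Function.Bijective f := by
      refine Function.Injective.bijective_of_nat_card_le ?_ ?_
      · exact (MonoidHom.noncommCoprod_injective _ _ _).2
          ⟨Subtype.val_injective, Subtype.val_injective, by simpa using hdis⟩
      · rw [Nat.card_prod, hzc, ← hi, mul_comm, card_mul_index]
    have e3 : P ≃* Shrink.{0} P := Shrink.mulEquiv.symm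
    refine Or.inr (Or.inr ⟨p, Shrink.{0} P, inferInstance, inferInstance, hp, p2, P.2.of_equiv e3,
      ?_, ⟨(MulEquiv.ofBijective f hf).symm.trans (MulEquiv.prodCongr
        (mulEquivOfPrimeCardEq hzc (by simp)) e3)⟩⟩)
    rw [← Monoid.exponent_eq_of_mulEquiv e3]
    exact hexp p P hp P.2 (hodd p hp p2 hd) (P.dvd_card_of_dvd_card hd)
  have hG : IsPGroup 2 G := isPGroup_of_piNum Nat.prime_two fun r hr hd =>
    by_contra fun e => h1 ⟨r, hr, e, hd⟩
  have hlt : ∀ x : G, ∀ k, orderOf x = 2 ^ k → 2 ≤ k → so G 4 = n := fun x k hk h2 =>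
    ((ht 4 (by norm_num)).resolve_left (so_ne_zero_of_dvd (hk ▸ (so_pos x).ne')
      (pow_dvd_pow 2 h2))).elim id id
  have h4 : ∀ x : G, orderOf x ≤ 4 := fun x => by
    obtain ⟨k, hk⟩ := IsPGroup.iff_orderOf.1 hG x
    rw [hk]
    refine Nat.pow_le_pow_right two_pos (show k ≤ 2 from by_contra fun h2 => ?_)
    have e4 := hlt x k hk (by omega)
    have e5 := so_four e (e4 ▸ hn0)
    have e8 := ((ht 8 (by norm_num)).resolve_left (so_ne_zero_of_dvd (hk ▸ (so_pos x).ne')
      (pow_dvd_pow 2 (show 3 ≤ k by omega)))).elim id id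
    have : 4 ∣ so G 8 := totient_dvd_so 8
    omega
  rcases H4.cyclic_or_quaternion hG fun A hA => by_contra fun hA' => by
    obtain ⟨r, hr, hd, a, b, ha1, ha, hb, hab⟩ := H2.exists_pair_of_not_isCyclic hA'
    obtain rfl : r = 2 := by_contra fun e => h1 ⟨r, hr, e, hd.trans (card_subgroup_dvd_card A)⟩
    rcases hu a (congrArg Subtype.val ha) with e1 | e1
    · exact ha1 (Subtype.ext e1)
    rcases hu b (congrArg Subtype.val hb) with e2 | e2
    · exact hab ((Subtype.ext e2 : b = 1) ▸ one_mem _)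
    · exact hab (Subtype.ext (e2.trans e1.symm) ▸ mem_zpowers a)
    with hc | ⟨-, m, hm, ⟨f⟩⟩
  · refine Or.inr (Or.inl ⟨hc, le_antisymm (card_le_of_cyclic h4 hc) (Nat.le_of_dvd Nat.card_pos
      (dvd_card_of_so ?_))⟩)
    obtain ⟨k, hk⟩ := IsPGroup.iff_orderOf.1 hG g
    rw [hlt g k hk]
    · exact hn0
    by_contra h2
    rw [hk] at hg
    have : k = 0 ∨ k = 1 := by omega
    rcases this with rfl | rfl
    · exact hn (hg.symm.trans so_one)
    · exact hn (hg.symm.trans e)
  · have h1 := h4 (f.symm (QuaternionGroup.a 1))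
    rw [MulEquiv.orderOf_eq, QuaternionGroup.orderOf_a_one] at h1
    have : m < 2 := (Nat.pow_lt_pow_iff_right (a := 2) (by norm_num)).1 (by omega)
    obtain rfl : m = 1 := by omega
    exact Or.inl ⟨f⟩

end Cfsg.Agent.S3995
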