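import Cfsg.Statements.S3996
import Cfsg.Agent.H23.SoCount
import Cfsg.Agent.H23.Nil
import Cfsg.Agent.H20.FT

set_option autoImplicit false
open Cfsg

namespace Cfsg.Agent.S3996

open Subgroup H23

/-- A finite group in which the numbers of elements of each order that occurs (the numbers #{g : o(g) = m}, m ranging over the element orders) take exactly three different values is solvable. -/
theorem result {G : Type*} [Group G] [Finite G] (h : (((fun m : ℕ => Nat.card {g : G // orderOf g = m}) '' Set.range (orderOf : G → ℕ))).ncard = 3) : Group.IsSolvable G := by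
  obtain ⟨a, b, h⟩ := exists_tri h
  by_cases h2 : 2 ∣ Nat.card G
  swap
  · exact H20.odd_solvable G (Nat.odd_iff.2 (by omega))
  have ht := tri_of h
  have e1 := so_E1 Nat.prime_two h2
  have hodd : ¬ 2 ∣ so G 2 := fun e => by rw [zm e] at e1; exact absurd e1 (by decide)
  have key : ∀ a b, Tri G a b → so G 2 = b → Group.IsSolvable G := fun a b ht e =>
    solvable_of_one_odd fun p q hp hq => Tri.eq_of_same (a := a) (fun m hm =>
      (ht m hm).imp_right fun e' => e'.imp_right fun e' => absurd (e' ▸ two_dvd_so hm) (e ▸ hodd)) hp hq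
  rcases h 2 with e | e | e | e
  · exact absurd e (so_ne_zero Nat.prime_two h2)
  swap
  · exact key b a ht.symm e
  swap
  · exact key a b ht e
  by_cases h4 : so G 4 = 0
  · obtain ⟨z, hz, hc, hu⟩ := exists_invol_of_so e
    haveI : (zpowers z).Normal := ⟨fun x hx g => by
      rwa [mem_center_iff.1 (zpowers_le.2 hc hx) g, mul_inv_cancel_right]⟩
    refine solvable_of_quot (zpowers z) inferInstance (H20.odd_solvable _ ?_)
    rw [← Nat.not_even_iff_odd, even_iff_two_dvd]
    intro hd
    haveI : Fact (Nat.Prime 2) := ⟨Nat.prime_two⟩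
    obtain ⟨g, hg⟩ := exists_prime_orderOf_dvd_card' 2 hd
    obtain ⟨g, rfl⟩ := QuotientGroup.mk_surjective g
    have h1 : g ^ 2 ∈ zpowers z := by
      rw [← QuotientGroup.eq_one_iff, QuotientGroup.mk_pow, ← hg, pow_orderOf_eq_one]
    have h3 : g ^ 2 = 1 := by
      by_contra h3
      refine so_eq_zero_iff.1 h4 g (orderOf_eq_prime_pow (p := 2) (n := 1) h3 ?_)
      rw [show 2 ^ (1 + 1) = 2 * 2 from rfl, pow_mul, ← orderOf_dvd_iff_pow_eq_one]
      exact (orderOf_dvd_of_mem_zpowers h1).trans hz.dvd
    have : (g : G ⧸ zpowers z) = 1 := (QuotientGroup.eq_one_iff g).2 (by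
      rcases hu g h3 with rfl | rfl
      exacts [one_mem _, mem_zpowers _])
    rw [this, orderOf_one] at hg
    exact absurd hg (by norm_num)
  · refine solvable_of_one_odd fun p q hp hq => ?_
    rcases (ht 4 (by norm_num)).resolve_left h4 with e' | e'
    · exact ht.eq_of_four e e' (e' ▸ h4) hp hq
    · exact ht.symm.eq_of_four e e' (e' ▸ h4) hp hq

end Cfsg.Agent.S3996
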