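import Cfsg.Statements.S3997
import Cfsg.Agent.H23.PiClosed

set_option autoImplicit false
open Cfsg

namespace Cfsg.Agent.S3997

/-- Let G and H be finite groups with the same order type: for every m they have the same number of elements of order m. If G is nilpotent then so is H. -/
theorem result {G H : Type*} [Group G] [Finite G] [Group H] [Finite H] (hT : (∀ m : ℕ, Nat.card {g : G // orderOf g = m} = Nat.card {h : H // orderOf h = m})) (hG : Group.IsNilpotent G) :
    Group.IsNilpotent H := by
  obtain ⟨e, he⟩ := H23.exists_equiv_orderOf hT
  refine (Group.isNilpotent_of_finite_tfae.out 3 0 rfl rfl).mp ?_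
  intro p hp P
  obtain ⟨Q⟩ : Nonempty (Sylow p G) := inferInstance
  have h1 : H23.PiClosed {p} G := (H23.piClosed_singleton_iff Q).2 inferInstance
  have h0 : ∀ (K : Type _) [Group K] [Finite K], H23.PiClosed ∅ K := fun K _ _ =>
    H23.piClosed_of_piNum_compl fun q _ _ => by simp
  have h0' : H23.PiClosed ∅ H := H23.piClosed_of_piNum_compl fun q _ _ => by simp
  have h2 := H23.piClosed_insert_transfer e he (π := ∅) hp.out (h0 G) (by simpa using h1) h0'
  exact (H23.piClosed_singleton_iff P).1 (by simpa using h2)

end Cfsg.Agent.S3997
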