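import Cfsg.Statements.S3998
import Cfsg.Agent.H23.PiClosed

set_option autoImplicit false
open Cfsg

namespace Cfsg.Agent.S3998

/-- Let G and H be finite groups with the same order type (for every m the same number of elements of order m). If G is supersolvable then H is solvable. -/
theorem result {G H : Type*} [Group G] [Finite G] [Group H] [Finite H] (hT : (∀ m : ℕ, Nat.card {g : G // orderOf g = m} = Nat.card {h : H // orderOf h = m})) (hG : Cfsg.IsSupersolvable G) :
    Group.IsSolvable H := by
  obtain ⟨e, he⟩ := H23.exists_equiv_orderOf hT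
  have hs := H23.ss_of_isSupersolvable hG
  obtain ⟨K, hK, hKs⟩ := H23.tower_transfer e he ∅ 0
    (fun k _ => by simpa using H23.SS.piClosed k G hs)
    ⟨⊥, fun x => by
      rw [Subgroup.mem_bot, ← orderOf_eq_one_iff]
      exact ⟨fun h => h ▸ H23.PiNum.one _, fun h => h.eq_one fun q _ _ => by simp⟩, inferInstance⟩
  have : K = ⊤ := eq_top_iff.2 fun x _ => (hK x).2 fun q _ _ => by simp
  subst this
  exact Group.isSolvable_of_surjective (f := (⊤ : Subgroup H).subtype) fun x => ⟨⟨x, trivial⟩, rfl⟩

end Cfsg.Agent.S3998
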