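import Cfsg.Statements.S4002
import Cfsg.Agent.H23.PrimeGr

set_option autoImplicit false
open Cfsg

namespace Cfsg.Agent.S4002

open Subgroup H23

/-- If the set of element orders of a finite group G is {1, 2, …, n} with n ≥ 7, then G is not solvable. -/
theorem result {G : Type*} [Group G] [Finite G] (n : ℕ) (hn : 7 ≤ n) (h : Set.range (orderOf : G → ℕ) = {k : ℕ | 1 ≤ k ∧ k ≤ n}) : ¬ Group.IsSolvable G := by
  intro hs
  have key : ∀ p q r : ℕ, p.Prime → q.Prime → r.Prime → p < q → q < r → r ≤ n → n < p * q →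
      False := by
    intro p q r hp hq hr h1 h2 h3 h4
    have hd : ∀ s : ℕ, s.Prime → s ≤ n → s ∣ Nat.card G := fun s hs hn => by
      obtain ⟨g, hg⟩ : s ∈ Set.range (orderOf : G → ℕ) := h ▸ ⟨hs.one_le, hn⟩
      exact hg ▸ orderOf_dvd_natCard g
    obtain ⟨g, hg⟩ := three_primes hs hp hq hr h1.ne (h1.trans h2).ne h2.ne
      (hd p hp (by omega)) (hd q hq (by omega)) (hd r hr h3)
    have : orderOf g ∈ Set.range (orderOf : G → ℕ) := ⟨g, rfl⟩
    rw [h] at this
    have h5 := this.2
    rcases hg with e | e | e <;> rw [e] at h5 <;> nlinarith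
  by_cases h1 : n < 15
  · exact key 3 5 7 (by norm_num) (by norm_num) (by norm_num) (by omega) (by omega) hn h1
  by_cases h2 : n < 35
  · exact key 5 7 11 (by norm_num) (by norm_num) (by norm_num) (by omega) (by omega) (by omega) h2
  obtain ⟨p, hp, p1, p2⟩ := Nat.exists_prime_lt_and_le_two_mul (n / 8) (by omega)
  obtain ⟨q, hq, q1, q2⟩ := Nat.exists_prime_lt_and_le_two_mul (2 * (n / 8)) (by omega)
  obtain ⟨r, hr, r1, r2⟩ := Nat.exists_prime_lt_and_le_two_mul (4 * (n / 8)) (by omega)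
  refine key p q r hp hq hr (by omega) (by omega) (by omega) ?_
  have h3 : 4 ≤ n / 8 := by omega
  have h4 : n < 8 * (n / 8) + 8 := by omega
  nlinarith [Nat.mul_le_mul p1 q1]

end Cfsg.Agent.S4002
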