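import Cfsg.Statements.S4003
import Cfsg.Agent.H23.FrobThm
import Cfsg.Agent.H4.Cyclic
import Cfsg.Agent.H4.ClassTwo
import Cfsg.Agent.H4.Centralizer
import Cfsg.Agent.H23.Cyc

set_option autoImplicit false
open Cfsg

namespace Cfsg.Agent.S4003

open Subgroup H23
open scoped commutatorElement

variable {G : Type*} [Group G] [Finite G] {p : ℕ} [hp : Fact p.Prime]

theorem card_frattini (hG : IsPGroup p G) (hc : ¬ IsCyclic G) {k : ℕ} (h : Nat.card G = p ^ (k + 2)) :
    ∃ b ≤ k, Nat.card (frattini G) = p ^ b := by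
  obtain ⟨b, hb⟩ := H4.exists_card_eq_pow hG (frattini G)
  refine ⟨b, ?_, hb⟩
  by_contra h1
  have h2 : b ≤ k + 2 := (Nat.pow_dvd_pow_iff_le_right hp.out.one_lt).1
    (hb ▸ h ▸ (frattini G).card_subgroup_dvd_card)
  have key : ∀ a : G, zpowers a ⊔ frattini G ≠ ⊤ := fun a e =>
    hc (isCyclic_iff_exists_zpowers_eq_top.2 ⟨a, frattini_nongenerating e⟩)
  rcases (by omega : b = k + 2 ∨ b = k + 1) with rfl | rfl
  · exact key 1 (by rw [eq_top_of_card_eq _ (hb.trans h.symm), sup_top_eq])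
  · obtain ⟨a, -, ha⟩ := H4.exists_mem_notMem_of_card (K := frattini G) (N := ⊤) (by
      rw [card_top, hb, h]; exact Nat.pow_lt_pow_right hp.out.one_lt (by omega))
    exact key a (by
      rw [sup_comm]
      exact (H4.eq_sup_zpowers (p := p) le_top (by rw [card_top, hb, h, pow_succ _ (k + 1)])
        (mem_top a) ha).symm)

theorem shift_p (h2 : p ≠ 2) (hG : IsPGroup p G) {H : Subgroup G} [H.Normal] (hc : ¬ IsCyclic H)
    {k a : ℕ} (hH : Nat.card H = p ^ (k + 2)) (hka : k ≤ a) {u y : G} (hu : u ∈ H)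
    (hy : y ^ p ^ (a + 1) = 1) : (u * y) ^ p ^ (a + 1) = 1 := by
  obtain ⟨b, hb, hb'⟩ := card_frattini (hG.to_subgroup H) hc hH
  have e1 : Nat.card ((frattini H).map H.subtype) * p ^ (k - b) = p ^ k := by
    rw [card_subtype, hb', ← pow_add, Nat.add_sub_cancel' hb]
  obtain ⟨W, _, w1, w2, w3⟩ := H4.exists_normal_card_between hG (M := (frattini H).map H.subtype)
    (N := H) (map_subtype_le _) (k - b) (by
      rw [e1, hH]; exact Nat.pow_le_pow_right hp.out.pos (by omega))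
  rw [e1] at w3
  obtain ⟨M, _, m1, m2, m3⟩ := H4.exists_normal_card_between hG w2 1 (by
    rw [w3, hH, ← pow_add]; exact Nat.pow_le_pow_right hp.out.pos (by omega))
  have c1 : ⁅M, (⊤ : Subgroup G)⁆ ≤ W := H4.commutator_le_of_card_mul hG m1 (by simp [m3])
  have c2 : ⁅H, (⊤ : Subgroup G)⁆ ≤ M := H4.commutator_le_of_card_mul hG m2 (by
    rw [m3, w3, hH]; exact le_of_eq (by ring))
  have hpw : ∀ v ∈ H, v ^ p ∈ W := fun v hv =>
    w1 ⟨⟨v, hv⟩ ^ p, H4.pow_mem_frattini (hG.to_subgroup H) _, rfl⟩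
  have hM : ⁅y, u⁆ ∈ M := by
    rw [← commutatorElement_inv]; exact M.inv_mem (c2 (commutator_mem_commutator hu (mem_top y)))
  have cc : ∀ g : G, Commute (g : G ⧸ W) ⁅(y : G ⧸ W), (u : G ⧸ W)⁆ := fun g => by
    refine Commute.symm (commutatorElement_eq_one_iff_commute.1 ?_)
    exact (QuotientGroup.eq_one_iff ⁅⁅y, u⁆, g⁆).2 (c1 (commutator_mem_commutator hM (mem_top g)))
  have e : (((u * y) ^ p : G) : G ⧸ W) = (y ^ p : G) := by
    rw [QuotientGroup.mk_pow, QuotientGroup.mk_mul, H4.mul_pow_of_odd (hp.out.odd_of_ne_two h2)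
      (cc u) (cc y) ((QuotientGroup.eq_one_iff (⁅y, u⁆ ^ p)).2 (hpw _ (m2 hM))),
      ← QuotientGroup.mk_pow, (QuotientGroup.eq_one_iff _).2 (hpw u hu), one_mul,
      QuotientGroup.mk_pow]
  have hw : (u * y) ^ p * (y ^ p)⁻¹ ∈ W := by
    rw [← QuotientGroup.eq_one_iff, QuotientGroup.mk_mul, e, QuotientGroup.mk_inv, mul_inv_cancel]
  have := shift_pow_eq (n := p ^ a) hp.out w3.dvd (pow_dvd_pow p hka) (x := y ^ p)
    (le_normalizer_of_normal (mem_top _)) hw (by rw [← pow_mul, ← pow_succ', hy]; exact one_mem _)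
  rwa [inv_mul_cancel_right, ← pow_mul, ← pow_mul, ← pow_succ', hy] at this

theorem shift (h2 : p ≠ 2) {H U : Subgroup G} (hc : ¬ IsCyclic H) {k n : ℕ}
    (hH : Nat.card H = p ^ (k + 2)) (hn : p ^ (k + 1) ∣ n) (n0 : n ≠ 0) (hU : U ≤ H) {u x : G}
    (hx : x ∈ normalizer (U : Set G)) (hu : u ∈ U) (h : x ^ n = 1) : (u * x) ^ n = 1 := by
  by_cases e : U = H
  swap
  · obtain ⟨b, hb, hb'⟩ := (Nat.dvd_prime_pow hp.out).1 (hH ▸ card_dvd_of_le hU)
    have : b ≠ k + 2 := fun e' => e (eq_of_le_of_card_ge hU (by rw [hb', hH, e']))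
    exact (shift_pow_eq hp.out (hb' ▸ pow_dvd_pow p (by omega)) hn hx hu (h ▸ one_mem _)).trans h
  subst e
  obtain ⟨a, d, hd, rfl⟩ := Nat.exists_eq_pow_mul_and_not_dvd n0 p hp.out.ne_one
  have ha : k + 1 ≤ a := (Nat.pow_dvd_pow_iff_le_right hp.out.one_lt).1
    ((Nat.Coprime.pow_left _ (hp.out.coprime_iff_not_dvd.2 hd)).dvd_of_dvd_mul_right hn)
  obtain ⟨a, rfl⟩ : ∃ b, a = b + 1 := ⟨a - 1, by omega⟩
  have hv := pow_shift_mem (fun g hg => H1.conj_mem_of_mem_normalizer hx hg) hu d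
  have hy : (x ^ d) ^ p ^ (a + 1) = 1 := by rw [← pow_mul, mul_comm, h]
  have hUp : IsPGroup p U := IsPGroup.of_card hH
  have hyp : IsPGroup p (zpowers (x ^ d)) := by
    obtain ⟨j, -, hj⟩ := (Nat.dvd_prime_pow hp.out).1 (orderOf_dvd_of_pow_eq_one hy)
    exact IsPGroup.of_card (by rw [Nat.card_zpowers, hj])
  have hn : zpowers (x ^ d) ≤ normalizer (U : Set G) := zpowers_le.2 (pow_mem hx d)
  have hQ := hUp.to_sup_of_normal_left' hyp hn
  set Q := U ⊔ zpowers (x ^ d)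
  have hUQ : U ≤ Q := le_sup_left
  haveI : (U.subgroupOf Q).Normal :=
    (normal_subgroupOf_iff_le_normalizer hUQ).2 (sup_le le_normalizer hn)
  have eU := subgroupOfEquivOfLe hUQ
  have := shift_p h2 hQ (H := U.subgroupOf Q) (fun h => hc (isCyclic_of_surjective eU eU.surjective))
    (by rw [Nat.card_congr eU.toEquiv, hH]) (by omega : k ≤ a) (u := ⟨_, hUQ hv⟩)
    (y := ⟨x ^ d, (le_sup_right : _ ≤ Q) (mem_zpowers _)⟩) hv (Subtype.ext hy)
  have := congrArg Subtype.val this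
  simp only [SubgroupClass.coe_pow, coe_mul, inv_mul_cancel_right, OneMemClass.coe_one] at this
  rwa [mul_comm (p ^ (a + 1)), pow_mul]

/-- Let G be a finite group, p an odd prime dividing the order of G whose Sylow p-subgroups are not cyclic, and n = p^s·m with s > 1 and m coprime to p. Then the number of elements of G of order n is a multiple of p^s. -/
theorem result {G : Type*} [Group G] [Finite G] (p : ℕ) [Fact p.Prime] (hodd : p ≠ 2) (hpG : p ∣ Nat.card G)
    (P : Sylow p G) (hP : ¬ IsCyclic ↥(P : Subgroup G)) (s m : ℕ) (hs : 1 < s) (hm : Nat.Coprime p m) :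
    p ^ s ∣ Nat.card {g : G // orderOf g = p ^ s * m} := by
  by_cases h0 : so G (p ^ s * m) = 0
  · exact (show Nat.card {g : G // orderOf g = p ^ s * m} = 0 from h0) ▸ dvd_zero _
  have hp : p.Prime := Fact.out
  obtain ⟨g, hg⟩ : ∃ g : G, orderOf g = p ^ s * m := by simpa [so_eq_zero_iff] using h0
  have m0 : m ≠ 0 := by rintro rfl; exact (orderOf_pos g).ne' (by simpa using hg)
  obtain ⟨k, rfl⟩ : ∃ k, s = k + 2 := ⟨s - 2, by omega⟩
  obtain ⟨E, -, _, hE, hE2⟩ := H4.exists_normal_Ep2 hodd P.isPGroup' ⊤ (fun h =>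
    hP (isCyclic_of_surjective _ topEquiv.surjective))
  have hd : p ^ (k + 2) ∣ Nat.card P := by
    rw [P.card_eq_multiplicity]
    exact pow_dvd_pow p ((hp.pow_dvd_iff_le_factorization Nat.card_pos.ne').1
      ((dvd_mul_right _ m).trans (hg ▸ _root_.orderOf_dvd_natCard g)))
  obtain ⟨K, _, k1, -, k3⟩ := H4.exists_normal_card_between P.isPGroup' (M := E) (N := ⊤) le_top k
    (by rw [hE2, card_top, ← pow_add, add_comm]; exact Nat.le_of_dvd Nat.card_pos hd)
  rw [hE2, ← pow_add, add_comm] at k3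
  have hK : Nat.card (K.map (P : Subgroup G).subtype) = p ^ (k + 2) := by rw [card_subtype, k3]
  have hc : ¬ IsCyclic (K.map (P : Subgroup G).subtype) := fun h => by
    have e := (K.equivMapOfInjective _ (P : Subgroup G).subtype_injective).symm
    haveI : IsCyclic K := isCyclic_of_surjective e e.surjective
    refine H4.not_isCyclic_of_card (A := E) hp.pos hE.2
      (by rw [hE2]; nlinarith [hp.one_lt]) (isCyclic_of_le k1)
  refine hK.symm.dvd.trans (card_dvd_of_closed _ {g : G | orderOf g = p ^ (k + 2) * m}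
    (fun h _ x hx => ?_) fun x hx U hU hn u hu => ?_)
  · exact ((MulAut.conj h).orderOf_eq x).trans hx
  have hx : orderOf x = p ^ (k + 2) * m := hx
  have d1 : orderOf (u * x) ∣ p ^ (k + 2) * m := orderOf_dvd_of_pow_eq_one (shift hodd hc hK
    ((pow_dvd_pow p (by omega)).trans (dvd_mul_right _ m)) (hx ▸ (orderOf_pos x).ne') hU hn hu
    (hx ▸ pow_orderOf_eq_one x))
  have l0 : (orderOf (u * x)).lcm (p ^ (k + 1)) ≠ 0 :=
    Nat.lcm_ne_zero (orderOf_pos _).ne' (pow_pos hp.pos _).ne'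
  have d2 : p ^ (k + 2) * m ∣ (orderOf (u * x)).lcm (p ^ (k + 1)) := by
    have := shift hodd hc hK (Nat.dvd_lcm_right (orderOf (u * x)) _) l0 hU
      (mul_mem (le_normalizer hu) hn) (inv_mem hu) (orderOf_dvd_iff_pow_eq_one.1 (Nat.dvd_lcm_left _ _))
    rw [inv_mul_cancel_left] at this
    exact hx ▸ orderOf_dvd_of_pow_eq_one this
  refine Nat.dvd_antisymm d1 ((hm.pow_left _).mul_dvd_of_dvd_of_dvd ?_ ?_)
  · have := (hp.pow_dvd_iff_le_factorization l0).1 ((dvd_mul_right _ m).trans d2)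
    rw [Nat.factorization_lcm (orderOf_pos _).ne' (pow_pos hp.pos _).ne', Finsupp.sup_apply,
      hp.factorization_pow, Finsupp.single_eq_same] at this
    exact (hp.pow_dvd_iff_le_factorization (orderOf_pos _).ne').2 (by omega)
  · exact (hm.pow_left (k + 1)).symm.dvd_of_dvd_mul_right
      (((dvd_mul_left m _).trans d2).trans (Nat.lcm_dvd_mul _ _))

end Cfsg.Agent.S4003
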