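import Cfsg.Statements.S4004
import Cfsg.Agent.H23.FrobAct
import Cfsg.Agent.H23.Ord4

set_option autoImplicit false
open Cfsg

namespace Cfsg.Agent.S4004

open Subgroup H23

variable {G : Type*} [Group G] [Finite G] {a b p q : ℕ}

theorem so_ne (ht : Tri G a b) (h2 : ¬ 2 ∣ Nat.card G) (hp : p.Prime) (hq : q.Prime) (hpq : p ≠ q)
    (h1 : p ∣ Nat.card G) (h3 : q ∣ Nat.card G) (ea : so G p = a) : so G q ≠ a := by
  intro eb
  have o : ∀ r, r ∣ Nat.card G → r ≠ 2 := by rintro r hr rfl; exact h2 hr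
  by_cases hall : ∀ r : ℕ, r.Prime → r ∣ Nat.card G → so G r = a
  · have hd : Nat.card G ∣ 1 + a := by
      rw [Nat.dvd_iff_prime_pow_dvd_dvd]
      intro r k hr hk
      rcases k with _ | k
      · simp
      have hd := (dvd_pow_self r k.succ_ne_zero).trans hk
      obtain ⟨s, hs, hsd, hrs⟩ : ∃ s : ℕ, s.Prime ∧ s ∣ Nat.card G ∧ r ≠ s := by
        by_cases e : r = p
        exacts [⟨q, hq, h3, e ▸ hpq⟩, ⟨p, hp, h1, e⟩]
      have hb := (ht.pair hr hs hrs (o r hd) hd hsd (hall r hr hd) (by rw [hall s hs hsd])).2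
      have e1 := so_E1 hr hd
      have e2 := zm (dvd_so_sq_mul (G := G) hr 1)
      rw [mul_one] at e2
      rw [← hall r hr hd]
      refine pow_dvd_one_add_so hr ((ht _ (by nlinarith [hr.two_le])).resolve_right ?_) hk
      rintro (e | e) <;> rw [e] at e2
      · rw [hall r hr hd] at e1; exact zm_one hr (by linear_combination e1 - e2)
      · exact zm_one hr (by linear_combination e2 - hb)
    have := sum_le_card (G := G) {1, p, q}
    rw [Finset.sum_insert (by simp [hp.one_lt.ne, hq.one_lt.ne]), Finset.sum_pair hpq, so_one, ea,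
      eb] at this
    have := Nat.le_of_dvd (by omega) hd
    have := so_ne_zero hp h1
    omega
  push Not at hall
  obtain ⟨r, hr, hd, hra⟩ := hall
  have er := (ht.prime hr (o r hd) hd).resolve_left hra
  have hpr : p ≠ r := by rintro rfl; exact hra ea
  have hqr : q ≠ r := by rintro rfl; exact hra eb
  have e1 := (ht.pair hp hq hpq (o p h1) h1 h3 ea (by rw [eb])).1
  have e2 := so_E1 hr hd
  have e3 := so_E3 hr hp hq hpr.symm hqr.symm hpq hd h1 h3
  have e4 := so_E3 hp hq hr hpq hpr hqr h1 h3 hd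
  have hb := (ht.pair hp hq hpq (o p h1) h1 h3 ea (by rw [eb])).2
  have hb' := (ht.pair hq hp hpq.symm (o q h3) h3 h1 eb (by rw [ea])).2
  have e5 := so_E2 hq hr hqr h3 hd
  have e6 := so_E1 hp h1
  rw [er] at e2 e5
  rw [ea] at e6
  have e7 : so G (q * r) = a := by
    rcases ht (q * r) (by nlinarith [two_lt hq (o q h3), hr.two_le]) with e | e | e
    · rw [e] at e5; exact absurd (by linear_combination e5 - hb') (zm_one hq)
    · exact e
    · rw [e] at e5; exact absurd (by linear_combination e5 - 2 * hb') (zm_two hq (o q h3))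
  rw [e7] at e4
  rw [e1, show r * p * q = p * q * r by ring] at e3
  rcases ht (p * q * r) (by
    have := Nat.mul_le_mul (Nat.mul_le_mul hp.two_le hq.two_le) hr.two_le; omega) with e | e | e <;>
    rw [e] at e3 e4
  · exact zm_one hp (by linear_combination e6 - e4)
  · exact zm_two hp (o p h1) (by linear_combination 2 * e6 - e4)
  · exact zm_two hr (o r hd) (by linear_combination 2 * e2 - e3)

theorem so_mul_ne (hp : p.Prime) (hq : q.Prime) (hpq : p ≠ q) (p2 : p ≠ 2) (q2 : q ≠ 2)
    (h1 : p ∣ Nat.card G) (h3 : q ∣ Nat.card G) : so G (p * q) ≠ so G p := fun e => by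
  have e1 := so_E1 hp h1
  have e2 := so_E2 hp hq hpq h1 h3
  rw [e] at e2
  have := two_mul_so_le (G := G) hp hq hpq q2 fun hd =>
    zm_one hp (by rw [zm hd] at e2; linear_combination e1 - e2)
  have := so_ne_zero hp h1
  omega

theorem so_sq (ht : Tri G (so G p) (so G q)) (hp : p.Prime) (hq : q.Prime) (hpq : p ≠ q)
    (h1 : p ∣ Nat.card G) (h3 : q ∣ Nat.card G) (h0 : so G (p * q) = 0) : so G (p ^ 2) = 0 := by
  by_contra hn
  have e2 := zm (dvd_so_sq_mul (G := G) hp 1)
  rw [mul_one] at e2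
  have e3 := so_Esq hq hp hpq.symm h3 (dvd_card_of_so hn)
  rw [show so G (q * p ^ 2) = 0 from by_contra fun e => so_ne_zero_of_dvd e ⟨p, by ring⟩ h0] at e3
  rcases (ht _ (by nlinarith [hp.two_le])).resolve_left hn with e | e <;> rw [e] at e2 e3
  · exact zm_one hp (by linear_combination so_E1 hp h1 - e2)
  · exact zm_one hq (by linear_combination so_E1 hq h3 - e3)

theorem frob (hp : p.Prime) (hq : q.Prime) (hpq : p ≠ q) (q2 : q ≠ 2) (h3 : q ∣ Nat.card G)
    (hπ : ∀ r : ℕ, r.Prime → r ∣ Nat.card G → r = p ∨ r = q) (he : EPPO G)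
    (sp : so G (p ^ 2) = 0) (sq : so G (q ^ 2) = 0) (h0 : piCore {p} G ≠ ⊥) :
    ∃ C : Subgroup G, Cfsg.IsFrobeniusComplement C ∧ (Nat.card ↥C).Prime := by
  haveI : Fact p.Prime := ⟨hp⟩
  haveI : Fact q.Prime := ⟨hq⟩
  have hs := H5.isSolvable_of_primes_subset_pair hp hq hπ
  have c : ∀ n, n ∣ Nat.card G → PiNum {p}ᶜ n → PiNum {q} n := fun n hn h r hr hd =>
    (hπ r hr (hd.trans hn)).resolve_left (h r hr hd)
  have cyc : ∀ X : Subgroup G, X ≠ ⊥ → IsCyclic X → PiNum {p}ᶜ (Nat.card X) → Nat.card X = q :=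
    fun X h0 hc h => by
      have hX := isPGroup_of_piNum hq (c _ (card_subgroup_dvd_card X) h)
      refine le_antisymm (card_le_of_cyclic (fun g => Nat.le_of_dvd hq.pos ?_) hc)
        (Nat.le_of_dvd Nat.card_pos (hX.card_eq_or_dvd.resolve_left (mt card_eq_one.1 h0)))
      exact orderOf_dvd_iff_pow_eq_one.2 (Subtype.ext (exponent_eq_of_so hq sq hX g g.2))
  set N := piCore {p} G
  have hN : PiNum {p} (Nat.card N) := H1.piCore_isPi
  rcases (he {p}).struct hs h0 with hi | ⟨F, hFn, hc, -, hF0, hF1, hF, hi, hC⟩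
  · obtain ⟨C, hC, hf, hfr, -⟩ := (he {p}).frob N hN hi h0 fun e =>
      hpq (hN q hq (by rwa [e, card_top])).symm
    have h4 : PiNum {p}ᶜ (Nat.card C) := hC.symm.index_eq_card ▸ hi
    refine ⟨C, hfr, (cyc C hfr.1 ((H3.cyclic_or_quaternion_of_fpf (isPGroup_of_piNum hq
      (c _ (card_subgroup_dvd_card C) h4)) le_normalizer_of_normal h0 hf).resolve_right
      fun e => q2 e.1) h4).symm ▸ hq⟩
  exfalso
  obtain ⟨X, ⟨e⟩, hX, hf⟩ := (he {p}).exists_lift N hN hF
  have hXc : IsCyclic X := isCyclic_of_surjective e.symm e.symm.surjective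
  have hX0 : X ≠ ⊥ := by rintro rfl; exact hF0 (by rw [← hX, Subgroup.map_bot])
  have hXq := cyc X hX0 hXc (Nat.card_congr e.toEquiv ▸ hF)
  obtain ⟨x, rfl⟩ := exists_zpowers_eq hXc
  obtain ⟨t, ht⟩ : ∃ t, t ∉ F := by
    by_contra h1; push Not at h1; exact hF1 (eq_top_iff.2 fun t _ => h1 t)
  obtain ⟨t, rfl⟩ := QuotientGroup.mk_surjective t
  have hxF : (x : G ⧸ N) ∈ F := hX ▸ mem_map_of_mem _ (mem_zpowers x)
  obtain ⟨w, hw, ew⟩ := hX.ge (hFn.conj_mem _ hxF t)
  have hw1 : w ≠ 1 := by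
    rintro rfl
    have : (x : G ⧸ N) = 1 := by simpa using ew.symm
    exact hF0 (by rw [← hX, MonoidHom.map_zpowers]; exact zpowers_eq_bot.2 this)
  obtain ⟨y, hy, ey⟩ := exists_conj_eq_of_fpf (t := t) (x := x) (hf w hw hw1) ew.symm
  have hout : ∀ a ∈ N, orderOf (a * (y * t)) = p := fun a ha => by
    have h1 : ((a * (y * t) : G) : G ⧸ N) = t := by
      rw [QuotientGroup.mk_mul, QuotientGroup.mk_mul, (QuotientGroup.eq_one_iff a).2 ha,
        (QuotientGroup.eq_one_iff y).2 hy, one_mul, one_mul]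
    rcases he {p} (a * (y * t)) with h2 | h2
    · obtain ⟨k, hk⟩ := (piNum_singleton_iff hp (orderOf_pos _).ne').1 h2
      exact orderOf_eq_prime (exponent_eq_of_so hp sp (isPGroup_zpowers ⟨k, hk⟩) _ (mem_zpowers _))
        fun e => ht (by rw [← h1, e]; exact F.one_mem)
    · exact absurd (mem_of_coprime_index (hi.coprime
        (h1 ▸ piNum_orderOf_map (QuotientGroup.mk' N) h2)).symm) ht
  obtain ⟨V, r, -, hVN, hVn, hV0, hV, -⟩ := H1.exists_minimal_normal_elementary_le N h0 inferInstance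
  haveI := hV.1
  have h1 := hout 1 N.one_mem
  rw [one_mul] at h1
  have hKq : PiNum {p}ᶜ (Nat.card (zpowers x)) := hXq ▸ PiNum.prime (π := {p}ᶜ) hq hpq.symm
  have := le_centralizer_of_norm (K := zpowers x) (V := V) (s := y * t) hp.pos
    (H1.mem_normalizer_of_conj_mem (by
      rintro _ ⟨k, rfl⟩
      simp only [← conj_zpow, ey]; exact zpow_mem hw k))
    (le_normalizer_of_normal (mem_top _)) le_normalizer_of_normal
    ((hN.of_dvd (card_dvd_of_le hVN)).coprime hKq).symm
    (fun i h2 h3 => (he {p}).compl.fpf (A := zpowers (y * t)) hKq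
      (by rw [compl_compl, Nat.card_zpowers, h1]; exact PiNum.prime hp rfl) _
      (pow_mem (mem_zpowers _) i) (pow_ne_one_of_lt_orderOf h2.ne' (h1 ▸ h3)))
    fun v hv => by rw [← hout v (hVN hv), pow_orderOf_eq_one, hout v (hVN hv), ← h1, pow_orderOf_eq_one]
  refine hV0 (eq_bot_iff.2 fun v hv => (hf x (mem_zpowers x) fun e => hX0 (zpowers_eq_bot.2 e)).le
    ⟨hVN hv, mem_centralizer_singleton_iff.2 (this (mem_zpowers x) v hv)⟩)

/-- Let G be a finite group of odd order in which the numbers of elements of each order that occurs (the numbers #{g : o(g) = m}, m ranging over the element orders of G) take exactly three different values. Then the order of G has at most two prime divisors; and if it has exactly two, then every Sylow subgroup of G for a prime dividing its order has prime exponent, G is a Frobenius group, and some Frobenius complement of G has prime order. -/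
theorem result {G : Type*} [Group G] [Finite G] (hodd : Odd (Nat.card G)) (h : (((fun m : ℕ => Nat.card {g : G // orderOf g = m}) '' Set.range (orderOf : G → ℕ))).ncard = 3) :
    (Nat.card G).primeFactors.card ≤ 2 ∧
      ((Nat.card G).primeFactors.card = 2 →
        (∀ (p : ℕ) [Fact p.Prime] (P : Sylow p G), p ∣ Nat.card G → Monoid.exponent ↥(P : Subgroup G) = p) ∧
        ∃ C : Subgroup G, Cfsg.IsFrobeniusComplement C ∧ (Nat.card ↥C).Prime) := by
  obtain ⟨a, b, h⟩ := exists_tri h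
  have ht := tri_of h
  have h2 : ¬ 2 ∣ Nat.card G := by rw [← even_iff_two_dvd, Nat.not_even_iff_odd]; exact hodd
  have o : ∀ r, r ∣ Nat.card G → r ≠ 2 := by rintro r hr rfl; exact h2 hr
  have hne : ∀ p q : ℕ, p.Prime → q.Prime → p ≠ q → p ∣ Nat.card G → q ∣ Nat.card G →
      Tri G (so G p) (so G q) ∧ so G p ≠ so G q := fun p q hp hq hpq h1 h3 => by
    rcases ht.prime hp (o p h1) h1 with e | e
    · have := so_ne ht h2 hp hq hpq h1 h3 e
      rw [e, (ht.prime hq (o q h3) h3).resolve_left this]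
      exact ⟨ht, fun e' => this ((ht.prime hq (o q h3) h3).elim id fun e => e.trans e'.symm)⟩
    · have := so_ne ht.symm h2 hp hq hpq h1 h3 e
      rw [e, (ht.prime hq (o q h3) h3).resolve_right this]
      exact ⟨ht.symm, fun e' => this ((ht.prime hq (o q h3) h3).elim (fun e => e.trans e'.symm) id)⟩
  refine ⟨?_, fun h => ?_⟩
  · refine le_trans (Finset.card_le_card_of_injOn (t := {a, b}) (so G) (fun r hr => ?_)
      fun r hr s hs e => by_contra fun e' => (hne r s (Nat.prime_of_mem_primeFactors hr)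
        (Nat.prime_of_mem_primeFactors hs) e' (Nat.dvd_of_mem_primeFactors hr)
        (Nat.dvd_of_mem_primeFactors hs)).2 e) Finset.card_le_two
    have hd := Nat.dvd_of_mem_primeFactors hr
    simpa using ht.prime (Nat.prime_of_mem_primeFactors hr) (o r hd) hd
  obtain ⟨p, q, hpq, e⟩ := Finset.card_eq_two.1 h
  have hm : ∀ r : ℕ, r.Prime ∧ r ∣ Nat.card G ↔ r = p ∨ r = q := fun r => by
    have := Finset.ext_iff.1 e r
    simpa [Nat.card_pos.ne'] using this
  obtain ⟨hp, h1⟩ := (hm p).2 (Or.inl rfl)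
  obtain ⟨hq, h3⟩ := (hm q).2 (Or.inr rfl)
  have hπ : ∀ r : ℕ, r.Prime → r ∣ Nat.card G → r = p ∨ r = q := fun r a b => (hm r).1 ⟨a, b⟩
  have ht' := (hne p q hp hq hpq h1 h3).1
  have h0 : so G (p * q) = 0 := (ht' _ (by nlinarith [two_lt hp (o p h1), hq.two_le])).resolve_right
    (not_or.2 ⟨so_mul_ne hp hq hpq (o p h1) (o q h3) h1 h3,
      mul_comm p q ▸ so_mul_ne hq hp hpq.symm (o q h3) (o p h1) h3 h1⟩)
  have sp := so_sq ht' hp hq hpq h1 h3 h0
  have sq := so_sq ht'.symm hq hp hpq.symm h3 h1 (mul_comm p q ▸ h0)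
  have he : EPPO G := eppo_of_not_mul fun r s hr hs hrs hrd hsd ⟨g, hg⟩ => by
    refine so_eq_zero_iff.1 h0 g (hg.trans ?_)
    rcases hπ r hr hrd with rfl | rfl <;> rcases hπ s hs hsd with rfl | rfl
    exacts [absurd rfl hrs, rfl, mul_comm _ _, absurd rfl hrs]
  refine ⟨fun r hr P hd => ?_, ?_⟩
  · haveI := (nontrivial_iff_ne_bot _).2 (P.ne_bot_of_dvd_card hd)
    refine (Monoid.exponent_eq_prime_iff hr.out).2 fun x hx => orderOf_eq_prime (Subtype.ext
      (exponent_eq_of_so hr.out ?_ P.2 x x.2)) hx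
    rcases hπ r hr.out hd with rfl | rfl
    exacts [sp, sq]
  haveI : Nontrivial G := Finite.one_lt_card_iff_nontrivial.1
    (hp.one_lt.trans_le (Nat.le_of_dvd Nat.card_pos h1))
  rcases exists_piCore_ne_bot (H5.isSolvable_of_primes_subset_pair hp hq hπ) {p} with h4 | h4
  · exact frob hp hq hpq (o q h3) h3 hπ he sp sq h4
  · refine frob hq hp hpq.symm (o p h1) h1 (fun r a b => (hπ r a b).symm) he sq sp fun e => h4 ?_
    exact eq_bot_iff.2 (e ▸ H1.le_piCore inferInstance fun r hr hd =>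
      (hπ r hr (hd.trans (card_subgroup_dvd_card _))).resolve_left (H1.piCore_isPi r hr hd))

end Cfsg.Agent.S4004
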