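import Cfsg.Statements.S4005
import Cfsg.Agent.H23.Ord4

set_option autoImplicit false
open Cfsg

namespace Cfsg.Agent.S4005

open Subgroup H23

/-- A finite group whose set of element orders is exactly {1, 2, 3} has either a normal elementary abelian 3-subgroup of index 2 or a normal elementary abelian 2-subgroup of index 3. -/
theorem result {G : Type*} [Group G] [Finite G] (h : Set.range (orderOf : G → ℕ) = {k : ℕ | 1 ≤ k ∧ k ≤ 3}) :
    (∃ N : Subgroup G, N.Normal ∧ Cfsg.IsElementaryAbelian 3 N ∧ N.index = 2) ∨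
      (∃ N : Subgroup G, N.Normal ∧ Cfsg.IsElementaryAbelian 2 N ∧ N.index = 3) := by
  haveI : Fact (Nat.Prime 2) := ⟨Nat.prime_two⟩
  have h3 : ∀ g : G, orderOf g ≤ 3 := fun g => (h ▸ Set.mem_range_self g : _ ∈ {k : ℕ | 1 ≤ k ∧ k ≤ 3}).2
  have hd : ∀ k, 1 ≤ k → k ≤ 3 → k ∣ Nat.card G := fun k a b => by
    obtain ⟨g, hg⟩ : k ∈ Set.range (orderOf : G → ℕ) := h ▸ ⟨a, b⟩
    exact hg ▸ orderOf_dvd_natCard g
  have hq : ∀ (N : Subgroup G) [N.Normal] (g : G ⧸ N), orderOf g ≤ 3 := fun N _ g => by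
    obtain ⟨g, rfl⟩ := QuotientGroup.mk_surjective g
    exact (Nat.le_of_dvd (orderOf_pos g) (orderOf_map_dvd (QuotientGroup.mk' N) g)).trans (h3 g)
  obtain ⟨N, hN, ⟨h1, h2, hc | ⟨⟨e⟩⟩⟩ | ⟨h1, h2, -⟩ | ⟨-, -, g, hg⟩⟩ :=
    ord4 (fun g => (h3 g).trans (by norm_num)) (hd 2 (by norm_num) (by norm_num))
      (hd 3 (by norm_num) le_rfl)
  · refine Or.inl ⟨N, hN, h1, ?_⟩
    have h4 : N.index ≤ 3 := card_le_of_cyclic (hq N) hc
    have h5 : N.index = 1 ∨ 2 ∣ N.index := h2.card_eq_or_dvd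
    have h6 : N.index ≠ 1 := fun e => by
      haveI : Fact (Nat.Prime 3) := ⟨Nat.prime_three⟩
      obtain ⟨k, hk⟩ := (H1.isPGroup_of_isElementaryAbelian h1).exists_card_eq
      have := hd 2 (by norm_num) (by norm_num)
      rw [← N.card_mul_index, e, mul_one, hk] at this
      exact absurd (Nat.prime_two.dvd_of_dvd_pow this) (by norm_num)
    have := N.index_ne_zero_of_finite
    omega
  · have := hq N (e.symm (QuaternionGroup.a 1))
    rw [MulEquiv.orderOf_eq, QuaternionGroup.orderOf_a_one] at this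
    omega
  · have hsq : ∀ a ∈ N, a ^ 2 = 1 := fun a ha => by
      obtain ⟨k, hk⟩ := exists_orderOf_eq_of_mem h1 ha
      have h2 := hk ▸ h3 a
      rw [← orderOf_dvd_iff_pow_eq_one, hk]
      have : k < 2 := (Nat.pow_lt_pow_iff_right (a := 2) (by norm_num)).1 (by omega)
      exact (pow_dvd_pow 2 (show k ≤ 1 by omega)).trans (by norm_num)
    have hinv : ∀ a ∈ N, a⁻¹ = a := fun a ha => inv_eq_of_mul_eq_one_right (sq a ▸ hsq a ha)
    refine Or.inr ⟨N, hN, ⟨H1.isMulCommutative_iff.2 fun a ha b hb => ?_, hsq⟩, h2⟩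
    rw [← hinv _ (mul_mem ha hb), mul_inv_rev, hinv a ha, hinv b hb]
  · have := h3 g
    omega

end Cfsg.Agent.S4005
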