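import Cfsg.Statements.S4006
import Cfsg.Agent.H23.Ord4

set_option autoImplicit false
open Cfsg

namespace Cfsg.Agent.S4006

open Subgroup H23

/-- A finite group whose set of element orders is exactly {1, 2, 3, 4} has a normal subgroup N such that either N is a 2-group of exponent 4 and nilpotency class at most 2 with G/N of order 3, or N is an elementary abelian 2-group with G/N isomorphic to the symmetric group of degree 3, or N is an elementary abelian 3-group with G/N cyclic of order 4 or quaternion of order 8. -/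
theorem result {G : Type*} [Group G] [Finite G] (h : Set.range (orderOf : G → ℕ) = {k : ℕ | 1 ≤ k ∧ k ≤ 4}) :
    ∃ (N : Subgroup G) (_ : N.Normal),
      (IsPGroup 2 ↥N ∧ Monoid.exponent ↥N = 4 ∧ Group.nilpotencyClass ↥N ≤ 2 ∧ N.index = 3) ∨
      (Cfsg.IsElementaryAbelian 2 N ∧ Nonempty (G ⧸ N ≃* Equiv.Perm (Fin 3))) ∨
      (Cfsg.IsElementaryAbelian 3 N ∧ ((IsCyclic (G ⧸ N) ∧ N.index = 4) ∨ Nonempty (G ⧸ N ≃* QuaternionGroup 2))) := by
  haveI : Fact (Nat.Prime 2) := ⟨Nat.prime_two⟩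
  have h4 : ∀ g : G, orderOf g ≤ 4 := fun g => (h ▸ Set.mem_range_self g : _ ∈ {k : ℕ | 1 ≤ k ∧ k ≤ 4}).2
  have hd : ∀ k, 1 ≤ k → k ≤ 4 → k ∣ Nat.card G := fun k a b => by
    obtain ⟨g, hg⟩ : k ∈ Set.range (orderOf : G → ℕ) := h ▸ ⟨a, b⟩
    exact hg ▸ orderOf_dvd_natCard g
  obtain ⟨g, hg⟩ : 4 ∈ Set.range (orderOf : G → ℕ) := h ▸ ⟨by norm_num, le_rfl⟩
  obtain ⟨N, hN, ⟨h1, h2, hc | e⟩ | ⟨h1, h2, h3⟩ | ⟨h1, h2, -⟩⟩ :=
    ord4 h4 (hd 2 (by norm_num) (by norm_num)) (hd 3 (by norm_num) (by norm_num))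
  · refine ⟨N, hN, Or.inr (Or.inr ⟨h1, Or.inl ⟨hc, ?_⟩⟩)⟩
    have h5 : N.index ≤ 4 := card_le_of_cyclic (fun g => by
      obtain ⟨g, rfl⟩ := QuotientGroup.mk_surjective g
      exact (Nat.le_of_dvd (orderOf_pos g) (orderOf_map_dvd (QuotientGroup.mk' N) g)).trans (h4 g)) hc
    haveI : Fact (Nat.Prime 3) := ⟨Nat.prime_three⟩
    obtain ⟨k, hk⟩ := (H1.isPGroup_of_isElementaryAbelian h1).exists_card_eq
    have := hd 4 (by norm_num) le_rfl
    rw [← N.card_mul_index, hk] at this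
    have := (Nat.Coprime.pow_right k (by norm_num)).dvd_of_dvd_mul_left this
    have := N.index_ne_zero_of_finite
    omega
  · exact ⟨N, hN, Or.inr (Or.inr ⟨h1, Or.inr e⟩)⟩
  · refine ⟨N, hN, Or.inl ⟨h1, Nat.dvd_antisymm ?_ ?_, h3, h2⟩⟩
    · refine Monoid.exponent_dvd_of_forall_pow_eq_one fun a => Subtype.ext ?_
      obtain ⟨k, hk⟩ := exists_orderOf_eq_of_mem h1 a.2
      have h2 := hk ▸ h4 a
      show (a : G) ^ 4 = 1
      rw [← orderOf_dvd_iff_pow_eq_one, hk]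
      exact pow_dvd_pow 2 (show k ≤ 2 from (Nat.pow_le_pow_iff_right one_lt_two).1 h2)
    · have hgN : g ∈ N := mem_of_coprime_index (by rw [hg, h2]; norm_num)
      have := Monoid.order_dvd_exponent (⟨g, hgN⟩ : N)
      rwa [← orderOf_coe, hg] at this
  · exact ⟨N, hN, Or.inr (Or.inl ⟨h1, h2⟩)⟩

end Cfsg.Agent.S4006
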