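import Cfsg.Statements.S4198
import Mathlib.GroupTheory.SpecificGroups.Alternating.Centralizer
import Mathlib.GroupTheory.Perm.Cycle.PossibleTypes
import Mathlib.Combinatorics.Enumerative.Partition.Basic

set_option autoImplicit false
open Cfsg

namespace Cfsg.Agent.S4198

open Equiv Equiv.Perm

theorem part_succ (n : ℕ) :
    Nat.card (Nat.Partition (n + 1)) ≤ 2 * Nat.card (Nat.Partition n) := by
  have h : ∀ s : Nat.Partition (n + 1), ∃ (x : Bool × Nat.Partition n) (a : ℕ) (t : Multiset ℕ),
      s.parts = (a + 1) ::ₘ t ∧ (∀ b ∈ t, a < b) ∧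
      (x.1 = true ∧ a = 0 ∧ x.2.parts = t ∨ x.1 = false ∧ x.2.parts = a ::ₘ t) := fun s => by
    obtain ⟨a, ha, hm⟩ := s.parts.toFinset.exists_min_image id (Multiset.toFinset_nonempty.2
      fun e => by simpa [e] using s.parts_sum)
    simp only [Multiset.mem_toFinset, id] at ha hm
    obtain ⟨a, rfl⟩ := Nat.exists_eq_succ_of_ne_zero (s.parts_pos ha).ne'
    obtain ⟨t, ht⟩ := Multiset.exists_cons_of_mem ha
    have h1 : ∀ b ∈ t, a < b := fun b hb => hm b (ht ▸ Multiset.mem_cons_of_mem hb)
    have h2 := s.parts_sum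
    rw [ht, Multiset.sum_cons] at h2
    by_cases h0 : a = 0
    · exact ⟨(true, ⟨t, fun hb => (h1 _ hb).pos, by omega⟩), a, t, ht, h1, .inl ⟨rfl, h0, rfl⟩⟩
    · exact ⟨(false, ⟨a ::ₘ t, fun hb => (Multiset.mem_cons.1 hb).elim (by omega)
        fun hb => (h1 _ hb).pos, by rw [Multiset.sum_cons]; omega⟩), a, t, ht, h1, .inr ⟨rfl, rfl⟩⟩
  choose f hf using h
  refine (Nat.card_le_card_of_injective f fun s s' e => Nat.Partition.ext ?_).trans (by simp)
  obtain ⟨a, t, h1, h2, h3⟩ := hf s
  obtain ⟨b, u, h4, h5, h6⟩ := hf s'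
  rw [e] at h3
  rcases h3 with ⟨h3, rfl, rfl⟩ | ⟨h3, h7⟩ <;> rcases h6 with ⟨h6, rfl, h8⟩ | ⟨h6, h8⟩
  · rw [h1, h4, h8]
  · simp [h3] at h6
  · simp [h3] at h6
  · rw [h7] at h8
    have h9 := Multiset.mem_cons.1 (h8 ▸ Multiset.mem_cons_self a t)
    have h10 := Multiset.mem_cons.1 (h8.symm ▸ Multiset.mem_cons_self b u)
    obtain rfl : a = b := by
      rcases h9 with h9 | h9
      · exact h9
      · have := h5 a h9
        rcases h10 with h10 | h10
        · exact h10.symm
        · have := h2 b h10; omega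
    rw [h1, h4, (Multiset.cons_inj_right _).1 h8]

theorem part_le (n : ℕ) : Nat.card (Nat.Partition (n + 5)) ≤ 2 ^ (n + 3) := by
  induction n with
  | zero =>
    have h : ∀ s : Nat.Partition 5, (∀ k, k ∉ Finset.Icc 1 5 → s.parts.count k = 0) ∧
        s.parts.count 1 + s.parts.count 2 * 2 + s.parts.count 3 * 3 + s.parts.count 4 * 4 +
        s.parts.count 5 * 5 = 5 := fun s => by
      have h1 : s.parts.toFinset ⊆ Finset.Icc 1 5 := fun k hk => by
        rw [Multiset.mem_toFinset] at hk
        exact Finset.mem_Icc.2 ⟨s.parts_pos hk, s.parts_sum ▸ Multiset.le_sum_of_mem hk⟩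
      refine ⟨fun k hk => Multiset.count_eq_zero.2 fun h => hk (h1 (by simpa using h)), ?_⟩
      have := s.parts_sum
      rw [Finset.sum_multiset_count_of_subset _ _ h1] at this
      simpa [show Finset.Icc 1 5 = {1, 2, 3, 4, 5} from rfl, add_assoc] using this
    let T := (Finset.range 3 ×ˢ Finset.range 2 ×ˢ Finset.range 2 ×ˢ Finset.range 2).filter
      fun x => x.1 * 2 + x.2.1 * 3 + x.2.2.1 * 4 + x.2.2.2 * 5 ≤ 5
    refine (Nat.card_le_card_of_injective (fun s : Nat.Partition 5 => (⟨(s.parts.count 2,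
      s.parts.count 3, s.parts.count 4, s.parts.count 5), by
        have := (h s).2
        simp [T]; omega⟩ : T)) fun s t e => Nat.Partition.ext (Multiset.ext.2 fun k => ?_)).trans
      (by rw [Nat.card_eq_finsetCard]; decide)
    simp only [Subtype.mk.injEq, Prod.mk.injEq] at e
    by_cases hk : k ∈ Finset.Icc 1 5
    · have := (h s).2
      have := (h t).2
      rw [Finset.mem_Icc] at hk
      obtain ⟨h1, h2⟩ := hk
      interval_cases k <;> omega
    · rw [(h s).1 k hk, (h t).1 k hk]
  | succ n ih => exact (part_succ (n + 5)).trans (by rw [add_right_comm, pow_succ]; omega)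

/-- For n ≥ 5 the alternating group of degree n has strictly fewer conjugacy classes than the symmetric group of degree n, and the symmetric group of degree n (whose classes correspond to the partitions of n) has at most 2^(n−2) conjugacy classes. -/
theorem result (n : ℕ) (hn : 5 ≤ n) : Nat.card (ConjClasses (alternatingGroup (Fin n))) < Nat.card (ConjClasses (Equiv.Perm (Fin n))) ∧ Nat.card (ConjClasses (Equiv.Perm (Fin n))) ≤ 2 ^ (n - 2) := by
  classical
  constructor
  · let f : ConjClasses (alternatingGroup (Fin n)) → ConjClasses (Perm (Fin n)) :=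
      ConjClasses.map (Subgroup.subtype _)
    have hc : ∀ (x y : alternatingGroup (Fin n)) (g : Perm (Fin n)), sign g = 1 →
        g * x * g⁻¹ = y → ConjClasses.mk x = ConjClasses.mk y := fun x y g hg e =>
      ConjClasses.mk_eq_mk_iff_isConj.2 (isConj_iff.2 ⟨⟨g, hg⟩, Subtype.ext e⟩)
    have h : ∀ c, ∃ y : Perm (Fin n), (c = Function.invFun f (f c) ∧ sign y = 1 ∧
        ConjClasses.mk y = f c ∧ (y.cycleType = {2} → False)) ∨ (c ≠ Function.invFun f (f c) ∧
        sign y = -1 ∧ ∃ (x : alternatingGroup (Fin n)) (a : ℕ) (t : Multiset ℕ),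
        ConjClasses.mk x = c ∧ x.1.cycleType = (a + 1) ::ₘ t ∧ y.cycleType = a ::ₘ t ∧
        Even a ∧ (∀ b ∈ t, Odd b) ∧ n ≤ a + t.sum + 2) := fun c => by
      obtain ⟨x, rfl⟩ := ConjClasses.mk_surjective c
      by_cases h0 : ConjClasses.mk x = Function.invFun f (f (ConjClasses.mk x))
      · exact ⟨x, .inl ⟨h0, x.2, rfl, fun h => by
          have : sign x.1 = 1 := x.2
          rw [sign_of_cycleType, h] at this
          exact absurd this (by decide)⟩⟩
      obtain ⟨z, hz⟩ := ConjClasses.mk_surjective (Function.invFun f (f (ConjClasses.mk x)))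
      have h1 := Function.invFun_eq (f := f) ⟨ConjClasses.mk x, rfl⟩
      rw [← hz] at h0 h1
      obtain ⟨g, hg⟩ := isConj_iff.1 (ConjClasses.mk_eq_mk_iff_isConj.1 h1.symm)
      obtain ⟨h2, h3, -⟩ := centralizer_le_alternating_iff.1 (show Subgroup.centralizer {x.1} ≤ _ from
        fun k hk => (Int.units_eq_one_or _).resolve_right fun h2 => h0 (by
          rcases Int.units_eq_one_or (sign g) with h3 | h3
          · exact hc _ _ g h3 hg
          · refine hc _ _ (g * k) (by simp [h2, h3]) ?_
            rw [mul_assoc g, Subgroup.mem_centralizer_singleton_iff.1 hk]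
            simpa [mul_assoc] using hg))
      rw [Fintype.card_fin] at h3
      obtain ⟨a, ha⟩ := Multiset.exists_mem_of_ne_zero (s := x.1.cycleType) fun e => by
        simp [e] at h3; omega
      obtain ⟨t, ht⟩ := Multiset.exists_cons_of_mem ha
      obtain ⟨a, rfl⟩ := h2 a ha
      have h4 := two_le_of_mem_cycleType ha
      have h5 := sum_cycleType_le x.1
      rw [ht, Multiset.sum_cons] at h3 h5
      obtain ⟨y, hy⟩ := (exists_with_cycleType_iff (Fin n) (m := (2 * a) ::ₘ t)).2 ⟨by
        rw [Multiset.sum_cons]; omega, fun b hb => (Multiset.mem_cons.1 hb).elim (by omega)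
          fun hb => two_le_of_mem_cycleType (ht ▸ Multiset.mem_cons_of_mem hb)⟩
      refine ⟨y, .inr ⟨hz ▸ h0, ?_, x, _, t, rfl, ht, hy, even_two_mul a,
        fun b hb => h2 b (ht ▸ Multiset.mem_cons_of_mem hb), by omega⟩⟩
      have : sign x.1 = 1 := x.2
      rw [sign_of_cycleType, ht] at this
      rw [sign_of_cycleType, hy, ← neg_eq_iff_eq_neg]
      simpa [pow_add] using this
    choose y hy using h
    haveI := Fintype.ofFinite (ConjClasses (alternatingGroup (Fin n)))
    haveI := Fintype.ofFinite (ConjClasses (Perm (Fin n)))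
    rw [Nat.card_eq_fintype_card, Nat.card_eq_fintype_card]
    obtain ⟨s, hs⟩ := (exists_with_cycleType_iff (Fin n) (m := {2})).2 ⟨by simp; omega, by simp⟩
    refine Fintype.card_lt_of_injective_of_notMem (fun c => ConjClasses.mk (y c)) (fun c d e => ?_)
      (b := ConjClasses.mk s) ?_
    · have e' := isConj_iff_cycleType_eq.1 (ConjClasses.mk_eq_mk_iff_isConj.1 e)
      have e2 : sign (y c) = sign (y d) := by
        rw [sign_of_cycleType, sign_of_cycleType, e']
      rcases hy c with ⟨a1, a2, a3, -⟩ | ⟨a1, a2, x, a, t, rfl, a4, a5, a6, a7, -⟩ <;>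
        rcases hy d with ⟨b1, b2, b3, -⟩ | ⟨b1, b2, z, b, u, rfl, b4, b5, b6, b7, -⟩
      · rw [a1, b1, ← a3, ← b3]; exact congrArg _ e
      · simp [a2, b2] at e2
      · simp [a2, b2] at e2
      have h1 := e'
      rw [a5, b5] at h1
      obtain rfl : a = b := (Multiset.mem_cons.1 (h1 ▸ Multiset.mem_cons_self a t)).resolve_right
        fun h => Nat.not_odd_iff_even.2 a6 (b7 a h)
      obtain rfl := (Multiset.cons_inj_right _).1 h1
      obtain ⟨g, hg⟩ := isConj_iff.1 (isConj_of_cycleType_eq (a4.trans b4.symm))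
      have h2 : f (ConjClasses.mk x) = f (ConjClasses.mk z) :=
        ConjClasses.mk_eq_mk_iff_isConj.2 (isConj_iff.2 ⟨g, hg⟩)
      obtain ⟨w, hw⟩ := ConjClasses.mk_surjective (Function.invFun f (f (ConjClasses.mk x)))
      have h3 := Function.invFun_eq (f := f) ⟨ConjClasses.mk x, rfl⟩
      rw [← h2, ← hw] at b1
      rw [← hw] at a1 h3
      obtain ⟨k, hk⟩ := isConj_iff.1 (ConjClasses.mk_eq_mk_iff_isConj.1 h3.symm)
      refine hc _ _ g ((Int.units_eq_one_or _).resolve_right fun h4 => b1 ?_) hg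
      refine hc _ _ (k * g⁻¹) ?_ (by rw [← hg]; simpa [mul_assoc] using hk)
      simp [h4, (Int.units_eq_one_or (sign k)).resolve_left fun h5 => a1 (hc _ _ k h5 hk)]
    · rintro ⟨c, e⟩
      have h1 := (isConj_iff_cycleType_eq.1 (ConjClasses.mk_eq_mk_iff_isConj.1 e)).trans hs
      rcases hy c with ⟨-, -, -, h⟩ | ⟨-, -, x, a, t, -, -, h2, -, -, h3⟩
      · exact h h1
      · have := congrArg Multiset.sum (h2.symm.trans h1)
        simp at this
        omega
  · obtain ⟨n, rfl⟩ := Nat.exists_eq_add_of_le' hn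
    refine le_trans (Nat.card_le_card_of_injective (Quotient.lift Perm.partition
      fun _ _ h => partition_eq_of_isConj.1 h) fun a b => Quotient.inductionOn₂ a b fun a b h =>
        Quotient.sound (partition_eq_of_isConj.2 h)) ?_
    rw [Fintype.card_fin]
    exact part_le n

end Cfsg.Agent.S4198
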