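import Cfsg.Statements.S4203
import Cfsg.Agent.H1.Basic
import Cfsg.Agent.H23.Small
import Cfsg.Agent.H23.Nil
import Cfsg.Agent.H5.Burnside
import Cfsg.Agent.H2.Coprime

set_option autoImplicit false
open Cfsg

namespace Cfsg.Agent.S4203

open Subgroup

/-- A finite group in which every maximal subgroup has index a prime or the square of a prime is solvable. -/
theorem result {G : Type*} [Group G] [Finite G] (h : ∀ M : Subgroup G, IsCoatom M → ∃ p : ℕ, p.Prime ∧ (M.index = p ∨ M.index = p ^ 2)) : Group.IsSolvable G := by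
  revert h
  refine H1.induction_card (P := fun G _ _ => (∀ M : Subgroup G, IsCoatom M → ∃ p : ℕ, p.Prime ∧
    (M.index = p ∨ M.index = p ^ 2)) → Group.IsSolvable G) (fun G _ _ ih h => ?_) G
  rcases subsingleton_or_nontrivial G with hs | hs
  · infer_instance
  have h1 : 1 < Nat.card G := Finite.one_lt_card
  have hne : (Nat.card G).primeFactors.Nonempty := Nat.nonempty_primeFactors.2 h1
  set p := (Nat.card G).primeFactors.max' hne with hp
  have hpm : p ∈ (Nat.card G).primeFactors := Finset.max'_mem _ _
  have hmax : ∀ q : ℕ, q.Prime → q ∣ Nat.card G → q ≤ p := fun q hq hd =>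
    Finset.le_max' _ _ (Nat.mem_primeFactors.2 ⟨hq, hd, by omega⟩)
  haveI hpp : Fact p.Prime := ⟨Nat.prime_of_mem_primeFactors hpm⟩
  obtain ⟨P⟩ := (inferInstance : Nonempty (Sylow p G))
  by_cases hn : normalizer ((P : Subgroup G) : Set G) = ⊤
  · haveI : (P : Subgroup G).Normal := normalizer_eq_top_iff.1 hn
    have hP0 : (P : Subgroup G) ≠ ⊥ := P.ne_bot_of_dvd_card (Nat.dvd_of_mem_primeFactors hpm)
    refine H23.solvable_of_quot (P : Subgroup G) (H2.isSolvable_of_isPGroup P.2)
      (ih _ (H1.card_quotient_lt hP0) fun M hM => ?_)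
    obtain ⟨q, hq, h⟩ := h (M.comap (QuotientGroup.mk' _))
      (isCoatom_comap_of_surjective (QuotientGroup.mk'_surjective _) hM)
    rw [index_comap_of_surjective _ (QuotientGroup.mk'_surjective _)] at h
    exact ⟨q, hq, h⟩
  obtain ⟨M, hM, hle⟩ := H1.exists_coatom_ge hn
  obtain ⟨q, hq, h⟩ := h M hM
  have hmod := H23.index_modEq_one P hle
  have hqd : q ∣ Nat.card G := by
    refine Dvd.dvd.trans ?_ M.index_dvd_card
    rcases h with h | h <;> rw [h]
    exact dvd_pow_self _ two_ne_zero
  have hqp := hmax q hq hqd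
  have hq2 := hq.two_le
  have hp2 := hpp.out.two_le
  have hd : p ∣ (q + 1) * (q - 1) := by
    rcases h with h | h <;> rw [h] at hmod
    · exact Dvd.dvd.mul_left ((Nat.modEq_iff_dvd' (by omega)).1 hmod.symm) _
    · rw [← Nat.sq_sub_sq, one_pow]
      exact (Nat.modEq_iff_dvd' (Nat.one_le_pow _ _ (by omega))).1 hmod.symm
  have hp3 : p ≤ 3 := by
    rcases (Nat.Prime.dvd_mul hpp.out).1 hd with h1 | h1
    · by_contra h3
      have h4 := Nat.le_of_dvd (by omega) h1
      rcases (by omega : q = p ∨ q + 1 = p) with e | e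
      · rw [e] at h1
        have := (Nat.dvd_add_right (dvd_refl p)).1 h1
        have := Nat.le_of_dvd one_pos this
        omega
      · rcases hq.eq_two_or_odd with h2 | h2
        · omega
        · rcases hpp.out.eq_two_or_odd with h5 | h5 <;> omega
    · have := Nat.le_of_dvd (by omega) h1
      omega
  refine H5.isSolvable_of_primes_subset_pair Nat.prime_two Nat.prime_three fun r hr hd => ?_
  have := hmax r hr hd
  have := hr.two_le
  omega

end Cfsg.Agent.S4203
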