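import Cfsg.Statements.S4204
import Cfsg.Agent.H1.Basic

set_option autoImplicit false
open Cfsg

namespace Cfsg.Agent.S4204

open Subgroup

/-- the `n`-th term of the chain `⊤, H, [H,H], ...` -/
def T {G : Type*} [Group G] (H : Subgroup G) : ℕ → Subgroup G
  | 0 => ⊤
  | n + 1 => H.lowerCentralSeries n

instance T_normal {G : Type*} [Group G] (H : Subgroup G) [H.Normal] : ∀ n, (T H n).Normal
  | 0 => (inferInstance : (⊤ : Subgroup G).Normal)
  | n + 1 => (inferInstance : (H.lowerCentralSeries n).Normal)

theorem T_comm {G : Type*} [Group G] (H : Subgroup G) [H.Normal] :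
    ∀ n, ⁅T H n, H⁆ ≤ T H (n + 1)
  | 0 => commutator_le_right _ _
  | _ + 1 => le_rfl

def U {G : Type*} [Group G] (H K : Subgroup G) (n : ℕ) : Subgroup G :=
  ⨆ i : Fin (n + 1), T H i ⊓ T K (n - i)

instance U_normal {G : Type*} [Group G] (H K : Subgroup G) [H.Normal] [K.Normal] (n : ℕ) :
    (U H K n).Normal := by
  unfold U; infer_instance

theorem le_U {G : Type*} [Group G] (H K : Subgroup G) (i j n : ℕ) (h : i + j = n) :
    T H i ⊓ T K j ≤ U H K n := by
  have : j = n - i := by omega
  subst this
  exact le_iSup (fun i : Fin (n + 1) => T H i ⊓ T K (n - i)) ⟨i, by omega⟩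

theorem U_comm {G : Type*} [Group G] (H K : Subgroup G) [H.Normal] [K.Normal] (n : ℕ) :
    ⁅U H K n, H ⊔ K⁆ ≤ U H K (n + 1) := by
  apply H1.commutator_iSup_le
  · intro i; exact le_normalizer_of_normal
  · intro i
    rw [H1.commutator_sup_right_of_normal, sup_le_iff]
    constructor
    · refine le_trans ?_ (le_U H K (i + 1) (n - i) (n + 1) (by omega))
      refine le_inf ((commutator_mono inf_le_left le_rfl).trans (T_comm H i)) ?_
      exact (commutator_le_left _ _).trans inf_le_right
    · refine le_trans ?_ (le_U H K i (n - i + 1) (n + 1) (by omega))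
      refine le_inf ?_ ((commutator_mono inf_le_right le_rfl).trans (T_comm K _))
      exact (commutator_le_left _ _).trans inf_le_left


/-- If `H` and `K` are normal subgroups of a finite group with `H` nilpotent of class at most `c` and `K` nilpotent of class at most `d` (the terms with index `c`, respectively `d`, of their lower central series are trivial, indices starting at `0`), then `HK` is nilpotent of class at most `c + d`. -/
theorem result {G : Type*} [Group G] [Finite G] (H K : Subgroup G) [H.Normal] [K.Normal] (c d : ℕ) (hH : H.lowerCentralSeries c = ⊥) (hK : K.lowerCentralSeries d = ⊥) : (H ⊔ K).lowerCentralSeries (c + d) = ⊥ := by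
  have key : ∀ n, (H ⊔ K).lowerCentralSeries n ≤ U H K (n + 1) := by
    intro n
    induction n with
    | zero =>
      rw [Subgroup.lowerCentralSeries_zero, sup_le_iff]
      constructor
      · refine le_trans ?_ (le_U H K 1 0 1 rfl)
        exact le_inf le_rfl le_top
      · refine le_trans ?_ (le_U H K 0 1 1 rfl)
        exact le_inf le_top le_rfl
    | succ n ih =>
      rw [Subgroup.lowerCentralSeries_succ]
      exact (commutator_mono ih le_rfl).trans (U_comm H K _)
  rw [eq_bot_iff]
  refine (key _).trans (iSup_le fun i => ?_)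
  by_cases hi : c + 1 ≤ (i : ℕ)
  · obtain ⟨k, hk⟩ : ∃ k, (i : ℕ) = k + 1 := ⟨i - 1, by omega⟩
    rw [hk]
    refine inf_le_left.trans ?_
    rw [← hH]
    exact H.lowerCentralSeries_antitone (by omega : c ≤ k)
  · obtain ⟨k, hk⟩ : ∃ k, c + d + 1 - (i : ℕ) = k + 1 := ⟨c + d - i, by omega⟩
    rw [hk]
    refine inf_le_right.trans ?_
    rw [← hK]
    exact K.lowerCentralSeries_antitone (by omega : d ≤ k)

end Cfsg.Agent.S4204
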