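import Cfsg.Statements.S4207
import Cfsg.Agent.H24.BurnAut

set_option autoImplicit false
open Cfsg

namespace Cfsg.Agent.S4207


/-- Let `P` be a group of order `p^n` whose Frattini subgroup has index `p^r`. Then any group of automorphisms of `P` each of which induces the identity on the Frattini quotient has order dividing `p^(r(n-r))`; in particular it is a `p`-group. -/
theorem result {P : Type*} [Group P] [Finite P] {p n r : ℕ} [Fact p.Prime] (hP : Nat.card P = p ^ n) (hr : (frattini P).index = p ^ r) (A : Subgroup (MulAut P)) (hA : ∀ α ∈ A, ∀ x : P, α x * x⁻¹ ∈ frattini P) : Nat.card A ∣ p ^ (r * (n - r)) := by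
  have hp := IsPGroup.of_card hP
  have h1 := (frattini P).card_mul_index
  obtain ⟨m, hm⟩ := H4.exists_card_eq_pow hp (frattini P)
  rw [hr] at h1
  obtain rfl : n = m + r := Nat.pow_right_injective (Fact.out : p.Prime).two_le (by
    simp only [pow_add, ← hm, h1, hP])
  obtain ⟨x, hx⟩ : (H24.Ind r (frattini P)).Nonempty := Set.nonempty_of_ncard_ne_zero (by
    rw [H24.Ind.card hp r le_rfl, hP, hm]
    refine Finset.prod_ne_zero_iff.2 fun i hi => Nat.sub_ne_zero_of_lt ?_
    rw [← pow_add]
    exact Nat.pow_lt_pow_right (Fact.out : p.Prime).one_lt (by simpa using hi))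
  have h2 := H24.Ind.gen hp le_rfl h1 hx
  have := H24.card_dvd_ncard_of_free (G := A) {y : Fin r → P | ∀ i, y i * (x i)⁻¹ ∈ frattini P}
    (fun α y hy i => by
      have := mul_mem (hA α α.2 (y i)) (hy i)
      rwa [mul_assoc, inv_mul_cancel_left] at this) fun α y hy e =>
      Subtype.ext (H24.eq_one_of_fix_gen (x := y) (eq_top_iff.2 (h2.ge.trans (sup_le
        ((Subgroup.closure_le _).2 ?_) le_sup_right))) e)
  · rwa [← Nat.card_coe_set_eq, Nat.card_congr (α := {y : Fin r → P | ∀ i, y i * (x i)⁻¹ ∈ frattini P})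
      (β := Fin r → frattini P)
      ⟨fun y i => ⟨_, y.2 i⟩, fun z => ⟨fun i => z i * x i, fun i => by simp⟩, fun y => by simp,
        fun z => by simp⟩, Nat.card_fun, hm, Nat.card_fin, ← pow_mul, mul_comm,
      ← Nat.add_sub_cancel (n := m) (m := r)] at this
  · rintro _ ⟨i, rfl⟩
    simpa using mul_mem (inv_mem (Subgroup.mem_sup_left (S := Subgroup.closure (Set.range y))
      (T := frattini P) (inv_mem (Subgroup.subset_closure ⟨i, rfl⟩)))) (inv_mem (Subgroup.mem_sup_right
      ((inferInstance : (frattini P).Normal).mem_comm (hy i))))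

end Cfsg.Agent.S4207
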