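import Cfsg.Statements.S4213
import Cfsg.Agent.H23.FrobThm
import Cfsg.Agent.H23.PiClosed
import Cfsg.Agent.H1.Fitting
import Cfsg.Agent.H2.Hall
import Cfsg.Agent.H3.NPC

set_option autoImplicit false
open Cfsg

namespace Cfsg.Agent.S4213

open Subgroup H23

/-- If `G` is a finite solvable group and `n` divides the order of `G` and exactly `n` elements `x` of `G` satisfy `x^n = 1`, then these elements form a normal subgroup. -/
theorem result {G : Type*} [Group G] [Finite G] [Group.IsSolvable G] (n : ℕ) (hn : n ∣ Nat.card G) (hcount : Nat.card {x : G // x ^ n = 1} = n) : ∃ H : Subgroup G, H.Normal ∧ (H : Set G) = {x : G | x ^ n = 1} := by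
  revert n
  refine H1.induction_card (P := fun G _ _ => Group.IsSolvable G → ∀ n : ℕ, n ∣ Nat.card G →
    Nat.card {x : G // x ^ n = 1} = n → ∃ H : Subgroup G, H.Normal ∧ (H : Set G) = {x : G | x ^ n = 1})
    (fun G _ _ ih hs n hn hc => ?_) G inferInstance
  replace hc : {x : G | x ^ n = 1}.ncard = n := hc
  have hn0 : 0 < n := Nat.pos_of_dvd_of_pos hn Nat.card_pos
  suffices h : ∃ H : Subgroup G, Nat.card H = n by
    obtain ⟨H, hH⟩ := h
    have e : (H : Set G) = {x : G | x ^ n = 1} := Set.eq_of_subset_of_ncard_le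
      (fun x hx => orderOf_dvd_iff_pow_eq_one.1 (hH ▸ orderOf_dvd_natCard H hx)) (hc.trans hH.symm).le
    refine ⟨H, ⟨fun x hx g => ?_⟩, e⟩
    rw [← SetLike.mem_coe, e] at hx ⊢
    show _ ^ n = 1
    rw [conj_pow, show x ^ n = 1 from hx]; simp
  rcases subsingleton_or_nontrivial G with h1 | h1
  · exact ⟨⊥, by rw [Nat.card_unique (α := G), Nat.dvd_one] at hn; rw [card_bot, hn]⟩
  obtain ⟨N, p, hp, -, hNn, hN0, hN, -⟩ := H1.exists_minimal_normal_elementary_le (⊤ : Subgroup G)
    top_ne_bot inferInstance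
  haveI : Fact p.Prime := ⟨hp⟩
  obtain ⟨i, hi⟩ := (H1.isPGroup_of_isElementaryAbelian hN).exists_card_eq
  have hi0 : i ≠ 0 := by rintro rfl; exact hN0 (card_eq_one.1 hi)
  have hpos : ∀ u, 0 < {z : G ⧸ N | z ^ u = 1}.ncard := fun u =>
    (Set.ncard_pos (Set.toFinite _)).2 ⟨1, one_pow u⟩
  by_cases hpn : p ∣ n
  · set u := n / Nat.gcd n (Nat.card N) with hu
    have h1 : n ∣ Nat.card N * u := by
      rw [hu, ← Nat.mul_div_assoc _ (Nat.gcd_dvd_left _ _), mul_comm,
        Nat.mul_div_assoc _ (Nat.gcd_dvd_right _ _)]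
      exact dvd_mul_right _ _
    have h2 : u * p ∣ n := by
      conv_rhs => rw [← Nat.div_mul_cancel (Nat.gcd_dvd_left n (Nat.card N))]
      exact mul_dvd_mul_left _ (Nat.dvd_gcd hpn (hi ▸ dvd_pow_self p hi0))
    have h3 : u ∣ Nat.card (G ⧸ N) := by
      rw [← N.card_mul_index] at hn
      rw [hu, Nat.div_dvd_iff_dvd_mul (Nat.gcd_dvd_left _ _) (Nat.gcd_pos_of_pos_left _ hn0)]
      exact Nat.dvd_gcd_mul_iff_dvd_mul.2 hn
    have h4 := frobenius_dvd h3
    have h5 : Nat.card N * {z : G ⧸ N | z ^ u = 1}.ncard ≤ n := by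
      rw [← Nat.card_coe_set_eq, ← QuotientGroup.card_preimage_mk, Nat.card_coe_set_eq, ← hc]
      refine Set.ncard_le_ncard fun x hx => ?_
      obtain ⟨k, hk⟩ := h2
      rw [Set.mem_ofPred_eq, hk, pow_mul, pow_mul, hN.2 _ ((QuotientGroup.eq_one_iff _).1 hx), one_pow]
    have h6 := Nat.le_of_dvd (hpos u) h4
    have hu0 : 0 < u := Nat.pos_of_dvd_of_pos h3 Nat.card_pos
    have h7 := Nat.le_of_dvd (Nat.mul_pos Nat.card_pos hu0) h1
    have h8 : {z : G ⧸ N | z ^ u = 1}.ncard = u := le_antisymm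
      (Nat.le_of_mul_le_mul_left (h5.trans h7) Nat.card_pos) h6
    obtain ⟨K, -, hK⟩ := ih _ (H1.card_quotient_lt hN0) inferInstance u h3 h8
    refine ⟨K.comap (QuotientGroup.mk' N), ?_⟩
    rw [H1.card_comap_mk', show Nat.card K = u from by rw [← h8, ← hK]; rfl, mul_comm]
    rw [h8] at h5
    omega
  · have hcop : n.Coprime p := ((Nat.Prime.coprime_iff_not_dvd hp).2 hpn).symm
    have hcN : (Nat.card N).Coprime n := hi ▸ (hcop.pow_right i).symm
    have h3 : n ∣ Nat.card (G ⧸ N) := by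
      rw [← N.card_mul_index] at hn
      exact hcN.symm.dvd_of_dvd_mul_left hn
    have h8 : {z : G ⧸ N | z ^ n = 1}.ncard = n := by
      refine le_antisymm ?_ (Nat.le_of_dvd (hpos n) (frobenius_dvd h3))
      refine le_trans (Set.ncard_le_ncard fun z hz => ?_)
        ((Set.ncard_image_le (f := (QuotientGroup.mk : G → G ⧸ N))).trans hc.le)
      obtain ⟨x, rfl⟩ := QuotientGroup.mk_surjective z
      have hz := orderOf_dvd_iff_pow_eq_one.2 hz
      obtain ⟨a, -, ha, e⟩ := H3.exists_coprime_lift hp.ne_zero (QuotientGroup.mk' N) x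
        (hcop.coprime_dvd_left hz)
      replace e : (a : G ⧸ N) = x := e
      refine ⟨a, orderOf_dvd_iff_pow_eq_one.1 ?_, e⟩
      have := H23.orderOf_dvd_mul_quot N a
      rw [hi, e] at this
      exact ((ha.pow_right i).dvd_of_dvd_mul_right this).trans hz
    obtain ⟨K, -, hK⟩ := ih _ (H1.card_quotient_lt hN0) inferInstance n h3 h8
    have hKn : Nat.card K = n := by rw [← h8, ← hK]; rfl
    obtain ⟨H, hH, -⟩ := H2.exists_complement_comap N K (hKn ▸ hcN)
    exact ⟨H, hH.trans hKn⟩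

end Cfsg.Agent.S4213
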