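import Cfsg.Statements.S4214
import Cfsg.Agent.H10.Fusion
import Cfsg.Agent.H2.CoprimeAbelian
import Cfsg.Agent.H2.Hall
import Cfsg.Agent.H1.Fitting

set_option autoImplicit false
open Cfsg

namespace Cfsg.Agent.S4214

open Subgroup
open scoped Pointwise commutatorElement

theorem cent_step {G : Type*} [Group G] [Finite G] {N K : Subgroup G} {g : G} {p : ℕ}
    (hp : p.Prime) (hgN : g ∈ normalizer (N : Set G)) (hgK : g ∈ normalizer (K : Set G))
    (hgp : g ^ p ∈ K) (hc : p.Coprime (Nat.card N)) :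
    (centralizer ((K ⊔ zpowers g : Subgroup G) : Set G) ⊓ N).relIndex
      (centralizer (K : Set G) ⊓ N) ≡ 1 [MOD p] := by
  classical
  have := Fact.mk hp
  set U := centralizer (K : Set G) ⊓ N with hU
  set C := centralizer ((K ⊔ zpowers g : Subgroup G) : Set G) ⊓ N with hC
  have hCU : C ≤ U := inf_le_inf_right _ (centralizer_le (by exact le_sup_left (a := K)))
  have hgU : g ∈ normalizer (U : Set G) :=
    zpowers_le.1 (H2.le_normalizer_inf (H2.le_normalizer_centralizer (zpowers_le.2 hgK))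
      (zpowers_le.2 hgN))
  have := Fintype.ofFinite U
  let f : Function.End U := fun u => ⟨g * u * g⁻¹, (mem_normalizer_iff.1 hgU u).1 u.2⟩
  have hf : ∀ k : ℕ, ∀ u : U, ((f ^ k) u : G) = g ^ k * u * (g ^ k)⁻¹ := by
    intro k
    induction k with
    | zero => intro u; simp [Function.End.one_def]
    | succ k ih =>
      intro u
      rw [pow_succ']
      change g * ((f ^ k) u : G) * g⁻¹ = _
      rw [ih, pow_succ']; group
  have hfp : f ^ p ^ 1 = 1 := by
    funext u
    apply Subtype.ext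
    rw [pow_one, hf, (u.2.1 _ hgp)]
    simp [Function.End.one_def]
  have h1 := Equiv.Perm.card_fixedPoints_modEq hfp
  have h2 : Fintype.card f.fixedPoints = Nat.card C := by
    rw [← Nat.card_eq_fintype_card]
    refine Nat.card_congr ⟨fun u => ⟨u.1.1, ?_, u.1.2.2⟩, fun c => ⟨⟨c.1, hCU c.2⟩, ?_⟩,
      fun _ => rfl, fun _ => rfl⟩
    · have hu : g * u.1.1 * g⁻¹ = u.1.1 := congrArg Subtype.val u.2
      have : K ⊔ zpowers g ≤ centralizer {u.1.1} := by
        refine sup_le (fun k hk => mem_centralizer_singleton_iff.2 (u.1.2.1 k hk)) ?_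
        rw [zpowers_le, mem_centralizer_singleton_iff]
        exact mul_inv_eq_iff_eq_mul.1 hu
      intro x hx
      exact mem_centralizer_singleton_iff.1 (this hx)
    · apply Subtype.ext
      change g * c.1 * g⁻¹ = c.1
      rw [c.2.1 g (mem_sup_right (mem_zpowers g))]; simp
  rw [h2, ← Nat.card_eq_fintype_card, ← H1.relIndex_mul_card hCU] at h1
  have hc' : p.Coprime (Nat.card C) := hc.coprime_dvd_right (card_dvd_of_le inf_le_right)
  exact Nat.ModEq.cancel_right_of_coprime hc' (by simpa using h1)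

theorem cent_list {G : Type*} [Group G] [Finite G] {N : Subgroup G} {q : ℕ} [Fact q.Prime]
    (hN : IsPGroup q N) (n : ℕ) : ∀ H : Subgroup G, Nat.card H = n → Group.IsSolvable H →
      H ≤ normalizer (N : Set G) → (Nat.card H).Coprime (Nat.card N) →
      ∃ l : List ℕ, (centralizer (H : Set G)).relIndex N = l.prod ∧ ∀ a ∈ l,
        (∃ e, a = q ^ e) ∧ a ∣ Nat.card N ∧ ∃ p, p.Prime ∧ p ∣ Nat.card H ∧ a ≡ 1 [MOD p] := by
  induction n using Nat.strong_induction_on with
  | _ n ih =>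
  intro H hn hs hHN hc
  by_cases h0 : H = ⊥
  · subst h0
    refine ⟨[], ?_, by simp⟩
    rw [List.prod_nil, relIndex_eq_one]
    intro x _ y hy
    rw [SetLike.mem_coe, mem_bot] at hy
    simp [hy]
  have hlt : ⁅H, H⁆ < H := H2.commutator_lt_of_isSolvable h0
  obtain ⟨K, ⟨hK1, hK2⟩, hmax⟩ := (Set.toFinite {K : Subgroup G | ⁅H, H⁆ ≤ K ∧ K < H}).exists_maximal
    ⟨_, le_rfl, hlt⟩
  have hHK : H ≤ normalizer (K : Set G) := by
    intro h hh
    apply H2.mem_normalizer_of_conj_mem
    intro x hx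
    have : h * x * h⁻¹ = ⁅h, x⁆ * x := by rw [commutatorElement_def]; group
    rw [this]
    exact K.mul_mem (hK1 (commutator_mem_commutator hh (hK2.le hx))) hx
  obtain ⟨p, hp, hpd⟩ := Nat.exists_prime_and_dvd (n := K.relIndex H)
    (fun h => hK2.not_ge (relIndex_eq_one.1 h))
  obtain ⟨g, hgH, hgK, hgp, -⟩ := H10.exists_of_dvd_relIndex hHK hp hpd
  have hsup : K ⊔ zpowers g = H := by
    by_contra hne
    have h1 : K ⊔ zpowers g < H := lt_of_le_of_ne (sup_le hK2.le (zpowers_le.2 hgH)) hne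
    exact hgK (hmax ⟨hK1.trans le_sup_left, h1⟩ le_sup_left (mem_sup_right (mem_zpowers g)))
  have hKH : Nat.card K ∣ Nat.card H := card_dvd_of_le hK2.le
  obtain ⟨l, hl, hl'⟩ := ih (Nat.card K) (hn ▸ H1.card_lt_of_lt hK2) K rfl
    (Group.isSolvable_of_isSolvable_injective (inclusion_injective hK2.le)) (hK2.le.trans hHN)
    (hc.coprime_dvd_left hKH)
  have hpH : p ∣ Nat.card H := hpd.trans (relIndex_dvd_card K H)
  have hst := cent_step hp (hHN hgH) (hHK hgH) hgp (hc.coprime_dvd_left hpH)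
  rw [hsup] at hst
  refine ⟨(centralizer (H : Set G) ⊓ N).relIndex (centralizer (K : Set G) ⊓ N) :: l, ?_, ?_⟩
  · rw [List.prod_cons, ← hl, ← inf_relIndex_right (centralizer (K : Set G)),
      relIndex_mul_relIndex _ _ _ (inf_le_inf_right _ (centralizer_le (by exact hK2.le)))
        inf_le_right, inf_relIndex_right]
  · intro a ha
    rcases List.mem_cons.1 ha with rfl | ha
    · have hd : (centralizer (H : Set G) ⊓ N).relIndex (centralizer (K : Set G) ⊓ N) ∣
          Nat.card N := (relIndex_dvd_card _ _).trans (card_dvd_of_le inf_le_right)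
      refine ⟨?_, hd, p, hp, hpH, hst⟩
      obtain ⟨k, hk⟩ := hN.exists_card_eq
      rw [hk] at hd
      obtain ⟨e, -, he⟩ := (Nat.dvd_prime_pow Fact.out).1 hd
      exact ⟨e, he⟩
    · obtain ⟨h1, h2, r, hr, hr1, hr2⟩ := hl' a ha
      exact ⟨h1, h2, r, hr, hr1.trans hKH, hr2⟩

universe u

theorem main (π : Set ℕ) (n : ℕ) : ∀ (G : Type u) [Group G] [Finite G] [Group.IsSolvable G]
    (H : Subgroup G), Nat.card G = n → IsPiHall π H →
    ∃ l : List ℕ, (normalizer (H : Set G)).index = l.prod ∧ ∀ a ∈ l,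
      (∃ q e : ℕ, q.Prime ∧ a = q ^ e) ∧
      (∃ K L : Subgroup G, K.Normal ∧ L.Normal ∧ K < L ∧
        (∀ M : Subgroup G, M.Normal → K ≤ M → M ≤ L → M = K ∨ M = L) ∧ a ∣ K.relIndex L) ∧
      (∃ q : ℕ, q.Prime ∧ q ∣ Nat.card H ∧ a ≡ 1 [MOD q]) := by
  induction n using Nat.strong_induction_on with
  | _ n ih =>
  intro G _ _ _ H hn hH
  rcases subsingleton_or_nontrivial G with hG | hG
  · refine ⟨[], ?_, by simp⟩
    rw [List.prod_nil, index_eq_one]
    exact Subsingleton.elim _ _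
  obtain ⟨N, q, hq, -, hNn, hN0, hNe, hmin⟩ :=
    H1.exists_minimal_normal_elementary_le (⊤ : Subgroup G) top_ne_bot inferInstance
  have := Fact.mk hq
  have hNq : IsPGroup q N := H1.isPGroup_of_isElementaryAbelian hNe
  have hlt : Nat.card (G ⧸ N) < n := hn ▸ H1.card_quotient_lt hN0
  have hs := QuotientGroup.mk'_surjective N
  obtain ⟨l, hl, hl'⟩ := ih _ hlt (G ⧸ N) (H.map (QuotientGroup.mk' N)) rfl (H2.isPiHall_map hH hs)
  have hnorm : normalizer ((H.map (QuotientGroup.mk' N) : Subgroup (G ⧸ N)) : Set (G ⧸ N)) =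
      (normalizer (H : Set G)).map (QuotientGroup.mk' N) := by
    refine le_antisymm ?_ (le_normalizer_map _)
    intro x hx
    obtain ⟨x, rfl⟩ := hs x
    have hx' : x ∈ normalizer ((H ⊔ N : Subgroup G) : Set G) := by
      have h1 : x ∈ (normalizer ((H.map (QuotientGroup.mk' N) : Subgroup (G ⧸ N)) :
          Set (G ⧸ N))).comap (QuotientGroup.mk' N) := hx
      have h2 := le_normalizer_comap _ h1
      rwa [comap_map_eq, QuotientGroup.ker_mk'] at h2
    have hx'' : x ∈ normalizer ((N ⊔ H : Subgroup G) : Set G) := by rwa [sup_comm]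
    obtain ⟨m, hm, hmx⟩ := H2.DPi.frattini (H2.dPi_of_isSolvable π (N ⊔ H : Subgroup G))
      (H2.isPiHallOf_of_le (H2.isPiHallOf_top.2 hH) le_sup_right le_top) le_rfl hx''
    have hm' : m ∈ (N : Set G) * (H : Set G) := by rw [← normal_mul]; exact hm
    obtain ⟨a, ha, b, hb, rfl⟩ := hm'
    refine ⟨b * ((a * b)⁻¹ * x), mul_mem (le_normalizer hb) hmx, ?_⟩
    rw [QuotientGroup.mk'_apply, QuotientGroup.mk'_apply, QuotientGroup.eq]
    have : (b * ((a * b)⁻¹ * x))⁻¹ * x = x⁻¹ * a * x⁻¹⁻¹ := by group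
    rw [this]
    exact hNn.conj_mem a ha _
  rw [hnorm, index_map, QuotientGroup.ker_mk', (QuotientGroup.mk' N).range_eq_top_of_surjective hs,
    index_top, mul_one] at hl
  have hidx : (normalizer (H : Set G)).index = (normalizer (H : Set G)).relIndex N * l.prod := by
    rw [← hl, sup_comm, ← H2.relIndex_sup_right_of_le_normalizer (N := N)
      le_normalizer_of_normal, relIndex_mul_index le_sup_right]
  obtain ⟨l2, hl2, hl2'⟩ : ∃ l : List ℕ, (normalizer (H : Set G)).relIndex N = l.prod ∧ ∀ a ∈ l,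
      (∃ e, a = q ^ e) ∧ a ∣ Nat.card N ∧ ∃ p, p.Prime ∧ p ∣ Nat.card H ∧ a ≡ 1 [MOD p] := by
    by_cases hqπ : q ∈ π
    · refine ⟨[], ?_, by simp⟩
      rw [List.prod_nil, relIndex_eq_one]
      exact (H2.le_of_isPiHallOf_of_le_normalizer (H2.isPiHallOf_top.2 hH) le_top
        (H2.piNum_of_isPGroup hNq hqπ) le_normalizer_of_normal).trans le_normalizer
    · have hc : (Nat.card H).Coprime (Nat.card N) :=
        (H2.isPiHall_iff.1 hH).1.coprime (H2.piNum'_of_isPGroup hNq hqπ)
      obtain ⟨l, h1, h2⟩ := cent_list hNq _ H rfl inferInstance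
        le_normalizer_of_normal hc
      refine ⟨l, ?_, h2⟩
      rw [← h1, ← inf_relIndex_right (normalizer _), ← inf_relIndex_right (centralizer _)]
      congr 1
      refine le_antisymm ?_ (inf_le_inf_right _ (centralizer_le_normalizer _))
      rintro x ⟨hx1, hx2⟩
      refine ⟨fun h hh => ?_, hx2⟩
      have : x * h⁻¹ * x⁻¹ * h ∈ H ⊓ N := by
        refine ⟨H.mul_mem ((mem_normalizer_iff.1 hx1 _).1 (H.inv_mem hh)) hh, ?_⟩
        have e : x * h⁻¹ * x⁻¹ * h = x * (h⁻¹ * x⁻¹ * h⁻¹⁻¹) := by group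
        rw [e]
        exact N.mul_mem hx2 (hNn.conj_mem _ (N.inv_mem hx2) _)
      rw [disjoint_iff.1 (disjoint_of_coprime_natCard hc), mem_bot] at this
      calc h * x = h * x * (x⁻¹ * (x * h⁻¹ * x⁻¹ * h)⁻¹ * x) := by rw [this]; group
        _ = h * (h⁻¹ * x * h * x⁻¹) * x := by group
        _ = x * h := by group
  refine ⟨l2 ++ l, by rw [hidx, hl2, List.prod_append], ?_⟩
  intro a ha
  rcases List.mem_append.1 ha with ha | ha
  · obtain ⟨⟨e, he⟩, h2, h3⟩ := hl2' a ha
    refine ⟨⟨q, e, hq, he⟩, ⟨⊥, N, inferInstance, hNn, bot_lt_iff_ne_bot.2 hN0,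
      fun M hM _ hMN => hmin M hM hMN, by rwa [relIndex_bot_left]⟩, h3⟩
  · obtain ⟨h1, ⟨K, L, hK, hL, hKL, hc, hd⟩, r, hr, hr1, hr2⟩ := hl' a ha
    refine ⟨h1, ⟨K.comap (QuotientGroup.mk' N), L.comap (QuotientGroup.mk' N), inferInstance,
      inferInstance, (comap_lt_comap_of_surjective hs).2 hKL, ?_, ?_⟩, r, hr,
      hr1.trans (card_map_dvd _ _), hr2⟩
    · intro M hM h1 h2
      have hNM : N ≤ M := by
        refine le_trans ?_ h1
        intro x hx
        rw [mem_comap, QuotientGroup.mk'_apply, (QuotientGroup.eq_one_iff x).2 hx]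
        exact K.one_mem
      have hM' : (M.map (QuotientGroup.mk' N)).comap (QuotientGroup.mk' N) = M := by
        rw [comap_map_eq, QuotientGroup.ker_mk', sup_eq_left.2 hNM]
      rcases hc (M.map (QuotientGroup.mk' N)) (hM.map _ hs)
        ((comap_le_comap_of_surjective hs).1 (by rwa [hM'])) (map_le_iff_le_comap.2 h2) with h | h
      · left; rw [← h, hM']
      · right; rw [← h, hM']
    · rwa [relIndex_comap, map_comap_eq_self_of_surjective hs]

/-- Let `G` be a finite solvable group of order `mn` with `gcd(m, n) = 1`. Then the number of subgroups of order `m` is a product of natural numbers each of which is a power of a prime, divides the order of some chief factor of `G` (a quotient `L/K` of normal subgroups `K < L` of `G` with no normal subgroup of `G` strictly between them), and is congruent to `1` modulo some prime divisor of `m`. -/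
theorem result {G : Type*} [Group G] [Finite G] [Group.IsSolvable G] (m n : ℕ) (hG : Nat.card G = m * n) (hmn : Nat.Coprime m n) : ∃ (k : ℕ) (f : Fin k → ℕ), Nat.card {H : Subgroup G // Nat.card H = m} = ∏ i, f i ∧ ∀ i, (∃ q e : ℕ, q.Prime ∧ f i = q ^ e) ∧ (∃ K L : Subgroup G, K.Normal ∧ L.Normal ∧ K < L ∧ (∀ M : Subgroup G, M.Normal → K ≤ M → M ≤ L → M = K ∨ M = L) ∧ f i ∣ K.relIndex L) ∧ (∃ q : ℕ, q.Prime ∧ q ∣ m ∧ f i ≡ 1 [MOD q]) := by
  classical
  let π : Set ℕ := {p | p ∣ m}
  have hm0 : m ≠ 0 := by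
    rintro rfl
    rw [zero_mul] at hG
    exact Nat.card_pos.ne' hG
  have hiff : ∀ K : Subgroup G, Nat.card K = m → IsPiHall π K := by
    intro K hK
    have : K.index = n := by
      have := K.card_mul_index
      rw [hK, hG] at this
      exact Nat.eq_of_mul_eq_mul_left (Nat.pos_of_ne_zero hm0) this
    rw [H2.isPiHall_iff, hK, this]
    exact ⟨H2.piNum_dvd_self, H2.piNum'_dvd_iff.2 hmn.symm⟩
  obtain ⟨H, hH⟩ := (H2.dPi_of_isSolvable π G).exists_hall
  have hHm : Nat.card H = m := by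
    have h1 := H2.isPiHall_iff.1 hH
    exact H2.eq_of_piNum_mul_eq (H.card_mul_index.trans hG) h1.1 h1.2 H2.piNum_dvd_self
      (H2.piNum'_dvd_iff.2 hmn.symm)
  obtain ⟨l, hl, hl'⟩ := main π _ G H rfl hH
  refine ⟨l.length, fun i => l[i], ?_, fun i => hHm ▸ hl' _ (List.getElem_mem _)⟩
  rw [show (∏ i : Fin l.length, (fun i : Fin l.length => l[i]) i) = l.prod from
    Fin.prod_univ_getElem l, ← hl]
  letI : MulAction G (Subgroup G) := MulAction.compHom _ (MulAut.conj : G →* MulAut G)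
  have hst : MulAction.stabilizer G H = normalizer (H : Set G) := by
    ext g
    rw [H1.mem_normalizer_iff_conj_smul_eq]; rfl
  rw [← hst, MulAction.index_stabilizer, ← Nat.card_coe_set_eq]
  refine Nat.card_congr (Equiv.subtypeEquivRight fun K => ⟨fun hK => ?_, ?_⟩)
  · obtain ⟨g, hg⟩ := (H2.dPi_of_isSolvable π G).exists_conj_eq hH (hiff K hK)
    exact ⟨g, hg⟩
  · rintro ⟨g, rfl⟩
    rw [← hHm]
    exact H2.card_eq_of_isPiHall (H2.isPiHall_conj_smul hH g) hH

end Cfsg.Agent.S4214
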