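import Cfsg.Statements.S4217
import Cfsg.Agent.H2.Gaschutz
import Cfsg.Agent.H1.Basic
import Cfsg.Agent.H3.Util

set_option autoImplicit false
open Cfsg

namespace Cfsg.Agent.S4217

open Subgroup
open scoped IsMulCommutative

theorem aux {G : Type*} [Group G] [Finite G] (K : Subgroup G) [K.Normal] [IsMulCommutative K]
    (A : Subgroup G) (hAK : A ⊓ K = ⊥) : ∃ c : G → K, (∀ a b, c (a * b) = c a * MulAut.conjNormal a (c b)) ∧
      ∀ k : K, c k = k ^ ((K ⊔ A).index : ℤ) := by
  classical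
  obtain ⟨θ, h1, h2, -⟩ := H2.exists_proj_cocycle K A hAK
  have : Fintype (G ⧸ (K ⊔ A)) := Fintype.ofFinite _
  obtain ⟨c, hc, hc2⟩ := H2.exists_cores (M := K) MulAut.conjNormal _ h1
  refine ⟨c, hc, fun k => ?_⟩
  rw [hc2, zpow_natCast, index_eq_card, Nat.card_eq_fintype_card, ← Finset.card_univ, ← Finset.prod_const]
  refine Finset.prod_congr rfl fun q _ => ?_
  have hm : q.out⁻¹ * k * q.out ∈ K := ‹K.Normal›.conj_mem' k k.2 q.out
  have hq : (k : G) • q = q := by
    conv_lhs => rw [← QuotientGroup.out_eq' q]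
    conv_rhs => rw [← QuotientGroup.out_eq' q]
    rw [MulAction.Quotient.smul_mk, eq_comm, QuotientGroup.eq, smul_eq_mul, ← mul_assoc]
    exact mem_sup_left hm
  have h3 := h2 ⟨_, hm⟩ 1 A.one_mem
  rw [mul_one] at h3
  rw [hq, h3]
  ext
  simp [mul_assoc]

/-- Let `A` be an abelian normal subgroup of the finite group `G`. Then `A` has a complement in `G` if and only if, for every prime `p` dividing the index of `A`, there are a Sylow `p`-subgroup `S` of `G/A` and a subgroup `K` of `G` with `K ∩ A = 1` and `KA` equal to the preimage of `S` (that is, `A` has a complement in the preimage of a Sylow `p`-subgroup of `G/A`). -/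
theorem result {G : Type*} [Group G] [Finite G] (A : Subgroup G) [A.Normal] (hA : IsMulCommutative A) : (∃ K : Subgroup G, K.IsComplement' A) ↔ ∀ p : ℕ, p.Prime → p ∣ A.index → ∃ (S : Sylow p (G ⧸ A)) (K : Subgroup G), K ⊓ A = ⊥ ∧ K ⊔ A = (S : Subgroup (G ⧸ A)).comap (QuotientGroup.mk' A) := by
  refine ⟨fun ⟨K, hK⟩ p hp _ => ?_, fun h => ?_⟩
  · haveI := Fact.mk hp
    obtain ⟨S⟩ : Nonempty (Sylow p (G ⧸ A)) := inferInstance
    refine ⟨S, K ⊓ (S : Subgroup (G ⧸ A)).comap (QuotientGroup.mk' A), by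
      rw [inf_right_comm, hK.disjoint.eq_bot, bot_inf_eq], ?_⟩
    rw [sup_comm, ← H28.sup_inf_of_le_normalizer (Or.inr le_normalizer_of_normal)
      (QuotientGroup.le_comap_mk' A _), hK.symm.sup_eq_top, top_inf_eq]
  let I : AddSubgroup ℤ :=
    { carrier := {m | ∃ c : G → A, (∀ a b, c (a * b) = c a * MulAut.conjNormal a (c b)) ∧
        ∀ k : A, c k = k ^ m}
      add_mem' := fun ⟨c, a, b⟩ ⟨d, e, f⟩ => ⟨c * d, fun x y => by
        simp only [Pi.mul_apply, a, e, map_mul, mul_mul_mul_comm], fun k => by simp [b, f, zpow_add]⟩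
      zero_mem' := ⟨1, by simp, by simp⟩
      neg_mem' := fun ⟨c, a, b⟩ => ⟨c⁻¹, fun x y => by simp [a, mul_comm], fun k => by simp [b]⟩ }
  obtain ⟨d, hd⟩ := Int.subgroup_cyclic I
  rw [← AddSubgroup.zmultiples_eq_closure] at hd
  have h1 : ∀ K : Subgroup G, K ⊓ A = ⊥ → d ∣ (A ⊔ K).index := fun K hK =>
    Int.mem_zmultiples_iff.1 (hd ▸ aux A K hK)
  obtain ⟨c, hc, hk⟩ : (1 : ℤ) ∈ I := hd ▸ Int.mem_zmultiples_iff.2 (isUnit_iff_dvd_one.1
    (Int.isUnit_iff_natAbs_eq.2 (by_contra fun e => by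
      obtain ⟨p, hp, a⟩ := Nat.exists_prime_and_dvd e
      haveI := Fact.mk hp
      obtain ⟨S, K, b, c⟩ := h p hp (by simpa using a.trans (Int.natAbs_dvd_natAbs.2 (h1 ⊥ (by simp))))
      have := a.trans (Int.natAbs_dvd_natAbs.2 (h1 K b))
      rw [sup_comm, c, index_comap_of_surjective _ (QuotientGroup.mk'_surjective _)] at this
      exact S.not_dvd_index this)))
  have hc1 : c 1 = 1 := by simpa using hk 1
  let H : Subgroup G :=
    { carrier := {g | c g = 1}
      mul_mem' := fun {a b} (ha : c a = 1) (hb : c b = 1) => show c _ = 1 by simp [hc, ha, hb]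
      one_mem' := hc1
      inv_mem' := fun {a} (ha : c a = 1) => show c _ = 1 by simpa [hc1, ha] using (hc a⁻¹ a).symm }
  refine ⟨H, (H3.isComplement'_of_normal (H := H) (eq_bot_iff.2 fun x hx => congrArg Subtype.val
    ((zpow_one _).symm.trans ((hk ⟨x, hx.1⟩).symm.trans hx.2))) (eq_top_iff.2 fun g _ => ?_)).symm⟩
  refine (Subgroup.mul_mem_cancel_left _ (mem_sup_left (c g)⁻¹.2)).1 (mem_sup_right (show c _ = 1 from ?_))
  rw [hc, hk, zpow_one, inv_mul_eq_one]
  ext
  simp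

end Cfsg.Agent.S4217
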