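import Cfsg.Statements.S4219
import Cfsg.Agent.H24.SylowNum

set_option autoImplicit false
open Cfsg

namespace Cfsg.Agent.S4219

open Subgroup Pointwise MulAction

theorem aux {G X : Type*} [Group G] [Finite G] [MulAction G X] (x : X) {p : ℕ} [Fact p.Prime]
    (P : Sylow p (stabilizer G x)) (g : G) (a : X) (hg : g • a = x)
    (ha : ∀ u ∈ (P : Subgroup (stabilizer G x)).map (stabilizer G x).subtype, u • a = a) :
    ∃ h ∈ normalizer ((((P : Subgroup (stabilizer G x)).map (stabilizer G x).subtype) :
      Subgroup G) : Set G), h • a = x := by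
  set Q := (P : Subgroup (stabilizer G x)).map (stabilizer G x).subtype with hQ
  have h1 : MulAut.conj g • Q ≤ stabilizer G x := by
    intro u hu
    rw [H1.mem_conj_smul_iff] at hu
    have := ha _ hu
    rw [mul_smul, mul_smul, inv_smul_eq_iff, hg] at this
    exact this
  have h2 : IsPGroup p ((MulAut.conj g • Q).subgroupOf (stabilizer G x)) :=
    ((H1.isPGroup_sylow_map P).map _).comap_subtype
  obtain ⟨R, hR⟩ := h2.exists_le_sylow
  obtain ⟨n, hn⟩ := exists_smul_eq (stabilizer G x) R P
  refine ⟨n * g, H1.mem_normalizer_of_conj_mem fun u hu => ?_, by rw [mul_smul, hg]; exact n.2⟩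
  have h3 := H1.conj_mem_conj_smul (g := g) hu
  have h4 : (⟨_, h1 h3⟩ : stabilizer G x) ∈ (R : Subgroup _) := hR h3
  refine ⟨n * ⟨_, h1 h3⟩ * n⁻¹, ?_, by simp [mul_assoc]⟩
  rw [← hn, SetLike.mem_coe, H23.mem_sylow_smul]
  simpa [mul_assoc] using h4


/-- Let a finite group `G` act `t`-fold transitively on a finite set, let `H` be the stabilizer of `t` distinct points and `P` a Sylow `p`-subgroup of `H`. Then the normalizer of `P` in `G` is `t`-fold transitive on the fixed points of `P`: any `t` distinct fixed points of `P` can be carried to any other `t` distinct fixed points of `P` by an element normalizing `P`. -/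
theorem result {G : Type*} [Group G] [Finite G] {α : Type*} [Fintype α] [MulAction G α] {t : ℕ} (hG : MulAction.IsMultiplyPretransitive G α t) (x : Fin t ↪ α) {p : ℕ} [Fact p.Prime] (P : Sylow p (MulAction.stabilizer G x)) (a b : Fin t ↪ α) (ha : ∀ i, a i ∈ MulAction.fixedPoints ((P : Subgroup (MulAction.stabilizer G x)).map (MulAction.stabilizer G x).subtype) α) (hb : ∀ i, b i ∈ MulAction.fixedPoints ((P : Subgroup (MulAction.stabilizer G x)).map (MulAction.stabilizer G x).subtype) α) : ∃ g ∈ Subgroup.normalizer ((((P : Subgroup (MulAction.stabilizer G x)).map (MulAction.stabilizer G x).subtype) : Subgroup G) : Set G), g • a = b := by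
  obtain ⟨g, hg⟩ := hG.exists_smul_eq a x
  obtain ⟨h, hh⟩ := hG.exists_smul_eq b x
  obtain ⟨g', hg1, hg2⟩ := aux x P g a hg (fun u hu => by ext i; exact ha i ⟨u, hu⟩)
  obtain ⟨h', hh1, hh2⟩ := aux x P h b hh (fun u hu => by ext i; exact hb i ⟨u, hu⟩)
  refine ⟨h'⁻¹ * g', mul_mem (inv_mem hh1) hg1, ?_⟩
  rw [mul_smul, hg2, inv_smul_eq_iff, hh2]

end Cfsg.Agent.S4219
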