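import Cfsg.Statements.S4222
import Cfsg.Agent.H1.Basic

set_option autoImplicit false
open Cfsg

namespace Cfsg.Agent.S4222

open Subgroup Pointwise


/-- If a normal subgroup `N` of a finite group is complete (its centre is trivial and every automorphism of `N` is inner), then the group is the internal direct product of `N` and the centralizer of `N`: the centralizer is a complement to `N`. -/
theorem result {T : Type*} [Group T] [Finite T] (N : Subgroup T) [N.Normal] (hz : Subgroup.center ↥N = ⊥) (ha : Function.Surjective (MulAut.conj : ↥N →* MulAut ↥N)) : (Subgroup.centralizer (N : Set T)).IsComplement' N := by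
  apply isComplement'_of_disjoint_and_mul_eq_univ
  · rw [disjoint_iff, inf_comm, ← H1.map_subtype_center, hz, Subgroup.map_bot]
  · rw [Set.eq_univ_iff_forall]
    intro t
    obtain ⟨n, hn⟩ := ha (MulAut.conjNormal t⁻¹)
    refine ⟨t * n, ?_, (n⁻¹ : N), (n⁻¹).2, by simp⟩
    rw [SetLike.mem_coe, mem_centralizer_iff]
    intro m hm
    have := congrArg (fun f : MulAut N => ((f ⟨m, hm⟩ : N) : T)) hn
    simp only [MulAut.conj_apply, MulAut.conjNormal_apply, coe_mul, coe_inv, inv_inv] at this
    have h2 : t * n * m * (t * n)⁻¹ = m := by
      rw [show t * n * m * (t * n)⁻¹ = t * (n * m * (n : T)⁻¹) * t⁻¹ by group, this]; group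
    rw [← h2, mul_assoc _ _ (t * n), inv_mul_cancel, mul_one, h2]

end Cfsg.Agent.S4222
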