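import Cfsg.Statements.S4223

set_option autoImplicit false
open Cfsg

namespace Cfsg.Agent.S4223

/-- Fitting's lemma: a normal endomorphism of an indecomposable finite group with a nontrivial
fixed point is bijective. -/
theorem fitting {A : Type*} [Group A] [Finite A]
    (hA : ∀ H K : Subgroup A, H.Normal → K.Normal → H ⊓ K = ⊥ → H ⊔ K = ⊤ → H = ⊥ ∨ K = ⊥)
    (φ : A →* A) (hφ : ∀ g x, φ (g * x * g⁻¹) = g * φ x * g⁻¹) (x : A) (hx : x ≠ 1)
    (hfx : φ x = x) : Function.Bijective φ := by
  classical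
  let φ' : Monoid.End A := φ
  let P : ℕ → Monoid.End A := fun n => φ' ^ n
  have hsucc : ∀ n y, P (n + 1) y = P n (φ y) := fun n y => by
    simp only [P, pow_succ]; rfl
  have hadd : ∀ n k y, P (n + k) y = P n (P k y) := fun n k y => by
    simp only [P, pow_add]; rfl
  have hN : ∀ n g y, P n (g * y * g⁻¹) = g * P n y * g⁻¹ := by
    intro n
    induction n with
    | zero => intro g y; rfl
    | succ n ih => intro g y; rw [hsucc n, hφ, ih, hsucc n]
  have hfix : ∀ n, P n x = x := by
    intro n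
    induction n with
    | zero => rfl
    | succ n ih => rw [hsucc n, hfx, ih]
  let c : ℕ → ℕ := fun n => Nat.card (MonoidHom.range (P (n + 1) : A →* A))
  obtain ⟨n, hn⟩ : ∃ n, ∀ k, c n ≤ c k := by
    have hex : ∃ m, ∃ n, c n = m := ⟨_, 0, rfl⟩
    obtain ⟨n, hn⟩ := Nat.find_spec hex
    exact ⟨n, fun k => by rw [hn]; exact Nat.find_min' hex ⟨k, rfl⟩⟩
  set ψ : A →* A := P (n + 1) with hψ
  have hle : MonoidHom.range (P (n + 1 + n + 1) : A →* A) ≤ ψ.range := by
    rintro _ ⟨y, rfl⟩
    exact ⟨P (n + 1) y, (hadd (n + 1) (n + 1) y).symm⟩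
  have heq : MonoidHom.range (P (n + 1 + n + 1) : A →* A) = ψ.range :=
    Subgroup.eq_of_le_of_card_ge hle (hn (n + 1 + n))
  have hsurj : ∀ y, ∃ z, ψ (ψ z) = ψ y := fun y => by
    have : ψ y ∈ MonoidHom.range (P (n + 1 + n + 1) : A →* A) := heq ▸ ⟨y, rfl⟩
    obtain ⟨z, hz⟩ := this
    exact ⟨z, (hadd (n + 1) (n + 1) z).symm.trans hz⟩
  let ρ : ψ.range → ψ.range := fun y => ⟨ψ y, y, rfl⟩
  have hρ : Function.Surjective ρ := by
    rintro ⟨_, y, rfl⟩
    obtain ⟨z, hz⟩ := hsurj y
    exact ⟨⟨ψ z, z, rfl⟩, Subtype.ext hz⟩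
  have hρi : Function.Injective ρ := Finite.injective_iff_surjective.2 hρ
  have hrn : ψ.range.Normal := ⟨by
    rintro _ ⟨y, rfl⟩ g
    exact ⟨g * y * g⁻¹, hN (n + 1) g y⟩⟩
  have h1 : ψ.ker ⊓ ψ.range = ⊥ := by
    rw [eq_bot_iff]
    rintro y ⟨hy1, hy2⟩
    have : ρ ⟨y, hy2⟩ = ρ 1 := Subtype.ext (by
      show ψ y = ψ 1
      rw [map_one]; exact hy1)
    exact congrArg Subtype.val (hρi this)
  have h2 : ψ.ker ⊔ ψ.range = ⊤ := by
    rw [eq_top_iff]
    intro y _
    obtain ⟨z, hz⟩ := hsurj y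
    have : y = (y * (ψ z)⁻¹) * ψ z := by group
    rw [this]
    refine Subgroup.mul_mem _ (Subgroup.mem_sup_left ?_) (Subgroup.mem_sup_right ⟨z, rfl⟩)
    rw [MonoidHom.mem_ker, map_mul, map_inv, hz, mul_inv_cancel]
  rcases hA _ _ inferInstance hrn h1 h2 with h | h
  · have hi : Function.Injective ψ := (MonoidHom.ker_eq_bot_iff ψ).1 h
    have : Function.Injective φ := by
      intro a b hab
      apply hi
      show P (n + 1) a = P (n + 1) b
      rw [hsucc n, hsucc n, hab]
    exact Finite.injective_iff_bijective.1 this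
  · exfalso
    have : x ∈ ψ.range := ⟨x, hfix _⟩
    rw [h] at this
    exact hx this

theorem inv_normal {A : Type*} [Group A] (φ : A ≃* A)
    (hφ : ∀ g x, φ (g * x * g⁻¹) = g * φ x * g⁻¹) (g x : A) :
    φ.symm (g * x * g⁻¹) = g * φ.symm x * g⁻¹ := by
  apply φ.injective
  rw [hφ, φ.apply_symm_apply, φ.apply_symm_apply]

theorem key {A A' : Type*} [Group A] [Finite A] [Group A'] {n : ℕ} {B : Fin n → Type*}
    [∀ j, Group (B j)] [∀ j, Finite (B j)] (hA0 : Nontrivial A)
    (hA : ∀ H K : Subgroup A, H.Normal → K.Normal → H ⊓ K = ⊥ → H ⊔ K = ⊤ → H = ⊥ ∨ K = ⊥)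
    (hB : ∀ j, ∀ H K : Subgroup (B j), H.Normal → K.Normal → H ⊓ K = ⊥ → H ⊔ K = ⊤ →
      H = ⊥ ∨ K = ⊥) (e : A × A' ≃* ((j : Fin n) → B j)) :
    ∃ j, Function.Bijective (fun a : A => e (a, 1) j) := by
  classical
  let proj : Finset (Fin n) → (((j : Fin n) → B j) →* ((j : Fin n) → B j)) := fun S =>
    { toFun := fun f j => if j ∈ S then f j else 1
      map_one' := by ext j; simp
      map_mul' := fun f g => by ext j; by_cases h : j ∈ S <;> simp [h] }
  have hproj : ∀ S f j, proj S f j = if j ∈ S then f j else 1 := fun _ _ _ => rfl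
  have hpc : ∀ S g f, proj S (g * f * g⁻¹) = g * proj S f * g⁻¹ := fun S g f => by
    ext j
    simp only [hproj, Pi.mul_apply, Pi.inv_apply]
    split_ifs <;> simp
  let σ : Finset (Fin n) → (A →* A) := fun S =>
    (MonoidHom.fst A A').comp (e.symm.toMonoidHom.comp ((proj S).comp
      (e.toMonoidHom.comp (MonoidHom.inl A A'))))
  have hσ : ∀ S x, σ S x = (e.symm (proj S (e (x, 1)))).1 := fun _ _ => rfl
  have hcj : ∀ (h : A × A') (x : A), ((h.1 * x * h.1⁻¹, 1) : A × A') = h * (x, 1) * h⁻¹ := by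
    intro h x; ext <;> simp
  have hσN : ∀ S g x, σ S (g * x * g⁻¹) = g * σ S x * g⁻¹ := by
    intro S g x
    rw [hσ, hσ, hcj (g, 1) x, map_mul e, map_mul e, map_inv e, hpc, map_mul e.symm,
      map_mul e.symm, map_inv e.symm, e.symm_apply_apply]
    rfl
  have hins : ∀ (S : Finset (Fin n)) j, j ∉ S → ∀ x, σ (insert j S) x = σ S x * σ {j} x := by
    intro S j hj x
    rw [hσ, hσ, hσ, ← Prod.fst_mul, ← map_mul]
    congr 2
    ext k
    simp only [hproj, Pi.mul_apply, Finset.mem_insert, Finset.mem_singleton]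
    by_cases h1 : k = j
    · subst h1; simp [hj]
    · simp [h1]
  have hex : ∀ S : Finset (Fin n), Function.Bijective (σ S) →
      ∃ j, Function.Bijective (σ {j}) := by
    intro S
    induction S using Finset.induction_on with
    | empty =>
      intro h
      exfalso
      obtain ⟨x, hx⟩ := exists_ne (1 : A)
      apply hx
      apply h.1
      rw [map_one, hσ]
      have : proj ∅ (e (x, 1)) = 1 := by ext k; simp [hproj]
      rw [this, map_one]; rfl
    | insert j S hj ih =>
      intro h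
      by_cases hS : Function.Injective (σ S)
      · exact ih (Finite.injective_iff_bijective.1 hS)
      rw [injective_iff_map_eq_one] at hS
      push Not at hS
      obtain ⟨x, hx1, hx⟩ := hS
      let τ : A ≃* A := MulEquiv.ofBijective _ h
      have hτ := inv_normal τ (hσN _)
      have hb := fitting hA (τ.symm.toMonoidHom.comp (σ {j})) (fun g y => by
        show τ.symm (σ {j} (g * y * g⁻¹)) = g * τ.symm (σ {j} y) * g⁻¹
        rw [hσN, hτ]) x hx (by
        show τ.symm (σ {j} x) = x
        rw [τ.symm_apply_eq]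
        show _ = σ (insert j S) x
        rw [hins S j hj, hx1, one_mul])
      refine ⟨j, Finite.injective_iff_bijective.1 ?_⟩
      intro a b hab
      apply hb.1
      show τ.symm (σ {j} a) = τ.symm (σ {j} b)
      rw [hab]
  obtain ⟨j, hj⟩ := hex Finset.univ (by
    have : ∀ x, σ Finset.univ x = x := fun x => by
      have : proj Finset.univ (e (x, 1)) = e (x, 1) := by ext k; simp [hproj]
      rw [hσ, this, e.symm_apply_apply]
    exact ⟨fun a b h => by rwa [this, this] at h, fun a => ⟨a, this a⟩⟩)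
  refine ⟨j, ?_⟩
  let α : A →* B j := (Pi.evalMonoidHom B j).comp (e.toMonoidHom.comp (MonoidHom.inl A A'))
  let β : B j →* A := (MonoidHom.fst A A').comp (e.symm.toMonoidHom.comp (MonoidHom.mulSingle B j))
  have hα : ∀ x, α x = e (x, 1) j := fun _ => rfl
  have hβ : ∀ y, β y = (e.symm (Pi.mulSingle j y)).1 := fun _ => rfl
  have hβα : ∀ x, β (α x) = σ {j} x := fun x => by
    rw [hβ, hα, hσ]
    congr 2
    ext k
    rw [hproj]
    by_cases hk : k = j
    · subst hk; simp
    · simp [hk, Pi.mulSingle_eq_of_ne hk]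
  have hαi : Function.Injective α := fun a b h => hj.1 (by rw [← hβα, ← hβα, h])
  let τ : A ≃* A := MulEquiv.ofBijective _ hj
  have hτ := inv_normal τ (hσN _)
  obtain ⟨x, hx⟩ := exists_ne (1 : A)
  have hb := fitting (hB j) (α.comp (τ.symm.toMonoidHom.comp β)) (fun g y => by
    show α (τ.symm (β (g * y * g⁻¹))) = g * α (τ.symm (β y)) * g⁻¹
    rw [map_mul β, map_mul β, map_inv β, hτ, hα, hα, hβ g, hcj, map_mul, map_mul, map_inv,
      e.apply_symm_apply]
    simp) (α x) (fun h => hx (hαi (h.trans (map_one α).symm))) (by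
    show α (τ.symm (β (α x))) = α x
    rw [hβα]
    congr 1
    exact τ.symm_apply_apply x)
  exact ⟨hαi, fun y => by
    obtain ⟨z, hz⟩ := hb.2 y
    exact ⟨τ.symm (β z), hz⟩⟩

theorem cancel {A A' B B' : Type*} [Group A] [Finite A] [Group A'] [Finite A'] [Group B] [Finite B]
    [Group B'] [Finite B'] (e : A × A' ≃* B × B')
    (h : Function.Bijective (fun a : A => (e (a, 1)).1)) : Nonempty (A' ≃* B') := by
  let β : B' →* A' := (MonoidHom.snd A A').comp (e.symm.toMonoidHom.comp (MonoidHom.inr B B'))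
  have hβ : ∀ y, β y = (e.symm (1, y)).2 := fun _ => rfl
  have hi : Function.Injective β := by
    rw [injective_iff_map_eq_one]
    intro b hb
    rw [hβ] at hb
    have h1 : e.symm (1, b) = ((e.symm (1, b)).1, 1) := Prod.ext rfl hb
    have h2 : e ((e.symm (1, b)).1, 1) = (1, b) := by rw [← h1, e.apply_symm_apply]
    have h3 : (e.symm (1, b)).1 = 1 := h.1 (by
      show (e (_, 1)).1 = (e (1, 1)).1
      rw [h2, show ((1, 1) : A × A') = 1 from rfl, map_one]; rfl)
    rw [h3, show ((1, 1) : A × A') = 1 from rfl, map_one] at h2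
    exact (congrArg Prod.snd h2).symm
  have c1 : Nat.card A = Nat.card B := Nat.card_eq_of_bijective _ h
  have c2 := Nat.card_congr e.toEquiv
  rw [Nat.card_prod, Nat.card_prod, c1] at c2
  have c3 : Nat.card B' = Nat.card A' := (Nat.eq_of_mul_eq_mul_left Nat.card_pos c2).symm
  exact ⟨(MulEquiv.ofBijective β ((Nat.bijective_iff_injective_and_card β).2 ⟨hi, c3⟩)).symm⟩

/-- split off one factor -/
def split {n : ℕ} (B : Fin (n + 1) → Type*) [∀ j, Group (B j)] (j : Fin (n + 1)) :
    ((k : Fin (n + 1)) → B k) ≃* B j × ((k : Fin n) → B (j.succAbove k)) :=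
  { (Fin.insertNthEquiv B j).symm with map_mul' := fun _ _ => rfl }

theorem split_fst {n : ℕ} (B : Fin (n + 1) → Type*) [∀ j, Group (B j)] (j : Fin (n + 1))
    (f : (k : Fin (n + 1)) → B k) : (split B j f).1 = f j := rfl

/-- If a finite group is isomorphic both to a direct product of `m` directly indecomposable nontrivial groups and to a direct product of `n` such groups (a group is directly indecomposable when it is not the internal direct product of two nontrivial normal subgroups), then `m = n` and the factors are isomorphic in pairs after a suitable matching. -/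
theorem result {m n : ℕ} {A : Fin m → Type*} {B : Fin n → Type*} [∀ i, Group (A i)] [∀ j, Group (B j)] [∀ i, Finite (A i)] [∀ j, Finite (B j)] (hA : ∀ i, Nontrivial (A i) ∧ ∀ H K : Subgroup (A i), H.Normal → K.Normal → H ⊓ K = ⊥ → H ⊔ K = ⊤ → H = ⊥ ∨ K = ⊥) (hB : ∀ j, Nontrivial (B j) ∧ ∀ H K : Subgroup (B j), H.Normal → K.Normal → H ⊓ K = ⊥ → H ⊔ K = ⊤ → H = ⊥ ∨ K = ⊥) (e : ((i : Fin m) → A i) ≃* ((j : Fin n) → B j)) : ∃ σ : Fin m ≃ Fin n, ∀ i, Nonempty (A i ≃* B (σ i)) := by
  induction m generalizing n with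
  | zero =>
    cases n with
    | zero => exact ⟨Equiv.refl _, fun i => i.elim0⟩
    | succ n =>
      exfalso
      have := (hB 0).1
      obtain ⟨x, hx⟩ := exists_ne (1 : B 0)
      have h : e.symm (Pi.mulSingle 0 x) = e.symm 1 := Subsingleton.elim _ _
      have := congrFun (e.symm.injective h) 0
      simp at this
      exact hx this
  | succ m ih =>
    obtain ⟨j, hj⟩ := key (hA 0).1 (hA 0).2 (fun j => (hB j).2) ((split A 0).symm.trans e)
    cases n with
    | zero => exact j.elim0
    | succ n =>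
      obtain ⟨e'⟩ := cancel (((split A 0).symm.trans e).trans (split B j)) hj
      obtain ⟨σ, hσ⟩ := ih (A := fun i => A ((0 : Fin (m + 1)).succAbove i))
        (B := fun k => B (j.succAbove k)) (fun i => hA _) (fun k => hB _) e'
      refine ⟨(finSuccEquiv' 0).trans (σ.optionCongr.trans (finSuccEquiv' j).symm), fun i => ?_⟩
      rcases Fin.eq_self_or_eq_succAbove 0 i with rfl | ⟨i, rfl⟩
      · have : ((finSuccEquiv' 0).trans (σ.optionCongr.trans (finSuccEquiv' j).symm)) 0 = j := by
          simp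
        rw [this]
        let α : A 0 →* B j := (Pi.evalMonoidHom B j).comp
          (((split A 0).symm.trans e).toMonoidHom.comp (MonoidHom.inl _ _))
        exact ⟨MulEquiv.ofBijective α hj⟩
      · have : ((finSuccEquiv' 0).trans (σ.optionCongr.trans (finSuccEquiv' j).symm))
            ((0 : Fin (m + 1)).succAbove i) = j.succAbove (σ i) := by
          rw [Equiv.trans_apply, finSuccEquiv'_succAbove]; simp
        rw [this]
        exact hσ i

end Cfsg.Agent.S4223
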