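import Cfsg.Statements.S4227
import Cfsg.Agent.H10.HH6
import Cfsg.Agent.H5.Burnside

set_option autoImplicit false
open Cfsg

namespace Cfsg.Agent.S4227

open H19 H10.HH Subgroup in

/-- A finite group in which every element has order dividing `6` has `2`-length at most `1` and `3`-length at most `1`. -/
theorem result {G : Type*} [Group G] [Finite G] (h : ∀ x : G, x ^ 6 = 1) : Cfsg.PLengthLE 2 1 G ∧ Cfsg.PLengthLE 3 1 G := by
  have hs : Group.IsSolvable G := by
    refine H5.isSolvable_of_card_dvd_prime_pow_mul (a := Nat.card G) (b := Nat.card G)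
      Nat.prime_two Nat.prime_three ?_
    rw [← mul_pow]
    refine (Nat.dvd_pow_self_iff Nat.card_pos.ne' (by decide)).2 fun q hq => ?_
    haveI := Fact.mk (Nat.prime_of_mem_primeFactors hq)
    obtain ⟨x, hx⟩ := exists_prime_orderOf_dvd_card' q (Nat.dvd_of_mem_primeFactors hq)
    exact Nat.mem_primeFactors.2 ⟨Fact.out, hx ▸ orderOf_dvd_of_pow_eq_one (h x), by decide⟩
  have key : ∀ p q, p.Prime → p * q = 6 → ¬ p ∣ q → ExpP p 1 G := fun p q hp e hq P hP x hx => by
    rw [pow_one, ← orderOf_dvd_iff_pow_eq_one]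
    exact (hP.dvd (orderOf_dvd_card' hx)).dvd_of_dvd_mul (PiN.of_not_dvd hq)
      (e ▸ orderOf_dvd_of_pow_eq_one (h x))
  have h2 : AbP 2 G := fun P hP => ⟨⟨Commute.of_orderOf_dvd_two fun g =>
    orderOf_dvd_of_pow_eq_one (Subtype.ext (key 2 3 Nat.prime_two rfl (by decide) P hP g g.2))⟩⟩
  haveI := Fact.mk Nat.prime_three
  refine ⟨?_, plength_of_exp (H1.isPSolvable_of_isSolvable hs) (key 3 2 Nat.prime_three rfl (by decide))
    fun q d k hq hd e => ?_⟩
  · obtain ⟨G', _, _, π, V, _, hπ, hV, e⟩ := exists_red (H1.isPSolvable_of_isSolvable (p := 2) hs)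
    refine (H1.pLengthLE_one_iff_sylow_le default).2 ?_
    rw [← e, ← map_le_iff_le_comap]
    exact (le_sup_right.trans (comm_iff_le_cent.1 (h2.map hπ _ (hV.pg_sup (pg_map
      (PiN.of_isPGroup Nat.prime_two (Sylow.isPGroup' _)) π))))).trans ((cent_mono le_sup_left).trans hV.cent)
  · obtain rfl : q = 2 := by
      by_contra h0
      have h1 := (hq.odd_of_ne_two h0).pow (n := d)
      have h3 : Odd (3 ^ (k + 1)) := Odd.pow (by decide)
      rw [← e] at h3
      exact Nat.not_even_iff_odd.2 h3 h1.add_one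
    exact h2

end Cfsg.Agent.S4227
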