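import Cfsg.Statements.S4275

set_option autoImplicit false
open Cfsg

namespace Cfsg.Agent.S4275

open Subgroup MulAction


/-- Let G be a transitive group of permutations of a finite set Ω, let o ∈ Ω, and let α be an automorphism of G. Then α is induced by conjugation by a permutation of Ω normalizing G if and only if the image under α of the stabilizer of o fixes some point of Ω. -/
theorem result {Ω : Type*} [Fintype Ω] (G : Subgroup (Equiv.Perm Ω)) (htr : MulAction.IsPretransitive G Ω) (o : Ω) (α : G ≃* G) : (∃ σ : Equiv.Perm Ω, σ ∈ Subgroup.normalizer (G : Set (Equiv.Perm Ω)) ∧ ∀ g : G, ((α g : G) : Equiv.Perm Ω) = σ * (g : Equiv.Perm Ω) * σ⁻¹) ↔ ∃ ω : Ω, ∀ g ∈ (MulAction.stabilizer G o).map α.toMonoidHom, g • ω = ω := by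
  constructor
  · rintro ⟨σ, -, h⟩
    refine ⟨σ o, ?_⟩
    rintro _ ⟨g, hg, rfl⟩
    change ((α g : G) : Equiv.Perm Ω) (σ o) = σ o
    have : (g : Equiv.Perm Ω) o = o := hg
    rw [h]; simp [this]
  · rintro ⟨ω, h⟩
    choose t ht using fun y : Ω => htr.exists_smul_eq o y
    have hwd : ∀ g g' : G, g • o = g' • o → α g • ω = α g' • ω := by
      intro g g' hg
      have h1 : g'⁻¹ * g ∈ stabilizer G o := by
        rw [mem_stabilizer_iff, mul_smul, hg, inv_smul_smul]
      have := h _ ⟨_, h1, rfl⟩
      change α (g'⁻¹ * g) • ω = ω at this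
      rwa [map_mul, map_inv, mul_smul, inv_smul_eq_iff] at this
    let s : Ω → Ω := fun y => α (t y) • ω
    have hs : ∀ g : G, s (g • o) = α g • ω := fun g => hwd _ _ (ht _)
    have hsurj : Function.Surjective s := by
      intro y
      obtain ⟨g, rfl⟩ := htr.exists_smul_eq ω y
      exact ⟨α.symm g • o, by rw [hs]; simp⟩
    let σ : Equiv.Perm Ω := Equiv.ofBijective s (Finite.surjective_iff_bijective.mp hsurj)
    have key : ∀ g : G, ((α g : G) : Equiv.Perm Ω) = σ * (g : Equiv.Perm Ω) * σ⁻¹ := by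
      intro g
      rw [eq_mul_inv_iff_mul_eq]
      ext y
      obtain ⟨u, rfl⟩ := htr.exists_smul_eq o y
      change α g • s (u • o) = s (g • u • o)
      rw [← mul_smul g u o, hs, hs, map_mul, mul_smul]
    refine ⟨σ, ?_, key⟩
    apply mem_normalizer_fintype
    intro g hg
    rw [← key ⟨g, hg⟩]
    exact (α ⟨g, hg⟩).2

end Cfsg.Agent.S4275
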