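import Cfsg.Statements.S4277
import Cfsg.Agent.H23.TwoAut
import Cfsg.Agent.S0675

set_option autoImplicit false
open Cfsg

namespace Cfsg.Agent.S4277

/-- A case of the Schreier conjecture: if a finite simple group G has a subgroup of prime index, then the outer automorphism group of G is solvable. -/
theorem result {G : Type*} [Group G] [Finite G] [IsSimpleGroup G] (H : Subgroup G) (hH : H.index.Prime) : Group.IsSolvable (Cfsg.Out G) := by
  classical
  by_cases hs : Group.IsSolvable G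
  · letI : CommGroup G := { (inferInstance : Group G) with
      mul_comm := IsSimpleGroup.comm_iff_isSolvable.2 hs }
    haveI : Group.IsSolvable (MulAut G) := isSolvable_of_comm fun a b =>
      (IsCyclic.mulAutMulEquiv G).injective (by rw [map_mul, map_mul, mul_comm])
    infer_instance
  haveI := Fact.mk hH
  haveI := Fintype.ofFinite (G ⧸ H)
  have hc : Fintype.card (G ⧸ H) = H.index := Nat.card_eq_fintype_card.symm
  have hf : Function.Injective (MulAction.toPermHom G (G ⧸ H)) := by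
    rw [← MonoidHom.ker_eq_bot_iff, ← Subgroup.normalCore_eq_ker]
    refine H.normalCore_normal.eq_bot_or_eq_top.resolve_right fun h => hH.one_lt.ne' ?_
    exact Subgroup.index_eq_one.2 (top_le_iff.1 (h ▸ H.normalCore_le))
  haveI : FaithfulSMul G (G ⧸ H) := ⟨fun h => hf (Equiv.ext h)⟩
  haveI : MulAction.IsPretransitive (MulAction.toPermHom G (G ⧸ H)).range (G ⧸ H) := ⟨fun a b =>
    let ⟨g, hg⟩ := MulAction.exists_smul_eq G a b; ⟨⟨_, g, rfl⟩, hg⟩⟩
  have h2 : MulAction.IsMultiplyPretransitive G (G ⧸ H) 2 := by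
    rcases Cfsg.Agent.S0675.result (hc ▸ hH) (MulAction.toPermHom G (G ⧸ H)).range with h | h
    · exact (hs (solvable_of_solvable_injective (f := (MulAction.toPermHom G _).rangeRestrict)
        (fun a b e => hf (congrArg Subtype.val e)))).elim
    · refine MulAction.is_two_pretransitive_iff.2 fun h1 h3 => ?_
      obtain ⟨⟨_, g, rfl⟩, hg⟩ := MulAction.is_two_pretransitive_iff.1 h h1 h3
      exact ⟨g, hg⟩
  have hp : ¬ H.index ∣ Nat.card H := fun h => by
    have h1 := Subgroup.card_dvd_of_injective _ hf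
    rw [Nat.card_eq_fintype_card (α := Equiv.Perm _), Fintype.card_perm, hc, ← H.index_mul_card,
      ← Nat.mul_factorial_pred hH.ne_zero] at h1
    have := hH.dvd_factorial.1 (h.trans (Nat.dvd_of_mul_dvd_mul_left hH.pos h1))
    have := hH.pos
    omega
  obtain ⟨P⟩ : Nonempty (Sylow H.index G) := inferInstance
  have hP : Nat.card P = H.index := by
    rw [P.card_eq_multiplicity, ← H.index_mul_card, Nat.factorization_mul hH.ne_zero Nat.card_pos.ne',
      Finsupp.add_apply, hH.factorization_self, Nat.factorization_eq_zero_of_not_dvd hp, pow_one]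
  obtain ⟨u, hu⟩ := (Subgroup.isCyclic_iff_exists_zpowers_eq_top _).1 (isCyclic_of_prime_card hP)
  have tr : ∀ y : G ⧸ H, ∃ i : ℤ, u ^ i • ((1 : G) : G ⧸ H) = y := fun y => by
    obtain ⟨g, rfl⟩ := QuotientGroup.mk_surjective y
    obtain ⟨⟨⟨a, ha⟩, b⟩, rfl⟩ := (Subgroup.isComplement'_of_coprime (H := P) (K := H)
      (by rw [hP, H.index_mul_card]) (by rw [hP]; exact hH.coprime_iff_not_dvd.2 hp)).2 g
    obtain ⟨i, rfl⟩ : a ∈ Subgroup.zpowers u := hu ▸ ha
    exact ⟨i, by simp [MulAction.Quotient.smul_coe]⟩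
  have fr : ∀ α ∈ H23.permAut G (G ⧸ H), ∃ β ∈ H23.permAut G (G ⧸ H),
      (α : Cfsg.Out G) = β ∧ ∃ i : ℤ, u ^ i = β u := fun α hα => by
    obtain ⟨g, hg⟩ := MulAction.exists_smul_eq G (α • P) P
    refine ⟨MulAut.conj g * α, mul_mem (H23.conj_mem_permAut g) hα, ?_, ?_⟩
    · rw [QuotientGroup.mk_mul, (QuotientGroup.eq_one_iff (N := Cfsg.Inn G) _).2 ⟨g, rfl⟩, one_mul]
    · rw [← Subgroup.mem_zpowers_iff, hu, ← hg, Sylow.smul_def, smul_smul]
      exact Subgroup.smul_mem_pointwise_smul u _ _ (hu ▸ Subgroup.mem_zpowers u)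
  set N := ((H23.permAut G (G ⧸ H)).map (QuotientGroup.mk' (Cfsg.Inn G))).normalCore
  haveI : Group.IsSolvable N := isSolvable_of_comm fun a b => Subtype.ext (by
    obtain ⟨α, hα, e⟩ := Subgroup.normalCore_le _ a.2
    obtain ⟨β, hβ, f⟩ := Subgroup.normalCore_le _ b.2
    obtain ⟨α, hα, e', i, hi⟩ := fr α hα
    obtain ⟨β, hβ, f', j, hj⟩ := fr β hβ
    rw [Subgroup.coe_mul, Subgroup.coe_mul, ← e, ← f, QuotientGroup.mk'_apply,
      QuotientGroup.mk'_apply, e', f', ← QuotientGroup.mk_mul, ← QuotientGroup.mk_mul,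
      QuotientGroup.eq]
    refine H23.permAut_inner (mul_mem (inv_mem (mul_mem hα hβ)) (mul_mem hβ hα)) tr ?_
    rw [MulAut.mul_apply, MulAut.inv_def, MulEquiv.symm_apply_eq, MulAut.mul_apply, MulAut.mul_apply,
      ← hi, ← hj, map_zpow, map_zpow, ← hi, ← hj, ← zpow_mul, ← zpow_mul, mul_comm])
  haveI : Group.IsSolvable (Cfsg.Out G ⧸ N) := by
    haveI := IsPGroup.isNilpotent (p := 2) (G := Cfsg.Out G ⧸ N) fun a => by
      obtain ⟨a, rfl⟩ := QuotientGroup.mk_surjective a
      obtain ⟨α, rfl⟩ := QuotientGroup.mk_surjective a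
      obtain ⟨k, m, hm, e⟩ := Nat.exists_eq_two_pow_mul_odd (orderOf_pos α).ne'
      refine ⟨k, by
        rw [← QuotientGroup.mk_pow, QuotientGroup.eq_one_iff]
        intro b
        obtain ⟨β, rfl⟩ := QuotientGroup.mk_surjective b
        obtain ⟨z, hz⟩ := H23.aut_stab h2 ((1 : G) : G ⧸ H) (β * α ^ 2 ^ k * β⁻¹) (by
          rw [show orderOf (β * α ^ 2 ^ k * β⁻¹) = orderOf (α ^ 2 ^ k) from
            (MulAut.conj β).orderOf_eq _, orderOf_pow_of_dvd (by positivity) ⟨m, e⟩, e,
            Nat.mul_div_cancel_left _ (by positivity)]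
          exact hm) ((1 : G) : G ⧸ H) (H23.coprime_orbit_of_hall _ _ (by
            rw [MulAction.stabilizer_quotient]; exact (hH.coprime_iff_not_dvd.2 hp).symm) _)
        exact ⟨_, H23.perm_of_aut_stab inferInstance hz, rfl⟩⟩
    infer_instance
  exact solvable_of_ker_le_range N.subtype (QuotientGroup.mk' N) (by simp)

end Cfsg.Agent.S4277
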