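import Cfsg.Statements.S4280
import Cfsg.Agent.H14.Invol

set_option autoImplicit false
open Cfsg

namespace Cfsg.Agent.S4280

/-- In the Chevalley group of type F₄ over a finite field of odd order q there are exactly two conjugacy classes of involutions; the centralizer of an involution in one class has order q¹⁶(q² − 1)(q⁴ − 1)(q⁶ − 1)(q⁸ − 1), and in the other class q¹⁰(q² − 1)²(q⁴ − 1)(q⁶ − 1). -/
theorem result {F : Type*} [Field F] [Fintype F] (hF : Odd (Fintype.card F)) : ∃ s t : ↥(Cfsg.Lie.chevF4.group F), orderOf s = 2 ∧ orderOf t = 2 ∧ ¬ IsConj s t ∧ (∀ u : ↥(Cfsg.Lie.chevF4.group F), orderOf u = 2 → IsConj u s ∨ IsConj u t) ∧ Nat.card (Subgroup.centralizer ({s} : Set ↥(Cfsg.Lie.chevF4.group F))) = Fintype.card F ^ 16 * (Fintype.card F ^ 2 - 1) * (Fintype.card F ^ 4 - 1) * (Fintype.card F ^ 6 - 1) * (Fintype.card F ^ 8 - 1) ∧ Nat.card (Subgroup.centralizer ({t} : Set ↥(Cfsg.Lie.chevF4.group F))) = Fintype.card F ^ 10 * (Fintype.card F ^ 2 -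 1) ^ 2 * (Fintype.card F ^ 4 - 1) * (Fintype.card F ^ 6 - 1) := by
  have h0 := Fintype.one_lt_card (α := F)
  have h1 := H14.goodF4.card_cent_iv H14.kerF4 hF H14.okF4 rfl H14.okB4 H14.subB4
  have h2 := H14.goodF4.card_cent_iv H14.kerF4 hF H14.okF4 rfl H14.okC3A1 H14.subC3A1
  rw [H14.poinB4] at h1
  rw [H14.poinC3A1] at h2
  have h3 := h1.trans (c := Fintype.card F ^ 16 * (Fintype.card F ^ 2 - 1) * (Fintype.card F ^ 4 - 1) *
      (Fintype.card F ^ 6 - 1) * (Fintype.card F ^ 8 - 1)) (by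
    simp only [H14.polyN, List.foldr, show Lie.chevF4.rank = 4 from rfl, show H14.datB4.nroots / 2 = 16 from rfl]
    zify [Nat.one_le_pow _ _ (zero_lt_one.trans h0), h0.le]
    ring)
  have h4 := h2.trans (c := Fintype.card F ^ 10 * (Fintype.card F ^ 2 - 1) ^ 2 * (Fintype.card F ^ 4 - 1) *
      (Fintype.card F ^ 6 - 1)) (by
    simp only [H14.polyN, List.foldr, show Lie.chevF4.rank = 4 from rfl, show H14.datC3A1.nroots / 2 = 10 from rfl]
    zify [Nat.one_le_pow _ _ (zero_lt_one.trans h0), h0.le]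
    ring)
  have h5 : ∀ k, 0 < k → (Fintype.card F).Coprime (Fintype.card F ^ k - 1) := fun k hk =>
    (Nat.coprime_pow_left_iff hk _ _).1 (by simp [Nat.one_le_pow _ _ (zero_lt_one.trans h0)])
  refine ⟨_, _, H14.goodF4.orderOf_iv hF (j := 0) (by decide +kernel), H14.goodF4.orderOf_iv hF (j := 3) (by decide +kernel),
    fun e => ?_, fun u hu => by simpa using H14.goodF4.invol_odd H14.kerF4 hF 47 [[2, 3, 4, 2], [1, 2, 3, 2]] (by decide +kernel) hu, h3, h4⟩
  have := H14.card_cent_conj e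
  simp only [h3, h4, mul_assoc] at this
  exact H14.pow_mul_ne h0 (by norm_num) ((((h5 2 two_pos).pow_right 2).mul_right
    ((h5 4 (by norm_num)).mul_right (h5 6 (by norm_num))))) this

end Cfsg.Agent.S4280
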