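import Cfsg.Statements.S4281
import Cfsg.Agent.H14.Invol

set_option autoImplicit false
open scoped BigOperators
open Cfsg

namespace Cfsg.Agent.S4281

/-- In the Chevalley group of type E₈ over a finite field of odd order q there are exactly two conjugacy classes of involutions; the centralizer of an involution in one class has order q⁵⁶(q⁸ − 1)·∏_{i=1}^{7}(q^{2i} − 1), and in the other class q⁶⁴(q² − 1)²(q⁶ − 1)(q⁸ − 1)(q¹⁰ − 1)(q¹² − 1)(q¹⁴ − 1)(q¹⁸ − 1). -/
theorem result {F : Type*} [Field F] [Fintype F] (hF : Odd (Fintype.card F)) : ∃ s t : ↥(Cfsg.Lie.chevE8.group F), orderOf s = 2 ∧ orderOf t = 2 ∧ ¬ IsConj s t ∧ (∀ u : ↥(Cfsg.Lie.chevE8.group F), orderOf u = 2 → IsConj u s ∨ IsConj u t) ∧ Nat.card (Subgroup.centralizer ({s} : Set ↥(Cfsg.Lie.chevE8.group F))) = Fintype.card F ^ 56 * (Fintype.card F ^ 8 - 1) * ∏ i ∈ Finset.Icc 1 7, (Fintype.card F ^ (2 * i) - 1) ∧ Nat.card (Subgroup.centralizer ({t} : Set ↥(Cfsg.Lie.chevE8.group F))) = Fintype.card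 F ^ 64 * (Fintype.card F ^ 2 - 1) ^ 2 * (Fintype.card F ^ 6 - 1) * (Fintype.card F ^ 8 - 1) * (Fintype.card F ^ 10 - 1) * (Fintype.card F ^ 12 - 1) * (Fintype.card F ^ 14 - 1) * (Fintype.card F ^ 18 - 1) := by
  have h0 := Fintype.one_lt_card (α := F)
  have h1 := H14.goodE8.card_cent_iv H14.kerE8 hF H14.okE8 rfl H14.okD8 H14.subD8
  have h2 := H14.goodE8.card_cent_iv H14.kerE8 hF H14.okE8 rfl H14.okE7A1 H14.subE7A1
  rw [H14.poinD8] at h1
  rw [H14.poinE7A1] at h2
  have h3 := h1.trans (c := Fintype.card F ^ 56 * (Fintype.card F ^ 8 - 1) * ∏ i ∈ Finset.Icc 1 7,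
      (Fintype.card F ^ (2 * i) - 1)) (by
    simp only [H14.polyN, List.foldr, show Lie.chevE8.rank = 8 from rfl, show H14.datD8.nroots / 2 = 56 from rfl,
      show Finset.Icc 1 7 = {1, 2, 3, 4, 5, 6, 7} from rfl]
    rw [Finset.prod_insert (by decide), Finset.prod_insert (by decide), Finset.prod_insert (by decide),
      Finset.prod_insert (by decide), Finset.prod_insert (by decide), Finset.prod_insert (by decide), Finset.prod_singleton]
    zify [Nat.one_le_pow _ _ (zero_lt_one.trans h0), h0.le]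
    ring)
  have h4 := h2.trans (c := Fintype.card F ^ 64 * (Fintype.card F ^ 2 - 1) ^ 2 * (Fintype.card F ^ 6 - 1) *
      (Fintype.card F ^ 8 - 1) * (Fintype.card F ^ 10 - 1) * (Fintype.card F ^ 12 - 1) * (Fintype.card F ^ 14 - 1) *
      (Fintype.card F ^ 18 - 1)) (by
    simp only [H14.polyN, List.foldr, show Lie.chevE8.rank = 8 from rfl, show H14.datE7A1.nroots / 2 = 64 from rfl]
    zify [Nat.one_le_pow _ _ (zero_lt_one.trans h0), h0.le]
    ring)
  have h5 : ∀ k, 0 < k → (Fintype.card F).Coprime (Fintype.card F ^ k - 1) := fun k hk =>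
    (Nat.coprime_pow_left_iff hk _ _).1 (by simp [Nat.one_le_pow _ _ (zero_lt_one.trans h0)])
  refine ⟨_, _, H14.goodE8.orderOf_iv hF (j := 0) (by decide +kernel), H14.goodE8.orderOf_iv hF (j := 7) (by decide +kernel),
    fun e => ?_, fun u hu => by simpa using H14.goodE8.invol_odd H14.kerE8 hF ⟨239, by decide⟩ [[4, 5, 7, 10, 8, 6, 4, 2], [2, 3, 4, 6, 5, 4, 3, 2]] (by decide +kernel) hu, h3, h4⟩
  have := H14.card_cent_conj e.symm
  simp only [h3, h4, mul_assoc] at this
  exact H14.pow_mul_ne h0 (by norm_num) ((h5 8 (by norm_num)).mul_right (Nat.Coprime.prod_right fun i hi =>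
    h5 _ (by have := (Finset.mem_Icc.1 hi).1; omega))) this

end Cfsg.Agent.S4281
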