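import Cfsg.Statements.S4282
import Cfsg.Agent.H10.HH4
import Mathlib

set_option autoImplicit false
open Cfsg

namespace Cfsg.Agent.S4282

open Subgroup H19 H18 H10.HH Module Polynomial

theorem crit {F : Type*} [Field F] {X : Type*} [Group X] [Finite X] {U : Type*} [AddCommGroup U]
    [Module F U] {ρ : X →* End F U} {K : Subgroup X} {t : X} {n p : ℕ} {f : F[X]} [IsAlgClosed F]
    [FiniteDimensional F U] (hp : p.Prime) (hρ : ρ.ker = ⊥) (hK : (#K : F) ≠ 0) (hpK : ¬ p ∣ #K)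
    (ht : t ∈ N(K)) (hn : t ^ p ^ (n + 1) = 1) (h0 : f ≠ 0) (hf : aeval (ρ t) f = 0)
    (hd : f.natDegree < p ^ (n + 1)) (h : t ^ p ^ n ∉ C(K)) (hC : K ⊓ C[t ^ p ^ n] ≤ C[t]) :
    ∃ q d Q, q.Prime ∧ q ^ d + 1 = p ^ (n + 1) ∧ Q ≤ K ∧ PG q Q ∧ ¬ Ab Q ∧
      p ^ (n + 1) ≤ f.natDegree + 1 := by
  have hc : (#K).Coprime #(zpowers t) := by
    rw [Nat.card_zpowers]
    exact (((hp.coprime_iff_not_dvd.2 hpK).pow_left _).coprime_dvd_left
      (orderOf_dvd_of_pow_eq_one hn)).symm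
  have hle : zpowers (t ^ p ^ n) ≤ zpowers t := zpowers_le.2 (npow_mem_zpowers _ _)
  obtain ⟨q, Q₀, h1, h2, h3, h4⟩ := exists_syl_not_cent (zpowers_le.2 ht) hc
    (Or.inl (sol_zpowers t)) (mt zpowers_le.1 h)
  obtain ⟨Q, h5, hQ⟩ := exists_minAct h3 hle (norms_of_comm (comm_zpowers t) le_rfl hle)
    ((hc.coprime_dvd_left (card_dvd h2)).coprime_dvd_right (card_dvd hle)) h1.sol h4
  have hQK := h5.trans h2
  have hQ0 := cast_card_ne_zero_of_le hK hQK
  have htQ := zpowers_le.1 hQ.norm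
  have hf' : Ann ρ t f ⊤ := fun v _ => by rw [hf]; rfl
  have hab : ¬ Ab Q := fun hab => hQ.not_cent (cents_symm (commg_eq_bot.1 (le_bot_iff.1
    ((hf'.abelian hp hQ0 htQ hn RInv.top ((comm_iff_der.1 hab).le.trans bot_le) h0 hd).trans
      (stabS_top hρ).le))))
  obtain ⟨l, hl, b, hb, hb1⟩ := exists_ws hQ0 hQ.der (RInv.top (ρ := ρ)) hQ.der
    (by rw [stabS_top hρ, le_bot_iff, ← comm_iff_der]; exact hab)
  obtain ⟨a, k, e, h11, -, h6⟩ := hl.main hp (fun h => hpK (h.trans (card_dvd hQK))) htQ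
    (norm_le_norm_center Q htQ) (fun _ _ => trivial) hn h0 hf' hd
  have ha : p ^ a ∣ 1 := (h11 1).1 ⟨by simpa using norm_le_norm_center Q htQ, fun z hz => by
    have := mem_cent1.1 (hC ⟨hQK hz.1, mem_cent1.2
      (mem_cent.1 (hQ.cent_center hab (mem_zpowers _)) z hz)⟩)
    rw [pow_one, mul_assoc, this, inv_mul_cancel_left]⟩
  obtain rfl : a = 0 := by simpa [hp.ne_one] using ha
  rw [hQ.comm] at h6
  obtain ⟨h6, h7, h8⟩ := h6.resolve_left fun h6 => hb1 (hl.eq_one (hQ.der hb) (h6 (der_le Q hb)))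
  obtain ⟨q, hq, hq'⟩ := hQ.pg
  obtain ⟨d, h9, h10⟩ := exists_pow_of_relIndex hq hq' h7 h6
  exact ⟨q, d, Q, hq, by simpa [e] using h10, hQK, hq', hab, by simpa using h8⟩

/-- A critical case behind the Hall–Higman theorem. Let p ≠ q be primes and G a finite group generated by a normal q-subgroup Q and a cyclic p-subgroup generated by x, such that the centralizer of every non-identity element of that cyclic subgroup is its product with the centre of G. Let K be an algebraically closed field of characteristic p and ρ a faithful representation of G on a nonzero finite-dimensional K-space whose restriction to Q is irreducible. If s is the least exponent with (ρ(x) − 1)^s = 0, then |⟨x⟩| − 1 ≤ s ≤ |⟨x⟩|; and if s = |⟨x⟩| − 1 then |⟨x⟩| − 1 is a power of q and Q is non-abelian. -/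
theorem result {G : Type*} [Group G] [Finite G] (p q : ℕ) [Fact p.Prime] [Fact q.Prime] (hpq : p ≠ q) (Q : Subgroup G) [Q.Normal] (hQ : IsPGroup q Q) (x : G) (hx : IsPGroup p (Subgroup.zpowers x)) (hgen : Q ⊔ Subgroup.zpowers x = ⊤) (hC : ∀ y ∈ Subgroup.zpowers x, y ≠ 1 → Subgroup.centralizer ({y} : Set G) = Subgroup.zpowers x ⊔ Subgroup.center G) {K : Type*} [Field K] [IsAlgClosed K] [CharP K p] {V : Type*} [AddCommGroup V] [Module K V] [FiniteDimensional K V] [Nontrivial V] (ρ : Representation K G V) (hfaith : Function.Injective ρ) (hirr : ∀ W : Submodule K V, (∀ g ∈ Q, Submodule.map (ρ g) W ≤ W) → W = ⊥ ∨ W = ⊤) (s : ℕ) (hs : (ρ x - 1) ^ s = 0) (hmin : ∀ k < s, (ρ x - 1) ^ k ≠ 0) : Nat.card (Subgroup.zpowers x) - 1 ≤ s ∧ s ≤ Nat.card (Subgroup.zpowers x) ∧ (s = Nat.card (Subgroup.zpowers x) - 1 → (∃ b : ℕ, Nat.card (Subgroup.zpowers x) - 1 = q ^ b) ∧ ¬ IsMulCommutative Q) := by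
  have hp : p.Prime := Fact.out
  have hq : q.Prime := Fact.out
  have uni : ∀ (y : G) (j : ℕ), y ^ p ^ j = 1 → (ρ y - 1) ^ p ^ j = 0 := fun y j h => by
    haveI : CharP (End K V) p := charP_of_injective_algebraMap (algebraMap K _).injective p
    rw [sub_pow_char_pow_of_commute p _ (Commute.one_right _), ← map_pow, h, map_one, one_pow,
      sub_self]
  obtain ⟨n, hn⟩ := IsPGroup.iff_card.1 hx
  have hxn : x ^ p ^ n = 1 := by rw [← hn, Nat.card_zpowers, pow_orderOf_eq_one]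
  have hle : s ≤ p ^ n := not_lt.1 fun h => hmin _ h (uni x n hxn)
  have hs0 : s ≠ 0 := by rintro rfl; simp at hs
  rw [hn]
  by_cases hlt : s = p ^ n
  · exact ⟨by omega, hle, fun h => by have := pow_pos hp.pos n; omega⟩
  obtain ⟨n, rfl⟩ : ∃ m, n = m + 1 := ⟨n - 1, by
    rcases n with _ | n
    · simp at hle hlt; omega
    · rfl⟩
  have hy1 : x ^ p ^ n ≠ 1 := fun h => by
    have := Nat.le_of_dvd (pow_pos hp.pos _) (orderOf_dvd_of_pow_eq_one h)
    rw [← Nat.card_zpowers, hn] at this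
    exact absurd this (not_le.2 (Nat.pow_lt_pow_right hp.one_lt n.lt_succ_self))
  obtain ⟨j, hj⟩ := IsPGroup.iff_card.1 hQ
  have hpQ : ¬ p ∣ #Q := fun h =>
    hpq ((Nat.prime_dvd_prime_iff_eq hp hq).1 (hp.dvd_of_dvd_pow (hj ▸ h)))
  obtain ⟨r, d, R, hr, e, h1, h2, h3, h4⟩ := crit (ρ := ρ) (K := Q) (f := (X - 1) ^ s) hp
    ((MonoidHom.ker_eq_bot_iff _).2 hfaith) (by rwa [Ne, CharP.cast_eq_zero_iff K p]) hpQ
    (le_normalizer_of_normal (mem_top x)) hxn (pow_ne_zero _ (X_sub_C_ne_zero 1))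
    (by simpa using hs) (by
      rw [natDegree_pow, ← C_1, natDegree_X_sub_C]; omega) (fun h => by
      have hk : LinearMap.ker (ρ (x ^ p ^ n) - 1) ≠ ⊥ := fun e => by
        have hi : Function.Injective ⇑((ρ (x ^ p ^ n) - 1) ^ p ^ 1) := by
          rw [End.coe_pow]; exact (LinearMap.ker_eq_bot.1 e).iterate _
        rw [uni _ 1 (by rw [← pow_mul, ← pow_add, hxn])] at hi
        obtain ⟨v, hv⟩ := exists_ne (0 : V)
        exact hv (hi (by simp))
      refine hy1 (hfaith ?_)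
      rw [map_one, ← sub_eq_zero, ← LinearMap.ker_eq_top]
      refine (hirr _ fun g hg => ?_).resolve_left hk
      rintro _ ⟨v, hv, rfl⟩
      simp only [SetLike.mem_coe, LinearMap.mem_ker, LinearMap.sub_apply, End.one_apply,
        sub_eq_zero] at hv ⊢
      rw [← End.mul_apply, ← map_mul, ← h g hg, map_mul, End.mul_apply, hv]) (by
      rw [hC _ (npow_mem_zpowers x _) hy1]
      exact inf_le_right.trans (sup_le (zpowers_le.2 (mem_cent1.2 rfl)) (center_le_centralizer _)))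
  rw [natDegree_pow, ← C_1, natDegree_X_sub_C] at h4
  have hR : R ≠ ⊥ := by rintro rfl; exact h3 inferInstance
  have hl := Nat.minFac_prime (mt card_eq_one.1 hR)
  obtain rfl : r = q := (h2 _ hl (Nat.minFac_dvd _)).symm.trans
    ((Nat.prime_dvd_prime_iff_eq hl hq).1 (hl.dvd_of_dvd_pow
      (hj ▸ (Nat.minFac_dvd _).trans (card_dvd_of_le h1))))
  exact ⟨by omega, hle, fun _ => ⟨⟨d, by omega⟩, fun h => h3 (H1.isMulCommutative_of_le h1 h)⟩⟩

end Cfsg.Agent.S4282
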