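import Cfsg.Statements.S4292
import Cfsg.Agent.H24.FrobStruct

set_option autoImplicit false
open Cfsg

namespace Cfsg.Agent.S4292

open Subgroup


/-- Let A and B be nontrivial finite groups. Then the direct product A × B occurs as a Frobenius complement if and only if A and B both occur as Frobenius complements and the orders of A and B are coprime. -/
theorem result {A B : Type*} [Group A] [Finite A] [Nontrivial A] [Group B] [Finite B] [Nontrivial B] :
    (∃ (L : Type) (_ : Group L) (_ : Finite L) (H : Subgroup L), Cfsg.IsFrobeniusComplement H ∧ Nonempty ((A × B) ≃* H)) ↔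
    ((∃ (L : Type) (_ : Group L) (_ : Finite L) (H : Subgroup L), Cfsg.IsFrobeniusComplement H ∧ Nonempty (A ≃* H)) ∧
     (∃ (L : Type) (_ : Group L) (_ : Finite L) (H : Subgroup L), Cfsg.IsFrobeniusComplement H ∧ Nonempty (B ≃* H)) ∧
     (Nat.card A).Coprime (Nat.card B)) := by
  change H24.IsFC (A × B) ↔ H24.IsFC A ∧ H24.IsFC B ∧ _
  constructor
  · intro h
    refine ⟨h.of_injective (MonoidHom.inl A B) (Prod.mk_left_injective 1),
      h.of_injective (MonoidHom.inr A B) (Prod.mk_right_injective 1), ?_⟩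
    apply Nat.coprime_of_dvd
    intro p hp h1 h2
    haveI : Fact p.Prime := ⟨hp⟩
    obtain ⟨a, ha⟩ := exists_prime_orderOf_dvd_card' p h1
    obtain ⟨b, hb⟩ := exists_prime_orderOf_dvd_card' p h2
    have h3 := h.isCyclic ((zpowers a).prod (zpowers b)) (by
      rw [H1.isMulCommutative_iff]
      rintro ⟨x, y⟩ ⟨⟨i, rfl⟩, ⟨j, rfl⟩⟩ ⟨x, y⟩ ⟨⟨k, rfl⟩, ⟨l, rfl⟩⟩
      exact Prod.ext (zpow_mul_comm a i k) (zpow_mul_comm b j l))
    haveI := isCyclic_of_surjective _ (prodEquiv (zpowers a) (zpowers b)).surjective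
    have := coprime_card_of_isCyclic_prod (zpowers a) (zpowers b)
    rw [Nat.card_zpowers, Nat.card_zpowers, ha, hb, Nat.coprime_self] at this
    exact hp.one_lt.ne' this
  · rintro ⟨hA, hB, hc⟩
    obtain ⟨f, hf, hf0⟩ := hA.exists_sol
    obtain ⟨g, hg, hg0⟩ := hB.exists_sol
    refine H24.isFC_of_sol_int (f := fun x : A × B => f x.1 * g x.2) ?_ ?_
    · rintro ⟨a, b⟩ hab ⟨x, y⟩
      have hc' : (orderOf a).Coprime (orderOf b) :=
        (hc.coprime_dvd_left (orderOf_dvd_natCard a)).coprime_dvd_right (orderOf_dvd_natCard b)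
      rw [Prod.orderOf_mk, hc'.lcm_eq_mul] at hab ⊢
      rcases Nat.prime_mul_iff.mp hab with ⟨h1, h2⟩ | ⟨h1, h2⟩
      · rw [h2, mul_one]
        rw [orderOf_eq_one_iff] at h2
        subst h2
        simp [← Finset.sum_mul, hf a h1 x]
      · rw [h2, one_mul]
        rw [orderOf_eq_one_iff] at h2
        subst h2
        simp [← Finset.mul_sum, hg b h1 y]
    · obtain ⟨x, hx⟩ := Function.ne_iff.mp hf0
      obtain ⟨y, hy⟩ := Function.ne_iff.mp hg0
      exact fun h => mul_ne_zero hx hy (congrFun h (x, y))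

end Cfsg.Agent.S4292
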