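import Cfsg.Statements.S4295
import Cfsg.Agent.H24.FrobStruct

set_option autoImplicit false
open Cfsg

namespace Cfsg.Agent.S4295

open QuaternionGroup

theorem exists_hom' {E : Type} [Ring E] (I J : E) (hI : I * I = -1) (hJ : J * J = -1)
    (hIJ : I * J = -(J * I)) : ∃ ρ : QuaternionGroup 2 →* E, ρ (.a 2) = -1 := by
  have hI4 : I ^ 4 = 1 := by
    rw [show 4 = 2 * 2 from rfl, pow_mul, pow_two I, hI]; simp
  have hI2 : I ^ 2 = -1 := by rw [pow_two, hI]
  have hI3 : I ^ 3 = -I := by rw [pow_succ, hI2]; simp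
  have hJI : ∀ X, J * (J * X) = -X := fun X => by rw [← mul_assoc, hJ]; simp
  have hII : ∀ X, I * (I * X) = -X := fun X => by rw [← mul_assoc, hI]; simp
  have hIJ' : ∀ X, I * (J * X) = -(J * (I * X)) := fun X => by
    rw [← mul_assoc, hIJ]; simp [mul_assoc]
  let F : QuaternionGroup 2 → E := fun g => match g with
    | .a i => I ^ i.val
    | .xa i => J * I ^ i.val
  refine ⟨MonoidHom.mk ⟨F, by change I ^ (0 : ZMod (2 * 2)).val = 1; simp⟩ ?_, hI2⟩
  have e0 : ∀ i : ZMod (2 * 2), i.val = 0 ∨ i.val = 1 ∨ i.val = 2 ∨ i.val = 3 := by decide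
  have e1 : ∀ i j : ZMod (2 * 2), (i + j).val = (i.val + j.val) % 4 := by decide
  have e2 : ∀ i j : ZMod (2 * 2), (j - i).val = (3 * i.val + j.val) % 4 := by decide
  have e3 : ((2 : ℕ) : ZMod (2 * 2)).val = 2 := by decide
  rintro (i | i) (j | j) <;>
    simp only [a_mul_a, a_mul_xa, xa_mul_a, xa_mul_xa, F, e1, e2, e3] <;>
    rcases e0 i with h1 | h1 | h1 | h1 <;> rcases e0 j with h2 | h2 | h2 | h2 <;>
    simp [h1, h2, hI2, hI3, hI, hJ, hIJ, hJI, hII, hIJ', mul_assoc]

theorem exists_hom {R : Type} [CommRing R] (a b : R) (h : a ^ 2 + b ^ 2 = -1) :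
    ∃ ρ : QuaternionGroup 2 →* Module.End R (R × R), ρ (.a 2) = -1 := by
  let I : Module.End R (R × R) := (-LinearMap.snd R R R).prod (LinearMap.fst R R R)
  let J : Module.End R (R × R) := (a • LinearMap.fst R R R + b • LinearMap.snd R R R).prod
    (b • LinearMap.fst R R R - a • LinearMap.snd R R R)
  have hI : I * I = -1 := by ext <;> simp [I]
  have hJ : J * J = -1 := by
    ext <;> simp [J] <;> first | linear_combination h | ring
  have hIJ : I * J = -(J * I) := by ext <;> simp [I, J]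
  exact exists_hom' I J hI hJ hIJ

theorem exists_module (n : ℕ) (hn : Odd n) :
    ∃ (W : Type) (_ : AddCommGroup W) (_ : Finite W) (_ : DistribMulAction (QuaternionGroup 2) W),
      Nat.card W = n * n ∧ ∀ g : QuaternionGroup 2, g ≠ 1 → ∀ v : W, g • v = v → v = 0 := by
  induction n using Nat.recOnMul with
  | zero => simp at hn
  | one =>
    exact ⟨PUnit, inferInstance, inferInstance, inferInstance, by simp, fun _ _ _ _ => rfl⟩
  | prime p hp =>
    haveI : Fact p.Prime := ⟨hp⟩
    obtain ⟨a, b, hab⟩ := ZMod.sq_add_sq p (-1)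
    obtain ⟨ρ, hρ⟩ := exists_hom a b hab
    refine ⟨ZMod p × ZMod p, inferInstance, inferInstance, DistribMulAction.compHom _ ρ,
      by simp, fun g hg v hv => ?_⟩
    have h1 : g = .a 2 ∨ g * g = .a 2 := by clear hv; revert g; decide
    have hv' : ρ g v = v := hv
    have h2 : ρ (.a 2) v = v := by
      rcases h1 with rfl | h1
      · exact hv'
      · rw [← h1, map_mul, Module.End.mul_apply, hv', hv']
    rw [hρ] at h2
    have h3 : (2 : ZMod p) • v = 0 := by
      rw [two_smul]; nth_rewrite 1 [← h2]; simp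
    refine (smul_eq_zero.mp h3).resolve_left fun h => ?_
    have : p ∣ 2 := (ZMod.natCast_eq_zero_iff 2 p).mp (by exact_mod_cast h)
    rw [(Nat.prime_dvd_prime_iff_eq hp Nat.prime_two).mp this] at hn
    exact absurd hn (by decide)
  | mul a b iha ihb =>
    obtain ⟨W, _, _, _, h1, h2⟩ := iha (Nat.Odd.of_mul_left hn)
    obtain ⟨W', _, _, _, h3, h4⟩ := ihb (Nat.Odd.of_mul_right hn)
    refine ⟨W × W', inferInstance, inferInstance, inferInstance, ?_, fun g hg v hv => ?_⟩
    · rw [Nat.card_prod, h1, h3]; ring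
    · exact Prod.ext (h2 g hg _ (congrArg Prod.fst hv)) (h4 g hg _ (congrArg Prod.snd hv))


/-- For a natural number m the following are equivalent: (a) some finite group has a Frobenius complement isomorphic to the quaternion group of order 8 whose Frobenius kernel (the identity together with the elements lying in no conjugate of the complement) has exactly m elements; (b) m is an odd perfect square greater than 1. -/
theorem result (m : ℕ) :
    (∃ (L : Type) (_ : Group L) (_ : Finite L) (H : Subgroup L), Cfsg.IsFrobeniusComplement H ∧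
        Nonempty (H ≃* QuaternionGroup 2) ∧ Nat.card (Cfsg.frobeniusKernel H) = m) ↔
    (Odd m ∧ IsSquare m ∧ 1 < m) := by
  constructor
  · rintro ⟨L, _, _, H, h1, ⟨e⟩, rfl⟩
    obtain ⟨N, _, h2, h3, φ, -, h4⟩ := H24.exists_fpf_of_frobenius h1 e.symm
    obtain ⟨i, j, t, ht, hij⟩ := H24.quaternion_anticomm (le_refl 1)
    rw [← h2]
    have := H24.odd_isSquare_of_fpf φ h4 ht hij
    exact ⟨this.1, this.2, (Subgroup.one_lt_card_iff_ne_bot N).mpr h3⟩
  · rintro ⟨h1, ⟨n, rfl⟩, h2⟩
    obtain ⟨W, _, _, _, h3, h4⟩ := exists_module n (Nat.Odd.of_mul_left h1)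
    haveI : Nontrivial W := Finite.one_lt_card_iff_nontrivial.mp (h3 ▸ h2)
    obtain ⟨L, i1, i2, H, h5, ⟨e⟩, h6⟩ := H24.exists_frobenius_of_fpf_add h4
    exact ⟨L, i1, i2, H, h5, ⟨e.symm⟩, h6.trans h3⟩

end Cfsg.Agent.S4295
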