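import Cfsg.Statements.S4296
import Cfsg.Agent.H24.FrobStruct

set_option autoImplicit false
open Cfsg

namespace Cfsg.Agent.S4296


/-- Let H be a Frobenius complement in a finite group, and suppose some Sylow subgroup of H is not cyclic. Then the number of elements of the Frobenius kernel (the identity together with the elements lying in no conjugate of H) is an odd perfect square. -/
theorem result {L : Type*} [Group L] [Finite L] (H : Subgroup L) (hF : Cfsg.IsFrobeniusComplement H)
    (hZ : ∃ (p : ℕ) (_ : Fact p.Prime) (P : Sylow p H), ¬ IsCyclic P) :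
    Odd (Nat.card (Cfsg.frobeniusKernel H)) ∧ IsSquare (Nat.card (Cfsg.frobeniusKernel H)) := by
  obtain ⟨p, _, P, hP⟩ := hZ
  obtain ⟨N, _, h1, h2, φ, -, h3⟩ := H24.exists_fpf_of_frobenius hF (MulEquiv.refl H)
  haveI := (Subgroup.nontrivial_iff_ne_bot N).mpr h2
  obtain ⟨-, n, hn, ⟨e⟩⟩ := (H24.cyclic_or_quaternion_of_fpf φ h3 P.isPGroup').resolve_left hP
  obtain ⟨i, j, t, ht, hij⟩ := H24.quaternion_anticomm hn
  rw [← h1]
  refine H24.odd_isSquare_of_fpf φ h3 (i := e.symm i) (j := e.symm j) (t := e.symm t) ?_ ?_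
  · rw [Subgroup.orderOf_coe, MulEquiv.orderOf_eq, ht]
  · rw [← Subgroup.coe_mul, ← Subgroup.coe_mul, ← Subgroup.coe_mul, ← map_mul, ← map_mul, ← map_mul,
      hij]

end Cfsg.Agent.S4296
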