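import Cfsg.Statements.S4297
import Cfsg.Agent.H24.FrobSol

set_option autoImplicit false
open Cfsg

namespace Cfsg.Agent.S4297

open QuaternionGroup

noncomputable def act {n : ℕ} (χ : AddChar (ZMod (2 * n)) ℂ) : QuaternionGroup n → ℂ × ℂ → ℂ × ℂ
  | a i, v => (χ i * v.1, χ (-i) * v.2)
  | xa i, v => (-(χ (-i) * v.2), χ i * v.1)


/-- For every n ≥ 2 the dicyclic group of order 4n (generated by an element a of order 2n and an element x with x² = aⁿ and x a x⁻¹ = a⁻¹) occurs as a Frobenius complement of some finite Frobenius group. -/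
theorem result (n : ℕ) (hn : 2 ≤ n) :
    ∃ (L : Type) (_ : Group L) (_ : Finite L) (H : Subgroup L), Cfsg.IsFrobeniusComplement H ∧ Nonempty (H ≃* QuaternionGroup n) := by
  haveI : NeZero n := ⟨by omega⟩
  haveI : NeZero (2 * n) := ⟨by omega⟩
  let χ : AddChar (ZMod (2 * n)) ℂ := ZMod.stdAddChar
  have hinj : ∀ i, χ i = 1 → i = 0 := fun i hi =>
    ZMod.injective_stdAddChar (hi.trans (AddChar.map_zero_eq_one _).symm)
  have hn0 : (n : ZMod (2 * n)) ≠ 0 := by
    rw [Ne, ZMod.natCast_eq_zero_iff]
    intro h; have := Nat.le_of_dvd (by omega) h; omega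
  have hnn : (n : ZMod (2 * n)) + n = 0 := by
    rw [← two_mul]; exact_mod_cast ZMod.natCast_self (2 * n)
  have hχn : χ n = -1 := by
    have : χ n * χ n = 1 := by rw [← AddChar.map_add_eq_mul, hnn, AddChar.map_zero_eq_one]
    exact (mul_self_eq_one_iff.mp this).resolve_left fun h => hn0 (hinj _ h)
  have hχn' : χ (-n) = -1 := by rw [neg_eq_of_add_eq_zero_left hnn, hχn]
  have hmul : ∀ i, χ i * χ (-i) = 1 := fun i => by
    rw [← AddChar.map_add_eq_mul, add_neg_cancel, AddChar.map_zero_eq_one]
  letI : DistribMulAction (QuaternionGroup n) (ℂ × ℂ) :=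
    { smul := act χ
      one_smul := fun v => by change act χ (a 0) v = v; simp [act]
      mul_smul := fun g h v => by
        change act χ (g * h) v = act χ g (act χ h v)
        rcases g with i | i <;> rcases h with j | j <;>
          simp only [a_mul_a, a_mul_xa, xa_mul_a, xa_mul_xa, act, sub_eq_add_neg, neg_add,
            AddChar.map_add_eq_mul, neg_neg, hχn, hχn', Prod.mk.injEq] <;>
          constructor <;> ring
      smul_zero := fun g => by
        change act χ g 0 = 0
        rcases g with i | i <;> simp [act]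
      smul_add := fun g v w => by
        change act χ g (v + w) = act χ g v + act χ g w
        rcases g with i | i <;> simp only [act, Prod.fst_add, Prod.snd_add, Prod.mk_add_mk,
          Prod.mk.injEq] <;> constructor <;> ring }
  have h : H24.IsFC (QuaternionGroup n) := by
    apply H24.isFC_of_fpf_rat (W := ℂ × ℂ)
    rintro (i | i) hi ⟨u, v⟩ hv
    · have hi0 : i ≠ 0 := fun h => hi (by rw [h]; rfl)
      change act χ _ _ = _ at hv
      simp only [act, Prod.mk.injEq] at hv
      have h1 : u = 0 := by
        by_contra h; exact hi0 (hinj _ (mul_right_cancel₀ h (by rw [hv.1, one_mul])))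
      have h2 : v = 0 := by
        by_contra h
        exact hi0 (neg_eq_zero.mp (hinj _ (mul_right_cancel₀ h (by rw [hv.2, one_mul]))))
      rw [h1, h2]; rfl
    · change act χ _ _ = _ at hv
      simp only [act, Prod.mk.injEq] at hv
      have h1 : v = 0 := by linear_combination (-1/2 : ℂ) * hv.2 - (χ i / 2) * hv.1 - (v / 2) * hmul i
      rw [h1] at hv
      have h2 : u = 0 := by simpa using hv.1.symm
      rw [h1, h2]; rfl
  obtain ⟨L, i1, i2, H, h1, ⟨e⟩⟩ := h
  exact ⟨L, i1, i2, H, h1, ⟨e.symm⟩⟩

end Cfsg.Agent.S4297
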