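import Cfsg.Statements.S4299
import Cfsg.Agent.H24.FrobSol

set_option autoImplicit false
open Cfsg

namespace Cfsg.Agent.S4299


/-- Every nontrivial finite cyclic group occurs as a Frobenius complement of some finite Frobenius group. -/
theorem result {C : Type*} [Group C] [Finite C] [IsCyclic C] [Nontrivial C] :
    ∃ (L : Type) (_ : Group L) (_ : Finite L) (H : Subgroup L), Cfsg.IsFrobeniusComplement H ∧ Nonempty (C ≃* H) := by
  have hn : Nat.card C ≠ 0 := Nat.card_pos.ne'
  haveI : NeZero (Nat.card C) := ⟨hn⟩
  have h1 : Nat.card C = Nat.card (rootsOfUnity (Nat.card C) ℂ) := by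
    rw [Complex.card_rootsOfUnity]
  let e : C ≃* rootsOfUnity (Nat.card C) ℂ := mulEquivOfCyclicCardEq h1
  exact H24.isFC_of_divisionRing ((rootsOfUnity (Nat.card C) ℂ).subtype.comp e.toMonoidHom)
    (Subtype.val_injective.comp e.injective)

end Cfsg.Agent.S4299
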