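import Cfsg.Statements.S4300

set_option autoImplicit false
open Cfsg

namespace Cfsg.Agent.S4300

open Subgroup MulAction


/-- Let G act faithfully and primitively on a set X, and suppose the stabilizer of some point is a simple group. Then either G is simple, or G has a normal subgroup, neither trivial nor the whole group, that acts regularly on X (transitively with trivial point stabilizers). -/
theorem result {G : Type*} [Group G] {X : Type*} [MulAction G X] [FaithfulSMul G X]
    (hprim : MulAction.IsPreprimitive G X) (x : X) (hsimple : IsSimpleGroup (MulAction.stabilizer G x)) :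
    IsSimpleGroup G ∨ ∃ N : Subgroup G, N.Normal ∧ N ≠ ⊥ ∧ N ≠ ⊤ ∧
      MulAction.IsPretransitive N X ∧ ∀ y : X, MulAction.stabilizer N y = ⊥ := by
  by_contra hcon
  push Not at hcon
  obtain ⟨hns, hcon⟩ := hcon
  haveI : Nontrivial G := (Subtype.val_injective : Function.Injective
    ((↑) : stabilizer G x → G)).nontrivial
  apply hns
  refine ⟨fun N hN => ?_⟩
  by_contra h
  push Not at h
  have htr : IsPretransitive N X := by
    apply hprim.isQuasiPreprimitive.isPretransitive_of_normal
    intro hfix
    apply h.1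
    rw [eq_bot_iff]
    intro n hn
    rw [mem_bot]
    apply FaithfulSMul.eq_of_smul_eq_smul (α := X)
    intro y
    have : y ∈ fixedPoints N X := hfix ▸ Set.mem_univ y
    rw [one_smul]
    exact this ⟨n, hn⟩
  obtain ⟨y, hy⟩ := hcon N hN h.1 h.2 htr
  rcases (hN.subgroupOf (stabilizer G x)).eq_bot_or_eq_top with h1 | h1
  · apply hy
    obtain ⟨⟨m, hm⟩, rfl⟩ := htr.exists_smul_eq x y
    rw [eq_bot_iff]
    rintro ⟨n, hn⟩ h2
    have h3 : n • m • x = m • x := h2
    have h4 : m⁻¹ * n * m ∈ stabilizer G x := by
      rw [mem_stabilizer_iff, mul_smul, mul_smul, h3, inv_smul_smul]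
    have h5 : (⟨_, h4⟩ : stabilizer G x) ∈ N.subgroupOf (stabilizer G x) :=
      mul_mem (mul_mem (inv_mem hm) hn) hm
    rw [h1, mem_bot, Subtype.ext_iff] at h5
    rw [mem_bot, Subtype.ext_iff]
    have h6 : n = m * (m⁻¹ * n * m) * m⁻¹ := by group
    simp only at h5
    rw [OneMemClass.coe_one] at h5 ⊢
    change n = 1
    rw [h6, h5]; simp
  · apply h.2
    rw [subgroupOf_eq_top] at h1
    rw [eq_top_iff]
    intro g _
    obtain ⟨⟨m, hm⟩, h2⟩ := htr.exists_smul_eq x (g • x)
    have h3 : m • x = g • x := h2
    have h4 : m⁻¹ * g ∈ stabilizer G x := by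
      rw [mem_stabilizer_iff, mul_smul, ← h3, inv_smul_smul]
    simpa using mul_mem hm (h1 h4)

end Cfsg.Agent.S4300
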