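import Cfsg.Statements.S4301

set_option autoImplicit false
open Cfsg

namespace Cfsg.Agent.S4301

open Subgroup


/-- One-point extension of a multiply transitive group. Let X be a set and G a group of permutations of Option X (the set X with one extra point ∗ = none) all of whose elements fix ∗, such that G is k-transitive on the points of X for some k ≥ 2, X having at least k points. Suppose a permutation h of Option X and an element g of G satisfy: h interchanges ∗ with a point x of X and fixes a point y of X; g interchanges x and y; (g h)³ and h² lie in G; and for every f in G fixing x, the product h f h lies in G and fixes x. Then an element of the group generated by G and h fixes ∗ exactly when it lies in G, and that group acts (k+1)-transitively on Option X. -/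
theorem result {X : Type*} (G : Subgroup (Equiv.Perm (Option X))) (hfix : ∀ f ∈ G, f none = none)
    (k : ℕ) (hk : 2 ≤ k) (hkX : Nonempty (Fin k ↪ X))
    (htrans : ∀ a b : Fin k ↪ X, ∃ f ∈ G, ∀ i, f (some (a i)) = some (b i))
    (h g : Equiv.Perm (Option X)) (hg : g ∈ G) (x y : X)
    (h1 : h none = some x) (h2 : h (some x) = none) (h3 : h (some y) = some y)
    (h4 : g (some x) = some y) (h5 : g (some y) = some x)
    (h6 : (g * h) ^ 3 ∈ G) (h7 : h ^ 2 ∈ G)
    (h8 : ∀ f ∈ G, f (some x) = some x → h * f * h ∈ G ∧ (h * f * h) (some x) = some x) :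
    (∀ f ∈ Subgroup.closure ((G : Set (Equiv.Perm (Option X))) ∪ {h}), f none = none ↔ f ∈ G) ∧
      MulAction.IsMultiplyPretransitive (Subgroup.closure ((G : Set (Equiv.Perm (Option X))) ∪ {h})) (Option X) (k + 1) := by
  classical
  have hxy : x ≠ y := by rintro rfl; simp [h2] at h3
  obtain ⟨e⟩ := hkX
  obtain ⟨k, rfl⟩ : ∃ j, k = j + 2 := ⟨k - 2, by omega⟩
  have ext : ∀ a b : X, a ≠ b → ∃ c : Fin (k + 2) ↪ X, c 0 = a ∧ c 1 = b := fun a b hab => by
    refine ⟨e.trans (Equiv.swap (Equiv.swap (e 0) a (e 1)) b * Equiv.swap (e 0) a).toEmbedding,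
      ?_, by simp⟩
    simp only [Function.Embedding.trans_apply, Equiv.coe_toEmbedding, Equiv.Perm.mul_apply,
      Equiv.swap_apply_left]
    refine Equiv.swap_apply_of_ne_of_ne (fun h => ?_) hab
    rw [eq_comm, Equiv.swap_apply_eq_iff, Equiv.swap_apply_right] at h
    exact absurd (e.injective h) (by simp)
  have two : ∀ a b c d : X, a ≠ b → c ≠ d → ∃ f ∈ G, f (some a) = some c ∧ f (some b) = some d :=
    fun a b c d h1 h2 => by
    obtain ⟨u, rfl, rfl⟩ := ext a b h1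
    obtain ⟨v, rfl, rfl⟩ := ext c d h2
    obtain ⟨f, hf, h⟩ := htrans u v
    exact ⟨f, hf, h 0, h 1⟩
  have sm : ∀ f ∈ G, ∀ a : X, ∃ b, f (some a) = some b := fun f hf a =>
    Option.ne_none_iff_exists'.1 fun h => by simpa using f.injective (h.trans (hfix f hf).symm)
  have n1 : ∀ f ∈ G, f (some x) = some x → h * f * h⁻¹ ∈ G := fun f hf e => by
    simpa [pow_two, mul_assoc] using mul_mem (h8 f hf e).1 (inv_mem h7)
  have n2 : ∀ f ∈ G, f (some x) = some x → h⁻¹ * f * h ∈ G := fun f hf e => by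
    simpa [pow_two, mul_assoc] using mul_mem (inv_mem h7) (h8 f hf e).1
  have s1 : ∀ k ∈ G, ∀ f, (f ∈ G ∨ ∃ u ∈ G, ∃ v ∈ G, f = u * h * v) →
      (k * f ∈ G ∨ ∃ u ∈ G, ∃ v ∈ G, k * f = u * h * v) := fun k hk f ih =>
    ih.imp (mul_mem hk) fun ⟨u, hu, v, hv, e⟩ => ⟨k * u, mul_mem hk hu, v, hv, by rw [e]; group⟩
  have s2 : ∀ f, (f ∈ G ∨ ∃ u ∈ G, ∃ v ∈ G, f = u * h * v) →
      (h * f ∈ G ∨ ∃ u ∈ G, ∃ v ∈ G, h * f = u * h * v) := fun f ih => by
    rcases ih with ih | ⟨u, hu, v, hv, rfl⟩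
    · exact Or.inr ⟨1, one_mem _, f, ih, by group⟩
    obtain ⟨z, hz⟩ := sm u hu x
    by_cases e : z = x
    · exact Or.inl (by simpa [mul_assoc] using mul_mem (h8 u hu (e ▸ hz)).1 hv)
    obtain ⟨a, ha, a1, a2⟩ := two x y x z hxy (Ne.symm e)
    have hb : g⁻¹ * a⁻¹ * u ∈ G := mul_mem (mul_mem (inv_mem hg) (inv_mem ha)) hu
    have b1 : (g⁻¹ * a⁻¹ * u) (some x) = some x := by
      rw [Equiv.Perm.mul_apply, Equiv.Perm.mul_apply, Equiv.Perm.inv_eq_iff_eq,
        Equiv.Perm.inv_eq_iff_eq, hz, h4, a2]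
    exact Or.inr ⟨h * a * h⁻¹ * g⁻¹ * (g * h) ^ 3 * (h ^ 2)⁻¹, mul_mem (mul_mem (mul_mem
      (n1 a ha a1) (inv_mem hg)) h6) (inv_mem h7), g⁻¹ * (h⁻¹ * (g⁻¹ * a⁻¹ * u) * h) * v,
      mul_mem (mul_mem (inv_mem hg) (n2 _ hb b1)) hv, by simp [pow_succ, mul_assoc]⟩
  have key : ∀ f ∈ closure ((G : Set (Equiv.Perm (Option X))) ∪ {h}),
      f ∈ G ∨ ∃ u ∈ G, ∃ v ∈ G, f = u * h * v := fun f hf => by
    induction hf using closure_induction_left with
    | one => exact Or.inl (one_mem _)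
    | mul_left k hk f _ ih =>
      rcases hk with hk | rfl
      exacts [s1 k hk f ih, s2 f ih]
    | inv_mul_cancel k hk f _ ih =>
      rcases hk with hk | rfl
      · exact s1 _ (inv_mem hk) f ih
      · simpa [pow_two, mul_assoc] using s1 _ (inv_mem h7) _ (s2 f ih)
  have hG : G ≤ closure ((G : Set (Equiv.Perm (Option X))) ∪ {h}) :=
    fun _ hf => subset_closure (Or.inl hf)
  refine ⟨fun f hf => ⟨fun e => (key f hf).resolve_right ?_, hfix f⟩, ⟨fun a b => ?_⟩⟩
  · rintro ⟨u, hu, v, hv, rfl⟩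
    obtain ⟨z, hz⟩ := sm u hu x
    simp [hfix v hv, h1, hz] at e
  have nrm : ∀ a : Fin (k + 2 + 1) ↪ Option X, ∃ l ∈ closure ((G : Set (Equiv.Perm (Option X))) ∪ {h}),
      ∃ c : Fin (k + 2) ↪ X, l (a 0) = none ∧ ∀ i, l (a i.succ) = some (c i) := fun a => by
    obtain ⟨l, hl, e⟩ : ∃ l ∈ closure ((G : Set (Equiv.Perm (Option X))) ∪ {h}), l (a 0) = none := by
      rcases ha : a 0 with _ | z
      · exact ⟨1, one_mem _, rfl⟩
      obtain ⟨w, hw⟩ : ∃ w, z ≠ w := (em (z = x)).elim (fun e => ⟨y, e ▸ hxy⟩) fun e => ⟨x, e⟩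
      obtain ⟨f, hf, f1, -⟩ := two z w x y hw hxy
      exact ⟨h * f, mul_mem (subset_closure (Or.inr rfl)) (hG hf), by simp [f1, h2]⟩
    choose c hc using fun i : Fin (k + 2) => Option.ne_none_iff_exists'.1
      (fun h : l (a i.succ) = none => Fin.succ_ne_zero i (a.injective (l.injective (h.trans e.symm))))
    exact ⟨l, hl, ⟨c, fun i j h => Fin.succ_injective _ (a.injective (l.injective
      (by rw [hc, hc, h])))⟩, e, hc⟩
  obtain ⟨l, hl, c, l1, l2⟩ := nrm a
  obtain ⟨m, hm, d, m1, m2⟩ := nrm b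
  obtain ⟨f, hf, f1⟩ := htrans c d
  refine ⟨⟨m⁻¹ * f * l, mul_mem (mul_mem (inv_mem hm) (hG hf)) hl⟩, ?_⟩
  ext1 i
  change m⁻¹ (f (l (a i))) = b i
  rw [Equiv.Perm.inv_eq_iff_eq]
  induction i using Fin.cases with
  | zero => rw [l1, m1, hfix f hf]
  | succ i => rw [l2, m2, f1]

end Cfsg.Agent.S4301
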