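import Cfsg.Statements.S4303
import Cfsg.Agent.H24.SylowNum

set_option autoImplicit false
universe u
open Cfsg

namespace Cfsg.Agent.S4303


/-- For a finite group `G` and a prime `p`, the number of Sylow `p`-subgroups of `G` is a product of natural numbers each of which is either a prime power congruent to 1 modulo `p` or the number of Sylow `p`-subgroups of some finite simple group. -/
theorem result {G : Type u} [Group G] [Finite G]
    (p : ℕ) [Fact p.Prime] :
    ∃ l : List ℕ, l.prod = Nat.card (Sylow p G) ∧
      ∀ m ∈ l, (IsPrimePow m ∧ m % p = 1) ∨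
        ∃ (S : Type u) (_ : Group S) (_ : Finite S), IsSimpleGroup S ∧ m = Nat.card (Sylow p S) := by
  obtain ⟨l, h1, h2⟩ := H24.card_sylow_prod p (fun _ _ => True) (fun _ _ _ _ => trivial)
    (fun _ _ _ _ _ => trivial) G trivial
  refine ⟨l, h1, fun m hm => (h2 m hm).imp id ?_⟩
  rintro ⟨S, i1, i2, h3, -, h4⟩
  exact ⟨S, i1, i2, h3, h4⟩

end Cfsg.Agent.S4303
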