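import Cfsg.Statements.S4304
import Cfsg.Agent.H24.Brodkey
import Cfsg.Agent.H21.SylowPrime
import Cfsg.Agent.H21.SylowCount

set_option autoImplicit false
open Cfsg

namespace Cfsg.Agent.S4304

open Subgroup MulAction

theorem cent_eq {S : Type*} [Group S] [Finite S] [IsSimpleGroup S] (hS : ¬ IsMulCommutative S)
    (h : Nat.card (Sylow 7 S) = 15) (P : Sylow 7 S) (hP : Nat.card P = 7) :
    Nat.card (centralizer (P : Set S)) = 7 := by
  classical
  haveI : Fact (Nat.Prime 7) := ⟨by norm_num⟩
  have hPc : (P : Subgroup S) ≤ centralizer (P : Set S) := by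
    haveI := isCyclic_of_prime_card hP
    have : IsMulCommutative (P : Subgroup S) := inferInstance
    rw [H1.isMulCommutative_iff] at this
    intro a ha b hb
    exact this b hb a ha
  have hpg : IsPGroup 7 (centralizer (P : Set S)) := by
    rw [H1.isPGroup_iff_forall_prime]
    intro q hq hd
    by_contra hq7
    haveI : Fact q.Prime := ⟨hq⟩
    obtain ⟨⟨c, hc⟩, hco⟩ := exists_prime_orderOf_dvd_card' q hd
    rw [← orderOf_coe] at hco
    simp only at hco
    haveI := Fintype.ofFinite (Sylow 7 S)
    -- fixed points of `c`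
    let F := fixedPoints (zpowers c) (Sylow 7 S)
    have hF : ∀ R : Sylow 7 S, R ∈ F ↔ c • R = R := by
      intro R
      constructor
      · intro h; exact h ⟨c, mem_zpowers c⟩
      · rintro h ⟨g, hg⟩
        exact (zpowers_le.mpr (mem_stabilizer_iff.mpr h) : zpowers c ≤ stabilizer S R) hg
    have h1 : Nat.card (Sylow 7 S) ≡ Nat.card F [MOD q] :=
      (H21.isPGroup_zpowers_of_orderOf hco).card_modEq_card_fixedPoints _
    let T : SubMulAction (P : Subgroup S) (Sylow 7 S) :=
      { carrier := F
        smul_mem' := by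
          intro u R hR
          rw [hF] at hR ⊢
          change c • (u : S) • R = (u : S) • R
          rw [← mul_smul, ← hc u u.2, mul_smul, hR] }
    have h2 : Nat.card T ≡ Nat.card (fixedPoints (P : Subgroup S) T) [MOD 7] :=
      P.isPGroup'.card_modEq_card_fixedPoints _
    have hPF : P ∈ F := by
      rw [hF, H23.smul_eq_iff]; exact centralizer_le_normalizer _ hc
    have h3 : Nat.card (fixedPoints (P : Subgroup S) T) = 1 := by
      rw [Nat.card_eq_one_iff_unique]
      have key : ∀ R : fixedPoints (P : Subgroup S) T, ((R : T) : Sylow 7 S) = P := by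
        intro R
        have : ((R : T) : Sylow 7 S) ∈ fixedPoints (P : Subgroup S) (Sylow 7 S) :=
          fun u => congrArg Subtype.val (R.2 u)
        rw [P.isPGroup'.sylow_mem_fixedPoints_iff] at this
        exact Sylow.ext (P.is_maximal' (Sylow.isPGroup' _) this)
      refine ⟨⟨fun a b => Subtype.ext (Subtype.ext ((key a).trans (key b).symm))⟩,
        ⟨⟨⟨P, hPF⟩, fun u => Subtype.ext ?_⟩⟩⟩
      exact (P.isPGroup'.sylow_mem_fixedPoints_iff.mpr le_rfl) u
    have h4 : Nat.card T = Nat.card F := rfl
    have h5 : Nat.card F ≤ 15 := h ▸ Finite.card_subtype_le _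
    have hinj : Function.Injective (toPermHom S (Sylow 7 S)) := by
      apply H21.toPermHom_injective_of_simple
      haveI : Nontrivial (Sylow 7 S) := Finite.one_lt_card_iff_nontrivial.mp (by omega)
      obtain ⟨R, hR⟩ := exists_ne P
      obtain ⟨g, rfl⟩ := exists_smul_eq S P R
      exact ⟨g, P, hR⟩
    have h6 : Nat.card F ≠ 15 := by
      intro h6
      have : F = Set.univ := by
        apply Set.eq_of_subset_of_ncard_le (Set.subset_univ _)
        rw [Set.ncard_univ, h, ← h6, Nat.card_coe_set_eq]
      have h7 : c = 1 := by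
        apply hinj
        rw [map_one]
        ext1 R
        exact (hF R).mp (this ▸ Set.mem_univ R)
      rw [h7, orderOf_one] at hco
      exact hq.one_lt.ne hco
    rw [h4, h3] at h2
    rw [h] at h1
    have h7 : q ∣ 15 - Nat.card F := (Nat.modEq_iff_dvd' h5).mp h1.symm
    have h8 : Nat.card F = 1 ∨ Nat.card F = 8 := by
      unfold Nat.ModEq at h2; omega
    rcases h8 with h8 | h8
    · rw [h8] at h7
      have hq2 : q = 2 := by
        have : q ∣ 2 * 7 := h7
        rcases (Nat.Prime.dvd_mul hq).mp this with h | h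
        · exact (Nat.prime_dvd_prime_iff_eq hq Nat.prime_two).mp h
        · exact absurd ((Nat.prime_dvd_prime_iff_eq hq (by norm_num)).mp h) hq7
      subst hq2
      have h9 := H21.sign_toPerm_eq_one hS (X := Sylow 7 S) c
      rw [Equiv.Perm.sign_of_pow_two_eq_one (by rw [← map_pow, ← hco, pow_orderOf_eq_one, map_one]),
        ← Nat.card_eq_fintype_card, ← Nat.card_eq_fintype_card, h] at h9
      have h10 : Nat.card (Function.fixedPoints (toPermHom S (Sylow 7 S) c)) = 1 := by
        rw [← h8]
        exact Nat.card_congr (Equiv.subtypeEquivRight fun R => (hF R).symm)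
      rw [h10] at h9
      revert h9; decide
    · rw [h8] at h7
      exact hq7 ((Nat.prime_dvd_prime_iff_eq hq (by norm_num)).mp h7)
  rw [P.is_maximal' hpg hPc]
  exact hP

theorem simple_case {S : Type*} [Group S] [Finite S] [IsSimpleGroup S] :
    Nat.card (Sylow 7 S) ≠ 15 := by
  intro h
  haveI : Fact (Nat.Prime 7) := ⟨by norm_num⟩
  haveI : Fact (Nat.Prime 5) := ⟨by norm_num⟩
  have hS : ¬ IsMulCommutative S := fun hc => by
    rw [H24.card_sylow_eq_one_of_comm hc] at h; omega
  obtain ⟨P⟩ : Nonempty (Sylow 7 S) := inferInstance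
  have hP := H24.card_sylow_eq_prime_of_simple hS (by omega) (by omega) P
  have h1 := cent_eq hS h P hP
  have h2 := H21.relIndex_centralizer_dvd_of_card_prime (by norm_num) _ hP
  have h3 := H21.card_centralizer_mul_relIndex (P : Subgroup S)
  have h4 := H21.card_normalizer_mul_card_sylow P
  set r := (centralizer ((P : Subgroup S) : Set S)).relIndex (normalizer ((P : Subgroup S) : Set S))
  have h5 : Nat.card S = 105 * r := by
    rw [← h4, h]
    erw [← h3, h1]; ring
  have hr : r ≤ 6 := Nat.le_of_dvd (by norm_num) h2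
  by_cases h2r : 2 ∣ r
  · obtain ⟨T⟩ : Nonempty (Sylow 2 S) := inferInstance
    have hT : Nat.card T = 2 := H21.card_sylow_eq_prime T (by omega) (by
      rw [h5]; interval_cases r <;> simp_all)
    apply H21.not_normalizer_le_centralizer hS T (by omega)
    have := H21.relIndex_centralizer_dvd_of_card_prime (by norm_num) _ hT
    exact relIndex_eq_one.mp (by simpa using this)
  · obtain ⟨T⟩ : Nonempty (Sylow 5 S) := inferInstance
    have hT : Nat.card T = 5 := H21.card_sylow_eq_prime T (by omega) (by
      rw [h5]; interval_cases r <;> simp_all)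
    apply H21.not_normalizer_le_centralizer hS T (by omega)
    have h6 := H21.relIndex_centralizer_dvd_of_card_prime (by norm_num) _ hT
    have h7 : (centralizer ((T : Subgroup S) : Set S)).relIndex
        (normalizer ((T : Subgroup S) : Set S)) ∣ Nat.card S :=
      (relIndex_dvd_card _ _).trans (card_subgroup_dvd_card _)
    have h8 : (Nat.card S).Coprime 4 := by
      rw [h5]; clear_value r; interval_cases r <;> first | decide | omega | simp at h2
    exact relIndex_eq_one.mp (Nat.eq_one_of_dvd_coprimes h8 h7 h6)


/-- No finite group has exactly 15 Sylow 7-subgroups. -/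
theorem result {G : Type*} [Group G] [Finite G] : Nat.card (Sylow 7 G) ≠ 15 := by
  intro h
  haveI : Fact (Nat.Prime 7) := ⟨by norm_num⟩
  obtain ⟨l, h1, h2⟩ := H24.card_sylow_prod 7 (fun _ _ => True) (fun _ _ _ _ => trivial)
    (fun _ _ _ _ _ => trivial) G trivial
  rw [h] at h1
  have h3 : ∀ m ∈ l, m = 1 := by
    intro m hm
    have hd : m ∣ 15 := h1 ▸ List.dvd_prod hm
    have hle := Nat.le_of_dvd (by norm_num) hd
    rcases h2 m hm with ⟨h4, h5⟩ | ⟨S, _, _, h4, -, h5⟩
    · have : m = 1 ∨ m = 8 ∨ m = 15 := by omega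
      rcases this with rfl | rfl | rfl
      · rfl
      · omega
      · exact absurd h4 (by decide +kernel)
    · have h6 := card_sylow_modEq_one 7 S
      have h7 := simple_case (S := S)
      rw [← h5] at h6 h7
      unfold Nat.ModEq at h6
      have : m = 1 ∨ m = 8 := by omega
      rcases this with rfl | rfl
      · rfl
      · omega
  rw [List.prod_eq_one h3] at h1
  omega

end Cfsg.Agent.S4304
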