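import Cfsg.Statements.S4305
import Cfsg.Agent.H10.HH12

set_option autoImplicit false
open Cfsg

namespace Cfsg.Agent.S4305

open H19 Subgroup in
open scoped commutatorElement in

/-- Let the symmetric group of degree 3 act by automorphisms on a finite solvable group `G` of order prime to 6, so that only the identity of `G` is fixed by all of it. Then the derived subgroup of `G` is nilpotent. -/
theorem result {G : Type*} [Group G] [Finite G] [Group.IsSolvable G]
    [MulDistribMulAction (Equiv.Perm (Fin 3)) G] (hcop : (Nat.card G).Coprime 6)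
    (hfpf : ∀ g : G, (∀ a : Equiv.Perm (Fin 3), a • g = g) → g = 1) :
    Group.IsNilpotent ↥(commutator G) := by
  obtain ⟨X, _, _, i, j, h1, h2, h3, h4, h5⟩ :=
    H10.HH.exists_amb (MulDistribMulAction.toMulAut (Equiv.Perm (Fin 3)) G) hfpf
  have e : Nat.card j.range = 2 * 3 := by
    rw [← Nat.card_congr (MonoidHom.ofInjective h2).toEquiv, Nat.card_perm, Nat.card_fin]; rfl
  have hs : Group.IsSolvable (Equiv.Perm (Fin 3)) :=
    haveI := IsZGroup.of_squarefree (G := Equiv.Perm (Fin 3)) (by
      rw [Nat.card_perm, Nat.card_fin]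
      exact (Nat.squarefree_mul (m := 2) (n := 3) (by decide)).2
        ⟨Nat.prime_two.squarefree, Nat.prime_three.squarefree⟩)
    inferInstance
  have key : ∀ g : Equiv.Perm (Fin 3), ∃ a b : Equiv.Perm (Fin 3),
      g = ⁅a, b⁆ ∨ g = ⁅a, b⁆ * Equiv.swap 0 1 := by decide
  refine H10.HH.nil_der_of_le_Fit h1 (H10.HH.fpf_six (t := j (Equiv.swap 0 1)) ⟨h3, h4, by
    rwa [e, ← Nat.card_congr (MonoidHom.ofInjective h1).toEquiv],
    Group.isSolvable_of_surjective i.rangeRestrict_surjective,
    Group.isSolvable_of_surjective j.rangeRestrict_surjective, h5⟩ e (fun h => ?_)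
    (by rw [← map_mul, Equiv.swap_mul_self, map_one])
    (le_antisymm (sup_le (der_le _) (zpowers_le.2 ⟨_, rfl⟩)) ?_))
  · have := mul_comm_of_comm h ⟨Equiv.swap 0 1, rfl⟩ ⟨Equiv.swap 1 2, rfl⟩
    rw [← map_mul, ← map_mul] at this
    exact absurd (h2 this) (by decide)
  · rintro _ ⟨g, rfl⟩
    obtain ⟨a, b, rfl | rfl⟩ := key g
    · rw [map_commutatorElement]
      exact mem_sup_left (commutator_mem_commutator ⟨a, rfl⟩ ⟨b, rfl⟩)
    · rw [map_mul, map_commutatorElement]
      exact mul_mem_sup (commutator_mem_commutator ⟨a, rfl⟩ ⟨b, rfl⟩) (mem_zpowers _)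

end Cfsg.Agent.S4305
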