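import Cfsg.Statements.S4306
import Cfsg.Agent.H10.HH11

set_option autoImplicit false
open Cfsg

namespace Cfsg.Agent.S4306

open H19 in

/-- Let `A` be a non-abelian group of order `pq` with `p, q` distinct primes, acting by automorphisms on a finite solvable group `G` of order prime to `pq`, so that only the identity of `G` is fixed by all of `A`. Then `G` has Fitting height at most 2: there is a normal nilpotent subgroup `F` of `G` with `G/F` nilpotent. -/
theorem result {G A : Type*} [Group G] [Finite G]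
    [Group.IsSolvable G] [Group A] [Finite A] [MulDistribMulAction A G] (p q : ℕ) (hp : p.Prime) (hq : q.Prime) (hpq : p ≠ q)
    (hA : Nat.card A = p * q) (hAna : ¬ IsMulCommutative A) (hcop : (Nat.card G).Coprime (p * q))
    (hfpf : ∀ g : G, (∀ a : A, a • g = g) → g = 1) :
    ∃ F : Subgroup G, ∃ hF : F.Normal, Group.IsNilpotent ↥F ∧ Group.IsNilpotent (G ⧸ F) := by
  obtain ⟨X, _, _, i, j, h1, h2, h3, h4, h5⟩ := H10.HH.exists_amb (MulDistribMulAction.toMulAut A G) hfpf
  have e : Nat.card j.range = p * q := by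
    rw [← hA, Nat.card_congr (MonoidHom.ofInjective h2).toEquiv]
  have hs : Group.IsSolvable A :=
    haveI := IsZGroup.of_squarefree (G := A) (hA ▸ (Nat.squarefree_mul
      ((Nat.coprime_primes hp hq).2 hpq)).2 ⟨hp.squarefree, hq.squarefree⟩)
    inferInstance
  obtain ⟨F, h6, h7, -, h8, h9⟩ := (H10.HH.fpf_pq ⟨h3, h4, by
    rwa [e, ← Nat.card_congr (MonoidHom.ofInjective h1).toEquiv],
    Group.isSolvable_of_surjective i.rangeRestrict_surjective,
    Group.isSolvable_of_surjective j.rangeRestrict_surjective, h5⟩ hp hq e fun h => hAna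
      ⟨⟨fun a b => h2 (by
        rw [map_mul, map_mul]; exact mul_comm_of_comm h ⟨a, rfl⟩ ⟨b, rfl⟩)⟩⟩).final h1
  obtain ⟨k, hk⟩ := h9 0
  obtain ⟨m, hm⟩ := h9 1
  haveI := h8 1
  refine ⟨F 1, h8 1, (Subgroup.isNilpotent_iff_lowerCentralSeries _).2 ⟨k, le_bot_iff.1 (hk.trans h6.le)⟩, ?_⟩
  refine Subgroup.nilpotent_iff_lowerCentralSeries.2 ⟨m, ?_⟩
  rw [← Subgroup.map_top_of_surjective _ (QuotientGroup.mk'_surjective (F 1)),
    ← Subgroup.map_lowerCentralSeries, Subgroup.map_eq_bot_iff, QuotientGroup.ker_mk', ← h7]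
  exact hm

end Cfsg.Agent.S4306
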