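import Cfsg.Statements.S4309
import Cfsg.Agent.H1.Basic
import Cfsg.Agent.H24.ClassSize

set_option autoImplicit false
open Cfsg

namespace Cfsg.Agent.S4309

open Subgroup Pointwise


/-- Let `π` be a set of primes, `G` a finite group with a Hall `π`-subgroup `H` (every prime divisor of the order of `H` lies in `π` and no prime of `π` divides its index), and `A` a normal subgroup of `G`. Then `H ∩ A` is a Hall `π`-subgroup of `A` and the image of `H` in `G/A` is a Hall `π`-subgroup of `G/A`. -/
theorem result {G : Type*} [Group G] [Finite G] (π : Set ℕ)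
    (H A : Subgroup G) [A.Normal] (hH : Cfsg.IsPiHall π H) :
    Cfsg.IsPiHall π ((H ⊓ A).subgroupOf A) ∧ Cfsg.IsPiHall π (H.map (QuotientGroup.mk' A)) := by
  refine ⟨⟨fun p hp h => hH.1 p hp (h.trans ?_), fun p hp hπ h => hH.2 p hp hπ (h.trans ?_)⟩,
    ⟨fun p hp h => hH.1 p hp (h.trans ?_), fun p hp hπ h => hH.2 p hp hπ (h.trans ?_)⟩⟩
  · rw [Nat.card_congr (subgroupOfEquivOfLe inf_le_right).toEquiv]
    exact card_dvd_of_le inf_le_left
  · rw [inf_subgroupOf_right]
    exact H24.relIndex_dvd_index_of_normal_right H A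
  · exact card_map_dvd _ _
  · exact index_map_dvd _ (QuotientGroup.mk'_surjective A)

end Cfsg.Agent.S4309
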