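import Cfsg.Statements.S4310
import Cfsg.Agent.H24.FTAux
import Cfsg.Agent.H1.Basic

set_option autoImplicit false
open Cfsg

namespace Cfsg.Agent.S4310

open Subgroup Pointwise H2

theorem dPi_three {X : Type*} [Group X] [Finite X] {π : Set ℕ} (B D : Subgroup X) [B.Normal]
    [D.Normal] (h : B ≤ D) (h1 : PiNum π (Nat.card B)) (h2 : PiNum' π (B.relIndex D))
    (h3 : PiNum π D.index) : DPi π X := by
  haveI : (D.map (QuotientGroup.mk' B)).Normal :=
    Normal.map inferInstance _ (QuotientGroup.mk'_surjective B)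
  have h4 : PiNum' π (Nat.card (D.map (QuotientGroup.mk' B))) := by
    rwa [← relIndex_ker, QuotientGroup.ker_mk']
  refine DPi.of_quotient_pi B h1 (DPi.of_quotient_pi' (D.map (QuotientGroup.mk' B)) h4
    (fun K hK => H24.solvable_or_of_coprime _ _ (hK.coprime h4)) (dPi_of_piNum ?_))
  rwa [← index_eq_card, index_map_eq _ (QuotientGroup.mk'_surjective B)
    (by rwa [QuotientGroup.ker_mk'])]

theorem key {G : Type*} [Group G] [Finite G] {π : Set ℕ} {A : Subgroup G} [A.Normal]
    (hA : ∀ H K, IsPiHallOf π H A → IsPiHallOf π K A → ∃ g ∈ A, MulAut.conj g • H = K)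
    {K H : Subgroup G} (hAK : A ≤ K) (hK : PiNum π (A.relIndex K)) (hH : IsPiHallOf π H A) :
    DPi π (K ⊓ normalizer (H : Set G) : Subgroup G) ∧
      PiNum' π ((K ⊓ normalizer (H : Set G)).relIndex K) := by
  set N := K ⊓ normalizer (H : Set G) with hN
  have hHN : H ≤ N := le_inf (hH.1.trans hAK) le_normalizer
  obtain ⟨-, h1, h2⟩ := isPiHallOf_iff.mp hH
  have hsup : A ⊔ N = K := by
    refine le_antisymm (sup_le hAK inf_le_left) fun x hx => ?_
    obtain ⟨a, ha, h⟩ := hA _ _ hH (isPiHallOf_conj_smul hH (le_normalizer_of_normal (mem_top x)))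
    rw [← mul_inv_cancel_left a x]
    refine mul_mem (mem_sup_left ha) (mem_sup_right (mem_inf.mpr ⟨K.mul_mem (K.inv_mem (hAK ha)) hx, ?_⟩))
    rw [← conj_smul_eq_iff, map_mul, mul_smul, ← h, map_inv, inv_smul_smul]
  constructor
  · haveI : (H.subgroupOf N).Normal := normal_subgroupOf_of_le_normalizer inf_le_right
    refine dPi_three (H.subgroupOf N) (A.subgroupOf N) (comap_mono hH.1)
      (by rwa [card_subgroupOf_of_le hHN]) ?_ ?_
    · rw [← inf_subgroupOf_right A, relIndex_subgroupOf inf_le_right]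
      exact (isPiHallOf_iff.mp (isPiHallOf_of_le hH (le_inf hH.1 hHN) inf_le_left)).2.2
    · change PiNum π (A.relIndex N)
      rwa [← relIndex_sup_left, hsup]
  · have h3 : N.relIndex K = N.relIndex A := by
      have h4 := H1.card_sup_mul_card_inf (H := N) (N := A) le_normalizer_of_normal
      rw [sup_comm, hsup, ← H1.relIndex_mul_card (inf_le_left : N ≤ K),
        ← H1.relIndex_mul_card (inf_le_right : N ⊓ A ≤ A), inf_relIndex_right] at h4
      apply Nat.eq_of_mul_eq_mul_right (Nat.mul_pos (Nat.card_pos (α := N))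
        (Nat.card_pos (α := (N ⊓ A : Subgroup G))))
      linarith
    rw [h3]
    exact h2.of_dvd (relIndex_dvd_of_le_left _ hHN)


/-- Let `π` be a set of primes and `A` a normal subgroup of the finite group `G`. Suppose `A` has a Hall `π`-subgroup and all Hall `π`-subgroups of `A` are conjugate in `A`, and likewise for `G/A`. Then `G` has a Hall `π`-subgroup and all Hall `π`-subgroups of `G` are conjugate. (The conjugacy of complements of coprime order that the usual proof uses rests, in general, on the odd order Theorem.) -/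
theorem result {G : Type*} [Group G] [Finite G] (π : Set ℕ) (A : Subgroup G) [A.Normal]
    (hA : Cfsg.IsCPiGroup π ↥A) (hQ : Cfsg.IsCPiGroup π (G ⧸ A)) : Cfsg.IsCPiGroup π G := by
  have hA' : ∀ H K, IsPiHallOf π H A → IsPiHallOf π K A → ∃ g ∈ A, MulAut.conj g • H = K := by
    intro H K hH hK
    obtain ⟨g, hg⟩ := hA.2 _ _ (isPiHall_subgroupOf hH) (isPiHall_subgroupOf hK)
    refine ⟨g, g.2, ?_⟩
    rw [← map_subgroupOf_eq_of_le hK.1, hg, ← map_subgroupOf_eq_of_le hH.1, conj_smul_eq_map,
      subgroupOf_map_subtype, inf_eq_left.mpr hH.1]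
    conv_lhs => rw [← map_subgroupOf_eq_of_le hH.1]
    rw [map_map, map_map]
    rfl
  have hle : ∀ L : Subgroup (G ⧸ A), A ≤ L.comap (QuotientGroup.mk' A) := fun L =>
    (QuotientGroup.ker_mk' A).ge.trans (ker_le_comap _ _)
  have hrel : ∀ L : Subgroup (G ⧸ A), A.relIndex (L.comap (QuotientGroup.mk' A)) = Nat.card L :=
    fun L => by
      have := relIndex_ker (L.comap (QuotientGroup.mk' A)) (QuotientGroup.mk' A)
      rwa [QuotientGroup.ker_mk', map_comap_eq_self_of_surjective
        (QuotientGroup.mk'_surjective A)] at this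
  constructor
  · obtain ⟨H, hH⟩ := hA.1
    obtain ⟨L, hL⟩ := hQ.1
    obtain ⟨h1, h2⟩ := key hA' (hle L) (by rw [hrel]; exact hL.1) (isPiHallOf_map_subtype hH)
    obtain ⟨U, hU⟩ := h1.exists_piHallOf
    refine ⟨U, isPiHall_iff.mpr ⟨hU.2.1, ?_⟩⟩
    rw [← relIndex_mul_index hU.1, ← relIndex_mul_index inf_le_left,
      index_comap_of_surjective _ (QuotientGroup.mk'_surjective A)]
    exact PiNum'.mul hU.2.2 (h2.mul hL.2)
  · intro H K hH hK
    obtain ⟨g, hg⟩ := hQ.2 _ _ (isPiHall_map hH (QuotientGroup.mk'_surjective A))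
      (isPiHall_map hK (QuotientGroup.mk'_surjective A))
    obtain ⟨g, rfl⟩ := QuotientGroup.mk'_surjective A g
    have hH1 := isPiHall_conj_smul hH g
    obtain ⟨a, ha, h⟩ := hA' _ _ (isPiHallOf_inf_of_normal hH1 A) (isPiHallOf_inf_of_normal hK A)
    have hH2 := isPiHall_conj_smul hH1 a
    rw [smul_inf, H1.conj_smul_eq_of_mem_normalizer (H := A) (le_normalizer ha)] at h
    set L := K.map (QuotientGroup.mk' A) with hL
    obtain ⟨h1, -⟩ := key hA' (hle L) (by
      rw [hrel]; exact (isPiHall_map hK (QuotientGroup.mk'_surjective A)).1)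
      (isPiHallOf_inf_of_normal hK A)
    have h3 : MulAut.conj a • MulAut.conj g • H ≤ L.comap (QuotientGroup.mk' A) := by
      refine H1.conj_smul_le_of_le_of_mem ?_ (le_normalizer (hle L ha))
      rw [hg]
      rintro _ ⟨x, hx, rfl⟩
      exact ⟨_, mem_map_of_mem _ hx, by simp⟩
    obtain ⟨c, -, hc⟩ := h1.exists_conj_eq_piHallOf
      (isPiHallOf_of_le (isPiHallOf_top.mpr hH2) (le_inf h3 (by
        rw [← h]; exact H1.le_normalizer_inf le_normalizer le_normalizer_of_normal)) le_top)
      (isPiHallOf_of_le (isPiHallOf_top.mpr hK) (le_inf (le_comap_map _ _)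
        (H1.le_normalizer_inf le_normalizer le_normalizer_of_normal)) le_top)
    exact ⟨c * a * g, by rw [← conj_smul_eq_map, map_mul, map_mul, mul_smul, mul_smul, hc]⟩

end Cfsg.Agent.S4310
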