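import Cfsg.Statements.S4320

set_option autoImplicit false
open Cfsg

namespace Cfsg.Agent.S4320

theorem det_ann {R M ι : Type*} [CommRing R] [AddCommGroup M] [Module R M] [Fintype ι]
    (b : ι → M) (ε : R →+* ℤ) (d : ι → ℤ)
    (h : ∀ i, d i • b i ∈ RingHom.ker ε • Submodule.span R (Set.range b)) :
    ∃ μ : R, ε μ = ∏ i, d i ∧ ∀ i, μ • b i = 0 := by
  classical
  have h' := fun i => (Submodule.mem_ideal_smul_span_iff_exists_sum _ b _).1 (h i)
  choose a ha hs using h'
  let P : Matrix ι ι R := Matrix.diagonal (fun i => (d i : R)) - Matrix.of (fun i j => a i j)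
  have hP : ∀ i, ∑ j, P i j • b j = 0 := by
    intro i
    have := hs i
    rw [Finsupp.sum_fintype _ _ (by simp)] at this
    simp only [P, Matrix.sub_apply, Matrix.of_apply, sub_smul, Finset.sum_sub_distrib, this]
    rw [Finset.sum_eq_single i (fun j _ hj => by rw [Matrix.diagonal_apply_ne _ (Ne.symm hj), zero_smul])
      (by simp), Matrix.diagonal_apply_eq, Int.cast_smul_eq_zsmul, sub_self]
  refine ⟨P.det, ?_, fun k => ?_⟩
  · rw [RingHom.map_det, ← Matrix.det_diagonal]
    congr 1
    ext i j
    have : ε (a i j) = 0 := ha i j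
    by_cases hij : i = j
    · subst hij; simp [P, this]
    · simp [P, this, Matrix.diagonal_apply_ne _ hij]
  · have e1 : P.det • b k = ∑ j, (P.adjugate * P) k j • b j := by
      rw [Matrix.adjugate_mul, Finset.sum_eq_single k (fun j _ hj => by
        simp [Matrix.one_apply_ne (Ne.symm hj)]) (by simp)]
      simp
    rw [e1]
    simp only [Matrix.mul_apply, Finset.sum_smul, mul_smul]
    rw [Finset.sum_comm]
    refine Finset.sum_eq_zero fun i _ => ?_
    rw [← Finset.smul_sum, hP, smul_zero]

theorem der_ann {G R M : Type*} [Group G] [Finite G] [CommRing R] [AddCommGroup M] [Module R M]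
    (u : G →* R) (ε : R →+* ℤ) (hu : ∀ g, ε (u g) = 1) (δ : G → M)
    (hδ : ∀ x y, δ (x * y) = δ x + u x • δ y) :
    ∃ μ : R, ε μ = Nat.card (Abelianization G) ∧ ∀ g, μ • δ g = 0 := by
  classical
  obtain ⟨ι, _, n, hn, ⟨e⟩⟩ := CommGroup.equiv_prod_multiplicative_zmod_of_finite (Abelianization G)
  have hsurj : Function.Surjective (Abelianization.of : G →* Abelianization G) :=
    QuotientGroup.mk'_surjective _
  choose x hx using fun i => hsurj (e.symm (Pi.mulSingle i (Multiplicative.ofAdd (1 : ZMod (n i)))))
  haveI : Fintype (commutator G) := Fintype.ofFinite _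
  let b : ι ⊕ commutator G → M := Sum.elim (fun i => δ (x i)) (fun h => δ h)
  let M₀ := Submodule.span R (Set.range b)
  have h1 : δ 1 = 0 := by
    have := hδ 1 1
    rw [mul_one, map_one, one_smul] at this
    simpa using this
  let S : Subgroup G :=
    { carrier := {g | δ g ∈ M₀}
      one_mem' := by show δ 1 ∈ M₀; rw [h1]; exact M₀.zero_mem
      mul_mem' := fun {a c} ha hc => by
        show δ (a * c) ∈ M₀
        rw [hδ]; exact M₀.add_mem ha (M₀.smul_mem _ hc)
      inv_mem' := fun {a} ha => by
        show δ a⁻¹ ∈ M₀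
        have := hδ a⁻¹ a
        rw [inv_mul_cancel, h1] at this
        rw [eq_neg_of_add_eq_zero_left this.symm]
        exact M₀.neg_mem (M₀.smul_mem _ ha) }
  have hSc : commutator G ≤ S := fun h hh => Submodule.subset_span ⟨Sum.inr ⟨h, hh⟩, rfl⟩
  have hall : ∀ g, δ g ∈ M₀ := by
    intro g
    have : e (Abelianization.of g) ∈ S.map (e.toMonoidHom.comp Abelianization.of) := by
      refine Subgroup.pi_mem_of_mulSingle_mem _ fun i => ?_
      have hi : Pi.mulSingle i (Multiplicative.ofAdd (1 : ZMod (n i))) ∈
          S.map (e.toMonoidHom.comp Abelianization.of) :=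
        ⟨x i, Submodule.subset_span ⟨Sum.inl i, rfl⟩, by
          show e (Abelianization.of (x i)) = _
          rw [hx, e.apply_symm_apply]⟩
      haveI : NeZero (n i) := ⟨by have := hn i; omega⟩
      have h2 : e (Abelianization.of g) i = Multiplicative.ofAdd (1 : ZMod (n i)) ^
          (Multiplicative.toAdd (e (Abelianization.of g) i)).val := by
        rw [← ofAdd_nsmul, nsmul_one, ZMod.natCast_zmod_val]; rfl
      rw [h2, Pi.mulSingle_pow]
      exact Subgroup.pow_mem _ hi _
    obtain ⟨g', hg', he⟩ := this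
    have h3 : Abelianization.of g' = Abelianization.of g := e.injective he
    have h4 : g'⁻¹ * g ∈ commutator G := QuotientGroup.eq.1 h3
    have : g ∈ S := by simpa using S.mul_mem hg' (hSc h4)
    exact this
  let J : Submodule R M := RingHom.ker ε • M₀
  let φ : G →* Multiplicative (M ⧸ J) := MonoidHom.mk'
    (fun g => Multiplicative.ofAdd (J.mkQ (δ g))) (fun a c => by
      rw [← ofAdd_add, ← map_add]
      congr 1
      refine (Submodule.Quotient.eq J).2 ?_
      have : δ (a * c) - (δ a + δ c) = (u a - 1) • δ c := by rw [hδ, sub_smul, one_smul]; abel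
      rw [this]
      exact Submodule.smul_mem_smul (by simp [RingHom.mem_ker, hu]) (hall c))
  have hφ : ∀ h ∈ commutator G, φ h = 1 := fun h hh => Abelianization.commutator_subset_ker φ hh
  obtain ⟨μ, hμ1, hμ2⟩ := det_ann b ε (Sum.elim (fun i => (n i : ℤ)) (fun _ => 1)) (by
    rintro (i | h)
    · have h5 : x i ^ n i ∈ commutator G := by
        rw [← Abelianization.ker_of, MonoidHom.mem_ker, map_pow, hx, ← map_pow, ← Pi.mulSingle_pow,
          ← ofAdd_nsmul, nsmul_one, ZMod.natCast_self]
        simp
      have h6 := hφ _ h5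
      rw [map_pow] at h6
      have h7 : n i • J.mkQ (δ (x i)) = 0 := congrArg Multiplicative.toAdd h6
      rw [← map_nsmul] at h7
      have h8 := (Submodule.Quotient.mk_eq_zero J).1 h7
      show (n i : ℤ) • δ (x i) ∈ J
      rwa [natCast_zsmul]
    · have h7 : J.mkQ (δ h) = 0 := congrArg Multiplicative.toAdd (hφ _ h.2)
      have h8 := (Submodule.Quotient.mk_eq_zero J).1 h7
      show (1 : ℤ) • δ h ∈ J
      rwa [one_smul])
  refine ⟨μ, ?_, fun g => ?_⟩
  · rw [hμ1, Nat.card_congr e.toEquiv, Nat.card_pi]
    have : ∀ i, Nat.card (Multiplicative (ZMod (n i))) = n i := fun i => Nat.card_zmod _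
    simp [Fintype.prod_sum_type, this]
  · have := hall g
    refine Submodule.span_induction (p := fun m _ => μ • m = 0) ?_ (smul_zero _) ?_ ?_ this
    · rintro _ ⟨i, rfl⟩; exact hμ2 i
    · intro a c _ _ ha hc; rw [smul_add, ha, hc, add_zero]
    · intro r a _ ha; rw [smul_comm, ha, smul_zero]

open scoped TensorProduct in
theorem sum_zero {G A : Type*} [Group G] [Finite G] [AddCommGroup A] [Fintype (Abelianization G)]
    (c : G → Abelianization G → A)
    (hc : ∀ x y q, c (x * y) q = c x q + c y ((Abelianization.of x)⁻¹ * q)) (g : G) :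
    ∑ q, c g q = 0 := by
  classical
  let Q := Abelianization G
  let R := MonoidAlgebra ℤ Q
  let u : G →* R := (MonoidAlgebra.of ℤ Q).comp Abelianization.of
  let ε : R →+* ℤ := (MonoidAlgebra.lift ℤ ℤ Q 1).toRingHom
  have hε : ∀ q a, ε (MonoidAlgebra.single q a) = a := fun q a =>
    (MonoidAlgebra.lift_single (1 : Q →* ℤ) q a).trans (by simp)
  let δ : G → (R ⊗[ℤ] A) × R := fun g =>
    (∑ q : Q, (MonoidAlgebra.single q (1 : ℤ) : R) ⊗ₜ[ℤ] c g q, u g - 1)
  obtain ⟨μ, hμ1, hμ2⟩ := der_ann (M := (R ⊗[ℤ] A) × R) u ε (fun g => hε _ _) δ (by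
    intro x y
    refine Prod.ext ?_ ?_
    · simp only [δ, Prod.fst_add, Prod.smul_fst, hc, TensorProduct.tmul_add,
        Finset.sum_add_distrib, Finset.smul_sum, TensorProduct.smul_tmul']
      congr 1
      refine Fintype.sum_equiv (Equiv.mulLeft (Abelianization.of x)⁻¹) _ _ fun q => ?_
      show _ = (MonoidAlgebra.single (Abelianization.of x) (1 : ℤ) *
        MonoidAlgebra.single ((Abelianization.of x)⁻¹ * q) 1 : R) ⊗ₜ[ℤ] _
      rw [MonoidAlgebra.single_mul_single, mul_inv_cancel_left, mul_one]
      rfl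
    · simp only [δ, Prod.snd_add, Prod.smul_snd, map_mul, smul_eq_mul]; ring)
  have hsurj : Function.Surjective (Abelianization.of : G →* Abelianization G) :=
    QuotientGroup.mk'_surjective _
  have hmul : ∀ q : Q, μ * MonoidAlgebra.single q 1 = μ := fun q => by
    obtain ⟨g, rfl⟩ := hsurj q
    have := congrArg Prod.snd (hμ2 g)
    simp only [δ, Prod.smul_snd, smul_eq_mul, mul_sub, mul_one, Prod.snd_zero] at this
    exact sub_eq_zero.1 this
  have hco : ∀ q : Q, μ.coeff q = μ.coeff 1 := fun q => by
    conv_lhs => rw [← hmul q]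
    rw [MonoidAlgebra.coeff_mul_single_eq_coeff_mul 1 (by simp), mul_one]
  have hsum : μ = ∑ q : Q, MonoidAlgebra.single q (μ.coeff 1) := by
    conv_lhs => rw [← MonoidAlgebra.sum_coeff_single μ, Finsupp.sum_fintype _ _ (by simp)]
    exact Finset.sum_congr rfl fun q _ => by rw [hco]
  have hone : μ.coeff 1 = 1 := by
    rw [hsum, map_sum] at hμ1
    simp only [hε, Finset.sum_const, Finset.card_univ, nsmul_eq_mul, Nat.card_eq_fintype_card] at hμ1
    have h0 : (Fintype.card Q : ℤ) ≠ 0 := by exact_mod_cast Fintype.card_ne_zero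
    exact mul_left_cancel₀ h0 (hμ1.trans (mul_one _).symm)
  have h1 := congrArg Prod.fst (hμ2 g)
  simp only [δ, Prod.smul_fst, Finset.smul_sum, TensorProduct.smul_tmul', smul_eq_mul, hmul,
    Prod.fst_zero] at h1
  let l : R →ₗ[ℤ] ℤ := (Finsupp.lapply (1 : Q)).comp (MonoidAlgebra.coeffLinearEquiv ℤ).toLinearMap
  have hl : l μ = 1 := hone
  have h2 := congrArg (fun t => TensorProduct.lid ℤ A (LinearMap.rTensor A l t)) h1
  simpa [hl] using h2

/-- The Principal Ideal Theorem of class field theory in its group-theoretic form: for every finite group `G`, the transfer homomorphism from `G` into the abelianization `G'/G''` of its derived subgroup `G'` is the trivial homomorphism. -/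
theorem result {G : Type*} [Group G] [Finite G] :
    MonoidHom.transfer (Abelianization.of : ↥(commutator G) →* Abelianization ↥(commutator G)) =
      (1 : G →* Abelianization ↥(commutator G)) := by
  classical
  ext g
  let T : (commutator G).LeftTransversal := default
  let s : Abelianization G → G := fun q => (T.2.leftQuotientEquiv q : G)
  have hs : ∀ q, Abelianization.of (s q) = q := fun q => T.2.leftQuotientEquiv.symm_apply_apply q
  have hm : ∀ (x : G) (q : Abelianization G),
      (s q)⁻¹ * (x * s ((Abelianization.of x)⁻¹ * q)) ∈ commutator G := fun x q => by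
    rw [← Abelianization.ker_of, MonoidHom.mem_ker]
    simp [hs]
  letI : Fintype (Abelianization G) := (commutator G).fintypeQuotientOfFiniteIndex
  have := sum_zero (A := Additive (Abelianization (commutator G)))
    (fun x q => Additive.ofMul (Abelianization.of (⟨_, hm x q⟩ : commutator G))) (fun x y q => by
      rw [← ofMul_mul, ← map_mul]
      congr 2
      apply Subtype.ext
      simp [mul_assoc, mul_left_comm]) g
  rw [← ofMul_prod] at this
  rw [MonoidHom.transfer_def _ T, MonoidHom.one_apply]
  refine Eq.trans ?_ (Additive.ofMul.injective this)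
  refine Finset.prod_congr rfl fun q _ => ?_
  congr 1
  apply Subtype.ext
  show _ * _ = _ * _
  congr 1
  rw [Subgroup.smul_apply_eq_smul_apply_inv_smul]
  rfl

end Cfsg.Agent.S4320
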