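import Cfsg.Statements.S4323
import Cfsg.Agent.H8.Mart2

set_option autoImplicit false
open Cfsg

namespace Cfsg.Agent.S4323

open H8

/-- Let `q` be a prime and `A` a non-cyclic group of order `q²` acting by automorphisms on a finite group `G` of order prime to `q`, such that the fixed-point subgroup `C_G(a)` is abelian for every non-identity `a ∈ A`. Then `G` is solvable. -/
theorem result {A G : Type*} [Group A] [Finite A]
    [Group G] [Finite G] [MulDistribMulAction A G] (q : ℕ) (hq : q.Prime) (hA : Nat.card A = q ^ 2) (hnc : ¬ IsCyclic A)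
    (hcop : ¬ q ∣ Nat.card G) (h : ∀ a : A, a ≠ 1 → IsMulCommutative ↥(FixedPoints.subgroup (Subgroup.zpowers a) G)) :
    Group.IsSolvable G := by
  open H19 Subgroup SemidirectProduct in
  haveI := Fact.mk hq
  set φ := MulDistribMulAction.toMulAut A G
  have hA' : #(H2.sdA φ) = q ^ 2 := H2.card_sdA.trans hA
  have e := H2.sdAEquiv φ
  have key := Mt.sol_of_cent_ab (r := q) (A := H2.sdA φ) (G := H2.sdK φ ⊤)
    ⟨hq, le_rfl, ⟨ab_of_card_sq hq hA'.dvd, ?_⟩, hA'⟩ H2.aInv_top.sd
    (PiN.of_not_dvd (by rwa [H2.card_sdK, card_top])) ?_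
  · have e' := (H2.sdKEquiv φ ⊤).symm.trans topEquiv
    exact Group.isSolvable_of_isSolvable_injective (f := e'.symm.toMonoidHom) e'.symm.injective
  · rintro _ ⟨a, rfl⟩
    obtain ⟨k, hk, e⟩ := (Nat.dvd_prime_pow hq).1 (hA ▸ orderOf_dvd_natCard a)
    rcases hk.eq_or_lt with rfl | hk
    · exact absurd (isCyclic_of_orderOf_eq_card a (e.trans hA.symm)) hnc
    · rw [← map_pow, orderOf_dvd_iff_pow_eq_one.1 (e ▸ (pow_dvd_pow q (Nat.le_of_lt_succ hk)).trans
        (pow_one q).dvd), map_one]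
  · intro B hB
    obtain ⟨x, x1, -, rfl⟩ := hB.exists_gen
    obtain ⟨a, rfl⟩ := hB.le (mem_zpowers x)
    haveI := h a fun e => x1 (e ▸ map_one _)
    refine comm_mono (H2.isMulCommutative_sdK (φ := φ) (FixedPoints.subgroup (zpowers a) G)) ?_
    rintro _ ⟨⟨g, -, rfl⟩, hg⟩
    refine H2.inl_mem_sdK.2 fun b => ?_
    have := mem_cent.1 hg (inr b) (by
      obtain ⟨_, n, rfl⟩ := b
      exact ⟨n, by simp⟩)
    refine inl_injective (φ := φ) ?_
    change inl (φ b g) = _
    rw [← H2.inr_mul_inl_mul_inv, this, mul_inv_cancel_right]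

end Cfsg.Agent.S4323
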