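import Cfsg.Statements.S4421
import Cfsg.Agent.H1.Basic

set_option autoImplicit false
open Cfsg

namespace Cfsg.Agent.S4421

open Subgroup Pointwise


/-- A factorization of a normalizer from two-step control of fusion. Let `G` be a finite group and `A ≤ S ≤ H` subgroups of `G` such that: (i) `S` controls the `G`-fusion of `A` in the sense that every `G`-conjugate of `A` lying in `S` is an `S`-conjugate of `A`; (ii) `H` controls the `G`-fusion of `S` in the same sense; (iii) every conjugate of `S` by an element of the normalizer of `A` lies in `H`. Then `N_G(A) = N_H(A) · (N_G(S) ∩ N_G(A))`: every element of the normalizer of `A` is a product of an element of `H` normalizing `A` and an element normalizing both `S` and `A`. -/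
theorem result {G : Type*} [Group G] [Finite G] (A S H : Subgroup G)
    (hAS : A ≤ S) (hSH : S ≤ H)
    (h1 : ∀ g : G, A.map (MulAut.conj g).toMonoidHom ≤ S → ∃ s ∈ S, A.map (MulAut.conj g).toMonoidHom = A.map (MulAut.conj s).toMonoidHom)
    (h2 : ∀ g : G, S.map (MulAut.conj g).toMonoidHom ≤ H → ∃ y ∈ H, S.map (MulAut.conj g).toMonoidHom = S.map (MulAut.conj y).toMonoidHom)
    (h3 : ∀ x ∈ Subgroup.normalizer (A : Set G), S.map (MulAut.conj x).toMonoidHom ≤ H) :
    ∀ x ∈ Subgroup.normalizer (A : Set G), ∃ y ∈ H ⊓ Subgroup.normalizer (A : Set G),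
      ∃ z ∈ Subgroup.normalizer (S : Set G) ⊓ Subgroup.normalizer (A : Set G), x = y * z := by
  intro x hx
  have e : ∀ (K : Subgroup G) (g : G), K.map (MulAut.conj g).toMonoidHom = MulAut.conj g • K :=
    fun _ _ => rfl
  have hn : ∀ (K : Subgroup G) (g : G), g ∈ normalizer (K : Set G) ↔ MulAut.conj g • K = K := by
    intro K g
    exact H1.mem_normalizer_iff_conj_smul_eq
  simp only [e] at h1 h2 h3
  obtain ⟨y, hy, hxy⟩ := h2 x (h3 x hx)
  have hz : MulAut.conj (y⁻¹ * x) • S = S := by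
    rw [map_mul, mul_smul, hxy, ← mul_smul, ← map_mul]; simp
  have hA : MulAut.conj (x⁻¹ * y) • A ≤ S := by
    have hz' : MulAut.conj (x⁻¹ * y) • S = S := by
      rw [map_mul, mul_smul, ← hxy, ← mul_smul, ← map_mul]; simp
    rw [← hz']
    exact pointwise_smul_le_pointwise_smul_iff.mpr hAS
  obtain ⟨s, hs, hs2⟩ := h1 _ hA
  -- x⁻¹ y A = s A ; want y' = y s', z' = s'⁻¹ y⁻¹ x
  have hA' : MulAut.conj (y⁻¹ * x) • A ≤ S := by
    rw [← hz]
    exact pointwise_smul_le_pointwise_smul_iff.mpr hAS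
  obtain ⟨t, ht, ht2⟩ := h1 _ hA'
  have hzA : t⁻¹ * (y⁻¹ * x) ∈ normalizer (A : Set G) := by
    rw [hn, map_mul, mul_smul, ht2, ← mul_smul, ← map_mul]; simp
  refine ⟨y * t, ⟨H.mul_mem hy (hSH ht), ?_⟩, t⁻¹ * (y⁻¹ * x), ⟨?_, hzA⟩, by group⟩
  · have : y * t = x * (t⁻¹ * (y⁻¹ * x))⁻¹ := by group
    rw [this]
    exact Subgroup.mul_mem _ hx (Subgroup.inv_mem _ hzA)
  · exact Subgroup.mul_mem _ (le_normalizer (S.inv_mem ht)) ((hn _ _).mpr hz)

end Cfsg.Agent.S4421
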