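import Cfsg.Statements.S4422

set_option autoImplicit false
open Cfsg

namespace Cfsg.Agent.S4422



/-- Primitive divisors of `q^e - 1` are congruent to 1 modulo `e`. Let `q ≥ 2` and `e ≥ 1` be natural numbers and let `m` be a divisor of `q^e - 1` that is coprime to `q^i - 1` for every `1 ≤ i < e` (so `m` divides the primitive part of `q^e - 1`, the largest such divisor). Then `m ≡ 1 (mod e)`. -/
theorem result (q e m : ℕ) (hq : 2 ≤ q) (he : 1 ≤ e)
    (hm : m ∣ q ^ e - 1) (hcop : ∀ i : ℕ, 1 ≤ i → i < e → Nat.Coprime m (q ^ i - 1)) :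
    m % e = 1 % e := by
  have hpos : 0 < q ^ e - 1 := by
    have := Nat.one_lt_pow (n := e) (a := q) (by omega) (by omega); omega
  induction m using Nat.recOnMul with
  | zero => simp at hm; omega
  | one => rfl
  | prime p hp =>
    haveI : Fact p.Prime := ⟨hp⟩
    have hcast : ∀ i : ℕ, p ∣ q ^ i - 1 ↔ (q : ZMod p) ^ i = 1 := by
      intro i
      rw [← ZMod.natCast_eq_zero_iff, Nat.cast_sub (Nat.one_le_pow _ _ (by omega))]
      push_cast
      exact sub_eq_zero
    have h1 := (hcast e).mp hm
    have hord : orderOf (q : ZMod p) = e := by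
      rw [orderOf_eq_iff (by omega)]
      refine ⟨h1, fun i hi hi0 h => ?_⟩
      have := hcop i hi0 hi
      exact ((Nat.Prime.coprime_iff_not_dvd hp).mp this) ((hcast i).mpr h)
    have hq0 : (q : ZMod p) ≠ 0 := by
      intro h; rw [h, zero_pow (by omega)] at h1; exact zero_ne_one h1
    have h2 := ZMod.orderOf_dvd_card_sub_one hq0
    rw [hord] at h2
    exact ((Nat.modEq_iff_dvd' hp.one_le).mpr h2).symm
  | mul a b iha ihb =>
    have ha := iha (dvd_trans (dvd_mul_right _ _) hm)
      (fun i h1 h2 => Nat.Coprime.coprime_dvd_left (dvd_mul_right _ _) (hcop i h1 h2))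
    have hb := ihb (dvd_trans (dvd_mul_left _ _) hm)
      (fun i h1 h2 => Nat.Coprime.coprime_dvd_left (dvd_mul_left _ _) (hcop i h1 h2))
    have := Nat.ModEq.mul ha hb
    rw [mul_one] at this
    exact this

end Cfsg.Agent.S4422
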