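import Cfsg.Statements.S4423
import Cfsg.Agent.H24.Zsig
import Cfsg.Agent.S4422

set_option autoImplicit false
open Cfsg

namespace Cfsg.Agent.S4423

theorem prod_le (s : Finset ℕ) : (∀ p ∈ s, 2 ≤ p) → ∏ p ∈ s, p ≤ (s.card + 1) * ∏ p ∈ s, (p - 1) := by
  refine Finset.induction_on_max s (by simp) fun a s ha ih h => ?_
  have h1 : a ∉ s := fun e => (ha a e).false
  have h2 : s.card ≤ (Finset.Ico 2 a).card := Finset.card_le_card fun p hp =>
    Finset.mem_Ico.2 ⟨h p (Finset.mem_insert_of_mem hp), ha p hp⟩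
  have h3 := h a (Finset.mem_insert_self _ _)
  rw [Nat.card_Ico] at h2
  rw [Finset.prod_insert h1, Finset.prod_insert h1, Finset.card_insert_of_notMem h1, ← mul_assoc]
  refine (Nat.mul_le_mul_left a (ih fun p hp => h p (Finset.mem_insert_of_mem hp))).trans ?_
  rw [← mul_assoc]
  obtain ⟨b, rfl⟩ : ∃ b, a = s.card + 2 + b := ⟨a - (s.card + 2), by omega⟩
  exact Nat.mul_le_mul_right _ (by rw [show s.card + 2 + b - 1 = s.card + 1 + b by omega]; nlinarith)

theorem tot_bound {n : ℕ} (hn : 512 ≤ n) : n * (2 * n + 1) < 2 ^ (n.totient / 2) := by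
  have h0 : n ≠ 0 := by omega
  have h1 : n.primeFactors.card ≤ Nat.log 2 n := Nat.le_log_of_pow_le one_lt_two
    ((Finset.pow_card_le_prod _ _ _ fun p hp => (Nat.prime_of_mem_primeFactors hp).two_le).trans
      (Nat.le_of_dvd (by omega) (Nat.prod_primeFactors_dvd n)))
  have h2 : n ≤ (Nat.log 2 n + 1) * n.totient := by
    conv_lhs => rw [← Nat.div_mul_cancel (Nat.prod_primeFactors_dvd n)]
    rw [Nat.totient_eq_div_primeFactors_mul, mul_left_comm]
    exact Nat.mul_le_mul_left _ ((prod_le _ fun p hp =>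
      (Nat.prime_of_mem_primeFactors hp).two_le).trans (Nat.mul_le_mul_right _ (by omega)))
  have h3 : 9 ≤ Nat.log 2 n := Nat.le_log_of_pow_le one_lt_two hn
  have h4 := Nat.pow_log_le_self 2 h0
  have h5 := Nat.lt_pow_succ_log_self one_lt_two n
  generalize Nat.log 2 n = L at *
  have h6 : (L + 1) * (4 * L + 9) ≤ 2 ^ L := by
    clear h1 h2 h4 h5
    induction L, h3 using Nat.le_induction with
    | base => norm_num
    | succ L h ih => rw [pow_succ]; nlinarith
  have h7 : 4 * L + 9 ≤ n.totient := Nat.le_of_mul_le_mul_left (h6.trans (h4.trans h2)) (by omega)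
  calc n * (2 * n + 1) < 2 ^ (2 * L + 4) := by
        rw [show 2 * L + 4 = (L + 1) + (L + 1) + 2 by ring, pow_add, pow_add]
        generalize 2 ^ (L + 1) = x at *; nlinarith
    _ ≤ _ := Nat.pow_le_pow_right two_pos (by omega)

theorem two_le_cycV {n : ℕ} (hn : 3 ≤ n) : 2 ^ (n.totient / 2) ≤ H24.cycV n 2 := by
  obtain ⟨k, m, hm, rfl⟩ := Nat.exists_eq_two_pow_mul_odd (show n ≠ 0 by omega)
  rcases eq_or_ne m 1 with rfl | h1
  · obtain _ | k := k
    · omega
    rw [mul_one, Nat.totient_prime_pow_succ Nat.prime_two, pow_succ',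
      H24.cycV_pow Nat.prime_two dvd_rfl, H24.cycV_two Nat.one_le_two_pow]
    exact (Nat.pow_le_pow_right two_pos (by omega)).trans (Nat.le_succ _)
  obtain ⟨r, hr, h2⟩ := Nat.exists_prime_and_dvd h1
  have h3 : r ≠ 2 := by rintro rfl; exact hm.not_two_dvd_nat h2
  obtain ⟨j, l, hl, e⟩ := Nat.exists_eq_pow_mul_and_not_dvd (show 2 ^ k * m ≠ 0 by omega) r hr.ne_one
  obtain _ | j := j
  · exact (hl (by simpa [e] using h2.mul_left (2 ^ k))).elim
  rw [e]
  refine (Nat.pow_le_pow_right two_pos ?_).trans (H24.pow_le_cycV le_rfl hr hl)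
  rw [Nat.totient_mul ((hr.coprime_iff_not_dvd.2 hl).pow_left _), Nat.totient_prime_pow_succ hr]
  obtain ⟨b, rfl⟩ : ∃ b, r = b + 3 := ⟨r - 3, by have := hr.two_le; omega⟩
  refine Nat.div_le_of_le_mul ?_
  rw [show b + 3 - 1 = b + 2 from rfl, show b + 3 - 2 = b + 1 from rfl]
  nlinarith [Nat.zero_le ((b + 3) ^ j * b * l.totient)]

theorem of_big {q e : ℕ} (hq : 2 ≤ q) (he : 3 ≤ e) (h : e * (2 * e + 1) < H24.cycV e q) :
    ∃ m : ℕ, m ∣ q ^ e - 1 ∧ (∀ i : ℕ, 1 ≤ i → i < e → Nat.Coprime m (q ^ i - 1)) ∧ 3 * e + 1 ≤ m := by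
  have key : ∀ m, m ∣ H24.cycV e q → (∀ s, s.Prime → s ∣ m → ¬ s ∣ e) → 2 * e + 1 < m →
      ∃ m : ℕ, m ∣ q ^ e - 1 ∧ (∀ i : ℕ, 1 ≤ i → i < e → Nat.Coprime m (q ^ i - 1)) ∧
        3 * e + 1 ≤ m := fun m h1 h2 h3 => by
    have h4 := h1.trans (H24.cycV_dvd (by omega))
    have h5 : ∀ i : ℕ, 1 ≤ i → i < e → Nat.Coprime m (q ^ i - 1) := fun i i1 ie =>
      Nat.coprime_of_dvd fun s hs h6 =>
        (H24.prim_of_dvd_cycV (by omega) hs (h2 s hs h6) (h6.trans h1)).2 i i1 ie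
    have h6 := Cfsg.Agent.S4422.result q e m hq (by omega) h4 h5
    have h7 := Nat.div_add_mod m e
    rw [h6, Nat.mod_eq_of_lt (by omega : 1 < e)] at h7
    have h8 : 2 < m / e := by by_contra h; nlinarith
    exact ⟨m, h4, h5, by nlinarith⟩
  by_cases h1 : ∃ r, r.Prime ∧ r ∣ e ∧ r ∣ H24.cycV e q
  · obtain ⟨r, hr, h1, m, hm⟩ := h1
    have h2 := Nat.le_of_dvd (by omega) h1
    refine key m ⟨r, by rw [hm, mul_comm]⟩ (fun s hs h3 h4 => ?_) (by by_contra h3; nlinarith)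
    have h5 : s ∣ H24.cycV e q := hm ▸ h3.mul_left r
    obtain rfl := le_antisymm (H24.intr_le (by omega) (by omega) hr h1 ⟨m, hm⟩ hs h4)
      (H24.intr_le (by omega) (by omega) hs h4 h5 hr h1)
    exact H24.intr_sq hq he hs h4 (by rw [hm, sq]; exact Nat.mul_dvd_mul_left _ h3)
  · exact key _ dvd_rfl (fun s hs h3 h4 => h1 ⟨s, hs, h4, h3⟩) (by nlinarith)

/-- the primitive part -/
def pp (q e : ℕ) : ℕ :=
  (List.range e).foldl (fun m i => if i = 0 then m else m / Nat.gcd m (q ^ i - 1)) (q ^ e - 1)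

/-- the exceptional pairs -/
def exc : List (ℕ × ℕ) :=
  [(2, 6), (2, 4), (2, 10), (2, 12), (2, 18), (3, 4), (3, 6), (5, 6), (2, 3), (2, 8), (2, 20), (4, 3), (4, 6)]

/-- totient, by recursion -/
def tot (e : ℕ) : ℕ → ℕ := fun n => Nat.rec 0 (fun a t => bif Nat.beq (e.gcd a) 1 then t + 1 else t) n

theorem tot_eq (e : ℕ) : tot e e = e.totient := by
  suffices ∀ n, tot e n = ((Finset.range n).filter e.Coprime).card from this e
  intro n
  induction n with
  | zero => rfl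
  | succ n ih =>
    rw [Finset.range_add_one, Finset.filter_insert]
    change (bif Nat.beq (e.gcd n) 1 then tot e n + 1 else tot e n) = _
    split_ifs with h
    · rw [Finset.card_insert_of_notMem (by simp), (Nat.beq_eq ▸ h : Nat.beq (e.gcd n) 1 = true), ih]; rfl
    · rw [Bool.eq_false_iff.2 (mt Nat.eq_of_beq_eq_true h), ih]; rfl

set_option synthInstance.maxSize 1000 in
theorem small : ∀ e < 512, 3 ≤ e → e * (2 * e + 1) < 2 ^ (tot e e / 2) ∨
    e * (2 * e + 1) ≤ 9 ^ tot e e ∧ ∀ q < 10, 2 ≤ q →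
    e * (2 * e + 1) ≤ (q - 1) ^ tot e e ∨ (q, e) ∈ exc ∨ (pp q e ∣ q ^ e - 1 ∧
      (∀ i < e, 1 ≤ i → Nat.Coprime (pp q e) (q ^ i - 1)) ∧ 3 * e + 1 ≤ pp q e) := by
  decide +kernel

theorem exc_le : ∀ x ∈ exc, (x.1 ^ x.2 - 1) / Nat.gcd (x.1 ^ x.2 - 1)
    ((∏ i ∈ Finset.Ico 1 x.2, (x.1 ^ i - 1)) ^ 2) ≤ 2 * x.2 + 1 := by
  decide +kernel

/-- Size of the primitive part of `q^e - 1`. For a prime power `q` and `e ≥ 3`, call a divisor of `q^e - 1` primitive when it is coprime to `q^i - 1` for every `1 ≤ i < e`; the primitive part is the largest primitive divisor. Apart from thirteen exceptional pairs, the primitive part is at least `3e + 1`: there is a primitive divisor `m ≥ 3e + 1` unless `(q, e)` is `(2, 6)` (where every primitive divisor is 1), one of `(2,4), (2,10), (2,12), (2,18), (3,4), (3,6), (5,6)` (where the primitive part is exactly `e + 1`), or one of `(2,3), (2,8), (2,20), (4,3), (4,6)` (where it is exactly `2e + 1`). The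 statement asserts the existence of a primitive divisor `m ≥ 3e + 1` outside the thirteen pairs, and that every primitive divisor is at most `2e + 1` for the thirteen pairs. -/
theorem result (q e : ℕ) (hq : IsPrimePow q) (he : 3 ≤ e) :
    ((q, e) ∉ [(2, 6), (2, 4), (2, 10), (2, 12), (2, 18), (3, 4), (3, 6), (5, 6), (2, 3), (2, 8), (2, 20), (4, 3), (4, 6)] →
      ∃ m : ℕ, m ∣ q ^ e - 1 ∧ (∀ i : ℕ, 1 ≤ i → i < e → Nat.Coprime m (q ^ i - 1)) ∧ 3 * e + 1 ≤ m) ∧
    ((q, e) ∈ [(2, 6), (2, 4), (2, 10), (2, 12), (2, 18), (3, 4), (3, 6), (5, 6), (2, 3), (2, 8), (2, 20), (4, 3), (4, 6)] →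
      ∀ m : ℕ, m ∣ q ^ e - 1 → (∀ i : ℕ, 1 ≤ i → i < e → Nat.Coprime m (q ^ i - 1)) → m ≤ 2 * e + 1) := by
  have h2 := hq.two_le
  have lt : (q - 1) ^ e.totient < H24.cycV e q :=
    Polynomial.sub_one_pow_totient_lt_natAbs_cyclotomic_eval (by omega) (by omega)
  refine ⟨fun h => ?_, fun h m h3 h4 => ?_⟩
  · rcases lt_or_ge (2 ^ (e.totient / 2)) (e * (2 * e + 1) + 1) with h1 | h1
    · obtain ⟨h3, h4⟩ := (tot_eq e ▸ small e (by
        by_contra h3; have := tot_bound (not_lt.1 h3); omega) he).resolve_left (by omega)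
      rcases lt_or_ge q 10 with h5 | h5
      · rcases h4 q h5 h2 with h6 | h6 | h6
        · exact of_big h2 he (h6.trans_lt lt)
        · exact (h h6).elim
        · exact ⟨_, h6.1, fun i a b => h6.2.1 i b a, h6.2.2⟩
      · exact of_big h2 he ((h3.trans (Nat.pow_le_pow_left (by omega) _)).trans_lt lt)
    · rcases h2.eq_or_lt with rfl | h3
      · exact of_big h2 he (h1.trans (two_le_cycV he))
      · exact of_big h2 he (lt_of_lt_of_le h1 (le_of_lt (((Nat.pow_le_pow_right two_pos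
          (Nat.div_le_self _ _)).trans (Nat.pow_le_pow_left (by omega) _)).trans_lt lt)))
  · have h5 : 0 < q ^ e - 1 := Nat.sub_pos_of_lt (Nat.one_lt_pow (by omega) h2)
    refine (Nat.le_of_dvd (Nat.div_pos (Nat.gcd_le_left _ h5) (Nat.gcd_pos_of_pos_left _ h5))
      ?_).trans (exc_le (q, e) h)
    refine (((Nat.Coprime.prod_right fun i hi => h4 i (Finset.mem_Ico.1 hi).1
      (Finset.mem_Ico.1 hi).2).pow_right 2).coprime_dvd_right
      (Nat.gcd_dvd_right (q ^ e - 1) _)).dvd_of_dvd_mul_right ?_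
    rwa [Nat.div_mul_cancel (Nat.gcd_dvd_left _ _)]

end Cfsg.Agent.S4423
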