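import Cfsg.Statements.S4425
import Cfsg.Agent.H8.Ht

set_option autoImplicit false
open Cfsg

namespace Cfsg.Agent.S4425

open H8 H28 H5 MonoidAlgebra
open H7 (eB fB VG redG ev fB_mem_VG isPBlock_principalBlock isPBlock_nonempty)

/-- Let χ be an irreducible character of the finite group G, p a prime, p^a the p-part of the order of G and p^b the p-part of the degree χ(1). Let χ̃ be the class function equal to p^a · χ on p-regular elements and zero on p-singular elements. Then p^(−b) · χ̃ is a generalized character of G, while p^(−(b+1)) · χ̃ is not. -/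
theorem result {G : Type*} [Group G] [Finite G] (p : ℕ) [Fact p.Prime] (χ : Cfsg.IrrCharacter G) : Cfsg.IsGeneralizedCharacter G (fun x : G => if p ∣ orderOf x then (0 : ℂ) else ((p ^ ((Nat.card G).factorization p - (Cfsg.charDegree (χ : G → ℂ)).factorization p) : ℕ) : ℂ) * (χ : G → ℂ) x) ∧ ¬ Cfsg.IsGeneralizedCharacter G (fun x : G => if p ∣ orderOf x then (0 : ℂ) else ((p ^ (Nat.card G).factorization p : ℕ) : ℂ) / ((p ^ ((Cfsg.charDegree (χ : G → ℂ)).factorization p + 1) : ℕ) : ℂ) * (χ : G → ℂ) x) := by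
  have := Fintype.ofFinite G
  obtain ⟨M, hM⟩ := H7.exists_isPModular (Fact.out : p.Prime)
  have h0 := val_p_ne_zero hM
  have hp : (p : ℂ) ≠ 0 := Nat.cast_ne_zero.2 hM.1.ne_zero
  have hle := H21.factorization_degree_le (p := p) χ
  rw [regfun_eq, regfun_eq]
  constructor
  · refine ((isClassFunction_rp χ.2.isClassFunction).smul _).isGeneralizedCharacter_of_classInner
      fun ψ hψ => ?_
    obtain ⟨n, hn⟩ := H21.exists_int_pow_mul_inner_rp hM.1 χ.2.isGeneralizedCharacter
      hψ.isGeneralizedCharacter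
    rw [classInner_smul_left]
    refine H7.exists_int_of_pow_mul hM ?_ (k := (charDegree χ.1).factorization p) (n := n) ?_
    · rw [mem_V_iff, inner_rp_eq_omega χ hψ.isGeneralizedCharacter, map_mul, map_mul, map_div₀,
        val_card hM, H7.val_irr_one hM, Nat.cast_pow, map_pow, mul_left_comm, mul_div_assoc',
        ← pow_add, Nat.sub_add_cancel hle, div_self (pow_ne_zero _ h0), mul_one]
      exact mem_V_iff.1 (H7.omega_zreg_mem_V χ ⟨ψ, hψ⟩)
    · rw [← hn, rp_eq, ← mul_assoc, Nat.cast_pow, ← pow_add, Nat.add_sub_cancel' hle]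
  · intro h
    obtain ⟨ψ, -, h1⟩ := H7.exists_lam_zreg_ne_zero hM (H7.isPBlock_blockOf χ)
      (H7.mem_blockOf_self hM χ)
    obtain ⟨n, hn⟩ := h.exists_classInner_int ψ.2.isGeneralizedCharacter
    have h2 := val_intCast_le_one M n
    rw [← hn, classInner_smul_left, inner_rp_eq_omega χ ψ.2.isGeneralizedCharacter, map_mul,
      map_mul, red_ne_zero_iff.1 h1, map_div₀, map_div₀, val_card hM, H7.val_irr_one hM,
      Nat.cast_pow, Nat.cast_pow, map_pow, map_pow, one_mul, div_mul_div_comm, mul_comm,
      mul_div_mul_right _ _ (pow_ne_zero _ h0), div_le_one₀ (pow_pos (val_p_pos hM) _),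
      val_p_pow_le_iff hM] at h2
    omega

end Cfsg.Agent.S4425
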