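import Cfsg.Statements.S4427
import Cfsg.Agent.H21.Mod3

set_option autoImplicit false
open Cfsg

namespace Cfsg.Agent.S4427

open H5 H7 H8 H21 Finset
open scoped ComplexConjugate

variable {G : Type*} [Group G] [Finite G] {p : ℕ} {M : Ideal AlgInt}

theorem ex_j0 (W : Wed G M) (hM : IsPModular p M) :
    ∃ j0, ∀ j, W.d (irrOne G) j = if j = j0 then 1 else 0 := by
  have h := W.degree_eq hM (irrOne G)
  have h1 : charDegree (irrOne G).1 = 1 := by simp [charDegree, irrOne]
  rw [h1] at h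
  have hle : ∑ j, W.d (irrOne G) j ≤ 1 := h ▸ sum_le_sum fun j _ => Nat.le_mul_of_pos_right _ (W.pos j)
  obtain ⟨j0, h0⟩ : ∃ j0, W.d (irrOne G) j0 ≠ 0 := by
    by_contra hc
    push Not at hc
    simp [hc] at h
  refine ⟨j0, fun j => ?_⟩
  split_ifs with e
  · subst e
    have := single_le_sum (f := fun j => W.d (irrOne G) j) (fun _ _ => Nat.zero_le _) (mem_univ j)
    omega
  · have := add_le_sum (f := fun j => W.d (irrOne G) j) (fun _ _ => Nat.zero_le _) (mem_univ j)
      (mem_univ j0) e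
    omega

theorem ex_mult (W : Wed G M) (hM : IsPModular p M) {j0 : Fin W.L}
    (h0 : ∀ j, W.d (irrOne G) j = if j = j0 then 1 else 0) (H : Subgroup G) [Fintype H]
    (hH : ¬ p ∣ Nat.card H) (χ : IrrCharacter G) :
    ∃ n : ℕ, W.d χ j0 ≤ n ∧ (Nat.card H : ℂ)⁻¹ * ∑ x : H, χ.1 x = n := by
  have L : W.Lift _ _ := ⟨incl_fB_singleton_mem hM hH (irrOne H), incl_fB_idem _, rfl⟩
  set a := W.π (redG M (incl H (fB {irrOne H})))
  have key : ∀ ψ : IrrCharacter G, (Nat.card H : ℂ)⁻¹ * ∑ x : H, ψ.1 x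
      = ((∑ j, (a j).rank * W.d ψ j : ℕ) : ℂ) := fun ψ => by
    have h2 := L.ev_eq_sum ψ.2.isClassFunction
    simp only [ev_incl, ev_fB_singleton, W.ev_i] at h2
    push_cast
    rw [← h2]
    simp [irrOne, classInner]
  have h1 := key (irrOne G)
  simp only [h0, mul_ite, mul_one, mul_zero, sum_ite_eq', mem_univ, if_true] at h1
  have h3 : (a j0).rank = 1 := by
    have : (Nat.card H : ℂ) ≠ 0 := card_ne_zero_complex _
    simp only [irrOne, sum_const, card_univ, nsmul_eq_mul, mul_one, ← Nat.card_eq_fintype_card] at h1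
    rw [inv_mul_cancel₀ this] at h1
    exact_mod_cast h1.symm
  refine ⟨_, ?_, key χ⟩
  have := single_le_sum (f := fun j => (a j).rank * W.d χ j) (fun _ _ => Nat.zero_le _) (mem_univ j0)
  simpa [h3] using this

theorem dc (Q R : Subgroup G) [Fintype Q] [Fintype R] (h : (Nat.card Q).Coprime (Nat.card R)) :
    ∑ χ : IrrCharacter G, (∑ x : Q, χ.1 x) * conj (∑ y : R, χ.1 y) = Nat.card G := by
  classical
  simp only [map_sum, sum_mul_sum]
  rw [sum_comm]
  have e : ∀ x : Q, ∑ χ : IrrCharacter G, ∑ y : R, χ.1 x * conj (χ.1 y)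
      = if x = 1 then (Nat.card G : ℂ) else 0 := fun x => by
    rw [sum_comm]
    have e2 : ∀ y : R, ∑ χ : IrrCharacter G, χ.1 x * conj (χ.1 y)
        = if y = 1 then (if x = 1 then (Nat.card G : ℂ) else 0) else 0 := fun y => by
      by_cases hc : IsConj (x : G) y
      · have o := orderOf_eq_of_isConj hc
        have o1 : orderOf (x : G) = 1 := Nat.eq_one_of_dvd_coprimes h
          (Q.orderOf_dvd_natCard x.2) (o ▸ R.orderOf_dvd_natCard y.2)
        have x1 : x = 1 := Subtype.ext (orderOf_eq_one_iff.1 o1)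
        have y1 : y = 1 := Subtype.ext (orderOf_eq_one_iff.1 (o ▸ o1))
        rw [sum_irr_mul_conj_of_isConj hc, if_pos y1, if_pos x1, x1]
        simp
      · rw [sum_irr_mul_conj_of_not_isConj hc]
        split_ifs with y1 x1
        · exact (hc (by rw [x1, y1]; exact IsConj.refl _)).elim
        all_goals rfl
    simp [e2]
  simp [e]


/-- Let G be a finite group of order p^a · q^b · r^c with p, q, r distinct primes, and suppose that G has exactly q^b · r^c elements of order not divisible by p. Then G has a normal p-complement: a normal subgroup of order q^b · r^c. -/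
theorem result {G : Type*} [Group G] [Finite G] (p q r a b c : ℕ) (hp : p.Prime) (hq : q.Prime) (hr : r.Prime) (hpq : p ≠ q) (hpr : p ≠ r) (hqr : q ≠ r) (hG : Nat.card G = p ^ a * q ^ b * r ^ c) (hcount : Nat.card {g : G // ¬ p ∣ orderOf g} = q ^ b * r ^ c) : ∃ N : Subgroup G, N.Normal ∧ Nat.card N = q ^ b * r ^ c := by
  have : Fact p.Prime := ⟨hp⟩
  have : Fact q.Prime := ⟨hq⟩
  have : Fact r.Prime := ⟨hr⟩
  classical
  have := Fintype.ofFinite G
  obtain ⟨M, hM⟩ := exists_isPModular hp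
  obtain ⟨W⟩ := exists_wed G M
  obtain ⟨j0, h0⟩ := ex_j0 W hM
  obtain ⟨Q, hQ⟩ : ∃ Q : Subgroup G, Nat.card Q = q ^ b :=
    Sylow.exists_subgroup_card_pow_prime q (hG ▸ (Dvd.intro_left (p ^ a) rfl).mul_right _)
  obtain ⟨R, hR⟩ : ∃ R : Subgroup G, Nat.card R = r ^ c :=
    Sylow.exists_subgroup_card_pow_prime r (hG ▸ Dvd.intro_left _ rfl)
  choose α hα hα' using ex_mult W hM h0 Q (fun h =>
    hpq ((Nat.prime_dvd_prime_iff_eq hp hq).1 (hp.dvd_of_dvd_pow (hQ ▸ h))))
  choose β hβ hβ' using ex_mult W hM h0 R (fun h =>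
    hpr ((Nat.prime_dvd_prime_iff_eq hp hr).1 (hp.dvd_of_dvd_pow (hR ▸ h))))
  have q0 : ((q ^ b : ℕ) : ℂ) ≠ 0 := Nat.cast_ne_zero.2 (pow_ne_zero _ hq.ne_zero)
  have r0 : ((r ^ c : ℕ) : ℂ) ≠ 0 := Nat.cast_ne_zero.2 (pow_ne_zero _ hr.ne_zero)
  have hs : ∑ χ, α χ * β χ = p ^ a := by
    have h := dc Q R (by rw [hQ, hR]; exact Nat.coprime_pow_primes _ _ hq hr hqr)
    have e1 : ∀ χ : IrrCharacter G, ∑ x : Q, χ.1 x = (q ^ b : ℕ) * α χ := fun χ => by
      rw [← hα', hQ, ← mul_assoc, mul_inv_cancel₀ q0, one_mul]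
    have e2 : ∀ χ : IrrCharacter G, ∑ x : R, χ.1 x = (r ^ c : ℕ) * β χ := fun χ => by
      rw [← hβ', hR, ← mul_assoc, mul_inv_cancel₀ r0, one_mul]
    simp only [e1, e2, map_mul, map_natCast, hG] at h
    have h2 : (∑ χ, α χ * β χ) * (q ^ b * r ^ c) = p ^ a * (q ^ b * r ^ c) := by
      have : (((∑ χ, α χ * β χ) * (q ^ b * r ^ c) : ℕ) : ℂ) = (p ^ a * q ^ b * r ^ c : ℕ) := by
        rw [← h, Nat.cast_mul, Nat.cast_sum, sum_mul]
        exact sum_congr rfl fun χ _ => by push_cast; ring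
      rw [← mul_assoc (p ^ a)]
      exact_mod_cast this
    exact Nat.eq_of_mul_eq_mul_right (Nat.mul_pos (pow_pos hq.pos _) (pow_pos hr.pos _)) h2
  have hd : ∑ χ, W.d χ j0 * W.d χ j0 ≤ p ^ a :=
    hs ▸ sum_le_sum fun χ _ => Nat.mul_le_mul (hα χ) (hβ χ)
  set Φ := W.Φ j0 with hΦ
  have g0 : (Nat.card G : ℂ) ≠ 0 := card_ne_zero_complex _
  have i1 : ∑ g, Φ g = Nat.card G := by
    have := W.inner_Φ_left j0 (irrOne G)
    rw [h0, if_pos rfl] at this
    simp only [classInner, irrOne, map_one, mul_one, Nat.cast_one] at this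
    rw [← hΦ] at this
    field_simp at this
    exact this
  have i2 : ∑ g, Complex.normSq (Φ g) = Nat.card G * (∑ χ, W.d χ j0 * W.d χ j0 : ℕ) := by
    have : classInner Φ Φ = _ := classInner_sum_irr _ _
    simp only [classInner, Complex.mul_conj, map_natCast] at this
    field_simp at this
    have h2 : ((∑ g, Complex.normSq (Φ g) : ℝ) : ℂ)
        = ((Nat.card G * (∑ χ, W.d χ j0 * W.d χ j0 : ℕ) : ℝ) : ℂ) := by
      push_cast
      rw [this]
      simp [sq]
    exact_mod_cast h2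
  let S : Finset G := univ.filter fun g => ¬ p ∣ orderOf g
  have hS : S.card = q ^ b * r ^ c := by
    rw [← hcount, Nat.card_eq_fintype_card, Fintype.card_subtype]
  have z : ∀ g ∉ S, Φ g = 0 := fun g hg => W.Φ_sing hM j0 (by simpa [S] using hg)
  have j1 : ∑ g ∈ S, (Φ g).re = Nat.card G := by
    rw [sum_subset (subset_univ S) (fun g _ hg => by simp [z g hg]), ← Complex.re_sum, i1]
    simp
  have j2 : ∑ g ∈ S, Complex.normSq (Φ g) ≤ Nat.card G * (p ^ a : ℕ) := by
    rw [sum_subset (subset_univ S) (fun g _ hg => by simp [z g hg]), i2]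
    exact mul_le_mul_of_nonneg_left (by exact_mod_cast hd) (Nat.cast_nonneg _)
  have j3 : ∑ g ∈ S, Complex.normSq (Φ g - (p ^ a : ℕ)) ≤ 0 := by
    have : ∀ g, Complex.normSq (Φ g - (p ^ a : ℕ))
        = Complex.normSq (Φ g) - 2 * (p ^ a : ℕ) * (Φ g).re + (p ^ a : ℕ) ^ 2 := fun g => by
      simp only [Complex.normSq_apply, Complex.sub_re, Complex.sub_im, Complex.natCast_re,
        Complex.natCast_im]
      ring
    simp only [this, sum_add_distrib, sum_sub_distrib, ← mul_sum, j1, sum_const, hS, nsmul_eq_mul]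
    rw [hG] at j2 ⊢
    push_cast at j2 ⊢
    nlinarith
  have j4 : ∀ g ∈ S, Φ g = (p ^ a : ℕ) := fun g hg => by
    have := (sum_eq_zero_iff_of_nonneg (fun g _ => Complex.normSq_nonneg _)).1
      (le_antisymm j3 (sum_nonneg fun g _ => Complex.normSq_nonneg _)) g hg
    exact sub_eq_zero.1 (Complex.normSq_eq_zero.1 this)
  have one : (1 : G) ∈ S := by simpa [S] using hp.ne_one
  refine ⟨charKer Φ, (W.isCharacter_Φ j0).charKer_normal, ?_⟩
  rw [← hcount]
  refine Nat.card_congr (Equiv.subtypeEquivRight fun g => ?_)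
  rw [hΦ, (W.isCharacter_Φ j0).mem_charKer_iff, ← hΦ, j4 1 one]
  refine ⟨fun h hg => ?_, fun h => j4 g (by simpa [S] using h)⟩
  rw [hΦ, W.Φ_sing hM j0 hg] at h
  exact pow_ne_zero a hp.ne_zero (by exact_mod_cast h.symm)

end Cfsg.Agent.S4427
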