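import Cfsg.Statements.S4431
import Cfsg.Agent.H8.Ht

set_option autoImplicit false
open Cfsg

namespace Cfsg.Agent.S4431

open H8 H28 H5 MonoidAlgebra
open H7 (eB fB VG redG ev fB_mem_VG isPBlock_principalBlock isPBlock_nonempty)

/-- Let H be a subgroup of the finite group G and b a block of H whose induced block B₀ in G is defined (relative to a maximal ideal M of the algebraic integers containing p). Let χ be an irreducible character of G, ψ ∈ b, and let η be the class function on H equal to p^a · χ on the p-regular elements of H and zero elsewhere, p^a being the p-part of the order of H. Then (a) if χ ∉ B₀, the number [η, ψ]/ψ(1) lies in the local ideal at M; (b) if χ ∈ B₀ has height zero, it does not. -/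
theorem result {G : Type*} [Group G] [Fintype G] (p : ℕ) [Fact p.Prime] (M : Ideal Cfsg.AlgInt) (hM : Cfsg.IsPModular p M) (H : Subgroup G) [Fintype H] (b : Set (Cfsg.IrrCharacter H)) (B₀ : Set (Cfsg.IrrCharacter G)) (hind : Cfsg.IsInducedBlock M H b B₀) (χ : Cfsg.IrrCharacter G) (ψ : Cfsg.IrrCharacter H) (hψ : ψ ∈ b) : (χ ∉ B₀ → Cfsg.MemLocalIdeal M (Cfsg.classInner (fun h : H => if p ∣ orderOf h then (0 : ℂ) else ((p ^ (Nat.card H).factorization p : ℕ) : ℂ) * (χ : G → ℂ) h) (ψ : H → ℂ) / (ψ : H → ℂ) 1)) ∧ (χ ∈ B₀ → Cfsg.blockHeight p B₀ (χ : G → ℂ) = 0 → ¬ Cfsg.MemLocalIdeal M (Cfsg.classInner (fun h : H => if p ∣ orderOf h then (0 : ℂ) else ((p ^ (Nat.card H).factorization p : ℕ) : ℂ) * (χ : G → ℂ) h) (ψ : H → ℂ) / (ψ : H → ℂ) 1)) := by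
  obtain ⟨n, hn⟩ := H21.exists_int_pow_mul_inner_rp hM.1
    (χ.2.isGeneralizedCharacter.restrict H) ψ.2.isGeneralizedCharacter
  have h1 := val_pow_mul_inner_rp hM (fun h : H => χ.1 h) ψ
  rw [rp_eq] at hn
  obtain ⟨χ₀, h2⟩ := isPBlock_nonempty hM hind.2.1
  have h3 := red_omega_restr_zreg hM hind hψ h2 χ.2.isClassFunction (H7.irr_apply_mem_V χ)
  have h4 := H7.red_omega_zreg_ne_zero_iff hM hind.2.1 h2 (χ := χ)
  rw [← h3] at h4
  rw [regfun_eq _ fun h : H => χ.1 h, classInner_smul_left, Nat.cast_pow,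
    memLocalIdeal_iff hM (isAlgebraic_div (hn ▸ isAlgebraic_int n) (isAlgebraic_irr ψ 1)),
    map_div₀, h1, H7.val_irr_one hM, mul_div_cancel_right₀ _ (pow_ne_zero _ (val_p_ne_zero hM)),
    ← red_eq_zero_iff (H7.omega_mem_V ψ (H7.zreg_mem_VG fun h => H7.irr_apply_mem_V χ h)
      (H7.zreg_mem_Zc (χ.2.isClassFunction.restrict H)))]
  exact ⟨fun h => by_contra fun h' => h (h4.1 h').1, fun h h' => h4.2 ⟨h, h'⟩⟩

end Cfsg.Agent.S4431
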