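import Cfsg.Statements.S4434
import Cfsg.Agent.H8.Dom

set_option autoImplicit false
open Cfsg

namespace Cfsg.Agent.S4434

open H8 H28 H5 MonoidAlgebra
open H7 (eB fB VG redG ev fB_mem_VG isPBlock_principalBlock isPBlock_nonempty)

/-- Let N be a normal p-subgroup of the finite group G and write Ḡ = G/N; fix a maximal ideal M of the algebraic integers containing p. Then every block B of G contains a block B̄ of Ḡ (the inflation of every member of B̄ lies in B) whose defect groups are exactly the images in Ḡ of the defect groups of B. -/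
theorem result {G : Type*} [Group G] [Finite G] (p : ℕ) [Fact p.Prime] (M : Ideal Cfsg.AlgInt) (hM : Cfsg.IsPModular p M) (N : Subgroup G) [N.Normal] (hN : IsPGroup p N) (B : Set (Cfsg.IrrCharacter G)) (hB : Cfsg.IsPBlock M B) : ∃ Bbar : Set (Cfsg.IrrCharacter (G ⧸ N)), Cfsg.IsPBlock M Bbar ∧ (∀ χ ∈ Bbar, ∀ ψ : Cfsg.IrrCharacter G, (ψ : G → ℂ) = (χ : G ⧸ N → ℂ) ∘ QuotientGroup.mk → ψ ∈ B) ∧ ∀ Dbar : Subgroup (G ⧸ N), Cfsg.IsDefectGroup p M Bbar Dbar ↔ ∃ P : Subgroup G, Cfsg.IsDefectGroup p M B P ∧ Dbar = P.map (QuotientGroup.mk' N) := by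
  have hπ := QuotientGroup.mk'_surjective N
  obtain ⟨D, hD⟩ := exists_isDefectGroup hM hB
  obtain ⟨C, h1, h2, h3⟩ := exists_dom_isDefectGroup hM hπ (by rwa [QuotientGroup.ker_mk']) hB hD
  refine ⟨C, h1, fun χ hχ ψ h => ?_, fun E => ⟨fun hE => ?_, ?_⟩⟩
  · have h4 : ψ = H7.infl _ hπ χ := Subtype.ext h
    exact h4 ▸ h2 hχ
  · obtain ⟨x, rfl⟩ := H7.isDefectGroup_conj hM h1 h3 hE
    obtain ⟨x, rfl⟩ := hπ x
    exact ⟨_, H7.isDefectGroup_cj hM hD x, (H28.map_cj _ _ _).symm⟩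
  · rintro ⟨P, hP, rfl⟩
    obtain ⟨x, rfl⟩ := H7.isDefectGroup_conj hM hB hD hP
    rw [H28.map_cj]
    exact H7.isDefectGroup_cj hM h3 _

end Cfsg.Agent.S4434
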