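import Cfsg.Statements.S4437
import Cfsg.Agent.H8.Lift

set_option autoImplicit false
open Cfsg

namespace Cfsg.Agent.S4437

open H8 H28 H5 MonoidAlgebra
open H7 (eB fB VG redG ev fB_mem_VG isPBlock_principalBlock isPBlock_nonempty)

/-- Let P be a p-subgroup of the finite group G, H = P·C_G(P), and b a block of H (relative to a maximal ideal M of the algebraic integers containing p) having P as a defect group; let B be the block of G induced by b. Let T be the stabilizer of b in N_G(P): the elements g of N_G(P) such that the g-conjugate of every member of b is again a member of b. Then B has defect group P if and only if p does not divide the index of H in T. -/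
theorem result {G : Type*} [Group G] [Fintype G] (p : ℕ) [Fact p.Prime] (M : Ideal Cfsg.AlgInt) (hM : Cfsg.IsPModular p M) (P : Subgroup G) (hP : IsPGroup p P) (H : Subgroup G) [Fintype H] (hH : H = P ⊔ Subgroup.centralizer (P : Set G)) (b : Set (Cfsg.IrrCharacter H)) (hb : Cfsg.IsPBlock M b) (hbP : Cfsg.IsDefectGroup p M b (P.subgroupOf H)) (B : Set (Cfsg.IrrCharacter G)) (hind : Cfsg.IsInducedBlock M H b B) (T : Subgroup G) (hT : ∀ g : G, g ∈ T ↔ (g ∈ Subgroup.normalizer (P : Set G) ∧ ∀ θ ∈ b, ∀ θ' : Cfsg.IrrCharacter H, (∀ h h' : H, (h' : G) = g * h * g⁻¹ → (θ' : H → ℂ) h' = (θ : H → ℂ) h) → θ' ∈ b)) : Cfsg.IsDefectGroup p M B P ↔ ¬ p ∣ H.relIndex T := by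
  haveI := charP_kk hM
  have hPH : P ≤ H := hH ▸ le_sup_left
  have hCH : 𝐂 P ≤ H := hH ▸ le_sup_right
  have hHN : H ≤ 𝐍 P := hH ▸ sup_le Subgroup.le_normalizer (Subgroup.centralizer_le_normalizer _)
  have hNH : 𝐍 P ≤ 𝐍 H := hH ▸ le_normalizer_sup le_rfl (normalizer_le_normalizer_centralizer P)
  obtain ⟨-, hB, h1⟩ := (isInducedBlock_iff_ind hM).1 hind
  have h2 := isPrim_eb hM hb
  rw [ind_norm_iff hP hPH (inf_le_right.trans hCH) le_top hHN h2 (isPrim_eB hM hB)] at h1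
  rw [isDefectGroup_subgroupOf_iff' hM hb hPH] at hbP
  have h3 : T = ⊤ ⊓ 𝐍 P ⊓ stab (eb M H b) := by
    ext g
    rw [hT, top_inf_eq, Subgroup.mem_inf]
    refine and_congr_right fun hg => ?_
    rw [stab_variant_iff (hNH hg), mem_stab, ca_eb_eq_iff (fB_mem_VG hM hb) (hNH hg)]
  have h4 : IsPrim (ZA (kk M) (𝐂 P) H) (eb M H b) :=
    (isPrim_iff_of_normal le_rfl hP hPH hHN inf_le_right hCH).1 h2
  have h5 : IsBP p ⊤ ⊤ P (eb M H b) := by
    refine ⟨le_top, hP, ?_⟩
    rw [top_inf_eq]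
    refine ⟨ZA_mono le_rfl hCH h4.mem, h4.idem, h4.ne, fun f hf hi => h4.prim f ⟨hf.1, ?_⟩ hi⟩
    rw [hH]
    exact mem_Fix_sup.2 ⟨mem_Fix_of_Supp_centralizer hf.1, hf.2⟩
  have h6 : H ≤ T := h3 ▸ le_inf (le_inf le_top hHN) (mem_Fix_iff_le_stab.1 h2.mem.2)
  have h7 : T ≤ 𝐍 P := h3 ▸ inf_le_left.trans inf_le_right
  have h8 : eb M H b ∈ Fix (kk M) T := h3 ▸ mem_Fix_nstab _ _ _
  rw [isDefectGroup_iff hM hB, isDef_iff_isDef_stab le_rfl top_le_norm_top (isPrim_eB hM hB) h5 h1,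
    ← h3]
  constructor
  · intro h9
    have := (h9.stable h6 (h7.trans hNH) h2 h8).2
    rwa [sup_eq_left.2 hPH] at this
  · intro h9
    obtain ⟨D, h10, h11⟩ := exists_isDef_ge h6 (h7.trans hNH) (h2.of_fix h6 h8) (hPH.trans h6) hP
      hbP.ne
    rwa [hbP.eq_of_le h11 (le_of_not_dvd_relIndex h10.isP h10.le (h7.trans hNH) h9) h10.isP
      h10.ne] at h10

end Cfsg.Agent.S4437
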