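import Cfsg.Statements.S4442
import Cfsg.Agent.H21.DefOne

set_option autoImplicit false
open Cfsg

namespace Cfsg.Agent.S4442

/-- Blocks of defect one. Let p be an odd prime and G a finite group whose Sylow p-subgroup P has order p; let C = C_G(P) and N = N_G(P), and fix a maximal ideal M of the algebraic integers containing p. Let B be a block of G with defect group P, b a block of C inducing B, and θ the member of b having P in its kernel (there is exactly one). Let T be the stabilizer of θ in N (the elements g ∈ N with θ(g c g⁻¹) = θ(c) for all c ∈ C) and e the index of C in T. Then e divides p − 1 and B contains exactly e + (p − 1)/e irreducible characters. Moreover B is the disjoint union of a set X of e characters and a set Y of (p − 1)/e characters such that, with f the index of C in N: every χ ∈ X has χ(1) ≡ ±(f/e)·θ(1) (mod p), there is one sign ε with ψ(1) ≡ ε f θ(1) (mod p) for all ψ ∈ Y, and all members of Y agree on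 the p-regular elements of G. -/
theorem result {G : Type*} [Group G] [Finite G] (p : ℕ) [Fact p.Prime] (M : Ideal Cfsg.AlgInt) (hM : Cfsg.IsPModular p M) (hodd : p ≠ 2) (P : Sylow p G) (hP : Nat.card P = p) (B : Set (Cfsg.IrrCharacter G)) (hB : Cfsg.IsPBlock M B) (hBP : Cfsg.IsDefectGroup p M B P) (b : Set (Cfsg.IrrCharacter (Subgroup.centralizer ((P : Subgroup G) : Set G)))) (hind : Cfsg.IsInducedBlock M (Subgroup.centralizer ((P : Subgroup G) : Set G)) b B) (θ : Cfsg.IrrCharacter (Subgroup.centralizer ((P : Subgroup G) : Set G))) (hθ : θ ∈ b) (hθP : ∀ x : Subgroup.centralizer ((P : Subgroup G) : Set G), (x : G) ∈ (P : Subgroup G) → (θ : Subgroup.centralizer ((P : Subgroup G) : Set G) → ℂ) x = (θ : Subgroup.centralizer ((P : Subgroup G) : Set G) → ℂ) 1) (T : Subgroup G) (hT : ∀ g : G, g ∈ T ↔ (g ∈ Subgroup.normalizer ((P : Subgroup G) : Set G) ∧ ∀ c c' : Subgroup.centralizer ((P : Subgroup G) : Set G), (c' : G) = g * c * g⁻¹ →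 (θ : Subgroup.centralizer ((P : Subgroup G) : Set G) → ℂ) c' = (θ : Subgroup.centralizer ((P : Subgroup G) : Set G) → ℂ) c)) (e f : ℕ) (he : (Subgroup.centralizer ((P : Subgroup G) : Set G)).relIndex T = e) (hf : (Subgroup.centralizer ((P : Subgroup G) : Set G)).relIndex (Subgroup.normalizer ((P : Subgroup G) : Set G)) = f) : e ∣ p - 1 ∧ Nat.card B = e + (p - 1) / e ∧ ∃ X Y : Set (Cfsg.IrrCharacter G), B = X ∪ Y ∧ Disjoint X Y ∧ Nat.card X = e ∧ Nat.card Y = (p - 1) / e ∧ (∀ χ ∈ X, (Cfsg.charDegree (χ : G → ℂ) : ℤ) ≡ ((f / e * Cfsg.charDegree (θ : Subgroup.centralizer ((P : Subgroup G) : Set G) → ℂ) : ℕ) : ℤ) [ZMOD p] ∨ (Cfsg.charDegree (χ : G → ℂ) : ℤ) ≡ -((f / e * Cfsg.charDegree (θ : Subgroup.centralizer ((P : Subgroup G) : Set G) → ℂ) : ℕ) : ℤ) [ZMOD p]) ∧ (∃ ε : ℤ, (ε = 1 ∨ ε = -1) ∧ ∀ ψ ∈ Y, (Cfsg.charDegree (ψ : G → ℂ) : ℤ) ≡ ε * ((f * Cfsg.charDegree (θ : Subgroup.centralizer ((P : Subgroup G) : Set G) → ℂ) : ℕ) : ℤ) [ZMOD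 p]) ∧ ∀ ψ ∈ Y, ∀ ψ' ∈ Y, ∀ g : G, ¬ p ∣ orderOf g → (ψ : G → ℂ) g = (ψ' : G → ℂ) g := by
  classical
  subst he hf
  obtain ⟨V, H, D⟩ := H21.exists_UC P (H21.cent_of_card_prime Fact.out hP)
  have := Fintype.ofFinite V
  obtain ⟨θ, rfl⟩ := D.eq_hat_of_trivial θ hθP
  obtain rfl := H7.eq_blockOf_of_mem hM hind.1 hθ
  obtain ⟨δ, ζ, a, Y, h, -⟩ := H21.UC.Root.exists_data (D := D) hM hP hind (H5.irrOne G)
  have h1 := h.card_iq_eq (T := T) fun g => by
    rw [hT]
    refine ⟨fun ⟨h1, h2⟩ => ⟨h1, fun y => ?_⟩, fun ⟨h1, h2⟩ => ⟨h1, fun c c' h3 => ?_⟩⟩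
    · have := h2 (Subgroup.inclusion D.V_le y) (Subgroup.inclusion D.V_le (D.cv ⟨g, h1⟩ y)) rfl
      rwa [D.hat_apply, D.hat_apply, D.proj_incl, D.proj_incl] at this
    · rw [D.hat_apply, D.hat_apply, D.proj_conj (n := ⟨g, h1⟩) h3, h2]
  have h2 : charDegree (D.hat θ).1 = charDegree θ.1 := by
    rw [charDegree, charDegree, D.hat_one]
  rw [h1, ← h.card_iq_mul_index, Nat.mul_div_cancel_left _ Nat.card_pos, h2]
  refine ⟨⟨Y.card, by rw [mul_comm]; exact Nat.sub_eq_of_eq_add h.card_Y.symm⟩,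
    by rw [h.card_B, h.card_Y_eq], _, _, h.B_eq, h.disjoint, h.card_X, ?_, fun χ hχ => ?_,
    ⟨δ, h.sign, fun ψ hψ => ?_⟩, fun θ hθ θ' hθ' g hg => h.exc_eq_reg hθ hθ' hg⟩
  · rw [← h.card_Y_eq, Nat.card_coe_set_eq, Set.ncard_coe_finset]
  · have h3 := h.nonexc_modEq hM hχ
    rcases h.pm' hχ with h4 | h4 <;> rw [h4] at h3
    · exact Or.inl (by simpa using h3)
    · exact Or.inr (by simpa using h3)
  · simpa [mul_assoc] using h.exc_modEq hM hψ

end Cfsg.Agent.S4442
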