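import Cfsg.Statements.S4443
import Cfsg.Agent.H8.Count

set_option autoImplicit false
open Cfsg

namespace Cfsg.Agent.S4443

open H8 H28 H5 MonoidAlgebra
open H7 (eB fB VG redG ev fB_mem_VG isPBlock_principalBlock isPBlock_nonempty)

/-- Let D be a normal p-subgroup of the finite group G, of order p^d, let p^a be the p-part of the order of G, and fix a Sylow p-subgroup S and a maximal ideal M of the algebraic integers containing p. Index by a finite type ι (via an injective map K) exactly the conjugacy classes of p-regular elements x of G for which D is a Sylow p-subgroup of C_G(x). For classes K_i, K_j let ω(i, j) be the number of pairs (y, z) ∈ K_i × K_j with z y⁻¹ ∈ S; this number is divisible by p^(a−d). Then the number of p-blocks of G having D as a defect group equals the rank over ℤ/pℤ of the matrix with (i, j) entry ω(i, j)/p^(a−d) reduced modulo p. -/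
theorem result {G : Type*} [Group G] [Finite G] (p : ℕ) [Fact p.Prime] (M : Ideal Cfsg.AlgInt) (hM : Cfsg.IsPModular p M) (D : Subgroup G) [D.Normal] (hD : IsPGroup p D) (S : Sylow p G) {ι : Type*} [Fintype ι] [DecidableEq ι] (K : ι → ConjClasses G) (hKinj : Function.Injective K) (hK : ∀ C : ConjClasses G, (∃ i, K i = C) ↔ ∃ x ∈ C.carrier, ¬ p ∣ orderOf x ∧ ∃ Q : Sylow p (Subgroup.centralizer ({x} : Set G)), (Q : Subgroup (Subgroup.centralizer ({x} : Set G))).map (Subgroup.centralizer ({x} : Set G)).subtype = D) : Nat.card {B : Set (Cfsg.IrrCharacter G) // Cfsg.IsPBlock M B ∧ Cfsg.IsDefectGroup p M B D} = (Matrix.of fun i j : ι => ((Nat.card {yz : G × G // yz.1 ∈ (K i).carrier ∧ yz.2 ∈ (K j).carrier ∧ yz.2 * yz.1⁻¹ ∈ (S : Subgroup G)} / p ^ ((Nat.card G).factorization p - (Nat.card D).factorization p) : ℕ) : ZMod p)).rank := by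
  classical
  haveI := charP_kk hM
  choose x h1 h2 Q h3 using fun i => (hK (K i)).1 ⟨i, rfl⟩
  have h4 : ∀ i, IsSylowIn p D (Subgroup.centralizer {x i}) := fun i =>
    h3 i ▸ isSylowIn_map_subtype (Q i)
  have h5 : ∀ i g, g ∈ (K i).carrier ↔ IsConj (x i) g := fun i g => by
    rw [ConjClasses.mem_carrier_iff_mk_eq, ← ConjClasses.mem_carrier_iff_mk_eq.1 (h1 i),
      ConjClasses.mk_eq_mk_iff_isConj, isConj_comm]
  have := Fintype.ofFinite {B // IsPBlock M B ∧ IsDefectGroup p M B D}
  set c := (Nat.card G).factorization p - (Nat.card D).factorization p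
  have h6 : ∀ i, val M ((Subgroup.centralizer ({x i} : Set G)).index : ℂ) = val M (p : ℂ) ^ c :=
    fun i => by
      have e1 := H7.factorization_index_add (p := p) (Subgroup.centralizer ({x i} : Set G))
      have e2 := sylowIn_factorization_card (h4 i)
      rw [val_natCast hM Subgroup.index_ne_zero_of_finite]
      congr 1
      omega
  have hp0 := pow_ne_zero c (val_p_ne_zero hM)
  have h7 : ∀ i, val M (((Subgroup.centralizer ({x i} : Set G)).index : ℂ) / p ^ c) = 1 := fun i => by
    rw [map_div₀, map_pow, h6, div_self hp0]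
  let E : Matrix ι {B // IsPBlock M B ∧ IsDefectGroup p M B D} (kk M) :=
    .of fun i B => (eB M B.1).coeff (x i)
  let L : Matrix {B // IsPBlock M B ∧ IsDefectGroup p M B D} ι (kk M) :=
    .of fun B j => lB M B.1 (H7.classSum (kk M) (x j))
  have h8 : L * E = 1 := by
    ext B B'
    let e : ι ≃ {C // ∃ i, K i = C} := Equiv.ofInjective K hKinj
    have := Fintype.ofFinite {C // ∃ i, K i = C}
    rw [Matrix.one_apply, Matrix.mul_apply]
    simp only [Subtype.ext_iff]
    rw [← lB_eB hM B.2.1 B'.2.1, ← sum_subtype_lB hM B.2.1 (H7.eB_mem_Zc _) (fun C => ∃ i, K i = C)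
      fun y e1 e2 => ?_, ← e.sum_comp]
    · refine Finset.sum_congr rfl fun i _ => ?_
      have e1 : IsConj (x i) (Quotient.out (e i).1) :=
        (h5 i _).1 (ConjClasses.mem_carrier_iff_mk_eq.2 (H7.mk_out_conjClasses _))
      simp only [L, E, Matrix.of_apply]
      rw [H7.classSum_eq_of_isConj e1, H7.Zc_coeff_of_isConj (H7.eB_mem_Zc _) e1, mul_comm]
    · obtain ⟨g, hg⟩ := exists_sylow_of_coeff_of_lB hM B'.2.1 B.2.1 B'.2.2 B.2.2 e1 e2
      rw [cj_eq_self_of_normal] at hg
      exact (hK _).2 ⟨y, ConjClasses.mem_carrier_mk, H7.not_dvd_of_coeff_eB_ne_zero hM B'.2.1 e1,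
        hg.exists_sylow⟩
  rw [← rank_map_eq (ZMod.castHom (dvd_refl p) (kk M)), Nat.card_eq_fintype_card,
    ← rank_mul_of_mul_eq_one L E h8, ← Matrix.rank_mul_eq_right_of_isUnit_det (Matrix.diagonal fun i =>
      red M (((Subgroup.centralizer ({x i} : Set G)).index : ℂ) / p ^ c)) (E * L) (by
        rw [Matrix.det_diagonal]
        exact (Finset.prod_ne_zero_iff.2 fun i _ => red_ne_zero_iff.2 (h7 i)).isUnit)]
  congr 1
  ext i j
  obtain ⟨e1, e2⟩ := robN_spec hM S (H7.isPPart_one (h2 i)) (x j)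
  rw [inv_one, one_mul, sum_blocks_eq_subtype (fun B => IsDefectGroup p M B D) _ fun B hB h =>
    isDefectGroup_of_coeff_of_lB hM hB (left_ne_zero_of_mul h) (right_ne_zero_of_mul h)
      (H8.le_centralizer_singleton_iff.1 (h4 i).le) (h4 j)] at e2
  have h0 : ((Subgroup.centralizer ({x i} : Set G)).index : ℂ) ≠ 0 :=
    Nat.cast_ne_zero.2 Subgroup.index_ne_zero_of_finite
  have e3 : p ^ c ∣ robN S (x i) (x j) := by
    rw [mem_V_iff, map_div₀, h6, div_le_one₀ (pow_pos (val_p_pos hM) _)] at e1
    exact (val_natCast_le_iff hM _ _).1 e1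
  rw [Matrix.diagonal_mul]
  simp only [Matrix.mul_apply, Matrix.map_apply, Matrix.of_apply, E, L, h5, map_natCast]
  rw [← e2, ← red_mul (mem_V_iff.2 (h7 i).le) e1, ← red_natCast (M := M), ← robN, Nat.cast_div e3
    (by exact_mod_cast pow_ne_zero c hM.1.ne_zero)]
  congr 1
  push_cast
  field_simp

end Cfsg.Agent.S4443
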