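import Cfsg.Statements.S4444
import Cfsg.Agent.H6.Glaub3

set_option autoImplicit false
open Cfsg

namespace Cfsg.Agent.S4444
open H6 H20 H19

/-- The Glauberman correspondence for a p-group of operators. Inside a finite group Γ let S normalise G with the orders of G and S coprime, S a p-group, and let C = G ⊓ C(S) be the fixed points. Call an irreducible character χ of G S-invariant when χ(s g s⁻¹) = χ(g) for s ∈ S, g ∈ G. Then: (i) for every S-invariant χ there is exactly one irreducible character β of C whose multiplicity [χ_C, β] in the restriction of χ is not divisible by p; (ii) that multiplicity is ≡ 1 or ≡ −1 (mod p); (iii) distinct S-invariant χ give distinct β; (iv) every irreducible character of C arises in this way. So χ ↦ β is a bijection from the S-invariant irreducible characters of G onto the irreducible characters of C. -/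
theorem result {Γ : Type*} [Group Γ] [Fintype Γ] (G S : Subgroup Γ) [Fintype G] (hnorm : ∀ s ∈ S, ∀ g ∈ G, s * g * s⁻¹ ∈ G) (hcop : (Nat.card G).Coprime (Nat.card S)) (p : ℕ) (hp : p.Prime) (hS : IsPGroup p S) (C : Subgroup Γ) [Fintype C] (hC : C = G ⊓ Subgroup.centralizer (S : Set Γ)) (hCG : C ≤ G) : (∀ χ : Cfsg.IrrCharacter G, (∀ s ∈ S, ∀ g g' : G, (g' : Γ) = s * g * s⁻¹ → (χ : G → ℂ) g' = (χ : G → ℂ) g) → ∃! β : Cfsg.IrrCharacter C, ∃ m : ℕ, Cfsg.classInner (fun c : C => (χ : G → ℂ) ⟨c, hCG c.2⟩) (β : C → ℂ) = (m : ℂ) ∧ ¬ p ∣ m) ∧ (∀ χ : Cfsg.IrrCharacter G, (∀ s ∈ S, ∀ g g' : G, (g' : Γ) = s * g * s⁻¹ → (χ : G → ℂ) g' = (χ : G → ℂ) g) → ∀ β : Cfsg.IrrCharacter C, ∀ m : ℕ, Cfsg.classInner (fun c : C => (χ : G → ℂ) ⟨c, hCG c.2⟩) (β : C → ℂ) = (m : ℂ) → ¬ p ∣ m → ((m : ℤ) ≡ 1 [ZMOD p] ∨ (m : ℤ) ≡ -1 [ZMOD p])) ∧ (∀ χ χ' : Cfsg.IrrCharacter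 G, (∀ s ∈ S, ∀ g g' : G, (g' : Γ) = s * g * s⁻¹ → (χ : G → ℂ) g' = (χ : G → ℂ) g) → (∀ s ∈ S, ∀ g g' : G, (g' : Γ) = s * g * s⁻¹ → (χ' : G → ℂ) g' = (χ' : G → ℂ) g) → ∀ β : Cfsg.IrrCharacter C, ∀ m m' : ℕ, Cfsg.classInner (fun c : C => (χ : G → ℂ) ⟨c, hCG c.2⟩) (β : C → ℂ) = (m : ℂ) → ¬ p ∣ m → Cfsg.classInner (fun c : C => (χ' : G → ℂ) ⟨c, hCG c.2⟩) (β : C → ℂ) = (m' : ℂ) → ¬ p ∣ m' → χ = χ') ∧ (∀ β : Cfsg.IrrCharacter C, ∃ χ : Cfsg.IrrCharacter G, (∀ s ∈ S, ∀ g g' : G, (g' : Γ) = s * g * s⁻¹ → (χ : G → ℂ) g' = (χ : G → ℂ) g) ∧ ∃ m : ℕ, Cfsg.classInner (fun c : C => (χ : G → ℂ) ⟨c, hCG c.2⟩) (β : C → ℂ) = (m : ℂ) ∧ ¬ p ∣ m) := by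
  subst hC
  have hn := norms_of_conj hnorm
  have hc := glauberman_p' hp (PiN.of_isPGroup hp hS) hn hcop
  simp only [← amb_mem_IrrI hn, dot_amb hCG]
  have key : ∀ θ ∈ IrrI G S, ∀ β ∈ Irr (G ⊓ C(S)), Gl p (G ⊓ C(S)) θ β ↔
      ∃ m : ℕ, dot (G ⊓ C(S)) θ β = m ∧ ¬ p ∣ m := fun θ hθ β hβ => by
    obtain ⟨γ, -, h2⟩ := hc.ex θ hθ
    obtain ⟨m, hm⟩ := exists_dot_nat (irr_chr (irrI_irr hθ)) hCG (irr_chr hβ)
    have h3 := h2.iff_not_dvd hp hβ (m := m) (by simpa using hm)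
    rw [Int.natCast_dvd_natCast] at h3
    refine ⟨fun h => ⟨m, hm, h3.2 (h.unique hp h2)⟩, fun ⟨m', h4, h5⟩ => ?_⟩
    obtain rfl : m = m' := by exact_mod_cast hm.symm.trans h4
    exact h3.1 h5 ▸ h2
  refine ⟨fun χ h => ?_, fun χ h β m h1 h2 => ?_, fun χ χ' h h' β m m' h1 h2 h3 h4 => ?_,
    fun β => ?_⟩
  · obtain ⟨γ, h1, h2⟩ := hc.ex _ h
    obtain ⟨β, rfl⟩ := exists_amb h1
    exact ⟨β, (key _ h _ h1).1 h2, fun β' h3 =>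
      amb_inj.1 (((key _ h _ (amb_irr β')).2 h3).unique hp h2)⟩
  · exact ((key _ h _ (amb_irr β)).2 ⟨m, h1, h2⟩).modEq (by simpa using h1)
  · exact amb_inj.1 (hc.inj _ h _ h' _ (amb_irr β) ((key _ h _ (amb_irr β)).2 ⟨m, h1, h2⟩)
      ((key _ h' _ (amb_irr β)).2 ⟨m', h3, h4⟩))
  · obtain ⟨θ, h1, h2⟩ := hc.surj _ (amb_irr β)
    obtain ⟨χ, rfl⟩ := exists_amb (irrI_irr h1)
    exact ⟨χ, h1, (key _ h1 _ (amb_irr β)).1 h2⟩

end Cfsg.Agent.S4444
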