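import Cfsg.Statements.S4445
import Cfsg.Agent.H6.Glaub3

set_option autoImplicit false
open Cfsg

namespace Cfsg.Agent.S4445
open H6 H20 H19

/-- Inside a finite group Γ let the solvable subgroup S normalise G with the orders of G and S coprime. Then the number of S-invariant irreducible characters of G (χ(s g s⁻¹) = χ(g) for all s ∈ S, g ∈ G) equals the number of conjugacy classes of G mapped to themselves by conjugation by every element of S. -/
theorem result {Γ : Type*} [Group Γ] [Fintype Γ] (G S : Subgroup Γ) [Fintype G] (hnorm : ∀ s ∈ S, ∀ g ∈ G, s * g * s⁻¹ ∈ G) (hcop : (Nat.card G).Coprime (Nat.card S)) (hsolv : Group.IsSolvable S) : Nat.card {χ : Cfsg.IrrCharacter G // (∀ s ∈ S, ∀ g g' : G, (g' : Γ) = s * g * s⁻¹ → (χ : G → ℂ) g' = (χ : G → ℂ) g)} = Nat.card {K : ConjClasses G // ∀ s ∈ S, ∀ g g' : G, (g' : Γ) = s * g * s⁻¹ → ConjClasses.mk g = K → ConjClasses.mk g' = K} := by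
  have hn := norms_of_conj hnorm
  rw [card_amb (IrrI_subset G S) (amb_mem_IrrI hn), card_IrrI hsolv hn hcop, card_Irr_classes]
  refine ((card_inv_classes hn hcop (Or.inl hsolv) (q' := fun _ => True) (fun x h s hs => ?_)
      fun x => ⟨fun _ => trivial, fun _ s hs g g' e e' => ?_⟩).trans
      (Nat.card_congr (Equiv.subtypeUnivEquiv fun _ => trivial))).symm
  · exact isConj_coe_iff.1 (ConjClasses.mk_eq_mk_iff_isConj.1
      (h s hs x ⟨_, hnorm s hs x x.2⟩ rfl rfl).symm)
  · obtain ⟨k, h1, h2⟩ := isConj_coe_iff.1 (ConjClasses.mk_eq_mk_iff_isConj.1 e')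
    refine ConjClasses.mk_eq_mk_iff_isConj.2 (isConj_coe_iff.2 ⟨_, hnorm s hs k h1, ?_⟩)
    have h3 : s * x * s⁻¹ = x := mul_inv_eq_iff_eq_mul.2 (mem_cent.1 x.2.2 s hs)
    change _ = (x : Γ) at h2 ⊢
    rw [e, ← h3, ← h2]; group

end Cfsg.Agent.S4445
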