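import Cfsg.Statements.S4446
import Cfsg.Agent.H6.Glaub4

set_option autoImplicit false
open Cfsg

namespace Cfsg.Agent.S4446
open H6 H20 H19

/-- Let the finite group Γ be generated by a normal subgroup G and a cyclic subgroup S of coprime orders, C = G ⊓ C(S), and let χ be an S-invariant irreducible character of G with canonical extension χ̂ to Γ (the extension whose determinantal order is coprime to the order of S). Then there are exactly one irreducible character β of C and one sign ε such that χ̂(c s) = ε β(c) for every c ∈ C and every generator s of S; this β is a constituent of the restriction of χ to C; distinct S-invariant χ give distinct β; and every irreducible character of C arises in this way. -/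
theorem result {Γ : Type*} [Group Γ] [Fintype Γ] (G S : Subgroup Γ) [Fintype G] (hnorm : ∀ s ∈ S, ∀ g ∈ G, s * g * s⁻¹ ∈ G) (hcop : (Nat.card G).Coprime (Nat.card S)) (htop : G ⊔ S = ⊤) (hcyc : IsCyclic S) (C : Subgroup Γ) [Fintype C] (hC : C = G ⊓ Subgroup.centralizer (S : Set Γ)) (hCG : C ≤ G) : (∀ (χ : Cfsg.IrrCharacter G) (χh : Cfsg.IrrCharacter Γ), (∀ s ∈ S, ∀ g g' : G, (g' : Γ) = s * g * s⁻¹ → (χ : G → ℂ) g' = (χ : G → ℂ) g) → (∀ g : G, (χh : Γ → ℂ) g = (χ : G → ℂ) g) → (Cfsg.detOrder (χh : Γ → ℂ)).Coprime (Nat.card S) → (∃! βε : Cfsg.IrrCharacter C × ℤ, (βε.2 = 1 ∨ βε.2 = -1) ∧ ∀ c : C, ∀ s : Γ, Subgroup.zpowers s = S → (χh : Γ → ℂ) ((c : Γ) * s) = (βε.2 : ℂ) * (βε.1 : C → ℂ) c) ∧ ∀ β : Cfsg.IrrCharacter C, ∀ ε : ℤ, (ε = 1 ∨ ε = -1) → (∀ c : C, ∀ s : Γ, Subgroup.zpowers s = S → (χh : Γ → ℂ) ((c : Γ) * s) = (ε : ℂ) * (β : C → ℂ) c) → Cfsg.classInner (fun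 c : C => (χ : G → ℂ) ⟨c, hCG c.2⟩) (β : C → ℂ) ≠ 0) ∧ (∀ (χ χ' : Cfsg.IrrCharacter G) (χh χh' : Cfsg.IrrCharacter Γ), (∀ s ∈ S, ∀ g g' : G, (g' : Γ) = s * g * s⁻¹ → (χ : G → ℂ) g' = (χ : G → ℂ) g) → (∀ s ∈ S, ∀ g g' : G, (g' : Γ) = s * g * s⁻¹ → (χ' : G → ℂ) g' = (χ' : G → ℂ) g) → (∀ g : G, (χh : Γ → ℂ) g = (χ : G → ℂ) g) → (∀ g : G, (χh' : Γ → ℂ) g = (χ' : G → ℂ) g) → (Cfsg.detOrder (χh : Γ → ℂ)).Coprime (Nat.card S) → (Cfsg.detOrder (χh' : Γ → ℂ)).Coprime (Nat.card S) → ∀ β : Cfsg.IrrCharacter C, ∀ ε ε' : ℤ, (ε = 1 ∨ ε = -1) → (ε' = 1 ∨ ε' = -1) → (∀ c : C, ∀ s : Γ, Subgroup.zpowers s = S → (χh : Γ → ℂ) ((c : Γ) * s) = (ε : ℂ) * (β : C → ℂ) c) → (∀ c : C, ∀ s : Γ, Subgroup.zpowers s = S → (χh' : Γ → ℂ) ((c : Γ) * s) = (ε' : ℂ) * (β : C → ℂ) c) → χ = χ') ∧ (∀ β : Cfsg.IrrCharacter C, ∃ (χ : Cfsg.IrrCharacter G) (χh : Cfsg.IrrCharacter Γ) (ε : ℤ), (∀ s ∈ S, ∀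 g g' : G, (g' : Γ) = s * g * s⁻¹ → (χ : G → ℂ) g' = (χ : G → ℂ) g) ∧ (∀ g : G, (χh : Γ → ℂ) g = (χ : G → ℂ) g) ∧ (Cfsg.detOrder (χh : Γ → ℂ)).Coprime (Nat.card S) ∧ (ε = 1 ∨ ε = -1) ∧ ∀ c : C, ∀ s : Γ, Subgroup.zpowers s = S → (χh : Γ → ℂ) ((c : Γ) * s) = (ε : ℂ) * (β : C → ℂ) c) := by
  have hn := norms_of_conj hnorm
  obtain ⟨s, rfl⟩ := exists_zpowers_eq hcyc
  rw [cent_zpowers] at hC
  subst hC
  have hs := hn (Subgroup.mem_zpowers s)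
  have hc : (orderOf s).Coprime #G := Nat.card_zpowers s ▸ hcop.symm
  have key : ∀ χ : Γ → ℂ, Can (G ⊔ Subgroup.zpowers s) G χ → ∀ (β : IrrCharacter ↥(G ⊓ C[s])) (ε : ℤ),
      (∀ c : ↥(G ⊓ C[s]), ∀ t, Subgroup.zpowers t = Subgroup.zpowers s →
        χ (c * t) = ε * (β : _ → ℂ) c) ↔ Res (G ⊓ C[s]) (tr s χ) = (ε : ℂ) • amb β :=
    fun χ h β ε => by
      have hi := irr_cinv h.irr
      rw [htop] at hi
      refine ⟨fun h1 => funext fun x => ?_, fun h1 c t ht => ?_⟩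
      · by_cases hx : x ∈ G ⊓ C[s]
        · rw [Res_of_mem _ hx, tr_apply, hi.comm trivial, h1 ⟨x, hx⟩ s rfl, Pi.smul_apply,
            amb_of_mem β hx, smul_eq_mul]
        · simp [Res_of_not_mem _ hx, irr_zero (amb_irr β) hx]
      · obtain ⟨k, h2, rfl⟩ := exists_pow_of_zpowers_eq ht
        rw [hi.comm trivial, h.apply_pow hs hc h2 c.2]
        simpa using congrFun h1 c
  have hne : ∀ {χ β : Γ → ℂ} {ε : ℤ}, (ε = 1 ∨ ε = -1) → β ∈ Irr (G ⊓ C[s]) →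
      Res (G ⊓ C[s]) χ = (ε : ℂ) • β → dot (G ⊓ C[s]) χ β ≠ 0 := fun h1 h2 h3 => by
    rw [← dot_Res_left, h3, dot_smul_left, irr_dot_self h2]
    rcases h1 with rfl | rfl <;> simp
  refine ⟨fun χ χh _ h1 h2 => ?_, fun χ χ' χh χh' _ _ h1 h1' h2 h2' β ε ε' h3 h3' h4 h4' => ?_,
    fun β => ?_⟩
  · obtain ⟨h3, h4⟩ := can_top hn htop χ χh h1 h2
    simp only [key _ h3]
    refine ⟨?_, fun β ε h5 h6 => ?_⟩
    · obtain ⟨ε, h5, β, h6, h7⟩ := (h3.dirr hs hc).exists_sign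
      obtain ⟨β, rfl⟩ := exists_amb h6
      refine ⟨(β, ε), ⟨h5, h7⟩, fun ⟨β', ε'⟩ ⟨h8, h9⟩ => ?_⟩
      have h10 := hne h8 (amb_irr β') h9
      rw [← dot_Res_left, h7, dot_smul_left] at h10
      obtain rfl := amb_inj.1 (irr_eq_of_dot h6 (amb_irr β') (right_ne_zero_of_mul h10))
      rw [h7] at h9
      exact Prod.ext rfl (by
        exact_mod_cast (smul_left_injective ℂ (irr_ne_zero h6) h9).symm)
    · rw [dot_amb hCG, ← h4, dot_Res_of_le hCG]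
      exact dot_ne_of_tr inf_le_right (irr_chr h3.irr) (hCG.trans le_sup_left)
        (Subgroup.mem_sup_right (Subgroup.mem_zpowers s)) (irr_chr (amb_irr β))
        (hne h5 (amb_irr β) h6)
  · obtain ⟨h5, h6⟩ := can_top hn htop χ χh h1 h2
    obtain ⟨h5', h6'⟩ := can_top hn htop χ' χh' h1' h2'
    rw [key _ h5] at h4
    rw [key _ h5'] at h4'
    rw [← amb_inj, ← h6, ← h6', h5.dot_tr_ne hs hc h5']
    rw [← dot_Res_right, h4', dot_smul_right]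
    refine mul_ne_zero ?_ (hne h3 (amb_irr β) h4)
    rcases h3' with rfl | rfl <;> simp
  · obtain ⟨χ, h1, h2⟩ := exists_can_dot_ne hs hc (amb_irr β)
    obtain ⟨ε, h3, h4⟩ := DIrr.eq_sign (h1.dirr hs hc) (amb_irr β) (by rwa [dot_Res_left])
    obtain ⟨θ, h5⟩ := exists_amb h1.res
    have h6 := mem_Irr_top.1 (htop ▸ h1.irr)
    refine ⟨θ, ⟨χ, h6⟩, ε, (cinv_amb hn θ).1 (h5 ▸ ((irr_cinv h1.irr).mono le_sup_right).Res hn),
      fun g => by rw [← amb_coe, h5, Res_coe], ?_, h3, (key _ h1 β ε).2 h4⟩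
    have h7 := h1.cop
    rw [(sdprod_sup hn (inf_eq_bot_of_cop hcop)).relIndex_left, htop,
      dord_top (H5.Cfsg.IsIrrCharacter.isCharacter h6)] at h7
    exact h7.symm

end Cfsg.Agent.S4446
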