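import Cfsg.Statements.S4451
import Cfsg.Agent.H6.Glaub4

set_option autoImplicit false
open Cfsg

namespace Cfsg.Agent.S4451
open H6 H20 H19

/-- Let the finite group Γ be generated by a normal subgroup G and a cyclic subgroup S of coprime orders such that every non-identity element of S has the same centraliser C = G ⊓ C(S) in G. Let χ be an S-invariant irreducible character of G, χ̂ its canonical extension to Γ (determinantal order coprime to the order of S), and β the irreducible character of C with χ̂(c s) = ε₀ β(c) for c ∈ C and generators s of S (ε₀ = ±1). Then there are a sign ε = ±1, which may differ from ε₀, and a linear character μ of S with μ² = 1, such that: (a) χ̂(c x) = ε β(c) μ(x) for all c ∈ C and all x ∈ S other than 1; (b) the restriction of χ to C equals |S|·ϑ + ε β for some character ϑ of C or ϑ = 0; (c) |S| divides χ(1) − ε β(1). -/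
theorem result {Γ : Type*} [Group Γ] [Fintype Γ] (G S : Subgroup Γ) [Fintype G] (hnorm : ∀ s ∈ S, ∀ g ∈ G, s * g * s⁻¹ ∈ G) (hcop : (Nat.card G).Coprime (Nat.card S)) (htop : G ⊔ S = ⊤) (hcyc : IsCyclic S) (C : Subgroup Γ) [Fintype C] (hC : C = G ⊓ Subgroup.centralizer (S : Set Γ)) (hCG : C ≤ G) (hfpf : ∀ x ∈ S, x ≠ 1 → G ⊓ Subgroup.centralizer ({x} : Set Γ) = C) (χ : Cfsg.IrrCharacter G) (hinv : (∀ s ∈ S, ∀ g g' : G, (g' : Γ) = s * g * s⁻¹ → (χ : G → ℂ) g' = (χ : G → ℂ) g)) (χh : Cfsg.IrrCharacter Γ) (hext : (∀ g : G, (χh : Γ → ℂ) g = (χ : G → ℂ) g)) (hdet : (Cfsg.detOrder (χh : Γ → ℂ)).Coprime (Nat.card S)) (β : Cfsg.IrrCharacter C) (ε₀ : ℤ) (hε₀ : ε₀ = 1 ∨ ε₀ = -1) (hβ : ∀ c : C, ∀ s : Γ, Subgroup.zpowers s = S → (χh : Γ → ℂ) ((c : Γ) * s) = (ε₀ : ℂ) * (β : C → ℂ) c) : ∃ ε : ℤ, (ε = 1 ∨ ε = -1) ∧ (∃ μ : S → ℂ, Cfsg.IsCharacter S μ ∧ μ 1 = 1 ∧ (∀ x : S, μ x * μ x = 1) ∧ ∀ c : C, ∀ x :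 S, x ≠ 1 → (χh : Γ → ℂ) ((c : Γ) * x) = (ε : ℂ) * (β : C → ℂ) c * μ x) ∧ (∃ ϑ : C → ℂ, Cfsg.IsCharacter C ϑ ∧ (fun c : C => (χ : G → ℂ) ⟨c, hCG c.2⟩) = fun c => (Nat.card S : ℂ) * ϑ c + (ε : ℂ) * (β : C → ℂ) c) ∧ (Nat.card S : ℤ) ∣ (Cfsg.charDegree (χ : G → ℂ) : ℤ) - ε * (Cfsg.charDegree (β : C → ℂ) : ℤ) := by
  have hn := norms_of_conj hnorm
  obtain ⟨h1, h2⟩ := can_top hn htop χ χh hext hdet
  obtain ⟨s, hs⟩ := exists_zpowers_eq hcyc
  have hsS : s ∈ S := hs ▸ Subgroup.mem_zpowers s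
  by_cases h0 : s = 1
  · have hS : S = ⊥ := by rw [← hs, h0, Subgroup.zpowers_one_eq_bot]
    refine ⟨ε₀, hε₀, ⟨fun _ => 1, H5.isCharacter_one, rfl, fun _ => one_mul _, fun c x hx =>
      absurd (Subtype.ext (Subgroup.mem_bot.1 (hS ▸ x.2))) hx⟩, ⟨0, H5.isCharacter_zero,
        funext fun c => ?_⟩, by simp [hS]⟩
    simpa [h0, ← hext] using hβ c s hs
  have hi := irr_cinv h1.irr
  rw [htop] at hi
  have h3 : dot C (tr s χh) (amb β) ≠ 0 := by
    rw [dot_congr_left (φ' := (ε₀ : ℂ) • amb β) fun x hx _ => ?_, dot_smul_left,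
      irr_dot_self (amb_irr β)]
    · rcases hε₀ with rfl | rfl <;> simp
    · rw [tr_apply, hi.comm trivial, hβ ⟨x, hx⟩ s hs, Pi.smul_apply, amb_of_mem β hx, smul_eq_mul]
  obtain ⟨ε, h4, μ, h5, h6, h7, ϑ, h8, h9⟩ := h1.prime_action (comm_of_cyclic hcyc) hn hcop hfpf hsS
    h0 (amb_irr β) h3
  refine ⟨ε, h4, ⟨rs S μ, h5.chr.1, h5.one, fun x => h6 x x.2, fun c x hx => ?_⟩,
    ⟨rs C ϑ, h8.1, funext fun c => ?_⟩, deg ϑ, ?_⟩
  · have := congrFun (h7 x x.2 fun e => hx (Subtype.ext e)) c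
    rw [Res_coe, tr_apply, hi.comm trivial, Pi.smul_apply, amb_coe, smul_eq_mul] at this
    rw [this]; ring
  · simpa [← hext] using congrFun h9 c
  · have := congrFun h9 1
    rw [Res_one, ← Res_one G χh, h2, Pi.add_apply, Pi.smul_apply, Pi.smul_apply, chr_deg h8,
      H20.irr_deg (amb_irr β), H20.irr_deg (amb_irr χ), deg_amb, deg_amb, smul_eq_mul,
      smul_eq_mul, ← sub_eq_iff_eq_add] at this
    exact_mod_cast this

end Cfsg.Agent.S4451
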