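import Cfsg.Statements.S4452
import Cfsg.Agent.H6.Glaub4

set_option autoImplicit false
open Cfsg

namespace Cfsg.Agent.S4452
open H6 H20 H19

/-- Let the finite group G be the product of a normal subgroup K and a solvable subgroup H of coprime orders, and let N = N_G(H). Then the number of irreducible characters of G of degree coprime to the order of H equals the number of irreducible characters of N of degree coprime to the order of H. (The two sets are in fact in a canonical bijection; only the equality of their sizes is stated here.) -/
theorem result {G : Type*} [Group G] [Finite G] (K H : Subgroup G) [K.Normal] (hKH : K ⊔ H = ⊤) (hcop : (Nat.card K).Coprime (Nat.card H)) (hsolv : Group.IsSolvable H) : Nat.card {χ : Cfsg.IrrCharacter G // (Cfsg.charDegree (χ : G → ℂ)).Coprime (Nat.card H)} = Nat.card {η : Cfsg.IrrCharacter (Subgroup.normalizer (H : Set G)) // (Cfsg.charDegree (η : Subgroup.normalizer (H : Set G) → ℂ)).Coprime (Nat.card H)} := by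
  classical
  have hn : H ≤ N(K) := Subgroup.le_normalizer_of_normal
  have h1 : N(H) = K ⊓ C(H) ⊔ H := by
    rw [← top_inf_eq N(H), ← hKH, sup_inf_modr hn Subgroup.le_normalizer]
    refine congrArg (· ⊔ H) (le_antisymm (le_inf inf_le_left (cents_of_norms_disjoint
      (norms_inf hn (norms_norm Subgroup.le_normalizer)) inf_le_right ?_))
      (inf_le_inf_left _ (cent_le_norm H)))
    exact H19.eq_bot_mono (inf_le_inf_right _ inf_le_left) (inf_eq_bot_of_cop hcop)
  have h2 := card_coprime_deg hn hcop
  have h3 := card_coprime_deg (norms_of_cents (cents_symm (inf_le_right : K ⊓ C(H) ≤ _)))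
    (hcop.coprime_dvd_left (card_dvd inf_le_left))
  rw [IrrI_of_cent (cents_symm inf_le_right), ← card_IrrI hsolv hn hcop, ← h2, hKH, ← h1] at h3
  refine (card_top_irr (Finset.filter_subset _ _) fun χ => ?_).trans (h3.symm.trans
    (card_amb (Finset.filter_subset _ _) fun χ => ?_).symm)
  · exact Finset.mem_filter.trans (and_iff_right (coe_mem_Irr_top χ))
  · rw [Finset.mem_filter, deg_amb, and_iff_right (amb_irr χ)]

end Cfsg.Agent.S4452
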