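import Cfsg.Statements.S4453
import Cfsg.Agent.H6.Isa1

set_option autoImplicit false
open Cfsg

namespace Cfsg.Agent.S4453
open H6 H20 H19 Subgroup

/-- Inside a finite group Γ let S normalise the solvable subgroup G of odd order with the orders of G and S coprime, let C = G ⊓ C(S), and let L ≤ K be S-invariant normal subgroups of G with K/L abelian, G = KC and H = LC (so C ≤ H ≤ G). Then for each S-invariant irreducible character χ of G there is exactly one S-invariant irreducible character ψ of H whose multiplicity in the restriction of χ to H is odd, and χ ↦ ψ is a bijection from the S-invariant irreducible characters of G onto those of H (distinct χ give distinct ψ, and every S-invariant ψ arises). -/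
theorem result {Γ : Type*} [Group Γ] [Fintype Γ] (G S : Subgroup Γ) [Fintype G] (hnorm : ∀ s ∈ S, ∀ g ∈ G, s * g * s⁻¹ ∈ G) (hcop : (Nat.card G).Coprime (Nat.card S)) (hGsolv : Group.IsSolvable G) (hodd : Odd (Nat.card G)) (C : Subgroup Γ) [Fintype C] (hC : C = G ⊓ Subgroup.centralizer (S : Set Γ)) (hCG : C ≤ G) (K L H : Subgroup Γ) [Fintype H] (hLK : L ≤ K) (hKG : K ≤ G) (hKn : ∀ g ∈ G, ∀ k ∈ K, g * k * g⁻¹ ∈ K) (hLn : ∀ g ∈ G, ∀ l ∈ L, g * l * g⁻¹ ∈ L) (hKS : ∀ s ∈ S, ∀ k ∈ K, s * k * s⁻¹ ∈ K) (hLS : ∀ s ∈ S, ∀ l ∈ L, s * l * s⁻¹ ∈ L) (hab : ∀ a ∈ K, ∀ b ∈ K, a * b * a⁻¹ * b⁻¹ ∈ L) (hGKC : K ⊔ C = G) (hH : H = L ⊔ C) (hHG : H ≤ G) : (∀ χ : Cfsg.IrrCharacter G, (∀ s ∈ S, ∀ g g' : G, (g' : Γ) = s * g * s⁻¹ → (χ : G → ℂ) g' = (χ : G → ℂ) g) → ∃! ψ : Cfsg.IrrCharacter H, (∀ s ∈ S, ∀ g g' : H, (g' : Γ) = s * g * s⁻¹ → (ψ : H → ℂ) g'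 = (ψ : H → ℂ) g) ∧ ∃ m : ℕ, Cfsg.classInner (fun h : H => (χ : G → ℂ) ⟨h, hHG h.2⟩) (ψ : H → ℂ) = (m : ℂ) ∧ Odd m) ∧ (∀ χ χ' : Cfsg.IrrCharacter G, (∀ s ∈ S, ∀ g g' : G, (g' : Γ) = s * g * s⁻¹ → (χ : G → ℂ) g' = (χ : G → ℂ) g) → (∀ s ∈ S, ∀ g g' : G, (g' : Γ) = s * g * s⁻¹ → (χ' : G → ℂ) g' = (χ' : G → ℂ) g) → ∀ ψ : Cfsg.IrrCharacter H, (∀ s ∈ S, ∀ g g' : H, (g' : Γ) = s * g * s⁻¹ → (ψ : H → ℂ) g' = (ψ : H → ℂ) g) → ∀ m m' : ℕ, Cfsg.classInner (fun h : H => (χ : G → ℂ) ⟨h, hHG h.2⟩) (ψ : H → ℂ) = (m : ℂ) → Odd m → Cfsg.classInner (fun h : H => (χ' : G → ℂ) ⟨h, hHG h.2⟩) (ψ : H → ℂ) = (m' : ℂ) → Odd m' → χ = χ') ∧ (∀ ψ : Cfsg.IrrCharacter H, (∀ s ∈ S, ∀ g g' : H, (g' : Γ) = s * g * s⁻¹ → (ψ : H → ℂ) g' = (ψ : H → ℂ) g) → ∃ χ : Cfsg.IrrCharacter G, (∀ s ∈ S, ∀ g g' : G, (g' : Γ) = s * g * s⁻¹ → (χ : G → ℂ) g' = (χ : G → ℂ) g) ∧ ∃ m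 : ℕ, Cfsg.classInner (fun h : H => (χ : G → ℂ) ⟨h, hHG h.2⟩) (ψ : H → ℂ) = (m : ℂ) ∧ Odd m) := by
  subst hC
  have hn := norms_of_conj hnorm
  have hL : L ⊴ G := ⟨hLK.trans hKG, norms_of_conj hLn⟩
  have hK : K ⊴ G := ⟨hKG, norms_of_conj hKn⟩
  have hLS' := norms_of_conj hLS
  have hKS' := norms_of_conj hKS
  have h0 : G ≤ CM G K (K ⊔ S) := by
    rw [CM_sup _ hKS']
    conv_lhs => rw [← hGKC]
    refine sup_le (le_CM hKG _) ((le_CM_iff hKS' (inf_le_left.trans hK.norm)).2 ⟨inf_le_left, ?_⟩)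
    rw [commg_eq_bot.2 inf_le_right]; exact bot_le
  have hI : IsaH G L S := ⟨hL, hn, hLS', hodd.of_dvd_nat (relIndex_dvd_card _ _),
    (hcop.coprime_dvd_left (relIndex_dvd_card _ _)).coprime_dvd_right (relIndex_dvd_card _ _),
    sol_quo hGsolv _, K, hLK, hKG, (commutator_mono le_rfl (sup_le_sup_right hLK S)).trans
    ((le_CM_iff (sup_le le_normalizer hKS') hK.norm).1 h0).2, commutator_le.2 hab⟩
  have hc := hI.rel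
  have hn' : S ≤ N(CM G L S) := self_norms_CM hn hLS'
  rw [CM_of_cop hL.le hLS' hL.norm (hcop.coprime_dvd_left (card_dvd hL.le))
    (Or.inr (sol_mono hGsolv hL.le)), ← hH] at hc hn'
  have hp := Nat.prime_two
  simp only [← amb_mem_IrrI hn, ← amb_mem_IrrI hn', dot_amb hHG]
  have key : ∀ θ ∈ IrrI G S, ∀ β ∈ IrrI H S, GlI 2 H S θ β ↔
      ∃ m : ℕ, dot H θ β = m ∧ Odd m := fun θ hθ β hβ => by
    obtain ⟨γ, h1, h2⟩ := hc.ex θ hθ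
    obtain ⟨m, hm⟩ := exists_dot_nat (irr_chr (irrI_irr hθ)) hHG (irr_chr (irrI_irr hβ))
    refine ⟨fun h => ⟨m, hm, Nat.not_even_iff_odd.1 fun e => not_dvd_of_modEq hp
      (h.modEq hβ (m := m) (by simpa using hm)) (Int.natCast_dvd_natCast.2 e.two_dvd)⟩,
      fun ⟨m', h4, h5⟩ => ?_⟩
    by_contra e
    exact h5.not_two_dvd_nat (Int.natCast_dvd_natCast.1 (h2.dvd_of_ne h1 hβ (fun e' => e (e' ▸ h2))
      (m := m') (by simpa using h4)))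
  refine ⟨fun χ h => ?_, fun χ χ' h h' β hβ m m' h1 h2 h3 h4 => ?_, fun β hβ => ?_⟩
  · obtain ⟨γ, h1, h2⟩ := hc.ex _ h
    obtain ⟨β, rfl⟩ := exists_amb (irrI_irr h1)
    exact ⟨β, ⟨h1, (key _ h _ h1).1 h2⟩, fun β' h3 =>
      amb_inj.1 (((key _ h _ h3.1).2 h3.2).unique hp h2 h3.1 h1)⟩
  · exact amb_inj.1 (hc.inj _ h _ h' _ hβ ((key _ h _ hβ).2 ⟨m, h1, h2⟩)
      ((key _ h' _ hβ).2 ⟨m', h3, h4⟩))
  · obtain ⟨θ, h1, h2⟩ := hc.surj _ hβ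
    obtain ⟨χ, rfl⟩ := exists_amb (irrI_irr h1)
    exact ⟨χ, h1, (key _ h1 _ hβ).1 h2⟩

end Cfsg.Agent.S4453
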