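import Cfsg.Statements.S4454
import Cfsg.Agent.H6.Glaub5

set_option autoImplicit false
open Cfsg

namespace Cfsg.Agent.S4454
open H6 H20 H19

/-- Let N ≤ G be normal subgroups of the finite group Γ with Γ/G cyclic and Γ/N a Frobenius group with kernel G/N: G ≠ Γ, N ≠ G, and no element of Γ outside G fixes a non-identity coset of N in G under conjugation. Let ϑ be an irreducible character of N invariant under conjugation by Γ and suppose ϑ is fully ramified in G: the character of G induced from ϑ equals e·χ for an irreducible character χ of G and a natural number e. Then the index of G in Γ divides e − 1 or e + 1. -/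
theorem result {Γ : Type*} [Group Γ] [Fintype Γ] (G N : Subgroup Γ) [hG : G.Normal] [hN : N.Normal] [Fintype G] [Fintype N] (hNG : N ≤ G) (hGlt : G ≠ ⊤) (hNlt : N ≠ G) (hcyc : IsCyclic (Γ ⧸ G)) (hfrob : ∀ x : Γ, x ∉ G → ∀ g : Γ, g ∈ G → x * g * x⁻¹ * g⁻¹ ∈ N → g ∈ N) (θ : Cfsg.IrrCharacter N) (hinv : ∀ (x : Γ) (n : N), (θ : N → ℂ) ⟨x * n * x⁻¹, hN.conj_mem n n.2 x⟩ = (θ : N → ℂ) n) (χ : Cfsg.IrrCharacter G) (e : ℕ) (hram : Cfsg.indFun (N.subgroupOf G) (fun n : N.subgroupOf G => (θ : N → ℂ) ⟨(n : G), n.2⟩) = fun g => (e : ℂ) * (χ : G → ℂ) g) : (G.index : ℤ) ∣ (e : ℤ) - 1 ∨ (G.index : ℤ) ∣ (e : ℤ) + 1 := by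
  obtain ⟨e'⟩ := quo_top_equiv G
  rw [← Subgroup.relIndex_top_right]
  refine frob_ram_dvd normalIn_top normalIn_top hNG
    (isCyclic_of_surjective e'.symm e'.symm.surjective) (fun x _ => hfrob x)
    (mem_IrrI.2 ⟨amb_irr θ, (cinv_top_amb θ).2 hinv⟩) (amb_irr χ)
    (CF_ext (Ind_mem_CF hNG _) (Submodule.smul_mem _ _ (H20.irr_cf (amb_irr χ))) fun x hx => ?_)
  have := congrFun (Ind_eq_indFun hNG (amb θ)) ⟨x, hx⟩
  rw [Pi.smul_apply, amb_of_mem χ hx, smul_eq_mul, ← congrFun hram ⟨x, hx⟩]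
  refine this.trans (congrFun (congrArg _ (funext fun n => amb_of_mem θ _)) _)

end Cfsg.Agent.S4454
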