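import Cfsg.Statements.S4455
import Cfsg.Agent.H6.Infl

set_option autoImplicit false
open Cfsg

namespace Cfsg.Agent.S4455
open H6 H20 H19

/-- Fix a prime p and a finite group G. Let s be the sum of χ(1)² over the irreducible characters χ of G whose degree is not divisible by p and whose determinantal order o(χ) is not divisible by p. Then the order of O^p(G), the subgroup generated by the elements of order prime to p, is congruent to s modulo p. -/
theorem result {G : Type*} [Group G] [Finite G] (p : ℕ) (hp : p.Prime) : (Nat.card (Cfsg.pResidual p G) : ℤ) ≡ (∑ᶠ χ ∈ {χ : Cfsg.IrrCharacter G | ¬ p ∣ Cfsg.charDegree (χ : G → ℂ) ∧ ¬ p ∣ Cfsg.detOrder (χ : G → ℂ)}, (Cfsg.charDegree (χ : G → ℂ) : ℤ) ^ 2) [ZMOD p] := by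
  classical
  have h := Int.natCast_modEq_iff.2 (thompson_cong hp (⊤ : Subgroup G))
  rw [Ores_top, Nat.cast_sum, ← finsum_mem_coe_finset] at h
  convert h using 1
  refine finsum_mem_eq_of_bijOn (fun χ => (χ : G → ℂ)) ⟨fun χ hχ => ?_, fun _ _ _ _ e => Subtype.ext e,
    fun χ hχ => ?_⟩ fun χ _ => by push_cast; rfl
  · exact Finset.mem_filter.2 ⟨coe_mem_Irr_top χ, hχ.1, dord_top (mem_Chr_top.1 (irr_chr (coe_mem_Irr_top χ))) ▸ hχ.2⟩
  · obtain ⟨h1, h2, h3⟩ := Finset.mem_filter.1 hχ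
    exact ⟨⟨χ, mem_Irr_top.1 h1⟩, ⟨h2, dord_top (mem_Chr_top.1 (irr_chr h1)) ▸ h3⟩, rfl⟩

end Cfsg.Agent.S4455
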