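import Cfsg.Statements.S4457
import Cfsg.Agent.H6.CD2

set_option autoImplicit false
open Cfsg

namespace Cfsg.Agent.S4457
open H6 H20 H19

/-- Let G be a finite group whose irreducible character degrees are exactly 1 and m (m ≠ 1). Then either G has an abelian normal subgroup of index m, or m is a power of a prime p and G is the direct product of a p-group and an abelian group: there are normal subgroups P and A with P a p-group, A abelian, P ⊓ A = 1 and P ⊔ A = G. -/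
theorem result {G : Type*} [Group G] [Finite G] (m : ℕ) (hcd : ∀ χ : Cfsg.IrrCharacter G, Cfsg.charDegree (χ : G → ℂ) = 1 ∨ Cfsg.charDegree (χ : G → ℂ) = m) (hm : ∃ χ : Cfsg.IrrCharacter G, Cfsg.charDegree (χ : G → ℂ) = m) (hm1 : m ≠ 1) : (∃ A : Subgroup G, A.Normal ∧ (∀ a ∈ A, ∀ b ∈ A, a * b = b * a) ∧ A.index = m) ∨ ∃ p e : ℕ, p.Prime ∧ m = p ^ e ∧ ∃ P A : Subgroup G, P.Normal ∧ A.Normal ∧ IsPGroup p P ∧ (∀ a ∈ A, ∀ b ∈ A, a * b = b * a) ∧ P ⊓ A = ⊥ ∧ P ⊔ A = ⊤ := by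
  obtain ⟨χ, hχ⟩ := hm
  have h0 : ¬ Ab (⊤ : Subgroup G) := fun e =>
    hm1 (hχ.symm.trans (irr_lin_of_ab (coe_mem_Irr_top χ) e).deg)
  rcases two_deg (dg_top.2 hcd) h0 with ⟨A, h1, h2, h3⟩ | ⟨p, P, A, hp, h1, h2, h3, h4⟩
  · exact Or.inl ⟨A, h1.normal, fun a ha b hb => mul_comm_of_comm h2 ha hb,
      Subgroup.relIndex_top_right A ▸ h3⟩
  · obtain ⟨e, he⟩ := h1.exists_pow (hχ ▸ (H20.irr_deg_pos (coe_mem_Irr_top χ)).ne')
    exact Or.inr ⟨p, e, hp, he, P, A, h4.cp.left_normal.normal, h4.symm.cp.left_normal.normal,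
      h2.isPGroup, fun a ha b hb => mul_comm_of_comm h3 ha hb, h4.inf, h4.sup⟩

end Cfsg.Agent.S4457
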