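import Cfsg.Statements.S4459
import Cfsg.Agent.H6.CD4

set_option autoImplicit false
open Cfsg

namespace Cfsg.Agent.S4459
open H6 H20 H19 Subgroup

/-- Let G be a non-abelian finite group and p a prime. Then the irreducible character degrees of G are exactly 1 and p if and only if either G has an abelian normal subgroup of index p or the centre of G has index p³. -/
theorem result {G : Type*} [Group G] [Finite G] (hG : ∃ a b : G, a * b ≠ b * a) (p : ℕ) (hp : p.Prime) : ((∀ χ : Cfsg.IrrCharacter G, Cfsg.charDegree (χ : G → ℂ) = 1 ∨ Cfsg.charDegree (χ : G → ℂ) = p) ∧ ∃ χ : Cfsg.IrrCharacter G, Cfsg.charDegree (χ : G → ℂ) = p) ↔ ((∃ A : Subgroup G, A.Normal ∧ (∀ a ∈ A, ∀ b ∈ A, a * b = b * a) ∧ A.index = p) ∨ (Subgroup.center G).index = p ^ 3) := by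
  have h1 : ¬ Ab (⊤ : Subgroup G) := fun e => by
    obtain ⟨a, b, h⟩ := hG
    exact h (congrArg Subtype.val (e.is_comm.comm ⟨a, mem_top a⟩ ⟨b, mem_top b⟩))
  have h2 : ((∃ A : Subgroup G, A ⊴ ⊤ ∧ Ab A ∧ A.relIndex ⊤ = p) ∨ Z((⊤ : Subgroup G)).relIndex ⊤ = p ^ 3) ↔
      ((∃ A : Subgroup G, A.Normal ∧ (∀ a ∈ A, ∀ b ∈ A, a * b = b * a) ∧ A.index = p) ∨
        (center G).index = p ^ 3) := by
    rw [top_inf_eq, coe_top, centralizer_univ, relIndex_top_right]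
    refine or_congr_left (exists_congr fun A => ?_)
    rw [relIndex_top_right]
    exact ⟨fun ⟨a, b, c⟩ => ⟨a.normal, fun x hx y hy =>
      congrArg Subtype.val (b.is_comm.comm ⟨x, hx⟩ ⟨y, hy⟩), c⟩, fun ⟨a, b, c⟩ =>
        ⟨normalIn_top, ⟨⟨fun x y => Subtype.ext (b _ x.2 _ y.2)⟩⟩, c⟩⟩
  rw [← h2, ← dg_top (q := fun d => d = 1 ∨ d = p)]
  refine ⟨fun h => deg_one_p hp h1 h.1, fun h => ⟨deg_one_p' hp h, ?_⟩⟩
  obtain ⟨χ, a, -, b⟩ := exists_nonlin (.bot ⊤) (mt le_bot_iff.1 (mt comm_iff_der.2 h1))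
  exact ⟨⟨χ, mem_Irr_top.1 a⟩, two_deg_eq (deg_one_p' hp h) a b⟩

end Cfsg.Agent.S4459
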