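import Cfsg.Statements.S4460
import Cfsg.Agent.H6.CD2

set_option autoImplicit false
open Cfsg

namespace Cfsg.Agent.S4460
open H6 H20 H19

/-- A finite group with exactly three distinct irreducible character degrees is solvable of derived length at most 3: its third derived subgroup is trivial. -/
theorem result {G : Type*} [Group G] [Finite G] (hcd : Nat.card {n : ℕ // ∃ χ : Cfsg.IrrCharacter G, Cfsg.charDegree (χ : G → ℂ) = n} = 3) : derivedSeries G 3 = ⊥ := by
  classical
  have h1 : ((Irr (⊤ : Subgroup G)).image deg).card = 3 := by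
    rw [← hcd, ← Nat.card_eq_finsetCard]
    refine Nat.card_congr (Equiv.subtypeEquivRight fun n => ?_)
    rw [Finset.mem_image]
    exact ⟨fun ⟨χ, a, b⟩ => ⟨⟨χ, mem_Irr_top.1 a⟩, b⟩, fun ⟨χ, b⟩ => ⟨_, coe_mem_Irr_top χ, b⟩⟩
  have h2 : 1 ∈ (Irr (⊤ : Subgroup G)).image deg :=
    Finset.mem_image.2 ⟨_, triv_mem_Irr ⊤, deg_triv ⊤⟩
  obtain ⟨m, n, -, h3⟩ := Finset.card_eq_two.1 ((Finset.card_erase_of_mem h2).trans (by rw [h1]))
  have h4 : ∀ d ∈ ({m, n} : Finset ℕ), d ≠ 0 := fun d hd => by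
    obtain ⟨χ, a, rfl⟩ := Finset.mem_image.1 (Finset.mem_of_mem_erase (h3 ▸ hd))
    exact (H20.irr_deg_pos a).ne'
  rw [← dser_top]
  refine three_deg (h4 m (by simp)) (h4 n (by simp)) fun χ a _ => or_iff_not_imp_left.2 fun e => ?_
  have := Finset.mem_erase.2 ⟨e, Finset.mem_image_of_mem deg a⟩
  rw [h3] at this
  simpa using this

end Cfsg.Agent.S4460
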