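import Cfsg.Statements.S4461
import Cfsg.Agent.H6.CD3

set_option autoImplicit false
open Cfsg

namespace Cfsg.Agent.S4461
open H6 H20 H19

/-- Let χ be an irreducible character of the finite group G and K its kernel (the elements where χ takes the value χ(1)). Suppose either that K is not contained in the Fitting subgroup F(G), or that K = F(G) with G/K solvable and K ≠ G. Then there is an irreducible character ψ of G with ψ(1) > χ(1) whose kernel is properly contained in K. -/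
theorem result {G : Type*} [Group G] [Finite G] (χ : Cfsg.IrrCharacter G) (K : Subgroup G) [K.Normal] (hK : (∀ g : G, g ∈ K ↔ (χ : G → ℂ) g = (χ : G → ℂ) 1)) (h : ¬ K ≤ Cfsg.fittingSubgroup G ∨ (K = Cfsg.fittingSubgroup G ∧ Group.IsSolvable (G ⧸ K) ∧ K ≠ ⊤)) : ∃ ψ : Cfsg.IrrCharacter G, Cfsg.charDegree (χ : G → ℂ) < Cfsg.charDegree (ψ : G → ℂ) ∧ ∃ L : Subgroup G, (∀ g : G, g ∈ L ↔ (ψ : G → ℂ) g = (ψ : G → ℂ) 1) ∧ L < K := by
  have h1 := coe_mem_Irr_top χ
  have h2 : K = cker χ := Subgroup.ext fun g =>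
    (hK g).trans (chr_mem_cker (irr_chr h1) (Subgroup.mem_top g)).symm
  subst h2
  obtain ⟨ψ, a, b, c⟩ := broline h1 (h.imp_right fun ⟨a, b, c⟩ => ⟨a, by
    have : Group.IsNilpotent (cker (χ : G → ℂ)) := a ▸ H1.fitting_isNilpotent
    exact Group.isSolvable_of_ker_le_range (cker (χ : G → ℂ)).subtype
      (QuotientGroup.mk' (cker (χ : G → ℂ))) (by simp), c⟩)
  exact ⟨⟨ψ, mem_Irr_top.1 a⟩, b, _, fun g => chr_mem_cker (irr_chr a) (Subgroup.mem_top g), c⟩

end Cfsg.Agent.S4461
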