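import Cfsg.Statements.S4462
import Cfsg.Agent.H6.CD3

set_option autoImplicit false
open Cfsg

namespace Cfsg.Agent.S4462
open H6 H20 H19 Subgroup

universe u

theorem aux (n : ℕ) : ∀ (G : Type u) [Group G] [Finite G], Group.IsSolvable G → ∀ D : Finset ℕ,
    Dg (⊤ : Subgroup G) ⊥ (· ∈ D) → D.card ≤ n → ∃ N : ℕ → Subgroup G, N 0 = ⊥ ∧ N n = ⊤ ∧
      (∀ i, N i ≤ N (i + 1)) ∧ (∀ i, N i ⊴ ⊤) ∧ ∀ i, Nil (quo (N i) (N (i + 1))) := by
  classical
  induction n with
  | zero => exact fun G _ _ _ D h e => absurd (h.bot (triv_mem_Irr ⊤)) (by simp_all)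
  | succ n ih =>
    intro G _ _ hs D h e
    obtain ⟨χ, h1, h2⟩ := (Irr (⊤ : Subgroup G)).exists_max_image deg ⟨_, triv_mem_Irr ⊤⟩
    have hF : Nil (quo ⊥ (fittingSubgroup G)) := nil_quo H1.fitting_isNilpotent _
    by_cases h3 : fittingSubgroup G = ⊤
    · refine ⟨fun i => if i = 0 then ⊥ else ⊤, rfl, rfl, fun i => le_top, fun i => ?_, fun i => ?_⟩
      · beta_reduce
        split_ifs
        exacts [.bot _, .refl _]
      · exact nil_quo (H := ⊤) (h3 ▸ H1.fitting_isNilpotent) _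
    let f := QuotientGroup.mk' (fittingSubgroup G)
    have hf : ∀ X, X ≤ f.range := fun X => by simp [f]
    obtain ⟨N, a1, a2, a3, a4, a5⟩ := ih (G ⧸ fittingSubgroup G) inferInstance (D.erase (deg χ))
      (fun ψ b _ => by
        have c := comp_mem_Irr (hf _) b
        have d : fittingSubgroup G ≤ cker (ψ ∘ f) := by simpa [f] using ker_le_cker_comp (f := f) ψ
        rw [comap_top] at c
        refine Finset.mem_erase.2 ⟨fun e => ?_, deg_comp (f := f) ψ ▸ h.bot c⟩
        obtain ⟨φ, c1, c2, -⟩ := broline c (or_iff_not_imp_left.2 fun e' =>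
          have e' := le_antisymm (not_not.1 e') d
          ⟨e', hs, e'.trans_ne h3⟩)
        exact (h2 φ c1).not_gt (e ▸ deg_comp (f := f) ψ ▸ c2))
      (by rw [Finset.card_erase_of_mem (h.bot h1)]; omega)
    refine ⟨fun i => i.casesOn ⊥ fun i => (N i).comap f, rfl, by simp [a2], fun i => ?_,
      fun i => ?_, fun i => ?_⟩ <;> rcases i with _ | i
    · exact bot_le
    · exact comap_mono (a3 i)
    · exact .bot _
    · exact normalIn_comap (a4 i)
    · simpa [a1, f] using hF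
    · obtain ⟨e⟩ := quo_comap_equiv ((a4 i).of_le (a3 i) le_top) (hf _)
      exact (H1.fitting_iso_iff _ _ e).2 (a5 i)


/-- Let G be a finite solvable group with exactly n distinct irreducible character degrees. Then G has normal subgroups 1 = N₀ ≤ N₁ ≤ ⋯ ≤ Nₙ = G with every quotient N_{i+1}/N_i nilpotent (the nilpotent length of G is at most n). -/
theorem result {G : Type*} [Group G] [Finite G] (hsolv : Group.IsSolvable G) (n : ℕ) (hcd : Nat.card {d : ℕ // ∃ χ : Cfsg.IrrCharacter G, Cfsg.charDegree (χ : G → ℂ) = d} = n) : ∃ N : Fin (n + 1) → Subgroup G, N 0 = ⊥ ∧ N (Fin.last n) = ⊤ ∧ Monotone N ∧ (∀ i, (N i).Normal) ∧ ∀ i : Fin n, ∀ h : (N i.castSucc).subgroupOf (N i.succ) |>.Normal, Group.IsNilpotent (↥(N i.succ) ⧸ (N i.castSucc).subgroupOf (N i.succ)) := by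
  classical
  obtain ⟨N, a1, a2, a3, a4, a5⟩ := aux n G hsolv ((Irr (⊤ : Subgroup G)).image deg)
    (fun χ a _ => Finset.mem_image_of_mem _ a) (le_of_eq (by
      rw [← hcd, ← Nat.card_eq_finsetCard]
      refine Nat.card_congr (Equiv.subtypeEquivRight fun n => ?_)
      rw [Finset.mem_image]
      exact ⟨fun ⟨χ, a, b⟩ => ⟨⟨χ, mem_Irr_top.1 a⟩, b⟩, fun ⟨χ, b⟩ => ⟨_, coe_mem_Irr_top χ, b⟩⟩))
  refine ⟨fun i => N i, a1, a2, fun i j e => monotone_nat_of_le_succ a3 e, fun i => (a4 i).normal,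
    fun i h => ?_⟩
  have : ((N i).subgroupOf (N (i + 1))).Normal := h
  obtain ⟨e⟩ := quo_equiv_quot ((N i).subgroupOf (N (i + 1))) (map_subgroupOf_eq_of_le (a3 i))
  exact (H1.fitting_iso_iff _ _ e).1 (a5 i)

end Cfsg.Agent.S4462
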