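import Cfsg.Statements.S4464
import Cfsg.Agent.H6.CD3

set_option autoImplicit false
open Cfsg

namespace Cfsg.Agent.S4464
open H6 H20 H19

/-- Let p be a prime and G a finite group all of whose irreducible character degrees are less than p. Then G has a normal abelian Sylow p-subgroup. -/
theorem result {G : Type*} [Group G] [Finite G] (p : ℕ) (hp : p.Prime) (hb : ∀ χ : Cfsg.IrrCharacter G, Cfsg.charDegree (χ : G → ℂ) < p) : ∃ P : Subgroup G, P.Normal ∧ (∀ x ∈ P, ∀ y ∈ P, x * y = y * x) ∧ IsPGroup p P ∧ ¬ p ∣ P.index := by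
  haveI := Fact.mk hp
  obtain ⟨P⟩ := (inferInstance : Nonempty (Sylow p G))
  have hP := syl_sylow_top P
  have h := (dg_top (q := (· < p))).2 hb
  have h1 := normal_syl_of_lt hp h hP
  have b := ab_of_pg hP.pi (Dg.normal (q := fun d => ¬ p ∣ d) (fun χ a b e =>
    (Nat.le_of_dvd (H20.irr_deg_pos a) e).not_gt (h χ a b)) h1 fun a b c d e => d (e.trans c))
  exact ⟨P, h1.normal, fun x hx y hy => congrArg Subtype.val (b.is_comm.comm ⟨x, hx⟩ ⟨y, hy⟩), P.2,
    P.not_dvd_index⟩

end Cfsg.Agent.S4464
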