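import Cfsg.Statements.S4465
import Cfsg.Agent.H6.LinG2

set_option autoImplicit false
open Cfsg

namespace Cfsg.Agent.S4465
open H6 H20 H19

/-- Let the finite group G have a faithful character χ of degree n (G is a linear group of degree n), and let π be the set of primes greater than n + 1. Then G has an abelian Hall π-subgroup: an abelian subgroup A whose order is divisible only by primes greater than n + 1 and whose index is divisible by no prime greater than n + 1. -/
theorem result {G : Type*} [Group G] [Finite G] (χ : G → ℂ) (hχ : Cfsg.IsCharacter G χ) (hfaith : ∀ g : G, χ g = χ 1 → g = 1) (n : ℕ) (hn : Cfsg.charDegree χ = n) : ∃ A : Subgroup G, (∀ x ∈ A, ∀ y ∈ A, x * y = y * x) ∧ (∀ q : ℕ, q.Prime → q ∣ Nat.card A → n + 1 < q) ∧ ∀ q : ℕ, q.Prime → q ∣ A.index → q ≤ n + 1 := by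
  subst hn
  have h1 := mem_Chr_top.2 hχ
  have h2 : ⊤ ⊓ cker χ = ⊥ := le_bot_iff.1 fun g hg => hfaith g (cker_apply hg.2)
  obtain ⟨A, hA⟩ := blichfeldt (π := {q | deg χ + 1 < q}) (fun _ a _ => a) h1 le_rfl h2
  have h3 : Ab A := comm_iff_der.2 (le_bot_iff.1 (h2 ▸ le_inf le_top (der_le_cker_of_lt h1 le_top
    fun q a b => (Nat.lt_succ_self _).trans (hA.pi q a b))))
  exact ⟨A, fun x hx y hy => congrArg Subtype.val (h3.is_comm.comm ⟨x, hx⟩ ⟨y, hy⟩), hA.pi,
    fun q a b => not_lt.1 (hA.idx q a (by rwa [Subgroup.relIndex_top_right]))⟩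

end Cfsg.Agent.S4465
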