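import Cfsg.Statements.S4466
import Cfsg.Agent.H6.LinG4
import Cfsg.Agent.S4441
import Cfsg.Agent.H7.Quot
import Cfsg.Agent.H18.G1b

set_option autoImplicit false
open Cfsg

namespace Cfsg.Agent.S4466
open H6 H20 H19 Subgroup

theorem simple {G : Type*} [Group G] [Finite G] [IsSimpleGroup G]
    (h : Dg (⊤ : Subgroup G) ⊥ fun d => d ≠ 1 → d.Prime) : Group.IsSolvable G := by
  by_contra hG
  have h0 : ∀ N : Subgroup G, N ⊴ ⊤ → Sol N → N = ⊥ := fun N a b =>
    (IsSimpleGroup.eq_bot_or_eq_top_of_normal N a.normal).resolve_right fun e =>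
      hG (sol_of_equiv topEquiv (e ▸ b))
  have h1 : ∀ χ ∈ Irr (⊤ : Subgroup G), χ ≠ triv ⊤ → cker χ = ⊥ := fun χ a b =>
    (IsSimpleGroup.eq_bot_or_eq_top_of_normal _ (cker_normal a).normal).resolve_right fun e =>
      b ((irr_le_cker_iff a).1 e.ge)
  have h2 : ∀ χ ∈ Irr (⊤ : Subgroup G), deg χ = 1 → χ = triv ⊤ := fun χ a b => by_contra fun e =>
    hG (sol_of_equiv topEquiv (sol_of_ab (comm_iff_der.2 (le_bot_iff.1
      (h1 χ a e ▸ (der_le_cker a).2 b)))))
  obtain ⟨χ, a1, a2⟩ := (Irr (⊤ : Subgroup G)).exists_max_image deg ⟨_, triv_mem_Irr ⊤⟩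
  rcases lt_or_ge (deg χ) 5 with e | e
  · refine hG (H5.isSolvable_of_primes_subset_pair Nat.prime_two Nat.prime_three fun r b c => ?_)
    obtain ⟨R, d⟩ := exists_syl r (⊤ : Subgroup G)
    have := d.sne_bot b (card_top (G := G) ▸ c)
    have e' : r < 5 := not_le.1 fun e' => this (h0 R (normal_syl_of_lt b
      (fun ψ a _ => (a2 ψ a).trans_lt (e.trans_le e')) d) d.pi.sol)
    interval_cases r <;> simp_all (config := {decide := true})
  have hp := h.bot a1 (by omega)
  set p := deg χ with hχ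
  have := Fact.mk hp
  obtain ⟨P⟩ : Nonempty (Sylow p G) := inferInstance
  have b1 := syl_sylow_top P
  have b2 := h1 χ a1 fun e' => by rw [e', deg_triv] at hχ; omega
  have b3 : ∀ z ∈ Z((P : Subgroup G)), z ≠ 1 → χ z = 0 := fun z c d =>
    (H5.Cfsg.IsIrrCharacter.eq_zero_or_mem_charCenter (mem_Irr_top.1 a1) (H20.irr_deg a1) z
      (hp.coprime_iff_not_dvd.2 (relIndex_top_right C[z] ▸ b1.not_dvd_relIndex hp
        (le_cent1_iff.2 c.2)))).resolve_right fun e' => d (mem_bot.1 (h0 (Z(⊤)) (center_normal ⊤)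
          (sol_of_ab (comm_center _)) ▸ ⟨trivial, mem_cent.2 fun g _ => by
            have := H5.Cfsg.IsCharacter.commutator_mem_charKer (mem_Chr_top.1 (irr_chr a1)) e' g
            have : z * g * z⁻¹ * g⁻¹ ∈ cker χ := this
            rw [b2, mem_bot, mul_inv_eq_one, mul_inv_eq_iff_eq_mul] at this
            exact this.symm⟩))
  have b4 := b1.sne_bot hp (H20.irr_deg_dvd a1)
  have b5 : Ab (P : Subgroup G) := by_contra fun e' => by
    obtain ⟨θ, c1, c2, c3⟩ : ∃ θ ∈ Irr (P : Subgroup G), dot P χ θ ≠ 0 ∧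
        ¬ ⁅(P : Subgroup G), (P : Subgroup G)⁆ ≤ cker θ := by
      by_contra! e
      exact e' (comm_iff_der.2 (le_bot_iff.1 (b2 ▸ le_cker_of_below' (irr_chr a1) le_top
        (der_le _) e)))
    have c4 := eq_irr_of_deg_le (chr_Res (irr_chr a1) le_top) c1 (by rwa [dot_Res_left])
      (deg_Res P χ ▸ Nat.le_of_dvd (H20.irr_deg_pos c1) ((b1.pi.dvd (H20.irr_deg_dvd c1)
        ).dvd_of_ne_one (mt (der_le_cker c1).2 c3)).2)
    obtain ⟨z, c5, c6⟩ := exists_ne_one (b1.pi.center_ne_bot b4)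
    have := irr_norm_central c1 c5.1 fun c d => by rw [mem_cent.1 c5.2 c d]; simp
    rw [← c4, Res_of_mem _ c5.1, b3 z c5 c6, norm_zero, eq_comm, Nat.cast_eq_zero, deg_Res] at this
    exact hp.ne_zero this
  have b6 : Nat.card P = p := by
    obtain ⟨m, c⟩ := exists_dot_nat (irr_chr a1) (le_top (a := (P : Subgroup G))) (triv_mem_Chr _)
    have d := card_mul_dot (P : Subgroup G) χ (triv P)
    rw [sum_sub_eq_one_add, Finset.sum_eq_zero fun z c => by
      rw [b3 z ⟨(mem_fin.1 c).1, comm_iff_le_cent.1 b5 (mem_fin.1 c).1⟩ (mem_fin.1 c).2, zero_mul],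
      c, H20.irr_deg a1, ← hχ] at d
    exact ((Nat.dvd_prime hp).1 ⟨m, Nat.cast_injective (R := ℂ) (by simpa using d.symm)⟩).resolve_left
      fun e => b4 (card_eq_one.1 e)
  obtain ⟨M, hM⟩ := H7.exists_isPModular hp
  have := Fintype.ofFinite G
  obtain ⟨X, -, -, -, c1, -, ε, -, c2, -⟩ := S4441.result p M hM (by omega) P b6 _ rfl
  have c3 : 1 < Nat.card X := c1 ▸ Nat.one_lt_iff_ne_zero_and_ne_one.2 ⟨relIndex_ne_zero' _ _,
    fun e' => by
      have := H18.Burnside_normal_complement b1 (inf_le_right.trans (relIndex_eq_one.1 e'))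
      rcases IsSimpleGroup.eq_bot_or_eq_top_of_normal _ (Oc_normal {p}ᶜ (⊤ : Subgroup G)).normal
        with d | d <;> rw [d] at this
      · exact hG (sol_of_equiv topEquiv (PiN.sol (p := p) (by simpa using this.pi'_of_eq_bot)))
      · exact this.pi.not_dvd hp rfl (H20.irr_deg_dvd a1)⟩
  obtain ⟨ψ, c4, c5⟩ : ∃ ψ ∈ X, (ψ : G → ℂ) ≠ triv ⊤ := by
    obtain ⟨a, b, c⟩ := Finite.one_lt_card_iff_nontrivial.1 c3
    by_contra! d
    exact c (Subtype.ext (Subtype.ext ((d _ a.2).trans (d _ b.2).symm)))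
  have c6 := coe_mem_Irr_top ψ
  have c7 := mt (h2 _ c6) c5
  have c8 := h.bot c6 c7
  have c9 := a2 _ c6
  obtain ⟨d1, d2, -⟩ := c2 ψ c4
  obtain ⟨k, d3⟩ := d2.dvd
  change _ - (deg ψ.1 : ℤ) = _ at d3
  have d4 := c8.two_le
  have d5 := c8.eq_two_or_odd
  have d6 := hp.eq_two_or_odd
  obtain rfl : k = -1 := by
    have : k < 0 := by nlinarith [show ε ψ ≤ 1 by omega]
    have : -2 < k := by nlinarith [show -1 ≤ ε ψ by omega]
    omega
  omega


/-- If every irreducible character of the finite group G of degree greater than one has prime degree, then G is solvable. -/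
theorem result {G : Type*} [Group G] [Finite G] (h : ∀ χ : Cfsg.IrrCharacter G, Cfsg.charDegree (χ : G → ℂ) ≠ 1 → (Cfsg.charDegree (χ : G → ℂ)).Prime) : Group.IsSolvable G := by
  exact sol_of_equiv Subgroup.topEquiv (sol_of_dg_simple (fun a b c d e => by
    rcases eq_or_ne b 1 with rfl | h
    · exact absurd (Nat.dvd_one.1 c) e
    · exact ((Nat.dvd_prime (d h)).1 c).resolve_left e ▸ d h) (fun G _ _ _ => simple) (dg_top.2 h))

end Cfsg.Agent.S4466
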