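import Cfsg.Statements.S4475
import Cfsg.Agent.H6.FRep

set_option autoImplicit false
open Cfsg

namespace Cfsg.Agent.S4475
open H6 H5

/-- Let ρ be an irreducible representation of the finite group G on the coordinate space Fin n → ℂ whose character χ is real-valued, and let ν be the Frobenius–Schur indicator of χ (the average of χ(s²)). Writing X(g) for the matrix of ρ(g), there is a nonzero matrix M with X(g)ᵀ M X(g) = M for all g ∈ G; and every such M (zero or not) satisfies Mᵀ = ν·M. -/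
theorem result {G : Type*} [Group G] [Fintype G] (n : ℕ) (ρ : Representation ℂ G (Fin n → ℂ)) (hirr : ρ.IsIrreducible) (hreal : ∀ g : G, (ρ.character g).im = 0) : (∃ M : Matrix (Fin n) (Fin n) ℂ, M ≠ 0 ∧ ∀ g : G, (LinearMap.toMatrix' (ρ g)).transpose * M * LinearMap.toMatrix' (ρ g) = M) ∧ ∀ M : Matrix (Fin n) (Fin n) ℂ, (∀ g : G, (LinearMap.toMatrix' (ρ g)).transpose * M * LinearMap.toMatrix' (ρ g) = M) → M.transpose = ((Nat.card G : ℂ)⁻¹ * ∑ s : G, ρ.character (s * s)) • M := by
  let X : G →* Matrix (Fin n) (Fin n) ℂ :=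
    (LinearMap.toMatrixAlgEquiv' : _ ≃ₐ[ℂ] Matrix (Fin n) (Fin n) ℂ).toMonoidHom.comp ρ
  have e : ρ.character = fun g => (X g).trace := funext fun g => by
    rw [Representation.character, ← Matrix.toLin'_toMatrix' (ρ g), Matrix.trace_toLin'_eq]; rfl
  have hX := isIrrCharacter_character ρ
  rw [e] at hX hreal ⊢
  refine ⟨?_, fun M hM => inv_form_transpose hX hreal hM⟩
  obtain ⟨M, h1, h2⟩ := exists_inv_form hX hreal
  have : Nonempty (Fin n) := Fintype.card_pos_iff.1
    (Nat.pos_of_ne_zero (Nat.cast_ne_zero.1 (card_ne_zero_of_irr hX)))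
  exact ⟨M, h1.ne_zero, h2⟩

end Cfsg.Agent.S4475
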