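import Cfsg.Statements.S4476
import Cfsg.Agent.H6.Real2

set_option autoImplicit false
open Cfsg

namespace Cfsg.Agent.S4476
open H6 H20 H19

/-- Let G be a finite group of even order g with exactly t involutions, and put α = (g − 1)/t (a rational number). Then (a) some non-identity element x of G has at most α² conjugates; and (b) some non-principal real-valued irreducible character of G has degree at most α. -/
theorem result {G : Type*} [Group G] [Fintype G] (heven : Even (Nat.card G)) (t : ℕ) (ht : Nat.card {x : G // orderOf x = 2} = t) : (∃ x : G, x ≠ 1 ∧ ((Subgroup.centralizer ({x} : Set G)).index : ℚ) ≤ (((Nat.card G : ℚ) - 1) / t) ^ 2) ∧ ∃ χ : Cfsg.IrrCharacter G, (χ : G → ℂ) ≠ (fun _ => 1) ∧ (∀ g : G, ((χ : G → ℂ) g).im = 0) ∧ (Cfsg.charDegree (χ : G → ℂ) : ℚ) ≤ ((Nat.card G : ℚ) - 1) / t := by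
  classical
  obtain ⟨u, hu⟩ := exists_prime_orderOf_dvd_card' 2 heven.two_dvd
  have h0 : (0 : ℚ) < t := by
    have : Nonempty {x : G // orderOf x = 2} := ⟨⟨u, hu⟩⟩
    exact Nat.cast_pos.2 (ht ▸ Nat.card_pos)
  set S := ((Irr (⊤ : Subgroup G)).erase (triv ⊤)).filter fun χ => star χ = χ
  have hT := triv_mem_Irr (⊤ : Subgroup G)
  have h1 : (t : ℚ) ≤ ∑ χ ∈ S, (deg χ : ℚ) := by
    have h2 := sum_fs_mul (Subgroup.mem_top (1 : G))
    rw [card_sqrt_one, ht, ← Finset.add_sum_erase _ _ hT, fs_of_lin (lin_triv ⊤) (star_triv ⊤),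
      triv_of_mem (one_mem _), mul_one, Nat.cast_add, Nat.cast_one, add_comm, add_left_inj] at h2
    have h3 := congrArg Complex.re h2
    rw [Complex.re_sum, Complex.natCast_re] at h3
    refine (Rat.cast_le (K := ℝ)).1 ?_
    push_cast
    rw [← h3, Finset.sum_filter]
    refine Finset.sum_le_sum fun χ hχ => ?_
    have h4 := Finset.mem_of_mem_erase hχ
    rw [H20.irr_deg h4]
    split_ifs with e
    · rcases fs_of_star h4 e with h | h <;> simp [h]
    · simp [not_not.1 (mt (star_of_fs h4) e)]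
  have h2 : ∑ χ ∈ S, (deg χ : ℚ) ^ 2 ≤ Nat.card G - 1 := by
    have h3 := congrArg (Nat.cast (R := ℚ)) (sum_irr_deg_sq (⊤ : Subgroup G))
    rw [← Finset.add_sum_erase _ _ hT, (lin_triv ⊤).deg, card_top'] at h3
    push_cast at h3
    rw [← h3, add_sub_cancel_left]
    exact Finset.sum_le_sum_of_subset_of_nonneg (Finset.filter_subset _ _) fun _ _ _ => sq_nonneg _
  have hS : S.Nonempty := Finset.nonempty_of_sum_ne_zero (h0.trans_le h1).ne'
  have h3 : (0 : ℚ) < Nat.card G - 1 := (Finset.sum_pos (fun χ hχ => pow_pos (Nat.cast_pos.2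
    (H20.irr_deg_pos (Finset.mem_of_mem_erase (Finset.mem_filter.1 hχ).1))) 2) hS).trans_le h2
  set a : ℚ := (Nat.card G - 1) / t with ha
  have h4 : 0 < a := div_pos h3 h0
  have h5 : a * t = Nat.card G - 1 := div_mul_cancel₀ _ h0.ne'
  constructor
  · by_contra! h
    have h6 : (t : ℚ) ^ 2 ≤ S.card * (Nat.card G - 1) := (pow_le_pow_left₀ h0.le h1 2).trans
      (sq_sum_le_card_mul_sum_sq.trans (mul_le_mul_of_nonneg_left h2 (Nat.cast_nonneg _)))
    have h7 : S.card + 1 ≤ Nat.card (ConjClasses G) := by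
      rw [← H5.card_irr, ← card_top_irr (q := fun _ => True) subset_rfl (by simp [coe_mem_Irr_top])
        |>.symm.trans (Nat.card_congr (Equiv.subtypeUnivEquiv fun _ => trivial)),
        ← Finset.card_erase_add_one hT]
      exact Nat.succ_le_succ (Finset.card_filter_le _ _)
    have h8 := congrArg (Nat.cast (R := ℚ)) (sum_card_centralizer G)
    rw [← Finset.add_sum_erase _ _ (Finset.mem_univ 1), cent1_one, card_top'] at h8
    push_cast at h8
    have h9 := Finset.sum_lt_sum_of_nonempty (s := Finset.univ.erase (1 : G))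
      (f := fun x => a ^ 2 * Nat.card C[x]) (g := fun _ => (Nat.card G : ℚ))
      ⟨u, by simp; rintro rfl; simp at hu⟩ fun x hx => by
        rw [← C[x].index_mul_card, Nat.cast_mul]
        exact mul_lt_mul_of_pos_right (h x (Finset.ne_of_mem_erase hx)) (Nat.cast_pos.2 Nat.card_pos)
    rw [← Finset.mul_sum, Finset.sum_const, Finset.card_erase_of_mem (Finset.mem_univ _),
      Finset.card_univ, ← Nat.card_eq_fintype_card, nsmul_eq_mul, Nat.cast_pred Nat.card_pos,
      eq_sub_of_add_eq' h8] at h9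
    have h10 : (S.card : ℚ) + 1 ≤ Nat.card (ConjClasses G) := by exact_mod_cast h7
    have h11 : a ^ 2 * S.card < Nat.card G - 1 := by
      refine lt_of_mul_lt_mul_right (lt_of_le_of_lt ?_ h9) (Nat.cast_nonneg (Nat.card G))
      rw [mul_assoc, ← sub_one_mul]
      gcongr
      linarith
    have h12 := mul_le_mul_of_nonneg_left h6 (sq_nonneg a)
    rw [← mul_pow, h5] at h12
    nlinarith
  · by_contra! h
    have h6 := Finset.sum_lt_sum_of_nonempty (f := fun χ => a * deg χ)
      (g := fun χ => (deg χ : ℚ) ^ 2) hS fun χ hχ => by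
        obtain ⟨h6, h7⟩ := Finset.mem_filter.1 hχ
        obtain ⟨h6, h8⟩ := Finset.mem_erase.1 h6
        rw [sq]
        exact mul_lt_mul_of_pos_right (h ⟨χ, mem_Irr_top.1 h8⟩ (fun e => h6 (e.trans
          (funext fun g => (triv_of_mem (Subgroup.mem_top g)).symm))) (star_eq_iff_im.1 h7))
          (Nat.cast_pos.2 (H20.irr_deg_pos h8))
    rw [← Finset.mul_sum] at h6
    nlinarith

end Cfsg.Agent.S4476
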