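import Cfsg.Statements.S4478
import Cfsg.Agent.H7.Quot
import Cfsg.Agent.H6.Zeros
import Cfsg.Agent.H5.Schur

set_option autoImplicit false
open Cfsg

namespace Cfsg.Agent.S4478

open H8 H28 H5 MonoidAlgebra
open H7 (eB fB VG redG ev fB_mem_VG isPBlock_principalBlock isPBlock_nonempty)

/-- Let G be a finite group of even order and χ an irreducible character of G whose degree x is divisible by the full power of 2 dividing the order of G and, for every odd prime p such that G has an element of order 2p, by the full power of p dividing the order of G. Then all involutions of G are conjugate, the centralizer of every involution has order exactly x with x coprime to its index, and the Frobenius–Schur indicator of χ equals 1. -/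
theorem result {G : Type*} [Group G] [Fintype G] (heven : Even (Nat.card G)) (χ : Cfsg.IrrCharacter G) (h2 : 2 ^ (Nat.card G).factorization 2 ∣ Cfsg.charDegree (χ : G → ℂ)) (hp : ∀ p : ℕ, p.Prime → p ≠ 2 → (∃ g : G, orderOf g = 2 * p) → p ^ (Nat.card G).factorization p ∣ Cfsg.charDegree (χ : G → ℂ)) : (∀ s t : G, orderOf s = 2 → orderOf t = 2 → IsConj s t) ∧ (∀ s : G, orderOf s = 2 → Nat.card (Subgroup.centralizer ({s} : Set G)) = Cfsg.charDegree (χ : G → ℂ) ∧ (Nat.card (Subgroup.centralizer ({s} : Set G))).Coprime (Subgroup.centralizer ({s} : Set G)).index) ∧ (Nat.card G : ℂ)⁻¹ * ∑ g : G, (χ : G → ℂ) (g * g) = 1 := by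
  classical
  set x := charDegree (χ : G → ℂ) with hx
  have hx1 : χ.1 1 = x := H6.irr_deg χ.2
  obtain ⟨m, hm⟩ := H6.irr_deg_dvd χ.2
  rw [← hx] at hm
  have hG : Nat.card G ≠ 0 := Nat.card_pos.ne'
  have hfull : ∀ p : ℕ, p.Prime → p ^ (Nat.card G).factorization p ∣ x → ¬ p ∣ m := by
    intro p hpp h hd
    have := mul_dvd_mul h hd
    rw [← hm, ← pow_succ] at this
    exact absurd ((hpp.pow_dvd_iff_le_factorization hG).1 this) (by omega)
  have hprime : ∀ s : G, orderOf s = 2 → ∀ p : ℕ, p.Prime →
      p ∣ Nat.card (Subgroup.centralizer ({s} : Set G)) → ¬ p ∣ m := by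
    intro s hs p hpp hd
    by_cases hp2 : p = 2
    · subst hp2; exact hfull 2 hpp h2
    refine hfull p hpp (hp p hpp hp2 ?_)
    haveI := Fact.mk hpp
    obtain ⟨c, hc⟩ := exists_prime_orderOf_dvd_card' p hd
    have hcomm : Commute s (c : G) := Subgroup.mem_centralizer_iff.1 c.2 s rfl
    refine ⟨s * c, ?_⟩
    rw [hcomm.orderOf_mul_eq_mul_orderOf_of_coprime, hs, Subgroup.orderOf_coe, hc]
    rw [hs, Subgroup.orderOf_coe, hc]
    exact (Nat.coprime_primes Nat.prime_two hpp).2 (Ne.symm hp2)
  have hvan : ∀ s : G, orderOf s = 2 → ∀ c ∈ Subgroup.centralizer ({s} : Set G), c ≠ 1 →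
      χ.1 c = 0 := by
    intro s hs c hc hc1
    obtain ⟨p, hpp, hd⟩ := Nat.exists_prime_and_dvd (fun h => hc1 (orderOf_eq_one_iff.1 h))
    exact H6.defect_zero χ.2 hpp hx1 hm
      (hprime s hs p hpp (hd.trans (Subgroup.orderOf_dvd_natCard _ hc))) hd
  have hdvd : ∀ s : G, orderOf s = 2 → Nat.card (Subgroup.centralizer ({s} : Set G)) ∣ x := by
    intro s hs
    obtain ⟨n, hn⟩ := (χ.2.isCharacter.restrict
      (Subgroup.centralizer ({s} : Set G))).exists_classInner_nat isCharacter_one
    rw [classInner_one_right, Finset.sum_eq_single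
      (1 : Subgroup.centralizer ({s} : Set G)) (fun c _ hc => hvan s hs c c.2
      (by simpa using hc)) (by simp), OneMemClass.coe_one, hx1] at hn
    refine ⟨n, ?_⟩
    have h0 := card_ne_zero_complex (Subgroup.centralizer ({s} : Set G))
    field_simp at hn
    exact_mod_cast hn
  have hodd : ∀ g h : G, Commute g h → h ≠ 1 → χ.1 h ≠ 0 → Odd (orderOf g) := by
    intro g h hc h1 h0
    by_contra hn
    obtain ⟨k, hk⟩ := (Nat.not_odd_iff_even.1 hn).two_dvd
    have hk0 : k ≠ 0 := by
      rintro rfl; exact (orderOf_pos g).ne' hk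
    refine h0 (hvan (g ^ k) ?_ h ?_ h1)
    · rw [orderOf_pow' g hk0, hk, Nat.gcd_mul_left_left, Nat.mul_div_cancel _ (by omega)]
    · rw [Subgroup.mem_centralizer_iff]; rintro _ rfl; exact (hc.pow_left k).eq
  have hroot : ∀ h : G, h ≠ 1 → χ.1 h ≠ 0 → Nat.card {g : G // g * g = h} = 1 := by
    intro h h1 h0
    rw [Nat.card_eq_one_iff_unique]
    constructor
    · refine ⟨fun a b => Subtype.ext ?_⟩
      have ha : Odd (orderOf a.1) := hodd _ h (a.2 ▸ (Commute.refl a.1).mul_right (Commute.refl _) :) h1 h0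
      have hb : Odd (orderOf b.1) := hodd _ h (b.2 ▸ (Commute.refl b.1).mul_right (Commute.refl _) :) h1 h0
      obtain ⟨k, hk⟩ := ha.mul hb
      have key : ∀ c : {g : G // g * g = h}, orderOf c.1 ∣ 2 * k + 1 → c.1 = h ^ (k + 1) := by
        intro c hc
        have e := orderOf_dvd_iff_pow_eq_one.1 hc
        calc c.1 = c.1 ^ (2 * k + 1) * c.1 := by rw [e, one_mul]
          _ = (c.1 * c.1) ^ (k + 1) := by rw [← pow_two, ← pow_mul, ← pow_succ]; ring_nf
          _ = _ := by rw [c.2]
      rw [key a (hk ▸ dvd_mul_right _ _), key b (hk ▸ dvd_mul_left _ _)]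
    · obtain ⟨k, hk⟩ := hodd h h (Commute.refl _) h1 h0
      refine ⟨⟨h ^ (k + 1), ?_⟩⟩
      rw [← pow_add, show k + 1 + (k + 1) = (2 * k + 1) + 1 by ring, ← hk, pow_succ,
        pow_orderOf_eq_one, one_mul]
  set T := Finset.univ.filter fun g : G => orderOf g = 2 with hT
  have hone : Nat.card {g : G // g * g = 1} = T.card + 1 := by
    rw [Nat.card_eq_fintype_card, Fintype.card_subtype, ← Finset.card_insert_of_notMem (a := 1)
      (by simp [hT])]
    congr 1
    ext g
    simp only [Finset.mem_filter, Finset.mem_univ, true_and, Finset.mem_insert, hT]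
    constructor
    · intro h
      by_cases h1 : g = 1
      · exact Or.inl h1
      · exact Or.inr (orderOf_eq_prime (by rw [pow_two, h]) h1)
    · rintro (rfl | h)
      · simp
      · rw [← pow_two, ← h, pow_orderOf_eq_one]
  haveI : Fact (Nat.Prime 2) := ⟨Nat.prime_two⟩
  obtain ⟨s₀, hs₀⟩ := exists_prime_orderOf_dvd_card' 2 heven.two_dvd
  have hs1 : ∀ s : G, orderOf s = 2 → s ≠ 1 := by
    rintro s hs rfl; simp at hs
  have hsum0 : ∑ g, χ.1 g = 0 := by
    have hne : χ.1 ≠ fun _ => 1 := by
      intro h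
      have := hvan s₀ hs₀ s₀ (Subgroup.mem_centralizer_iff.2 (by rintro _ rfl; rfl)) (hs1 _ hs₀)
      rw [h] at this; exact one_ne_zero this
    have := χ.2.classInner_of_ne isIrrCharacter_one hne
    rw [classInner_one_right] at this
    exact (mul_eq_zero.1 this).resolve_left (inv_ne_zero (card_ne_zero_complex G))
  have hsum : ∑ g : G, χ.1 (g * g) = (T.card * x : ℕ) := by
    rw [← sum_card_fiber_mul (fun g : G => g * g) χ.1]
    have : ∀ h : G, (Nat.card {g : G // g * g = h} : ℂ) * χ.1 h =
        χ.1 h + if h = 1 then ((T.card * x : ℕ) : ℂ) else 0 := by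
      intro h
      split_ifs with h1
      · rw [h1, hone, hx1]; push_cast; ring
      · by_cases h0 : χ.1 h = 0
        · simp [h0]
        · rw [hroot h h1 h0]; simp
    simp only [this, Finset.sum_add_distrib, hsum0, Finset.sum_ite_eq', Finset.mem_univ, if_true,
      zero_add]
  have hTpos : 0 < T.card := Finset.card_pos.2 ⟨s₀, by simp [hT, hs₀]⟩
  have hxpos : 0 < x := H6.irr_deg_pos χ.2
  have hG' := card_ne_zero_complex G
  have hfs : fsInd χ.1 = 1 := by
    rcases χ.2.fsInd_cases with h | h | h
    · rw [fsInd_def, hsum] at h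
      have := (mul_eq_zero.1 h).resolve_left (inv_ne_zero hG')
      exact absurd (Nat.cast_eq_zero.1 this) (Nat.mul_pos hTpos hxpos).ne'
    · exact h
    · rw [fsInd_def, hsum] at h
      field_simp at h
      have h' : ((T.card * x + Nat.card G : ℕ) : ℂ) = 0 := by
        rw [Nat.cast_add, h]; ring
      have := Nat.cast_eq_zero.1 h'
      omega
  have hTm : T.card = m := by
    have h := hfs
    rw [fsInd_def, hsum] at h
    field_simp at h
    have h' : T.card * x = Nat.card G := by exact_mod_cast h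
    rw [hm, mul_comm] at h'
    exact Nat.eq_of_mul_eq_mul_left hxpos h'
  have hsub : ∀ s : G, orderOf s = 2 → (Finset.univ.filter fun y : G => IsConj s y) ⊆ T := by
    intro s hs y hy
    simp only [Finset.mem_filter, Finset.mem_univ, true_and, hT] at hy ⊢
    obtain ⟨c, rfl⟩ := isConj_iff.1 hy
    rw [← hs]; exact (MulAut.conj c).orderOf_eq s
  have hmain : ∀ s : G, orderOf s = 2 →
      Nat.card (Subgroup.centralizer ({s} : Set G)) = x ∧
        (Subgroup.centralizer ({s} : Set G)).index = m := by
    intro s hs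
    have h1 := Finset.card_le_card (hsub s hs)
    rw [card_filter_isConj, hTm] at h1
    have h2 := Nat.le_of_dvd hxpos (hdvd s hs)
    have h3 := (Subgroup.centralizer ({s} : Set G)).card_mul_index
    rw [hm] at h3
    have hm0 : 0 < m := by omega
    constructor
    · by_contra hne
      have := Nat.mul_lt_mul_of_lt_of_le (lt_of_le_of_ne h2 hne) h1 hm0
      omega
    · by_contra hne
      have := Nat.mul_lt_mul_of_le_of_lt h2 (lt_of_le_of_ne h1 hne) hxpos
      omega
  refine ⟨fun s t hs ht => ?_, fun s hs => ⟨(hmain s hs).1, ?_⟩, hfs⟩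
  · have := Finset.eq_of_subset_of_card_le (hsub s hs)
      (by rw [card_filter_isConj, hTm, (hmain s hs).2])
    have h2 : t ∈ T := by simp [hT, ht]
    rw [← this] at h2
    exact (Finset.mem_filter.1 h2).2
  · rw [(hmain s hs).2]
    exact Nat.coprime_of_dvd fun p hpp hd => hprime s hs p hpp hd

end Cfsg.Agent.S4478
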