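import Cfsg.Statements.S4479
import Cfsg.Agent.H7.KlOrd

set_option autoImplicit false
open Cfsg

open H5 H28 H8 H7

namespace Cfsg.Agent.S4479

/-- An order formula from the principal 2-block. Let G be a finite group of order 4·g₀ with g₀ odd having no normal 2-complement (no normal subgroup of order g₀); let P be a Sylow 2-subgroup, J an involution of P, and fix a maximal ideal M of the algebraic integers containing 2. Suppose the principal 2-block consists of the principal character and three further distinct characters χ₁, χ₂, χ₃ of degrees x₁, x₂, x₃, with χ_i(J) = ε_i = ±1. Then, writing c(J) and c(P) for the orders of the centralizers of J and of P, the order of G equals 8·α·c(J)³/c(P)² with α = x₁x₂x₃ / ((x₁ + ε₁)(x₂ + ε₂)(x₃ + ε₃)). -/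
theorem result {G : Type*} [Group G] [Finite G] (M : Ideal Cfsg.AlgInt) (hM : Cfsg.IsPModular 2 M) (g₀ : ℕ) (hg₀ : Odd g₀) (hG : Nat.card G = 4 * g₀) (hnc : ¬ ∃ N : Subgroup G, N.Normal ∧ Nat.card N = g₀) (P : Sylow 2 G) (J : G) (hJ : J ∈ (P : Subgroup G)) (hJ2 : orderOf J = 2) (χ₁ χ₂ χ₃ : Cfsg.IrrCharacter G) (ε₁ ε₂ ε₃ : ℤ) (hB : Cfsg.principalBlock M G = {χ : Cfsg.IrrCharacter G | (χ : G → ℂ) = (fun _ => 1) ∨ χ = χ₁ ∨ χ = χ₂ ∨ χ = χ₃}) (hdist : (χ₁ : G → ℂ) ≠ (fun _ => 1) ∧ (χ₂ : G → ℂ) ≠ (fun _ => 1) ∧ (χ₃ : G → ℂ) ≠ (fun _ => 1) ∧ χ₁ ≠ χ₂ ∧ χ₁ ≠ χ₃ ∧ χ₂ ≠ χ₃) (hε : (ε₁ = 1 ∨ ε₁ = -1) ∧ (ε₂ = 1 ∨ ε₂ = -1) ∧ (ε₃ = 1 ∨ ε₃ = -1)) (hval : (χ₁ : G → ℂ) J = ε₁ ∧ (χ₂ : G → ℂ) J = ε₂ ∧ (χ₃ : G → ℂ) J = ε₃) : (Nat.card G : ℚ) = 8 * (((Cfsg.charDegree (χ₁ : G → ℂ) : ℚ) * Cfsg.charDegree (χ₂ : G → ℂ) * Cfsg.charDegree (χ₃ : G → ℂ)) / ((Cfsg.charDegree (χ₁ : G → ℂ) + ε₁)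 * (Cfsg.charDegree (χ₂ : G → ℂ) + ε₂) * (Cfsg.charDegree (χ₃ : G → ℂ) + ε₃))) * (Nat.card (Subgroup.centralizer ({J} : Set G)) : ℚ) ^ 3 / (Nat.card (Subgroup.centralizer ((P : Subgroup G) : Set G)) : ℚ) ^ 2 := by
  have hP : Nat.card (P : Subgroup G) = 4 := by
    rw [P.card_eq_multiplicity, hG, Nat.factorization_mul (by norm_num) hg₀.pos.ne',
      Finsupp.add_apply, Nat.factorization_eq_zero_of_not_dvd hg₀.not_two_dvd_nat,
      show (4 : ℕ) = 2 ^ 2 from rfl, Nat.Prime.factorization_pow Nat.prime_two]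
    simp
  obtain ⟨hK, hone⟩ := klein_of_card_four P hP fun h => hnc (by
    obtain ⟨N, hN, h⟩ := (H3.hasNPC_iff_exists P).1 h
    have := h.card_mul_card
    exact ⟨N, hN, by rw [hP, hG] at this; omega⟩)
  obtain ⟨-, h⟩ := kf_order_four hM P hK hone hJ hJ2 (χ₁ := χ₁) (χ₂ := χ₂) (χ₃ := χ₃)
    (fun χ => by rw [hB]; exact or_congr_left (Subtype.ext_iff (a2 := irrOne G)).symm)
    (fun h => hdist.1 (h ▸ rfl)) (fun h => hdist.2.1 (h ▸ rfl)) (fun h => hdist.2.2.1 (h ▸ rfl))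
    hdist.2.2.2.1 hdist.2.2.2.2.1 hdist.2.2.2.2.2 hε.1 hε.2.1 hε.2.2 hval.1 hval.2.1 hval.2.2
  have h' : ((Subgroup.centralizer ({J} : Set G)).index : ℚ) * (Nat.card (𝐂 (P : Subgroup G))) ^ 2 *
      ((charDegree χ₁.1 + ε₁) * (charDegree χ₂.1 + ε₂) * (charDegree χ₃.1 + ε₃)) =
      8 * (Nat.card (Subgroup.centralizer ({J} : Set G))) ^ 2 *
        (charDegree χ₁.1 * charDegree χ₂.1 * charDegree χ₃.1) := by exact_mod_cast h
  have d₁ : (charDegree χ₁.1 : ℚ) ≠ 0 := by exact_mod_cast (charDegree_pos χ₁).ne'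
  have d₂ : (charDegree χ₂.1 : ℚ) ≠ 0 := by exact_mod_cast (charDegree_pos χ₂).ne'
  have d₃ : (charDegree χ₃.1 : ℚ) ≠ 0 := by exact_mod_cast (charDegree_pos χ₃).ne'
  have d₄ : (Nat.card (𝐂 (P : Subgroup G)) : ℚ) ≠ 0 := by exact_mod_cast Nat.card_pos.ne'
  have d₅ : (Nat.card (Subgroup.centralizer ({J} : Set G)) : ℚ) ≠ 0 := by
    exact_mod_cast Nat.card_pos.ne'
  have d₆ : ((charDegree χ₁.1 + ε₁) * (charDegree χ₂.1 + ε₂) * (charDegree χ₃.1 + ε₃) : ℚ) ≠ 0 :=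
    fun h0 => by
      rw [h0, mul_zero] at h'
      exact absurd h'.symm (by positivity)
  rw [← (Subgroup.centralizer ({J} : Set G)).index_mul_card, eq_div_iff (pow_ne_zero 2 d₄),
    ← mul_div_assoc, div_mul_eq_mul_div, eq_div_iff d₆]
  push_cast
  linear_combination (Nat.card (Subgroup.centralizer ({J} : Set G)) : ℚ) * h'

end Cfsg.Agent.S4479
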