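import Cfsg.Statements.S4480
import Cfsg.Agent.H7.KlOrd
import Cfsg.Agent.S0895

set_option autoImplicit false
open Cfsg

open H5 H28 H8 H7

namespace Cfsg.Agent.S4480

/-- Same setting as the Klein-four order formula: G of order 4·g₀ (g₀ odd) with no normal 2-complement, P a Sylow 2-subgroup, J an involution of P, M over 2, principal 2-block {1, χ₁, χ₂, χ₃} with χ_i(J) = ε_i = ±1. Suppose ε₁ε₂ε₃ = −1 and ε₃ = −1, and put q = x₃ = χ₃(1). Then there is a natural number m with 4·c(J) = m·c(P)·(q + 1), and the order of G equals (m³·c(P)/4)·(q³ − q)/2, that is 8·#G = m³·c(P)·(q³ − q). -/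
theorem result {G : Type*} [Group G] [Finite G] (M : Ideal Cfsg.AlgInt) (hM : Cfsg.IsPModular 2 M) (g₀ : ℕ) (hg₀ : Odd g₀) (hG : Nat.card G = 4 * g₀) (hnc : ¬ ∃ N : Subgroup G, N.Normal ∧ Nat.card N = g₀) (P : Sylow 2 G) (J : G) (hJ : J ∈ (P : Subgroup G)) (hJ2 : orderOf J = 2) (χ₁ χ₂ χ₃ : Cfsg.IrrCharacter G) (ε₁ ε₂ ε₃ : ℤ) (hB : Cfsg.principalBlock M G = {χ : Cfsg.IrrCharacter G | (χ : G → ℂ) = (fun _ => 1) ∨ χ = χ₁ ∨ χ = χ₂ ∨ χ = χ₃}) (hdist : (χ₁ : G → ℂ) ≠ (fun _ => 1) ∧ (χ₂ : G → ℂ) ≠ (fun _ => 1) ∧ (χ₃ : G → ℂ) ≠ (fun _ => 1) ∧ χ₁ ≠ χ₂ ∧ χ₁ ≠ χ₃ ∧ χ₂ ≠ χ₃) (hε : (ε₁ = 1 ∨ ε₁ = -1) ∧ (ε₂ = 1 ∨ ε₂ = -1) ∧ (ε₃ = 1 ∨ ε₃ = -1)) (hval : (χ₁ : G → ℂ) J = ε₁ ∧ (χ₂ : G → ℂ) J = ε₂ ∧ (χ₃ : G → ℂ) J = ε₃) (hprod : ε₁ * ε₂ * ε₃ = -1) (hε₃ : ε₃ = -1) : ∃ m : ℕ, 4 * Nat.card (Subgroup.centralizer ({J} : Set G)) = m * Nat.card (Subgroup.centralizer ((P : Subgroup G) : Set G))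 * (Cfsg.charDegree (χ₃ : G → ℂ) + 1) ∧ 8 * Nat.card G = m ^ 3 * Nat.card (Subgroup.centralizer ((P : Subgroup G) : Set G)) * (Cfsg.charDegree (χ₃ : G → ℂ) ^ 3 - Cfsg.charDegree (χ₃ : G → ℂ)) := by
  classical
  have := Fintype.ofFinite G
  have hP : Nat.card (P : Subgroup G) = 4 := by
    rw [P.card_eq_multiplicity, hG, Nat.factorization_mul (by norm_num) hg₀.pos.ne',
      Finsupp.add_apply, Nat.factorization_eq_zero_of_not_dvd hg₀.not_two_dvd_nat,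
      show (4 : ℕ) = 2 ^ 2 from rfl, Nat.Prime.factorization_pow Nat.prime_two]
    simp
  obtain ⟨hK, hone⟩ := klein_of_card_four P hP fun h => hnc (by
    obtain ⟨N, hN, h⟩ := (H3.hasNPC_iff_exists P).1 h
    have := h.card_mul_card
    exact ⟨N, hN, by rw [hP, hG] at this; omega⟩)
  have hB' : ∀ χ, χ ∈ principalBlock M G ↔ χ = irrOne G ∨ χ = χ₁ ∨ χ = χ₂ ∨ χ = χ₃ :=
    fun χ => by rw [hB]; exact or_congr_left (Subtype.ext_iff (a2 := irrOne G)).symm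
  obtain ⟨n1, n2, n3, n12, n13, n23⟩ := hdist
  obtain ⟨v₁, v₂, v₃⟩ := hval
  have m1 : irrOne G ≠ χ₁ := fun h => n1 (h ▸ rfl)
  have m2 : irrOne G ≠ χ₂ := fun h => n2 (h ▸ rfl)
  have m3 : irrOne G ≠ χ₃ := fun h => n3 (h ▸ rfl)
  obtain ⟨h0, h⟩ := kf_order_four hM P hK hone hJ hJ2 hB' m1 m2 m3 n12 n13 n23
    hε.1 hε.2.1 hε.2.2 v₁ v₂ v₃
  have p₁ := charDegree_pos χ₁
  have p₂ := charDegree_pos χ₂
  have p₃ := charDegree_pos χ₃
  subst hε₃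
  obtain ⟨rfl, rfl⟩ : ε₁ = 1 ∧ ε₂ = 1 := by
    rcases hε.1 with rfl | rfl <;> rcases hε.2.1 with rfl | rfl <;> omega
  have q₁ := kf_dvd_degree P hK hone hJ2 χ₁.2.isCharacter v₁
  have q₂ := kf_dvd_degree P hK hone hJ2 χ₂.2.isCharacter v₂
  have q₃ := kf_dvd_degree P hK hone hJ2 χ₃.2.isCharacter v₃
  have hst : ∀ χ ∈ principalBlock M G, irrStar χ ∈ principalBlock M G := fun χ hχ =>
    (irrPow_mem_principal_iff _).2 hχ
  have hv : ∀ χ : IrrCharacter G, (irrStar χ).1 J = χ.1 J := fun χ => by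
    rw [irrStar_apply', H10.inv_eq_of_orderOf_two hJ2]
  have hs1 : irrStar (irrOne G) = irrOne G := rfl
  have hfs : ∀ χ : IrrCharacter G, irrStar χ = χ → Odd (charDegree χ.1) → fsInd χ.1 = 1 :=
    fun χ h1 h2 => Cfsg.Agent.S0895.result _ χ.2 (irrStar_eq_iff.1 h1) _ (irr_apply_one χ) h2
  have hx : charDegree χ₁.1 = charDegree χ₂.1 := by
    have key : ∀ χ : IrrCharacter G, χ ∈ principalBlock M G → irrOne G ≠ χ → χ.1 J = (1 : ℤ) →
        irrStar χ = χ₁ ∨ irrStar χ = χ₂ := fun χ hχ h1 h2 => by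
      rcases (hB' _).1 (hst χ hχ) with h3 | h3 | h3 | h3
      · exact absurd (by rw [← hs1, ← h3, irrStar_irrStar]) h1
      · exact Or.inl h3
      · exact Or.inr h3
      · have := hv χ
        rw [h3, v₃, h2] at this
        norm_num at this
    rcases key χ₁ ((hB' _).2 (by simp)) m1 v₁ with h1 | h1
    swap
    · rw [← h1]
      exact (charDegree_irrPow _ _).symm
    exfalso
    have h2 : irrStar χ₂ = χ₂ := (key χ₂ ((hB' _).2 (by simp)) m2 v₂).resolve_left fun h2 =>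
      n12 (by rw [← h1, ← h2, irrStar_irrStar])
    have h3 := kf_sum_fsInd hM P hK (isPBlock_principalBlock (M := M)) (J := J) (hJ2 ▸ dvd_rfl)
    rw [sum_four m1 m2 m3 n12 n13 n23 hB', v₁, v₂, v₃, hfs _ h1 (Nat.odd_iff.2 (by omega)), hfs _ h2 (Nat.odd_iff.2 (by omega)),
      hfs _ hs1 (by
        have : (1 : ℂ) = charDegree (irrOne G).1 := irr_apply_one (irrOne G)
        rw [show charDegree (irrOne G).1 = 1 by exact_mod_cast this.symm]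
        exact odd_one), show (irrOne G).1 J = 1 from rfl] at h3
    rcases χ₃.2.fsInd_cases with h4 | h4 | h4 <;> rw [h4] at h3 <;> norm_num at h3
  obtain ⟨r, hr⟩ := Subgroup.card_dvd_of_le (Subgroup.centralizer_le (Set.singleton_subset_iff.2 hJ) :
    𝐂 (P : Subgroup G) ≤ Subgroup.centralizer ({J} : Set G))
  rw [← (Subgroup.centralizer ({J} : Set G)).index_mul_card]
  have d₄ : 0 < Nat.card (𝐂 (P : Subgroup G)) := Nat.card_pos
  rw [hr] at h ⊢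
  generalize (Subgroup.centralizer ({J} : Set G)).index = i at *
  generalize Nat.card (𝐂 (P : Subgroup G)) = c at *
  generalize charDegree χ₁.1 = x₁ at *
  generalize charDegree χ₂.1 = x₂ at *
  generalize charDegree χ₃.1 = q at *
  subst hx
  obtain ⟨k, rfl⟩ : ∃ k : ℕ, x₁ = 2 * k + 1 := ⟨x₁ / 2, by omega⟩
  obtain rfl : q = 4 * k + 3 := by omega
  have h1 : i * (k + 1) ^ 2 = r ^ 2 * ((2 * k + 1) * (4 * k + 3)) := by
    have h2 : ((8 * c ^ 2 * (2 * k + 1) : ℕ) : ℤ) * ((i * (k + 1) ^ 2 : ℕ) : ℤ) =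
        ((8 * c ^ 2 * (2 * k + 1) : ℕ) : ℤ) * ((r ^ 2 * ((2 * k + 1) * (4 * k + 3)) : ℕ) : ℤ) := by
      push_cast at h ⊢
      linear_combination h
    exact_mod_cast mul_left_cancel₀ (by positivity) h2
  have h2 : (k + 1) ∣ r := by
    rw [← Nat.pow_dvd_pow_iff two_ne_zero]
    refine Nat.Coprime.dvd_of_dvd_mul_right (Nat.Coprime.pow_left 2 (Nat.Coprime.mul_right ?_ ?_))
      (h1 ▸ dvd_mul_left _ _)
    · exact Nat.isCoprime_iff_coprime.1 ⟨2, -1, by push_cast; ring⟩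
    · exact Nat.isCoprime_iff_coprime.1 ⟨4, -1, by push_cast; ring⟩
  obtain ⟨m, rfl⟩ := h2
  refine ⟨m, by ring, ?_⟩
  have h3 : i = m ^ 2 * ((2 * k + 1) * (4 * k + 3)) :=
    Nat.eq_of_mul_eq_mul_right (show 0 < (k + 1) ^ 2 by positivity) (by rw [h1]; ring)
  rw [h3, show (4 * k + 3) ^ 3 - (4 * k + 3) = (4 * k + 3) * (4 * k + 2) * (4 * k + 4) from
    Nat.sub_eq_of_eq_add (by ring)]
  ring

end Cfsg.Agent.S4480
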