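import Cfsg.Statements.S4481
import Cfsg.Agent.H7.Tame8

set_option autoImplicit false
open Cfsg

open H5 H28 H8 H7

namespace Cfsg.Agent.S4481

/-- The principal 2-block of a group with dihedral Sylow 2-subgroups. Let G be a finite group whose Sylow 2-subgroup P is dihedral of order 2^n ≥ 8, let σ be an element of P of order 2^(n−1), ζ a primitive 2^(n−1)-th root of unity, and M a maximal ideal of the algebraic integers containing 2. Then the principal 2-block consists of exactly 3 + 2^(n−2) irreducible characters, which can be labelled 1, χ₁, χ₂, χ₃ and χ^(j) for 1 ≤ j ≤ 2^(n−2) − 1 (all distinct), with signs δ₁, δ₂, δ₃ such that for 0 < λ < 2^(n−1): χ₁(σ^λ) = δ₁, χ₂(σ^λ) = δ₂(−1)^(λ+1), χ₃(σ^λ) = δ₃(−1)^(λ+1) and χ^(j)(σ^λ) = δ₁(ζ^(jλ) + ζ^(−jλ)); and for every element ρ of odd order and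 every j: 1 + δ₁χ₁(ρ) = −δ₂χ₂(ρ) − δ₃χ₃(ρ) = δ₁χ^(j)(ρ). -/
theorem result {G : Type*} [Group G] [Finite G] (M : Ideal Cfsg.AlgInt) (hM : Cfsg.IsPModular 2 M) (n : ℕ) (hn : 3 ≤ n) (P : Sylow 2 G) (hP : Nonempty ((P : Subgroup G) ≃* DihedralGroup (2 ^ (n - 1)))) (σ : G) (hσ : σ ∈ (P : Subgroup G)) (hσo : orderOf σ = 2 ^ (n - 1)) (ζ : ℂ) (hζ : IsPrimitiveRoot ζ (2 ^ (n - 1))) : Nat.card (Cfsg.principalBlock M G) = 3 + 2 ^ (n - 2) ∧ ∃ (χ₁ χ₂ χ₃ : Cfsg.IrrCharacter G) (χ' : Fin (2 ^ (n - 2) - 1) → Cfsg.IrrCharacter G) (δ₁ δ₂ δ₃ : ℤ), (δ₁ = 1 ∨ δ₁ = -1) ∧ (δ₂ = 1 ∨ δ₂ = -1) ∧ (δ₃ = 1 ∨ δ₃ = -1) ∧ Function.Injective χ' ∧ (χ₁ : G → ℂ) ≠ (fun _ => 1) ∧ (χ₂ : G → ℂ) ≠ (fun _ => 1) ∧ (χ₃ : G → ℂ) ≠ (fun _ => 1) ∧ χ₁ ≠ χ₂ ∧ χ₁ ≠ χ₃ ∧ χ₂ ≠ χ₃ ∧ (∀ j, χ' j ≠ χ₁ ∧ χ' j ≠ χ₂ ∧ χ' j ≠ χ₃ ∧ (χ' j : G → ℂ)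 ≠ (fun _ => 1)) ∧ Cfsg.principalBlock M G = {χ : Cfsg.IrrCharacter G | (χ : G → ℂ) = (fun _ => 1) ∨ χ = χ₁ ∨ χ = χ₂ ∨ χ = χ₃ ∨ ∃ j, χ = χ' j} ∧ (∀ l : ℕ, 0 < l → l < 2 ^ (n - 1) → (χ₁ : G → ℂ) (σ ^ l) = δ₁ ∧ (χ₂ : G → ℂ) (σ ^ l) = δ₂ * (-1) ^ (l + 1) ∧ (χ₃ : G → ℂ) (σ ^ l) = δ₃ * (-1) ^ (l + 1) ∧ ∀ j : Fin (2 ^ (n - 2) - 1), (χ' j : G → ℂ) (σ ^ l) = δ₁ * (ζ ^ (((j : ℕ) + 1) * l) + (ζ ^ (((j : ℕ) + 1) * l))⁻¹)) ∧ ∀ ρ : G, Odd (orderOf ρ) → ∀ j : Fin (2 ^ (n - 2) - 1), 1 + δ₁ * (χ₁ : G → ℂ) ρ = -δ₂ * (χ₂ : G → ℂ) ρ - δ₃ * (χ₃ : G → ℂ) ρ ∧ 1 + δ₁ * (χ₁ : G → ℂ) ρ = δ₁ * (χ' j : G → ℂ) ρ := by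
  obtain ⟨m, rfl⟩ : ∃ m, n = m + 1 := ⟨n - 1, by omega⟩
  obtain ⟨E⟩ := hP
  obtain ⟨x, hx⟩ := exists_dih P.2 (n := m) (by omega) E
  have hD := dih_of_orderOf hx hσ hσo
  replace hζ : IsPrimitiveRoot ζ (2 ^ m) := hζ
  have hψ := AddChar.zmodChar_primitive_of_primitive_root _ hζ
  obtain ⟨χ, ε, κ, h1, h2, h3, h4⟩ := exists_principal_dih hM hD hψ
  have h5 {ξ : IrrCharacter G} : (ξ : G → ℂ) = (fun _ => 1) ↔ ξ = χ 0 := by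
    rw [h2, Subtype.ext_iff]; rfl
  have h6 {i j : Fin 4} (h : i ≠ j) : χ i ≠ χ j := h1.inj₀.ne h
  refine ⟨?_, χ 1, χ 2, χ 3, κ, ε 1, ε 2, ε 3, h1.pm 1, h1.pm 2, h1.pm 3, h1.inj₁,
    mt h5.1 (h6 (by decide)), mt h5.1 (h6 (by decide)), mt h5.1 (h6 (by decide)), h6 (by decide),
    h6 (by decide), h6 (by decide), fun j => ⟨(h1.ne 1 j).symm, (h1.ne 2 j).symm, (h1.ne 3 j).symm,
      mt h5.1 (h1.ne 0 j).symm⟩, Set.ext fun ξ => ?_, fun l hl hl' => ?_, fun ρ hρ j => ?_⟩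
  · have := Nat.one_le_two_pow (n := m - 1)
    rw [h1.card, Fintype.card_fin, show m + 1 - 2 = m - 1 by omega]
    omega
  · simp only [h1.mem_iff, Set.mem_ofPred_eq, h5, Fin.exists_fin_succ, @eq_comm _ ξ, or_assoc,
      IsEmpty.exists_iff, false_or]
    rfl
  · replace hl' : l < 2 ^ m := hl'
    have h7 := h4 l (by rw [← Nat.cast_zero, Ne, natCast_inj_of_lt hl' (by omega)]; omega)
    have h8 : AddChar.zmodChar (2 ^ m) hζ.pow_eq_one (l * mcS m) = (-1) ^ l := by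
      rw [← nsmul_eq_mul, AddChar.map_nsmul_eq_pow, psi_mcS hD.mc hψ]
    rw [ZMod.val_cast_of_lt hl', h8] at h7
    refine ⟨h7.1, h7.2.1.trans (by ring), h7.2.2.1.trans (by ring), fun j => (h7.2.2.2 j).trans ?_⟩
    rw [AddChar.map_neg_eq_inv, jz, ← Nat.cast_mul, AddChar.zmodChar_apply']
  · have h7 : ¬ 2 ∣ orderOf ρ := by rwa [← even_iff_two_dvd, Nat.not_even_iff_odd]
    have h8 := h1.rel j ρ h7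
    have h9 := h1.rel4 ρ h7
    rw [h2, h3] at h8 h9
    change _ * (1 : ℂ) + _ = _ at h8
    change _ * (1 : ℂ) + _ + _ + _ = _ at h9
    exact ⟨by linear_combination h9, by linear_combination h8⟩

end Cfsg.Agent.S4481
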