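import Cfsg.Statements.S4482
import Cfsg.Agent.H7.Tame8

set_option autoImplicit false
open Cfsg

open H5 H28 H8 H7

namespace Cfsg.Agent.S4482

/-- An order formula for groups with dihedral Sylow 2-subgroups and one class of involutions. Let G be a finite group whose Sylow 2-subgroup P = ⟨σ, τ⟩ is dihedral of order 2^n ≥ 8 (σ of order 2^(n−1), τ an involution inverting σ), let J be the central involution σ^(2^(n−2)), and suppose J, τ and στ are conjugate in G. Fix M over 2 and let χ₁ be an irreducible character in the principal 2-block taking one constant value δ₁ = ±1 at every non-identity power of σ, with χ₁ ≠ 1. Then, with x₁ = χ₁(1) and c(·) denoting orders of centralizers, x₁ ≠ δ₁ and #G · (x₁ − δ₁)² = 2·x₁(x₁ + δ₁)·c(J)³·(1/c(J, τ) + 1/c(J, στ))², where c(J, y) is the order of the joint centralizer of J and y. -/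
theorem result {G : Type*} [Group G] [Finite G] (M : Ideal Cfsg.AlgInt) (hM : Cfsg.IsPModular 2 M) (n : ℕ) (hn : 3 ≤ n) (P : Sylow 2 G) (σ τ : G) (hσ : σ ∈ (P : Subgroup G)) (hτ : τ ∈ (P : Subgroup G)) (hσo : orderOf σ = 2 ^ (n - 1)) (hτo : orderOf τ = 2) (hrel : τ * σ * τ⁻¹ = σ⁻¹) (hgen : Subgroup.closure ({σ, τ} : Set G) = (P : Subgroup G)) (hconj : IsConj (σ ^ (2 ^ (n - 2))) τ ∧ IsConj (σ ^ (2 ^ (n - 2))) (σ * τ)) (χ₁ : Cfsg.IrrCharacter G) (hχ₁ : χ₁ ∈ Cfsg.principalBlock M G) (h1 : (χ₁ : G → ℂ) ≠ (fun _ => 1)) (δ₁ : ℤ) (hδ₁ : δ₁ = 1 ∨ δ₁ = -1) (hval : ∀ l : ℕ, 0 < l → l < 2 ^ (n - 1) → (χ₁ : G → ℂ) (σ ^ l) = δ₁) : (Cfsg.charDegree (χ₁ : G → ℂ) : ℤ) ≠ δ₁ ∧ (Nat.card G : ℚ) * ((Cfsg.charDegree (χ₁ : G → ℂ) : ℚ) - δ₁) ^ 2 = 2 * (Cfsg.charDegree (χ₁ : G → ℂ) : ℚ) * ((Cfsg.charDegree (χ₁ : G → ℂ) : ℚ) + δ₁) * (Nat.card (Subgroup.centralizer ({σ ^ (2 ^ (n - 2))} : Set G)) : ℚ) ^ 3 * (1 / (Nat.card (Subgroup.centralizer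 ({σ ^ (2 ^ (n - 2)), τ} : Set G)) : ℚ) + 1 / (Nat.card (Subgroup.centralizer ({σ ^ (2 ^ (n - 2)), σ * τ} : Set G)) : ℚ)) ^ 2 := by
  obtain ⟨m, rfl⟩ : ∃ m, n = m + 1 := ⟨n - 1, by omega⟩
  replace hσo : orderOf σ = 2 ^ m := hσo
  have h4 : 2 ^ 2 ≤ 2 ^ m := Nat.pow_le_pow_right two_pos (by omega)
  have hτ' : τ ∉ Subgroup.zpowers σ := fun ⟨i, hi⟩ => by
    have h2 : σ ^ 2 = 1 := by
      rw [sq, ← eq_inv_iff_mul_eq_one, ← hrel, ← hi]; simp only; group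
    have := Nat.le_of_dvd two_pos (orderOf_dvd_of_pow_eq_one h2)
    omega
  have hτ2 : τ ^ 2 = 1 := hτo ▸ pow_orderOf_eq_one τ
  have hτi : τ⁻¹ = τ := by rw [inv_eq_iff_mul_eq_one, ← sq, hτ2]
  have hc {a : G} (ha : a ∈ Subgroup.zpowers σ) : τ * a * τ ∈ Subgroup.zpowers σ := by
    obtain ⟨i, rfl⟩ := ha
    refine ⟨-i, ?_⟩
    simp only
    rw [zpow_neg, ← inv_zpow, ← hrel, conj_zpow, hτi]
  have hall (y : G) (hy : y ∈ (P : Subgroup G)) :
      y * τ ∈ Subgroup.zpowers σ ∨ y ∈ Subgroup.zpowers σ := by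
    rw [← hgen] at hy
    induction hy using Subgroup.closure_induction with
    | mem y hy =>
      rcases hy with rfl | rfl
      · exact Or.inr (Subgroup.mem_zpowers _)
      · exact Or.inl (by rw [← sq, hτ2]; exact one_mem _)
    | one => exact Or.inr (one_mem _)
    | mul a b _ _ ha hb =>
      have e : τ * τ = 1 := by rw [← sq, hτ2]
      rcases ha with ha | ha <;> rcases hb with hb | hb
      · exact Or.inr (by simpa [mul_assoc, e, ← mul_assoc τ τ] using mul_mem ha (hc hb))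
      · exact Or.inl (by simpa [mul_assoc, e, ← mul_assoc τ τ] using mul_mem ha (hc hb))
      · exact Or.inl (by simpa [mul_assoc] using mul_mem ha hb)
      · exact Or.inr (mul_mem ha hb)
    | inv a _ ha =>
      have e : τ * τ = 1 := by rw [← sq, hτ2]
      exact ha.imp (fun h => by
        simpa [hτi, ← mul_assoc τ τ, mul_assoc, e] using hc (inv_mem h)) inv_mem
  have hmc : H10.MC (P : Subgroup G) m σ (-1) := H10.MC.of_gen hσ hσo (by omega)
    (Subgroup.relIndex_eq_two_iff.2 ⟨τ, hτ, fun y hy => by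
      rcases hall y hy with h | h
      · exact Or.inl ⟨h, fun h' => hτ' ((Subgroup.mul_mem_cancel_left _ h').1 h)⟩
      · exact Or.inr ⟨h, fun h' => hτ' ((Subgroup.mul_mem_cancel_left _ h).1 h')⟩⟩)
    (by decide) hτ hτ' (by simpa using hrel)
  have hD : H10.Dih (P : Subgroup G) m σ :=
    ⟨hmc, fun w hw hw' => (H10.out_sq_of_inv hmc hτ hτ' hw hw').trans hτ2⟩
  have hz : σ ^ 2 ^ (m + 1 - 2) = H10.mcZ σ m := by
    rw [H10.mcZ, ← zpow_natCast]; simp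
  rw [hz] at hconj ⊢
  obtain ⟨h2, h3⟩ := dih_order hM hD hτ hτ' hconj.1 hconj.2 hχ₁ (fun h => h1 (by rw [h]; rfl)) hδ₁
    fun k hk => hval _ (ZMod.val_pos.2 hk) k.val_lt
  refine ⟨fun h => ?_, Rat.cast_injective (α := ℂ) (by push_cast; exact h3)⟩
  have h5 : (charDegree χ₁.1 + δ₁ : ℂ) ≠ 0 := by exact_mod_cast h2.ne'
  rw [← h, Int.cast_natCast, sub_self, sq, mul_zero, mul_zero, eq_comm] at h3
  rw [← h, Int.cast_natCast] at h5
  have h6 (S : Set G) : 0 < Nat.card (Subgroup.centralizer S) := Nat.card_pos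
  simp only [mul_eq_zero, h5, charDegree_ne_zero, pow_eq_zero_iff two_ne_zero,
    pow_eq_zero_iff three_ne_zero, Nat.cast_eq_zero, (h6 _).ne', two_ne_zero, false_or] at h3
  rw [div_add_div _ _ (Nat.cast_ne_zero.2 (h6 _).ne') (Nat.cast_ne_zero.2 (h6 _).ne'),
    div_eq_zero_iff, one_mul, mul_one] at h3
  norm_cast at h3
  simp [(h6 _).ne'] at h3

end Cfsg.Agent.S4482
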