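import Cfsg.Statements.S4489
import Cfsg.Agent.H6.LinG2

set_option autoImplicit false
open Cfsg

namespace Cfsg.Agent.S4489
open H6 H20 H19

/-- Let P be a finite p-group of order p^a with a > 0, and χ a faithful irreducible character of P of degree f whose field of values ℚ(χ) has degree (p − 1)·p^t over ℚ. Then a ≤ (f − 1)/(p − 1) + (t + 1)·f; in integer form, (p − 1)·a ≤ (f − 1) + (p − 1)(t + 1)·f. -/
theorem result {P : Type*} [Group P] [Finite P] (p a : ℕ) (hp : p.Prime) (ha : 0 < a) (hP : Nat.card P = p ^ a) (χ : Cfsg.IrrCharacter P) (hfaith : ∀ g : P, (χ : P → ℂ) g = (χ : P → ℂ) 1 → g = 1) (f t : ℕ) (hf : Cfsg.charDegree (χ : P → ℂ) = f) (hfield : Module.finrank ℚ (IntermediateField.adjoin ℚ (Set.range (χ : P → ℂ))) = (p - 1) * p ^ t) : (p - 1) * a ≤ (f - 1) + (p - 1) * (t + 1) * f := by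
  subst hf
  have h1 := coe_mem_Irr_top χ
  have h2 : cker (χ : P → ℂ) = ⊥ := le_bot_iff.1 fun g hg => hfaith g (cker_apply hg)
  have h3 : #(⊤ : Subgroup P) = p ^ a := card_top'.trans hP
  obtain ⟨s, b, c⟩ := pgroup_gal_bound hp (.of_card_pow hp h3) h1 fun e => by
    rw [e, cker_triv] at h2
    exact (Nat.one_lt_pow ha.ne' hp.one_lt).ne' (by rw [← h3, h2, Subgroup.card_bot])
  rw [← finrank_adjoin_eq h1, hfield, mul_right_inj' (Nat.sub_pos_of_lt hp.one_lt).ne',
    Nat.pow_right_inj hp.one_lt] at b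
  have := c a (by rw [h2, Subgroup.relIndex_bot_left, h3])
  have h4 := H20.irr_deg_pos h1
  rw [← b] at this
  change _ ≤ deg (χ : P → ℂ) - 1 + _ * deg (χ : P → ℂ)
  omega

end Cfsg.Agent.S4489
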