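import Cfsg.Statements.S4497
import Cfsg.Agent.H21.SC

set_option autoImplicit false
open Cfsg

namespace Cfsg.Agent.S4497

open H21 Subgroup
open scoped commutatorElement

/-- Let the finite group G contain an element x of prime order p with C_G(x) = ⟨x⟩, let t be the number of conjugacy classes of elements of order p, and let S* = O_{p′}(G) be the largest normal subgroup of order prime to p. Then S* ≤ G′; if t ≠ p − 1 the quotient G′/S* is simple (in particular non-trivial); if t = p − 1 then G′ = S*. -/
theorem result {G : Type*} [Group G] [Finite G] (p : ℕ) (hp : p.Prime) (x : G) (hx : orderOf x = p) (hC : Subgroup.centralizer ({x} : Set G) = Subgroup.zpowers x) (t : ℕ) (ht : Nat.card {C : ConjClasses G // ∃ g ∈ C.carrier, orderOf g = p} = t) : Cfsg.pPrimeCore p G ≤ commutator G ∧ (t ≠ p - 1 → ∀ h : ((Cfsg.pPrimeCore p G).subgroupOf (commutator G)).Normal, IsSimpleGroup (↥(commutator G) ⧸ (Cfsg.pPrimeCore p G).subgroupOf (commutator G))) ∧ (t = p - 1 → commutator G = Cfsg.pPrimeCore p G) := by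
  have h : SCent p x := ⟨hp, hx, hC⟩
  have := Fact.mk hp
  subst ht
  have hO : ¬ p ∣ Nat.card (pPrimeCore p G) := H1.coprime_iff_not_dvd.1 H1.pPrimeCore_coprime
  have h0 : pPrimeCore p G ≤ commutator G := h.le_commutator hO le_top trivial
  refine ⟨h0, fun h1 hn => ?_, fun h1 => le_antisymm
    (H1.le_pPrimeCore_of_not_dvd inferInstance (h.numClasses_eq_iff.1 h1)) h0⟩
  have h2 : p ∣ Nat.card (commutator G) := by
    by_contra h2; exact h1 (h.numClasses_eq_iff.2 h2)
  have hx' := h.mem_of_dvd h2
  have : Nontrivial (commutator G ⧸ (pPrimeCore p G).subgroupOf (commutator G)) :=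
    ⟨⟨((⟨x, hx'⟩ : commutator G) : _ ⧸ _), 1, fun e => hO (h.dvd_of_mem (by
      rwa [QuotientGroup.eq_one_iff] at e))⟩⟩
  refine ⟨fun N hN => ?_⟩
  let T := (N.comap (QuotientGroup.mk' _)).map (commutator G).subtype
  have hTn : commutator G ≤ normalizer (T : Set G) := by
    have : (T.subgroupOf (commutator G)).Normal := by
      rw [show T.subgroupOf (commutator G) = N.comap (QuotientGroup.mk' _) from
        comap_map_eq_self_of_injective (subtype_injective _) _]
      infer_instance
    exact (normal_subgroupOf_iff_le_normalizer (map_subtype_le _)).1 this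
  by_cases hT : p ∣ Nat.card T
  · right
    have e := h.commutator_eq_of_dvd (map_subtype_le _) hTn hT
    rw [eq_top_iff]
    intro q _
    obtain ⟨y, rfl⟩ := QuotientGroup.mk_surjective q
    obtain ⟨z, hz, ez⟩ := e.ge y.2
    rw [← Subtype.ext ez]; exact hz
  · left
    have e := (H1.le_pPrimeCoreOf_of_not_dvd (map_subtype_le _) hTn hT).trans
      (H1.pPrimeCoreOf_le_of_normal _)
    rw [eq_bot_iff_forall]
    intro q hq
    obtain ⟨y, rfl⟩ := QuotientGroup.mk_surjective q
    rw [QuotientGroup.eq_one_iff]
    exact e ⟨y, hq, rfl⟩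

end Cfsg.Agent.S4497
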