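import Cfsg.Statements.S4500
import Cfsg.Agent.H21.BT
import Cfsg.Agent.H21.SylowPrime
import Cfsg.Agent.H5.Burnside
import Cfsg.Agent.H7.Prin

set_option autoImplicit false
open Cfsg

namespace Cfsg.Agent.S4500

open H5 H7 H8 H28 H21 Finset
open scoped ComplexConjugate

/-- Let G be a non-trivial finite group of order p^a · q^b · r^c with p, q, r distinct primes and a ≤ 2. Then G has a non-principal irreducible character whose degree is a power of q, and a non-principal irreducible character whose degree is a power of r; the power may be the zeroth, so a non-principal linear character serves for both. -/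
theorem result {G : Type*} [Group G] [Finite G] [Nontrivial G] (p q r a b c : ℕ) (hp : p.Prime) (hq : q.Prime) (hr : r.Prime) (hpq : p ≠ q) (hpr : p ≠ r) (hqr : q ≠ r) (ha : a ≤ 2) (hG : Nat.card G = p ^ a * q ^ b * r ^ c) : (∃ χ : Cfsg.IrrCharacter G, (χ : G → ℂ) ≠ (fun _ => 1) ∧ ∃ k : ℕ, Cfsg.charDegree (χ : G → ℂ) = q ^ k) ∧ ∃ χ : Cfsg.IrrCharacter G, (χ : G → ℂ) ≠ (fun _ => 1) ∧ ∃ k : ℕ, Cfsg.charDegree (χ : G → ℂ) = r ^ k := by
  have hf : (Nat.card G).factorization p = a := by
    rw [hG, mul_assoc, Nat.factorization_mul_apply_of_coprime (((Nat.coprime_primes hp hq).2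
      hpq).pow a b |>.mul_right (((Nat.coprime_primes hp hr).2 hpr).pow a c))]
    simp [hp.factorization_pow, Nat.factorization_mul, hq.ne_zero, hr.ne_zero, hq.factorization,
      hr.factorization, hpq, hpr]
  have key : ∀ {q r b c : ℕ}, q.Prime → r.Prime → Nat.card G = p ^ a * q ^ b * r ^ c →
      ∃ χ : IrrCharacter G, χ.1 ≠ (fun _ => 1) ∧ ∃ k : ℕ, charDegree χ.1 = q ^ k := by
    intro q r b c hq hr hG
    have := Fintype.ofFinite G
    rcases Nat.eq_zero_or_pos a with rfl | h0
    · have := isSolvable_of_card_dvd_prime_pow_mul hq hr (a := b) (b := c) (by rw [hG, pow_zero, one_mul])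
      have h1 : Nontrivial {χ : IrrCharacter G // χ.1 1 = 1} := Finite.one_lt_card_iff_nontrivial.1
        (card_linear G ▸ Subgroup.one_lt_index_of_ne_top
          (Group.IsSolvable.commutator_lt_top_of_nontrivial G).ne)
      obtain ⟨χ, h2⟩ := exists_ne (⟨irrOne G, rfl⟩ : {χ : IrrCharacter G // χ.1 1 = 1})
      exact ⟨χ, fun h => h2 (Subtype.ext (Subtype.ext h)), 0, by simp [charDegree, χ.2]⟩
    have := Fact.mk hp
    obtain ⟨M, hM⟩ := exists_isPModular hp
    obtain ⟨g, hg⟩ := exists_prime_orderOf_dvd_card' (G := G) p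
      (hG ▸ ((dvd_pow_self p h0.ne').mul_right _).mul_right _)
    obtain ⟨χ, h1, h2, h3, -⟩ := exists_principal_not_dvd hM hr hg.symm.dvd
    have h4 : ¬ p ∣ charDegree χ.1 := (blockHeight_principal_eq_zero_iff hM χ).1 (by
      by_contra h
      have h4 := height_add_two_le hM isPBlock_principalBlock h1 h
      have := blockDefect_le (p := p) (B := principalBlock M G)
      omega)
    have h5 := χ.2.dvd_card (irr_apply_one χ)
    rw [hG, ((hr.coprime_iff_not_dvd.2 h3).symm.pow_right c).dvd_mul_right,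
      ((hp.coprime_iff_not_dvd.2 h4).symm.pow_right a).dvd_mul_left, Nat.dvd_prime_pow hq] at h5
    exact ⟨χ, fun h => h2 (Subtype.ext h), h5.imp fun _ h => h.2⟩
  exact ⟨key hq hr hG, key hr hq (hG.trans (mul_right_comm _ _ _))⟩

end Cfsg.Agent.S4500
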