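import Cfsg.Statements.S4635
import Cfsg.Agent.H21.Dade5

set_option autoImplicit false
open Cfsg

namespace Cfsg.Agent.S4635

open H5 H7 H8 H28 H21 Finset
open scoped ComplexConjugate

/-- Let B be a block of the finite group G relative to a maximal ideal M of the algebraic integers containing the prime p, with a nontrivial cyclic defect group P; let Z be the subgroup of order p of P and H = N_G(Z), which contains N_G(P). Let c be the block of H with defect group P that induces B. Then B and c contain the same number of irreducible characters, have the same p-regular rank, and there is a perfect isometry from c onto B. -/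
theorem result {G : Type*} [Group G] [Finite G] (p : ℕ) [Fact p.Prime] (M : Ideal Cfsg.AlgInt) (hM : Cfsg.IsPModular p M) (B : Set (Cfsg.IrrCharacter G)) (hB : Cfsg.IsPBlock M B) (P : Subgroup G) (hPD : Cfsg.IsDefectGroup p M B P) (hP1 : P ≠ ⊥) (hcyc : IsCyclic P) (Z : Subgroup G) (hZ : Z ≤ P) (hZcard : Nat.card Z = p) (H : Subgroup G) (hH : H = Subgroup.normalizer (Z : Set G)) (c : Set (Cfsg.IrrCharacter H)) (hcD : Cfsg.IsDefectGroup p M c (P.subgroupOf H)) (hc : Cfsg.IsInducedBlock M H c B) : Nat.card c = Nat.card B ∧ Cfsg.blockRank p c = Cfsg.blockRank p B ∧ ∃ (I : Cfsg.IrrCharacter H → Cfsg.IrrCharacter G) (ε : Cfsg.IrrCharacter H → ℤ), Cfsg.IsPerfectIsometry p M c B I ε := by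
  have := charP_kk hM
  have h1 : 𝐍 P ≤ H := hH ▸ norm_le_norm_of_cyclic hcyc hZ
  have hPH : P ≤ H := P.le_normalizer.trans h1
  have hC : 𝐂 P ≤ H := (Subgroup.centralizer_le_normalizer _).trans h1
  obtain ⟨e, m'⟩ := exists_maxP_block hM hc.1 hcD
  have m := maxP_emb_sub hM hPD hPH hC hc m'
  have σ := (Subgroup.subgroupOfEquivOfLe hPH).symm
  have h2 : (𝐂 P).relIndex (⊤ ⊓ 𝐍 P ⊓ H8.stab (emb H.subtype e)) =
      (𝐂 (P.subgroupOf H)).relIndex (⊤ ⊓ 𝐍 (P.subgroupOf H) ⊓ H8.stab e) := by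
    have h2 := map_inf_cent H.subtype_injective ⊤ (P.subgroupOf H)
    rw [top_inf_eq, map_top_subtype, Subgroup.map_subgroupOf_eq_of_le hPH, inf_eq_right.2 hC] at h2
    rw [← Subgroup.relIndex_map_map_of_injective _ _ H.subtype_injective, h2]
    congr 1
    ext t
    exact ⟨fun h => ⟨⟨t, h1 h.1.2⟩, (mem_nstab_emb hPH).2 h, rfl⟩,
      fun ⟨_, h, h'⟩ => h' ▸ (mem_nstab_emb hPH).1 h⟩
  obtain ⟨I, ε, h3⟩ := cyc_perfect hM hB m hcyc hP1 hc.1 m' σ h2
  exact ⟨Nat.card_congr h3.1.equiv, (cyc_rank hM hc.1 m' (σ.isCyclic.1 hcyc)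
    ((Subgroup.nontrivial_iff_ne_bot _).1 (have := P.nontrivial_iff_ne_bot.2 hP1
      σ.symm.toEquiv.nontrivial))).trans (h2.symm.trans (cyc_rank hM hB m hcyc hP1).symm), I, ε, h3⟩

end Cfsg.Agent.S4635
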