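import Cfsg.Statements.S4502
import Cfsg.Agent.S4635

set_option autoImplicit false
open Cfsg

namespace Cfsg.Agent.S4502

/-- Let G be a finite group whose order is divisible by the prime p exactly once, and let P be a Sylow p-subgroup. Then the number of irreducible characters of G of degree not divisible by p equals the number of conjugacy classes of the normalizer of P. -/
theorem result {G : Type*} [Group G] [Finite G] (p : ℕ) [Fact p.Prime] (hdiv : p ∣ Nat.card G) (hsq : ¬ p ^ 2 ∣ Nat.card G) (P : Sylow p G) : Nat.card {χ : Cfsg.IrrCharacter G // ¬ p ∣ Cfsg.charDegree (χ : G → ℂ)} = Nat.card (ConjClasses (Subgroup.normalizer ((P : Subgroup G) : Set G))) := by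
  classical
  have hp : p.Prime := Fact.out
  obtain ⟨M, hM⟩ := H7.exists_isPModular hp
  have := Fintype.ofFinite G
  have hP := H21.card_sylow_eq_prime P hdiv hsq
  have ha : (Nat.card G).factorization p = 1 := Nat.pow_right_injective hp.two_le
    (P.card_eq_multiplicity.symm.trans (hP.trans (pow_one p).symm))
  have k1 : ∀ χ : IrrCharacter G, ¬ p ∣ charDegree χ.1 ↔ IsDefectGroup p M (blockOf M χ.1) P := by
    intro χ
    have hB := H7.isPBlock_blockOf (M := M) χ
    have hχ := H7.mem_blockOf_self hM χ
    have h1 := H21.factorization_degree (p := p) hχ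
    have h2 := H21.blockDefect_le (p := p) (B := blockOf M χ.1)
    rw [hp.dvd_iff_one_le_factorization (H7.charDegree_ne_zero χ)]
    refine ⟨fun h => ?_, fun h => ?_⟩
    · obtain ⟨D, hD⟩ := H7.exists_isDefectGroup hM hB
      have h3 := H7.card_isDefectGroup hM hB hD
      rw [show blockDefect p _ = 1 by omega, pow_one, ← hP] at h3
      obtain ⟨Q, hQ⟩ := (H7.isPGroup_of_isDefectGroup hD).exists_le_sylow
      obtain ⟨g, rfl⟩ := MulAction.exists_smul_eq G P Q
      exact H7.isDefectGroup_of_card_le hM hB hD P.isPGroup' ((H7.br_eB_ne_zero_iff hM hB hD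
        P.isPGroup').2 ⟨g, (Subgroup.eq_of_le_of_card_ge hQ
          ((H21.card_sylow_eq_of P _).trans h3.symm).le).ge⟩) h3.le
    · have h3 := Nat.pow_right_injective hp.two_le
        ((H7.card_isDefectGroup hM hB h).symm.trans (hP.trans (pow_one p).symm))
      have h4 : blockHeight p (blockOf M χ.1) χ.1 = 0 := by
        by_contra e
        have := H21.height_add_two_le hM hB hχ e
        omega
      omega
  have hn := H7.normal_subgroupOf_of_le (P := (P : Subgroup G)) Subgroup.le_normalizer le_rfl
  choose! f hf using fun b hb => H7.inducedBlockDefined_of_le (b := b) hM P.isPGroup'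
    Subgroup.le_normalizer (Subgroup.centralizer_le_normalizer _) le_rfl hb
  have k2 : ∀ b, IsPBlock M b → IsDefectGroup p M b ((P : Subgroup G).subgroupOf
      (Subgroup.normalizer ((P : Subgroup G) : Set G))) := fun b hb => by
    obtain ⟨D, hD⟩ := H7.exists_isDefectGroup hM hb
    have := H7.normal_le_of_isDefectGroup hM hb hD (P := (P : Subgroup G).subgroupOf _)
      P.isPGroup'.comap_subtype
    obtain rfl := (P.subtype Subgroup.le_normalizer).is_maximal'
      (H7.isPGroup_of_isDefectGroup hD) this
    exact hD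
  have k3 : ∀ b, IsPBlock M b → IsDefectGroup p M (f b) P := fun b hb =>
    (H7.first_main_defect hM P.isPGroup' (hf b hb)).1 (k2 b hb)
  have k4 : ∀ {K : Type _} [Group K] [Finite K] (B : Set (IrrCharacter K)), IsPBlock M B →
      ∀ χ, blockOf M χ.1 = B ↔ χ ∈ B := fun B hB χ =>
    ⟨fun e => e ▸ H7.mem_blockOf_self hM χ, fun e => (H7.eq_blockOf_of_mem hM hB e).symm⟩
  rw [← H5.card_irr, Nat.card_eq_fintype_card, Nat.card_eq_fintype_card, Fintype.card_subtype,
    Finset.card_eq_sum_card_fiberwise (f := fun χ => blockOf M χ.1)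
      (t := (H7.blocks G M).filter (IsDefectGroup p M · P))
      (fun χ hχ => by simpa [H7.isPBlock_blockOf, ← k1] using hχ),
    ← Finset.card_univ, Finset.card_eq_sum_card_fiberwise (f := fun χ => blockOf M χ.1)
      (t := H7.blocks _ M) (fun χ _ => by simpa using H7.isPBlock_blockOf χ)]
  symm
  refine Finset.sum_bij (fun b _ => f b) (fun b hb => ?_) (fun b hb b' hb' e => ?_)
    (fun B hB => ?_) fun b hb => ?_
  · simpa using ⟨(hf b (H7.mem_blocks.1 hb)).2.1, k3 b (H7.mem_blocks.1 hb)⟩
  · exact H7.first_main_unique hM (k3 b (H7.mem_blocks.1 hb)) (hf b (H7.mem_blocks.1 hb))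
      ((show f b' = f b from e.symm) ▸ hf b' (H7.mem_blocks.1 hb'))
  · obtain ⟨h1, h2⟩ := Finset.mem_filter.1 hB
    obtain ⟨b, h3, -⟩ := H7.exists_brauer_corr hM (H7.mem_blocks.1 h1) h2
    exact ⟨b, H7.mem_blocks.2 h3.1, H7.induced_unique hM (hf b h3.1) h3⟩
  · have hb := H7.mem_blocks.1 hb
    have h1 := (Agent.S4635.result p M hM _ (hf b hb).2.1 P (k3 b hb) (P.ne_bot_of_dvd_card hdiv)
      (isCyclic_of_prime_card hP) P le_rfl hP _ rfl b (k2 b hb) (hf b hb)).1
    rw [H21.card_block_eq, H21.card_block_eq] at h1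
    rw [Finset.filter_congr fun χ _ => k4 b hb χ, h1, Finset.filter_filter]
    refine congrArg _ (Finset.filter_congr fun χ _ => ?_)
    rw [k1, ← k4 _ (hf b hb).2.1]
    exact (and_iff_right_of_imp fun e => e ▸ k3 b hb).symm

end Cfsg.Agent.S4502
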