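import Cfsg.Statements.S4506
import Cfsg.Agent.H21.PConj
import Cfsg.Agent.H21.DefOneGal

set_option autoImplicit false
open Cfsg

namespace Cfsg.Agent.S4506

/-- Let G be a finite group, p a prime, p^a the p-part of the order of G and g′ its p′-part. Call two irreducible characters p-conjugate when one is obtained from the other by applying a field automorphism of ℂ that fixes the g′-th roots of unity, and let r be the number of characters p-conjugate to the irreducible character χ (χ included). Then the exponent of p in r·χ(1) is at most a; and if p^a divides r·χ(1) then p^a already divides χ(1). -/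
theorem result {G : Type*} [Group G] [Finite G] (p : ℕ) (hp : p.Prime) (χ : Cfsg.IrrCharacter G) (r : ℕ) (hr : Nat.card {ψ : Cfsg.IrrCharacter G // ∃ σ : ℂ ≃+* ℂ, σ (Complex.exp (2 * Real.pi * Complex.I / ((Nat.card G / p ^ (Nat.card G).factorization p) : ℕ))) = Complex.exp (2 * Real.pi * Complex.I / ((Nat.card G / p ^ (Nat.card G).factorization p) : ℕ)) ∧ (ψ : G → ℂ) = fun g => σ ((χ : G → ℂ) g)} = r) : (r * Cfsg.charDegree (χ : G → ℂ)).factorization p ≤ (Nat.card G).factorization p ∧ (p ^ (Nat.card G).factorization p ∣ r * Cfsg.charDegree (χ : G → ℂ) → p ^ (Nat.card G).factorization p ∣ Cfsg.charDegree (χ : G → ℂ)) := by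
  classical
  have := Fact.mk hp
  have := Fintype.ofFinite G
  obtain ⟨M, hM⟩ := H7.exists_isPModular hp
  have hχ := H7.mem_blockOf_self hM χ
  rw [Nat.card_eq_fintype_card, Fintype.card_subtype] at hr
  have h0 : r ≠ 0 := hr ▸ Finset.card_ne_zero.2 ⟨χ, Finset.mem_filter.2 ⟨Finset.mem_univ _, .refl _,
    rfl, rfl⟩⟩
  have h1 := hr ▸ H21.factorization_card_conj hM (H7.isPBlock_blockOf χ) hχ
    (Finset.card_ne_zero.1 (hr ▸ h0)) fun ψ hψ => by
      obtain ⟨σ, h1, h2⟩ := (Finset.mem_filter.1 hψ).2
      obtain ⟨k, h3, h4, h5⟩ := H21.exists_pow_of_fix (Nat.ordCompl_dvd _ p) σ h1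
      exact ⟨k, h3, h4, fun g => (congrFun h2 g).trans (h5 χ g)⟩
  have h2 := H21.factorization_degree (p := p) hχ
  have h3 := H21.blockDefect_le (p := p) (B := blockOf M χ.1)
  have h4 := H7.charDegree_ne_zero χ
  rw [hp.pow_dvd_iff_le_factorization (mul_ne_zero h0 h4), hp.pow_dvd_iff_le_factorization h4,
    Nat.factorization_mul h0 h4, Finsupp.add_apply]
  omega

end Cfsg.Agent.S4506
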