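import Cfsg.Statements.S4507
import Cfsg.Agent.H21.DefOneGal

set_option autoImplicit false
open Cfsg

namespace Cfsg.Agent.S4507

/-- Let G be a finite group whose order g is divisible by the prime p exactly once, g′ = g/p, and fix a maximal ideal M of the algebraic integers containing p. Call two irreducible characters p-conjugate when a field automorphism of ℂ fixing the g′-th roots of unity carries one to the other. Let B be a p-block of positive defect (its defect group is a Sylow p-subgroup). Then B contains a subset Y (the exceptional family) such that: Y is a full p-conjugacy class (its members are pairwise p-conjugate and every p-conjugate of a member of Y lies in Y); every member of B outside Y is p-conjugate only to itself; the size t of Y divides p − 1 and B has exactly t + (p − 1)/t members; and there are signs δ_χ = ±1 (χ ∈ B) such that for every p-regular element x and every θ ∈ Y, Σ_{χ ∈ B ∖ Y} δ_χ χ(x)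 + δ_θ θ(x) = 0. -/
theorem result {G : Type*} [Group G] [Finite G] (p : ℕ) [Fact p.Prime] (M : Ideal Cfsg.AlgInt) (hM : Cfsg.IsPModular p M) (hdiv : p ∣ Nat.card G) (hsq : ¬ p ^ 2 ∣ Nat.card G) (B : Set (Cfsg.IrrCharacter G)) (hB : Cfsg.IsPBlock M B) (hd : 0 < Cfsg.blockDefect p B) : ∃ Y : Set (Cfsg.IrrCharacter G), Y ⊆ B ∧ Y.Nonempty ∧ (∀ θ ∈ Y, ∀ ψ : Cfsg.IrrCharacter G, (∃ σ : ℂ ≃+* ℂ, σ (Complex.exp (2 * Real.pi * Complex.I / ((Nat.card G / p ^ (Nat.card G).factorization p) : ℕ))) = Complex.exp (2 * Real.pi * Complex.I / ((Nat.card G / p ^ (Nat.card G).factorization p) : ℕ)) ∧ (ψ : G → ℂ) = fun g => σ ((θ : G → ℂ) g)) ↔ ψ ∈ Y) ∧ (∀ χ ∈ B, χ ∉ Y → ∀ ψ : Cfsg.IrrCharacter G, (∃ σ : ℂ ≃+* ℂ, σ (Complex.exp (2 * Real.pi * Complex.I / ((Nat.card G / p ^ (Nat.card G).factorization p) : ℕ))) = Complex.exp (2 * Real.pi * Complex.I / ((Nat.card G / p ^ (Nat.card G).factorization p) : ℕ)) ∧ (ψ : G → ℂ) = fun g => σ ((χ : G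 → ℂ) g)) → ψ = χ) ∧ Nat.card Y ∣ p - 1 ∧ Nat.card B = Nat.card Y + (p - 1) / Nat.card Y ∧ ∃ δ : Cfsg.IrrCharacter G → ℤ, (∀ χ ∈ B, δ χ = 1 ∨ δ χ = -1) ∧ ∀ x : G, ¬ p ∣ orderOf x → ∀ θ ∈ Y, (∑ᶠ χ ∈ B \ Y, (δ χ : ℂ) * (χ : G → ℂ) x) + (δ θ : ℂ) * (θ : G → ℂ) x = 0 := by
  classical
  have hp : p.Prime := Fact.out
  obtain ⟨P⟩ : Nonempty (Sylow p G) := inferInstance
  have hP := H21.card_sylow_eq_prime P hdiv hsq
  obtain ⟨V, H, D⟩ := H21.exists_UC P (H21.cent_of_card_prime Fact.out hP)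
  have := Fintype.ofFinite V
  obtain ⟨θ, hθ⟩ := D.exists_root_of_defect hM hB hd
  obtain ⟨δ, ζ, a, Y, h, -⟩ := hθ.exists_data hM hP (H5.irrOne G)
  rw [← P.card_eq_multiplicity, hP]
  obtain ⟨m, hm⟩ := hdiv
  have hpm : ¬ p ∣ m := fun ⟨j, hj⟩ => hsq ⟨j, by rw [hm, hj]; ring⟩
  have hmG : m ∣ Nat.card G := Dvd.intro_left _ hm.symm
  rw [show Nat.card G / p = m by rw [hm, Nat.mul_div_cancel_left _ hp.pos]]
  have hnd : ∀ k : ℕ, k.Coprime (Nat.card G) → ¬ p ∣ k := fun k hk h1 =>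
    hp.ne_one (Nat.eq_one_of_dvd_coprimes hk h1 ⟨m, hm⟩)
  have hY : Nat.card (Y : Set (IrrCharacter G)) = Y.card := by
    rw [Nat.card_coe_set_eq, Set.ncard_coe_finset]
  have hpY : p - 1 = Y.card * Nat.card (D.iq θ.1) := Nat.sub_eq_of_eq_add h.card_Y.symm
  refine ⟨Y, fun χ hχ => h.mem_B_of_Y hχ, Finset.coe_nonempty.2 (Finset.card_pos.1 h.card_Y_pos),
    fun η hη ψ => ?_, fun χ hχ hχY ψ ⟨σ, h1, h2⟩ => ?_, by rw [hY]; exact ⟨_, hpY⟩,
    by rw [hY, h.card_B, hpY, Nat.mul_div_cancel_left _ h.card_Y_pos, add_comm],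
    fun χ => if χ ∈ Y then - δ else a χ, fun χ hχ => ?_, fun x hx η hη => ?_⟩
  · obtain ⟨μ, hμ, rfl⟩ := (h.mem η).1 hη
    constructor
    · rintro ⟨σ, h1, h2⟩
      obtain ⟨k, h3, h4, h5⟩ := H21.exists_pow_of_fix hmG σ h1
      have : ψ = ζ (μ ^ k) := Subtype.ext (h2.trans (funext fun g => (h5 _ g).trans
        (h.exc_pow hM hμ (hnd k h3) (H21.pow_eq_self_of_modEq_one hm h4) g)))
      rw [this]
      exact h.mem_Y (H21.pow_ne_one_of_card_prime h.card_dual hμ (hnd k h3))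
    · intro hψ
      obtain ⟨ν, hν, rfl⟩ := (h.mem ψ).1 hψ
      obtain ⟨j, hj, rfl⟩ := h.exists_pow_eq hμ hν
      have hco := (Nat.Prime.coprime_iff_not_dvd hp).2 hpm
      obtain ⟨k, h1, h2⟩ := Nat.chineseRemainder hco j 1
      have h3 : ¬ p ∣ k := fun h4 => hj ((h1.dvd_iff dvd_rfl).1 h4)
      have h4 : k.Coprime (Nat.card G) := by
        rw [hm]
        refine Nat.Coprime.mul_right ((Nat.Prime.coprime_iff_not_dvd hp).2 h3).symm ?_
        rw [Nat.Coprime, h2.gcd_eq, Nat.gcd_one_left]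
      obtain ⟨σ, h5, h6⟩ := H21.exists_fix_of_pow hmG h4 h2
      refine ⟨σ, h5, funext fun g => ?_⟩
      rw [h6, h.exc_pow hM hμ h3 (H21.pow_eq_self_of_modEq_one hm h2) g,
        pow_eq_pow_iff_modEq.2 (h1.of_dvd ((orderOf_dvd_natCard μ).trans h.card_dual.dvd))]
  · obtain ⟨k, h3, h4, h5⟩ := H21.exists_pow_of_fix hmG σ h1
    exact Subtype.ext (h2.trans (funext fun g => (h5 _ g).trans
      (h.nonexc_pow hM (((h.memB χ).1 hχ).resolve_left hχY) (hnd k h3)
        (H21.pow_eq_self_of_modEq_one hm h4) g)))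
  · beta_reduce
    split_ifs with h1
    · rcases h.sign with h2 | h2 <;> simp [h2]
    · exact h.pm' (((h.memB χ).1 hχ).resolve_left h1)
  · have h1 : B \ Y = {χ | a χ ≠ 0} := by
      rw [h.B_eq]
      exact Set.union_sdiff_cancel_right (Set.disjoint_iff.1 h.disjoint)
    beta_reduce
    rw [h1, if_pos (Finset.mem_coe.1 hη), finsum_mem_congr rfl
      (g := fun χ => (a χ : ℂ) * χ.1 x) fun χ hχ => by rw [if_neg (h.notMem_Y hχ)],
      ← h.rel_reg' hη hx]
    simp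

end Cfsg.Agent.S4507
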