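import Cfsg.Statements.S4508
import Cfsg.Agent.H21.SC2

set_option autoImplicit false
open Cfsg

namespace Cfsg.Agent.S4508

open H5 H7 H8 H28 H21 Finset
open scoped ComplexConjugate

/-- Let the finite group G contain an element x of prime order p with C_G(x) = ⟨x⟩, and let t be the number of conjugacy classes of elements of order p. If G has an irreducible character of degree p − 1, then t is even or the commutator subgroup has even index. -/
theorem result {G : Type*} [Group G] [Finite G] (p : ℕ) (hp : p.Prime) (x : G) (hx : orderOf x = p) (hC : Subgroup.centralizer ({x} : Set G) = Subgroup.zpowers x) (t : ℕ) (ht : Nat.card {C : ConjClasses G // ∃ g ∈ C.carrier, orderOf g = p} = t) (χ : Cfsg.IrrCharacter G) (hχ : Cfsg.charDegree (χ : G → ℂ) + 1 = p) : Even t ∨ Even (commutator G).index := by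
  classical
  have h : SCent p x := ⟨hp, hx, hC⟩
  have h1 := h.numClasses_mul
  rw [← h.aq_eq, numClassesOrd, ht] at h1
  have hq := aq_pos x
  have h2 := hp.two_le
  rcases hp.eq_two_or_odd' with rfl | ho
  · rw [h.index_commutator (h.numClasses_eq_iff.1 (ht.trans (Nat.eq_one_of_mul_eq_one_right h1)))]
    exact .inr even_two
  refine (Nat.even_or_odd t).imp_right fun ht' => ?_
  have he : Even (aq x) := (Nat.even_mul.1 (h1 ▸ ho.tsub_odd odd_one)).resolve_left
    (Nat.not_even_iff_odd.2 ht')
  obtain ⟨M, hM⟩ := exists_isPModular hp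
  obtain ⟨δ, ζ, a, Y, D⟩ := exists_PD hM hx h.not_dvd_index
  refine h.even_index χ.2.isCharacter ?_ he ht' (by
    rw [irr_apply_one, mul_comm, h1, ← hχ, Nat.add_sub_cancel])
  obtain ⟨r, hr⟩ := exists_sP_nat χ.2.isCharacter hx
  have h3 : aq x ≤ p - 1 := h1 ▸ Nat.le_mul_of_pos_left _ ht'.pos
  have h4 := Nat.le_of_dvd hq he.two_dvd
  suffices r = 0 by rw [hr, this]; simp
  obtain ⟨k, hk⟩ := ho
  by_cases hY : χ ∈ Y
  · rw [D.sP_exc hY] at hr
    have : (charDegree χ.1 : ℤ) - δ * aq x = p * r := by exact_mod_cast hr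
    rcases r with _ | _ | r
    · rfl
    all_goals rcases D.sign with rfl | rfl <;> push_cast at this <;> nlinarith [Nat.sub_add_cancel hp.one_le]
  · rw [D.sP_van hC hY] at hr
    have : (charDegree χ.1 : ℤ) + (p - 1) * a χ = p * r := by exact_mod_cast hr
    rcases r with _ | _ | r
    · rfl
    all_goals rcases D.pm χ with e | e | e <;> rw [e] at this <;> push_cast at this <;> first | omega | nlinarith

end Cfsg.Agent.S4508
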