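import Cfsg.Statements.S4509
import Cfsg.Agent.H21.SC

set_option autoImplicit false
open Cfsg

namespace Cfsg.Agent.S4509

open H21 Subgroup
open scoped commutatorElement

/-- Let the finite group G contain an element x of prime order p with C_G(x) = ⟨x⟩; let t be the number of conjugacy classes of elements of order p and 1 + n·p the number of subgroups of order p. Then G has a normal subgroup of order 1 + n·p if and only if either t = p − 1, or t < p − 1 and G″ ≠ G′. Moreover, if t = p − 1 then G′ has order 1 + n·p and G/G′ is cyclic of order p; and if t < p − 1 and G″ ≠ G′ then G″ has order 1 + n·p and G′ has order p·(1 + n·p). -/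
theorem result {G : Type*} [Group G] [Finite G] (p : ℕ) (hp : p.Prime) (x : G) (hx : orderOf x = p) (hC : Subgroup.centralizer ({x} : Set G) = Subgroup.zpowers x) (t : ℕ) (ht : Nat.card {C : ConjClasses G // ∃ g ∈ C.carrier, orderOf g = p} = t) (n : ℕ) (hn : Nat.card {H : Subgroup G // Nat.card H = p} = 1 + n * p) : ((∃ S : Subgroup G, S.Normal ∧ Nat.card S = 1 + n * p) ↔ (t = p - 1 ∨ (t < p - 1 ∧ derivedSeries G 2 ≠ derivedSeries G 1))) ∧ (t = p - 1 → Nat.card (commutator G) = 1 + n * p ∧ IsCyclic (G ⧸ commutator G) ∧ (commutator G).index = p) ∧ (t < p - 1 → derivedSeries G 2 ≠ derivedSeries G 1 → Nat.card (derivedSeries G 2) = 1 + n * p ∧ Nat.card (commutator G) = p * (1 + n * p)) := by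
  have h : SCent p x := ⟨hp, hx, hC⟩
  have := Fact.mk hp
  subst ht
  rw [h.card_subgroups] at hn
  have e1 : derivedSeries G 1 = commutator G := derivedSeries_one G
  have e2 : derivedSeries G 2 = ⁅commutator G, commutator G⁆ := by
    rw [derivedSeries_succ, e1]
  rw [e1, e2]
  have A : numClassesOrd G p = p - 1 → Nat.card (commutator G) = 1 + n * p ∧
      IsCyclic (G ⧸ commutator G) ∧ (commutator G).index = p := fun h1 => by
    have h2 := h.index_commutator (h.numClasses_eq_iff.1 h1)
    refine ⟨?_, isCyclic_of_prime_card h2, h2⟩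
    rw [← hn, h.numClasses_eq_iff'.1 h1]
    have h3 := (commutator G).index_mul_card
    rw [h2, h.card_eq] at h3
    exact Nat.eq_of_mul_eq_mul_left hp.pos h3
  have B : numClassesOrd G p < p - 1 → ⁅commutator G, commutator G⁆ ≠ commutator G →
      Nat.card (⁅commutator G, commutator G⁆ : Subgroup G) = 1 + n * p ∧
        Nat.card (commutator G) = p * (1 + n * p) := fun h1 h2 => by
    have h3 : p ∣ Nat.card (commutator G) := by
      by_contra h3; exact h1.ne (h.numClasses_eq_iff.2 h3)
    have h4 : ¬ p ∣ Nat.card (⁅commutator G, commutator G⁆ : Subgroup G) := fun h4 =>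
      h2 (le_antisymm (commutator_le_left _ _) (h.commutator_le h4))
    have hx' := h.mem_of_dvd h3
    have h5 : commutator G = ⁅commutator G, commutator G⁆ ⊔ zpowers x := le_antisymm
      (h.le_sup_of_commutator_le h4 hx' le_rfl) (sup_le (commutator_le_left _ _) (zpowers_le.2 hx'))
    have h6 : Nat.card (⁅commutator G, commutator G⁆ : Subgroup G) = 1 + n * p := by
      have h7 := h.card_mul_normalizer h4
      have h8 := h.sup_normalizer hx'
      rw [h5, sup_assoc, sup_eq_right.2 le_normalizer] at h8
      rw [h8, card_top, ← (normalizer (zpowers x : Set G)).index_mul_card, hn] at h7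
      exact Nat.eq_of_mul_eq_mul_right Nat.card_pos h7
    refine ⟨h6, ?_⟩
    rw [← h6, ← h.card_sup h4, ← h5]
  refine ⟨⟨?_, ?_⟩, A, B⟩
  · rintro ⟨S, hS, hc⟩
    refine h.numClasses_le.eq_or_lt.imp_right fun h1 => ⟨h1, fun h2 => ?_⟩
    have h3 : p ∣ Nat.card (commutator G) := by
      by_contra h3; exact h1.ne (h.numClasses_eq_iff.2 h3)
    have h4 : ¬ p ∣ Nat.card S := by
      rw [hc, Nat.dvd_add_left (dvd_mul_left p n)]; exact hp.not_dvd_one
    have h5 : S ⊔ normalizer (zpowers x : Set G) = ⊤ := by
      rw [← card_eq_iff_eq_top, ← h.card_mul_normalizer h4, hc, ← hn, index_mul_card]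
    have h6 : (S ⊔ zpowers x).Normal := by
      rw [← normalizer_eq_top_iff, eq_top_iff, ← h5]
      exact sup_le (le_sup_left.trans le_normalizer)
        ((le_inf le_normalizer_of_normal le_rfl).trans (normalizer_inf_normalizer_le_normalizer_sup _ _))
    have h7 := h.commutator_le (S := S ⊔ zpowers x) (h.dvd_of_mem (mem_sup_right (mem_zpowers x)))
    have h8 : ⁅S ⊔ zpowers x, S ⊔ zpowers x⁆ ≤ S := by
      rw [← QuotientGroup.ker_mk' S, ← Subgroup.map_eq_bot_iff, map_commutator, QuotientGroup.ker_mk',
        Subgroup.map_sup, (Subgroup.map_eq_bot_iff _).2 (QuotientGroup.ker_mk' S).ge, bot_sup_eq,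
        MonoidHom.map_zpowers, commutator_self_eq_bot_iff]
      infer_instance
    exact h4 (h3.trans (card_dvd_of_le (h2 ▸ (commutator_mono h7 h7).trans h8)))
  · rintro (h1 | ⟨h1, h2⟩)
    · exact ⟨_, inferInstance, (A h1).1⟩
    · exact ⟨_, inferInstance, (B h1 h2).1⟩

end Cfsg.Agent.S4509
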