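import Cfsg.Statements.S4510
import Cfsg.Agent.H8.Count

set_option autoImplicit false
open Cfsg

namespace Cfsg.Agent.S4510

open H8 H28 H5 MonoidAlgebra
open H7 (eB fB VG redG ev fB_mem_VG isPBlock_principalBlock isPBlock_nonempty)

/-- Let G be a finite group, p a prime, M a maximal ideal of the algebraic integers containing p, and call the defect of a conjugacy class the exponent of p in the order of the centralizer of its elements. Two irreducible characters lying in p-blocks of defect exactly d lie in the same block if and only if their central characters (class size times χ(x)/χ(1)) agree modulo the local ideal at M at every p-regular element x whose class has defect exactly d. -/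
theorem result {G : Type*} [Group G] [Finite G] (p : ℕ) [Fact p.Prime] (M : Ideal Cfsg.AlgInt) (hM : Cfsg.IsPModular p M) (d : ℕ) (χ ψ : Cfsg.IrrCharacter G) (hχ : Cfsg.blockDefect p (Cfsg.blockOf M (χ : G → ℂ)) = d) (hψ : Cfsg.blockDefect p (Cfsg.blockOf M (ψ : G → ℂ)) = d) : Cfsg.SameBlock M (χ : G → ℂ) (ψ : G → ℂ) ↔ ∀ x : G, ¬ p ∣ orderOf x → (Nat.card (Subgroup.centralizer ({x} : Set G))).factorization p = d → Cfsg.MemLocalIdeal M (Cfsg.centralChar (χ : G → ℂ) x - Cfsg.centralChar (ψ : G → ℂ) x) := by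
  classical
  refine ⟨fun h x _ _ => h x, fun h => ?_⟩
  have := Fintype.ofFinite (ConjClasses G)
  have hB := H7.isPBlock_blockOf (M := M) χ
  have hB' := H7.isPBlock_blockOf (M := M) ψ
  have h1 := H7.mem_blockOf_self hM χ
  have h2 := H7.mem_blockOf_self hM ψ
  have h3 : lB M (blockOf M ψ.1) (eB M (blockOf M χ.1)) =
      lB M (blockOf M χ.1) (eB M (blockOf M χ.1)) := by
    rw [lB_eq_sum hM hB (H7.eB_mem_Zc _), lB_eq_sum hM hB' (H7.eB_mem_Zc _)]
    refine Finset.sum_congr rfl fun K _ => ?_
    by_cases h4 : (eB M (blockOf M χ.1)).coeff (Quotient.out K) = 0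
    · rw [h4, zero_mul, zero_mul]
    have h5 := cdef_le_of_coeff hM hB h4
    by_cases h6 : (Nat.card (Subgroup.centralizer ({Quotient.out K} : Set G))).factorization p = d
    · rw [lB_classSum hM hB h1, lB_classSum hM hB' h2, (H7.memI_sub_iff_red_of_isIntegral hM
        (H7.isIntegral_centralChar χ _) (H7.isIntegral_centralChar ψ _)).1
        (h _ (H7.not_dvd_of_coeff_eB_ne_zero hM hB h4) h6)]
    · rw [by_contra fun h7 => h6 (le_antisymm (hχ ▸ h5) (hψ ▸ le_cdef_of_lB hM hB' h7)),
        by_contra fun h7 => h6 (le_antisymm (hχ ▸ h5) (hχ ▸ le_cdef_of_lB hM hB h7))]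
  rw [lB_eB hM hB hB, if_pos rfl, lB_eq hM hB' h2 (H7.eB_mem_Zc _),
    H7.lam_eB_eq_one_iff hM hB] at h3
  exact h3

end Cfsg.Agent.S4510
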