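import Cfsg.Statements.S4512
import Cfsg.Agent.H21.Contrib
import Cfsg.Agent.H7.Klein

set_option autoImplicit false
open Cfsg

namespace Cfsg.Agent.S4512

open H5 H7 H8 H21 Finset
open scoped ComplexConjugate

/-- If G is a finite group with a Sylow 2-subgroup that is a Klein four-group and a single conjugacy class of involutions, then its principal 2-block (relative to a maximal ideal M of the algebraic integers containing 2) has 2-regular rank 3: the restrictions of its irreducible characters to the elements of odd order span a space of dimension 3 (it has three irreducible Brauer characters). -/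
theorem result {G : Type*} [Group G] [Finite G] (M : Ideal Cfsg.AlgInt) (hM : Cfsg.IsPModular 2 M) (P : Sylow 2 G)
    (hP : Nat.card P = 4) (hexp : ∀ x : P, x * x = 1)
    (hone : ∀ s t : G, orderOf s = 2 → orderOf t = 2 → IsConj s t) :
    Cfsg.blockRank 2 (Cfsg.principalBlock M G) = 3 := by
  classical
  have := Fintype.ofFinite G
  have : Nontrivial (P : Subgroup G) := Finite.one_lt_card_iff_nontrivial.1 (by rw [hP]; norm_num)
  have hK : IsKleinFour (P : Subgroup G) := ⟨hP, (Monoid.exponent_eq_prime_iff Nat.prime_two).2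
    fun x hx => orderOf_eq_prime (by rw [sq]; exact hexp x) hx⟩
  obtain ⟨ζ₂, ζ₃, ζ₄, ε, D⟩ := exists_kleinData P hK hM hone
  have h1 := sum_inner_rp_self hM (isPBlock_principalBlock (M := M) (G := G))
  have hε : (ε : ℂ) * ε = 1 := by rcases D.eps with h | h <;> simp [h]
  set v : G → ℂ := (irrOne G).1 + ζ₂.1 + (ε : ℂ) • ζ₃.1 - ζ₄.1 with hv
  have h2 : ∀ (χ : IrrCharacter G) (c : ℂ), (∀ g, 2 ∣ orderOf g → χ.1 g = c) →
      pRegularPart 2 χ.1 = χ.1 - (c / 4) • v := fun χ c h => by
    ext g
    by_cases hg : 2 ∣ orderOf g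
    · obtain ⟨a, b, d⟩ := D.val g hg
      simp only [rp_of_dvd _ hg, hv, Pi.sub_apply, Pi.add_apply, Pi.smul_apply, smul_eq_mul, a, b, d,
        h g hg, hε, irrOne]
      ring
    · simp [rp_of_reg _ hg, hv, D.rel g hg, irrOne]
  rw [D.sum, h2 _ 1 fun _ _ => rfl, h2 _ 1 fun g hg => (D.val g hg).1,
    h2 _ ε fun g hg => (D.val g hg).2.1, h2 _ (-1) fun g hg => (D.val g hg).2.2] at h1
  simp only [hv, classInner_sub_left, classInner_add_left, classInner_smul_left, classInner_irr,
    D.ne12, D.ne13, D.ne14, D.ne23, D.ne24, D.ne34, D.ne12.symm, D.ne13.symm, D.ne14.symm,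
    D.ne23.symm, D.ne24.symm, D.ne34.symm, if_true, if_false] at h1
  have : (blockRank 2 (principalBlock M G) : ℂ) = (3 : ℕ) := by
    rw [← h1]; push_cast; linear_combination (-1 / 4 : ℂ) * hε
  exact_mod_cast this

end Cfsg.Agent.S4512
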