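import Cfsg.Statements.S4513
import Cfsg.Agent.H21.Form

set_option autoImplicit false
open Cfsg

namespace Cfsg.Agent.S4513

open H5 H7 H8 H21 Finset
open scoped ComplexConjugate

/-- Blocks of defect one for p = 2. Let M be a maximal ideal of the algebraic integers containing 2, B a 2-block of the finite group G whose defect group is the subgroup generated by an involution x, C = C_G(x), b a block of C inducing B and θ a member of b taking the same value at x as at 1 (there is exactly one). Then B consists of exactly two irreducible characters, which agree on every element of odd order, and they can be labelled χ₁, χ₂ with signs ε₁, ε₂ = ±1, ε₁ε₂ = −1, such that χᵢ(x y) = εᵢ θ(y) for every element y of C of odd order. -/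
theorem result {G : Type*} [Group G] [Finite G] (M : Ideal Cfsg.AlgInt) (hM : Cfsg.IsPModular 2 M) (x : G) (hx : orderOf x = 2)
    (B : Set (Cfsg.IrrCharacter G)) (hB : Cfsg.IsPBlock M B) (hBD : Cfsg.IsDefectGroup 2 M B (Subgroup.zpowers x))
    (b : Set (Cfsg.IrrCharacter ↥(Subgroup.centralizer ({x} : Set G)))) (hb : Cfsg.IsInducedBlock M (Subgroup.centralizer ({x} : Set G)) b B)
    (θ : Cfsg.IrrCharacter ↥(Subgroup.centralizer ({x} : Set G))) (hθ : θ ∈ b)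
    (hθx : ∀ z : ↥(Subgroup.centralizer ({x} : Set G)), (z : G) = x → (θ : ↥(Subgroup.centralizer ({x} : Set G)) → ℂ) z = (θ : ↥(Subgroup.centralizer ({x} : Set G)) → ℂ) 1) :
    Nat.card B = 2 ∧ (∀ χ ∈ B, ∀ ψ ∈ B, ∀ g : G, ¬ 2 ∣ orderOf g → (χ : G → ℂ) g = (ψ : G → ℂ) g) ∧
      ∃ χ₁ ∈ B, ∃ χ₂ ∈ B, χ₁ ≠ χ₂ ∧ ∃ ε₁ ε₂ : ℤ, (ε₁ = 1 ∨ ε₁ = -1) ∧ (ε₂ = 1 ∨ ε₂ = -1) ∧ ε₁ * ε₂ = -1 ∧
        ∀ y : ↥(Subgroup.centralizer ({x} : Set G)), ¬ 2 ∣ orderOf y →
          (χ₁ : G → ℂ) (x * y) = (ε₁ : ℂ) * (θ : ↥(Subgroup.centralizer ({x} : Set G)) → ℂ) y ∧ (χ₂ : G → ℂ) (x * y) = (ε₂ : ℂ) * (θ : ↥(Subgroup.centralizer ({x} : Set G)) → ℂ) y := by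
  classical
  have : Fact (Nat.Prime 2) := ⟨Nat.prime_two⟩
  have h : IsSec 2 x _ := isSec_cent ⟨1, by simpa using hx⟩
  revert b θ
  generalize Subgroup.centralizer ({x} : Set G) = H at h ⊢
  intro b hb θ hθ hθx
  have := sec_normal h
  have := Fintype.ofFinite H
  have hx1 : x ≠ 1 := fun h => by simp [h] at hx
  have hx2 : x ^ 2 = 1 := hx ▸ pow_orderOf_eq_one x
  set Z := Subgroup.zpowers (⟨x, h.mem⟩ : H) with hZ
  have := Fintype.ofFinite (H ⧸ Z)
  have hZ2 : Nat.card Z = 2 ^ 1 := by rw [Nat.card_zpowers, ← Subgroup.orderOf_coe]; simpa using hx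
  have hd : blockDefect 2 B = 1 := by
    have := card_isDefectGroup hM hB hBD
    rw [Nat.card_zpowers, hx] at this
    exact (Nat.pow_right_injective le_rfl (by simpa using this : 2 ^ 1 = _)).symm
  obtain ⟨E, hE⟩ := H8.exists_isDefectGroup hM hb.1
  have h1 : Z = E := by
    refine Subgroup.eq_of_le_of_card_ge (normal_le_of_isDefectGroup hM hb.1 hE
      (IsPGroup.of_card hZ2)) ?_
    rw [card_isDefectGroup hM hb.1 hE, hZ2, ← hd]
    exact Nat.pow_le_pow_right two_pos (blockDefect_le_of_induced hM hb)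
  subst h1
  have hdb : blockDefect 2 b = blockDefect 2 B := by
    rw [hd]
    exact Nat.pow_right_injective le_rfl ((card_isDefectGroup hM hb.1 hE).symm.trans hZ2)
  have hπ := QuotientGroup.mk'_surjective Z
  have hb' := isPBlock_dom (hπ := hπ) hM (sec_regInj h) hb.1
  have h0 : blockDefect 2 (dom _ hπ b) = 0 :=
    (blockDefect_eq_zero_iff hM hb' (isDefectGroup_dom hM (sec_regInj h) hb.1 hE)).2 (by
      rw [Subgroup.map_eq_bot_iff, QuotientGroup.ker_mk'])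
  obtain ⟨θ', rfl⟩ := exists_infl_eq (hf := hπ) (χ := θ) (by
    rw [QuotientGroup.ker_mk', hZ, Subgroup.zpowers_le]
    exact θ.2.mem_charKer_iff.2 (hθx _ rfl))
  obtain ⟨h2, h3⟩ := RL_of_dom_defect_zero hM (sec_regInj h) hb.1 h0 hθ
  set θ := infl _ hπ θ'
  rw [QuotientGroup.ker_mk', hZ2] at h3
  choose d hdd using fun χ : IrrCharacter G => h2 _ (sec_mem_RL_of_sq (b := b) h hx2
    χ.2.isGeneralizedCharacter)
  have h4 : blockRank 2 b = 1 := by
    rw [← blockRank_dom hM hπ (sec_regInj h) (fB_mem_VG hM hb.1)]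
    have h5 := blockRank_le_card (p := 2) (B := dom _ hπ b)
    have h6 := H21.blockRank_pos hM hb'
    rw [card_eq_one_of_defect hM hb' h0] at h5
    omega
  have h5 : ∑ χ with χ ∈ B, d χ ^ 2 = 2 := by
    have h5 := h.sum_mm_self_block hM hb
    rw [h4, sum_congr rfl (g := fun χ => ((d χ ^ 2 : ℤ) : ℂ) / 2) fun χ _ => by
      rw [mm_eq, hdd, classInner_smul_left, classInner_smul_right]
      simp only [map_intCast]
      push_cast at h3 ⊢
      linear_combination (d χ) ^ 2 / 2 * h3, ← sum_div, div_eq_iff two_ne_zero] at h5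
    exact_mod_cast h5
  have h6 : ∀ χ ∈ B, d χ ≠ 0 := fun χ hχ h7 => h.sec_ne_zero_of_major hM hb hdb hχ (by
    simp [hdd, h7])
  have h7 : ∀ χ ∈ univ.filter (· ∈ B), (1 : ℤ) ≤ d χ ^ 2 := fun χ hχ =>
    one_le_sq_iff_one_le_abs _ |>.2 (Int.one_le_abs (h6 χ (mem_filter.1 hχ).2))
  have h8 : Nat.card B = 2 := by
    have h8 := card_nsmul_le_sum _ _ _ h7
    rw [h5, ← card_block_eq, nsmul_one] at h8
    have := Fintype.ofFinite G
    have h9 := H21.blockRank_pos hM hB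
    by_contra h10
    have := defect_eq_zero_of_card_eq hM hB (by omega)
    omega
  have h9 := h8
  rw [card_block_eq, card_eq_two] at h9
  obtain ⟨χ₁, χ₂, hne, h9⟩ := h9
  have hm : ∀ χ, χ ∈ B ↔ χ = χ₁ ∨ χ = χ₂ := fun χ => by
    simpa using congrArg (χ ∈ ·) h9
  have hS : ∀ {b' : Set (IrrCharacter H)} (F : IrrCharacter G → ℂ) (s : H),
      IsInducedBlock M H b' B → ∑ χ : IrrCharacter G, sec 2 x H b' χ.1 s * F χ =
        sec 2 x H b' χ₁.1 s * F χ₁ + sec 2 x H b' χ₂.1 s * F χ₂ := fun F s hb' => by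
    rw [← sum_filter_of_zero B fun χ hχ => by simp [h.sec_eq_zero_of_notMem hM hb' hχ], h9,
      sum_pair hne]
  have hr : ¬ 2 ∣ orderOf (1 : H) := by simp
  have hθ1 : θ.1 1 ≠ 0 := θ.2.apply_one_ne_zero
  have h10 : ∀ g : G, ¬ 2 ∣ orderOf g → (d χ₁ : ℂ) * χ₁.1 g + d χ₂ * χ₂.1 g = 0 := fun g hg => by
    have h10 := sum_sec_mul_conj_reg hM h hb.1 hx1 1 hg
    rw [hS _ _ hb, hdd, hdd] at h10
    simp only [Pi.smul_apply, H8.rp_of_reg _ hr, smul_eq_mul] at h10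
    have h11 : θ.1 1 * conj ((d χ₁ : ℂ) * χ₁.1 g + d χ₂ * χ₂.1 g) = 0 := by
      simp only [map_add, map_mul, map_intCast]
      linear_combination h10
    exact (map_eq_zero conj).1 ((mul_eq_zero.1 h11).resolve_left hθ1)
  rw [h9, sum_pair hne] at h5
  have e1 := h7 χ₁ (by simp [h9])
  have e2 := h7 χ₂ (by simp [h9])
  have e3 : d χ₁ = 1 ∨ d χ₁ = -1 := sq_eq_one_iff.1 (by omega)
  have e4 : d χ₂ = 1 ∨ d χ₂ = -1 := sq_eq_one_iff.1 (by omega)
  have e5 : d χ₁ * d χ₂ = -1 := by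
    have h11 := h10 1 (by simp)
    rw [irr_apply_one, irr_apply_one] at h11
    have := charDegree_pos χ₁
    have := charDegree_pos χ₂
    norm_cast at h11
    rcases e3 with e | e <;> rcases e4 with e' | e' <;> simp [e, e'] at h11 ⊢ <;> omega
  have e6 : (d χ₂ : ℂ) = - d χ₁ := by
    rcases e3 with e | e <;> rcases e4 with e' | e' <;> simp [e, e'] at e5 ⊢
  have e7 : (d χ₁ : ℂ) ≠ 0 := by exact_mod_cast h6 χ₁ ((hm _).2 (.inl rfl))
  have h11 : ∀ g : G, ¬ 2 ∣ orderOf g → χ₁.1 g = χ₂.1 g := fun g hg =>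
    mul_left_cancel₀ e7 (by linear_combination h10 g hg - χ₂.1 g * e6)
  have h12 : ∀ χ ∈ B, ∀ y : H, ¬ 2 ∣ orderOf y → χ.1 (x * y) = d χ * θ.1 y := fun χ hχ y hy => by
    rw [h.apply_eq_sum_sec hM hB hχ hy, sum_eq_single_of_mem b (mem_indBlocks.2 hb), hdd,
      Pi.smul_apply, H8.rp_of_reg _ hy, smul_eq_mul]
    intro b' hb' hbb
    rw [mem_indBlocks] at hb'
    have a1 := h.sum_sec_mul_conj_of_ne hM hb'.1 hb.1 hbb y 1
    have a2 := sum_sec_mul_conj_reg hM h hb'.1 hx1 y (g := 1) (by simp)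
    rw [hS _ _ hb'] at a1 a2
    rw [hdd, hdd, e6] at a1
    simp only [Pi.smul_apply, H8.rp_of_reg _ hr, smul_eq_mul] at a1
    rw [← h11 1 (by simp)] at a2
    have a3 : sec 2 x H b' χ₁.1 y = sec 2 x H b' χ₂.1 y :=
      mul_right_cancel₀ ((map_ne_zero conj).2 (mul_ne_zero e7 hθ1)) (by
        rw [neg_mul, map_neg] at a1
        linear_combination a1)
    have a4 : sec 2 x H b' χ₂.1 y = 0 := by
      rw [a3, ← two_mul] at a2
      simpa [χ₁.2.apply_one_ne_zero] using a2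
    rcases (hm χ).1 hχ with rfl | rfl
    exacts [a3.trans a4, a4]
  refine ⟨h8, fun χ hχ ψ hψ g hg => ?_, χ₁, (hm _).2 (.inl rfl), χ₂, (hm _).2 (.inr rfl), hne,
    d χ₁, d χ₂, e3, e4, e5, fun y hy => ⟨h12 _ ((hm _).2 (.inl rfl)) y hy,
      h12 _ ((hm _).2 (.inr rfl)) y hy⟩⟩
  rcases (hm χ).1 hχ with rfl | rfl <;> rcases (hm ψ).1 hψ with rfl | rfl <;> simp [h11 g hg]

end Cfsg.Agent.S4513
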