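import Cfsg.Statements.S4634
import Cfsg.Agent.H21.Dade5
import Cfsg.Agent.H5.FrobChar

set_option autoImplicit false
open Cfsg

namespace Cfsg.Agent.S4634

open H5 H7 H8 H28 H21 Finset
open scoped ComplexConjugate

/-- Let B be a block of the finite group G relative to a maximal ideal M of the algebraic integers containing the prime p, with a nontrivial cyclic defect group P, let c be a block of C_G(P) inducing B, T the stabilizer of c in N_G(P) and e the index of C_G(P) in T. Let F be any finite group of order #P · e having a cyclic subgroup Q of order #P that is its own centralizer (F is then the semidirect product of Q by a cyclic group of order e acting faithfully). Then there is a perfect isometry from the set of all irreducible characters of F onto B whose signs agree on all the characters of F that do not contain Q in their kernel. -/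
theorem result {G : Type*} [Group G] [Finite G] (p : ℕ) [Fact p.Prime] (M : Ideal Cfsg.AlgInt) (hM : Cfsg.IsPModular p M) (B : Set (Cfsg.IrrCharacter G)) (hB : Cfsg.IsPBlock M B) (P : Subgroup G) (hPD : Cfsg.IsDefectGroup p M B P) (hP1 : P ≠ ⊥) (hcyc : IsCyclic P) (c : Set (Cfsg.IrrCharacter (Subgroup.centralizer (P : Set G)))) (hc : Cfsg.IsInducedBlock M (Subgroup.centralizer (P : Set G)) c B) (T : Subgroup G) (hT : ∀ g : G, g ∈ T ↔ (g ∈ Subgroup.normalizer (P : Set G) ∧ Cfsg.StabilizesBlock (Subgroup.centralizer (P : Set G)) c g)) (e : ℕ) (he : (Subgroup.centralizer (P : Set G)).relIndex T = e) (F : Type*) [Group F] [Finite F] (hF : Nat.card F = Nat.card P * e) (Q : Subgroup F) (hQ : IsCyclic Q) (hQcard : Nat.card Q = Nat.card P) (hQC : Subgroup.centralizer (Q : Set F) = Q) : ∃ (I : Cfsg.IrrCharacter F → Cfsg.IrrCharacter G) (ε : Cfsg.IrrCharacter F → ℤ), Cfsg.IsPerfectIsometry p M (Set.univ : Set (Cfsg.IrrCharacter F)) B I ε ∧ ∀ η η' : Cfsg.IrrCharacter F, (∃ x ∈ Q, (η : F → ℂ) x ≠ (η :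 F → ℂ) 1) → (∃ x ∈ Q, (η' : F → ℂ) x ≠ (η' : F → ℂ) 1) → ε η = ε η' := by
  classical
  have := charP_kk hM
  have := Fintype.ofFinite F
  have m := maxP_of_induced_cent hM hPD hc
  rw [eq_nstab hM hc.1 hT] at he
  have h1 := he ▸ cyc_relIndex_dvd hM hB m hcyc hP1
  have h2 : e < p := (Nat.le_of_dvd (Nat.sub_pos_of_lt hM.1.one_lt) h1).trans_lt
    (Nat.sub_one_lt hM.1.ne_zero)
  have h3 : Q.index = e := Nat.eq_of_mul_eq_mul_left Nat.card_pos
    (Q.card_mul_index.trans (hF.trans (by rw [hQcard])))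
  have h4 : ¬ p ∣ Q.index := fun h => (Nat.le_of_dvd (Nat.pos_of_ne_zero Q.index_ne_zero_of_finite)
    h).not_gt (h3 ▸ h2)
  obtain ⟨n, hn⟩ := m.bp.isP.exists_card_eq
  have hQp : IsPGroup p Q := .of_card (hQcard.trans hn)
  have hN : Q.Normal := by
    have h5 := card_sylow_modEq_one p F
    have h6 := Nat.le_of_dvd (Nat.pos_of_ne_zero Q.index_ne_zero_of_finite)
      (hQp.toSylow h4).card_dvd_index
    rw [Nat.ModEq, Nat.mod_eq_of_lt (h6.trans_lt (h3 ▸ h2)), Nat.mod_eq_of_lt hM.1.one_lt] at h5
    have := (Nat.card_eq_one_iff_unique.1 h5).1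
    exact Sylow.normal_of_subsingleton (hQp.toSylow h4)
  have h5 : principalBlock M F = Set.univ := Set.eq_univ_of_forall fun χ =>
    sameBlock_of_centralizer hM hQp
      (fun g hg h => (isPElt_of_mem hQp (hQC ▸ hg)).eq_one_of_not_dvd h) (irrOne F) χ
  have m' := maxP_principal hM (S := Q) (isSylowIn_top (hQp.toSylow h4))
  have h6 : ⊤ ⊓ 𝐍 Q ⊓ H8.stab (eb M (𝐂 Q) (principalBlock M (𝐂 Q))) = ⊤ := by
    rw [Subgroup.normalizer_eq_top, inf_idem, top_inf_eq, eq_top_iff]
    exact fun x _ => m'.bp.ca_eq_of_aug top_le_norm_top (aug_eb_principal hM _) trivial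
      (Subgroup.normalizer_eq_top (H := Q) ▸ trivial)
  obtain ⟨I, ε, h7⟩ := cyc_perfect hM hB m hcyc hP1 isPBlock_principalBlock m'
    (mulEquivOfCyclicCardEq hQcard.symm) (he.trans (by
      rw [h6, Subgroup.relIndex_top_right, hQC, h3]))
  rw [h5] at h7
  refine ⟨I, ε, h7, fun η η' h8 h9 => ?_⟩
  have h10 : ∀ η : IrrCharacter F, (∃ x ∈ Q, η.1 x ≠ η.1 1) → (ε η * charDegree (I η).1 : ℂ) =
      (Nat.card F : ℂ)⁻¹ * (signedBijectionKernel Set.univ I ε 1 1 * charDegree η.1) := by
    intro η hη
    have h11 : signedBijectionKernel Set.univ I ε 1 =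
        ∑ η : IrrCharacter F, (ε η * charDegree (I η).1 : ℂ) • η.1 := by
      ext y; simp [signedBijectionKernel, finsum_eq_sum_of_fintype, irr_apply_one]
    rw [← classInner_sum_irr_left (fun η => (ε η * charDegree (I η).1 : ℂ)) η, ← h11, classInner,
      Fintype.sum_eq_single 1 fun y hy => ?_, irr_apply_one, map_natCast]
    by_cases h : y ∈ Q
    · rw [((h7.2.2 1 y).2.2.resolve_left fun h' => hy ((isPElt_of_mem hQp h).eq_one_of_not_dvd
        (h'.1 (by simpa [IsPRegular] using hM.1.ne_one)))), zero_mul]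
    · rw [η.2.apply_eq_zero_of_frob (fun k hk h1 g h2 => hQC ▸ free_of_cyclic hQp hQ
        (T := ⊤) (Subgroup.normalizer_eq_top (H := Q)).ge (by rwa [Subgroup.relIndex_top_right, hQC]) trivial hk h1
        (mul_inv_eq_of_eq_mul h2)) ((not_le_charKer_iff η.2.isCharacter).2 hη) h, map_zero, mul_zero]
  have h11 : ε η * charDegree (I η).1 * charDegree η'.1 =
      ε η' * charDegree (I η').1 * charDegree η.1 := by
    have : (ε η * charDegree (I η).1 * charDegree η'.1 : ℂ) =
      ε η' * charDegree (I η').1 * charDegree η.1 := by rw [h10 η h8, h10 η' h9]; ring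
    exact_mod_cast this
  have := mul_pos (charDegree_pos (I η)) (charDegree_pos η')
  have := mul_pos (charDegree_pos (I η')) (charDegree_pos η)
  rcases h7.2.1 η trivial with h | h <;> rcases h7.2.1 η' trivial with h' | h' <;>
    rw [h, h'] at h11 ⊢ <;> nlinarith

end Cfsg.Agent.S4634
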