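import Cfsg.Statements.S4636
import Cfsg.Agent.H23.Cyc

set_option autoImplicit false
open scoped Pointwise
open Cfsg

namespace Cfsg.Agent.S4636

/-- Let P be a nontrivial cyclic p-subgroup of the finite group G and Z its subgroup of order p. For every x outside N_G(Z), P meets its conjugate xPx⁻¹ trivially; consequently N_G(Q) ≤ N_G(Z) for every nontrivial subgroup Q of P. -/
theorem result {G : Type*} [Group G] [Finite G] (p : ℕ) [Fact p.Prime] (P : Subgroup G) (hP : IsPGroup p P) (hP1 : P ≠ ⊥) (hcyc : IsCyclic P) (Z : Subgroup G) (hZ : Z ≤ P) (hZcard : Nat.card Z = p) : (∀ x : G, x ∉ Subgroup.normalizer (Z : Set G) → P ⊓ MulAut.conj x • P = ⊥) ∧ ∀ Q : Subgroup G, Q ≤ P → Q ≠ ⊥ → Subgroup.normalizer (Q : Set G) ≤ Subgroup.normalizer (Z : Set G) := by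
  have key : ∀ Q : Subgroup G, Q ≤ P → Q ≠ ⊥ → Z ≤ Q := fun Q hQ h => by
    obtain ⟨n, hn⟩ := IsPGroup.iff_card.1 (hP.to_le hQ)
    refine H23.le_of_card_dvd hcyc hZ hQ ?_
    rw [hZcard, hn]
    exact dvd_pow_self _ fun h0 => h (Subgroup.card_eq_one.1 (by simp [hn, h0]))
  refine ⟨fun x hx => by_contra fun h => hx ?_, fun Q hQ h => H23.normalizer_le_normalizer_of_isCyclic
    (Subgroup.isCyclic_of_le hQ) (key Q hQ h)⟩
  have h1 := (key _ inf_le_left h).trans inf_le_right
  have h2 : IsCyclic (MulAut.conj x • P : Subgroup G) :=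
    (Subgroup.equivSMul (MulAut.conj x) P).isCyclic.1 hcyc
  exact H1.mem_normalizer_iff_conj_smul_eq.2 (H23.eq_of_card_eq h2
    (Subgroup.pointwise_smul_le_pointwise_smul_iff.2 hZ) h1 (H1.card_conj_smul x Z))

end Cfsg.Agent.S4636
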