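import Cfsg.Statements.S4638
import Cfsg.Agent.H8.Frob2

set_option autoImplicit false
open Cfsg

namespace Cfsg.Agent.S4638

open H8 H28 H5 MonoidAlgebra
open H7 (eB fB VG redG ev fB_mem_VG isPBlock_principalBlock isPBlock_nonempty)

/-- Let B be a block of the finite group G relative to a maximal ideal M of the algebraic integers containing 2, with a Klein four defect group P, and let c be its Brauer correspondent: the block of N_G(P) with defect group P that induces B. Then there is a perfect isometry from c onto B. -/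
theorem result {G : Type*} [Group G] [Finite G] (M : Ideal Cfsg.AlgInt) (hM : Cfsg.IsPModular 2 M) (B : Set (Cfsg.IrrCharacter G)) (hB : Cfsg.IsPBlock M B) (P : Subgroup G) (hPD : Cfsg.IsDefectGroup 2 M B P) (hV : IsKleinFour P) (c : Set (Cfsg.IrrCharacter (Subgroup.normalizer (P : Set G)))) (hcD : Cfsg.IsDefectGroup 2 M c (P.subgroupOf (Subgroup.normalizer (P : Set G)))) (hc : Cfsg.IsInducedBlock M (Subgroup.normalizer (P : Set G)) c B) : ∃ (I : Cfsg.IrrCharacter (Subgroup.normalizer (P : Set G)) → Cfsg.IrrCharacter G) (ε : Cfsg.IrrCharacter (Subgroup.normalizer (P : Set G)) → ℤ), Cfsg.IsPerfectIsometry 2 M c B I ε := by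
  haveI := charP_kk hM
  obtain ⟨e, m'⟩ := exists_maxP_block hM hc.1 hcD
  have m := maxP_emb_sub hM hPD P.le_normalizer (Subgroup.centralizer_le_normalizer _) hc m'
  obtain ⟨σ, h⟩ := exists_frB hM hB m (comm_of_klein hV) (free_of_klein m hV)
  obtain ⟨σ', h'⟩ := h.exists_sub hc.1 P.le_normalizer m'
  have ι := Subgroup.subgroupOfEquivOfLe P.le_normalizer
  have hV' : IsKleinFour (P.subgroupOf (Subgroup.normalizer (P : Set G))) :=
    ⟨(Nat.card_congr ι.toEquiv).trans hV.card_four,
      (Monoid.exponent_eq_of_mulEquiv ι).trans hV.exponent_two⟩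
  exact h.exists_perfect_sub h' (by rintro rfl; simpa using hV.card_four) P.le_normalizer
    (inf_le_left.trans inf_le_right) (h.klein hV).2.2.ge (h'.klein hV').2.2.ge

end Cfsg.Agent.S4638
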