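import Cfsg.Statements.S4639
import Cfsg.Agent.H8.Frob
import Cfsg.Agent.H21.Dade2

set_option autoImplicit false
open Cfsg

namespace Cfsg.Agent.S4639

open H8 H28 H5 MonoidAlgebra
open H7 (eB fB VG redG ev fB_mem_VG isPBlock_principalBlock isPBlock_nonempty)

theorem card_le_blockRank {G : Type*} [Group G] [Finite G] {p : ℕ} [Fact p.Prime]
    {B : Set (IrrCharacter G)} {ι : Type} [Finite ι] (r : ι → IrrCharacter G → ℂ)
    (h1 : LinearIndependent ℂ r) (h2 : ∀ j χ, r j χ ≠ 0 → χ ∈ B)
    (h3 : ∀ j g, p ∣ orderOf g → ∑ χ, r j χ * χ.1 g = 0) : Nat.card ι ≤ blockRank p B := by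
  have := Fintype.ofFinite ι
  have h4 := h1.map' (Fintype.linearCombination ℂ fun χ : IrrCharacter G => χ.1)
    (LinearMap.ker_eq_bot.2 (linearIndependent_irr G).fintypeLinearCombination_injective)
  rw [Nat.card_eq_fintype_card, ← finrank_span_eq_card h4]
  refine Submodule.finrank_mono (Submodule.span_le.2 ?_)
  rintro _ ⟨j, rfl⟩
  have h5 : Fintype.linearCombination ℂ (fun χ : IrrCharacter G => χ.1) (r j) =
      ∑ χ, r j χ • pRegularPart p χ.1 := by
    funext g
    by_cases h : IsPRegular p g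
    · simp [Fintype.linearCombination_apply, pRegularPart, h]
    · simpa [Fintype.linearCombination_apply, pRegularPart, h] using
        h3 j g (by simpa [IsPRegular] using h)
  rw [Function.comp_apply, h5]
  refine Submodule.sum_mem _ fun χ _ => ?_
  by_cases h : r j χ = 0
  · simp [h]
  · exact Submodule.smul_mem _ _ (Submodule.subset_span ⟨χ, h2 j χ h, rfl⟩)

/-- Let B be a block of the finite group G relative to a maximal ideal M of the algebraic integers containing the prime p, with a nontrivial commutative defect group P. Let c be a block of C_G(P) inducing B, T the stabilizer of c in N_G(P) and e the index of C_G(P) in T. Suppose that T/C_G(P) is commutative (all commutators of elements of T lie in C_G(P)) and acts freely on the non-identity elements of P (an element of T fixing a non-identity element of P under conjugation lies in C_G(P)). Then B has at most e + (#P − 1)/e irreducible characters and p-regular rank at most e; equality holds in the first bound exactly when it holds in the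 second; and both equalities hold when e ≤ 3. -/
theorem result {G : Type*} [Group G] [Finite G] (p : ℕ) [Fact p.Prime] (M : Ideal Cfsg.AlgInt) (hM : Cfsg.IsPModular p M) (B : Set (Cfsg.IrrCharacter G)) (hB : Cfsg.IsPBlock M B) (P : Subgroup G) (hPD : Cfsg.IsDefectGroup p M B P) (hP1 : P ≠ ⊥) (hPab : ∀ x ∈ P, ∀ y ∈ P, x * y = y * x) (c : Set (Cfsg.IrrCharacter (Subgroup.centralizer (P : Set G)))) (hc : Cfsg.IsInducedBlock M (Subgroup.centralizer (P : Set G)) c B) (T : Subgroup G) (hT : ∀ g : G, g ∈ T ↔ (g ∈ Subgroup.normalizer (P : Set G) ∧ Cfsg.StabilizesBlock (Subgroup.centralizer (P : Set G)) c g)) (e : ℕ) (he : (Subgroup.centralizer (P : Set G)).relIndex T = e) (hEab : ∀ g ∈ T, ∀ h ∈ T, g * h * g⁻¹ * h⁻¹ ∈ Subgroup.centralizer (P : Set G)) (hfree : ∀ g ∈ T, ∀ x ∈ P, x ≠ 1 → g * x * g⁻¹ = x → g ∈ Subgroup.centralizer (P : Set G)) : Nat.card B ≤ e + (Nat.card P - 1) / e ∧ Cfsg.blockRank p B ≤ e ∧ (Nat.card B = e + (Nat.card P - 1) / e ↔ Cfsg.blockRank p B = e) ∧ (e ≤ 3 → Nat.card B = e + (Nat.card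 P - 1) / e ∧ Cfsg.blockRank p B = e) := by
  haveI := charP_kk hM
  have m := maxP_of_induced_cent hM hPD hc
  obtain rfl := eq_nstab hM hc.1 hT
  obtain ⟨σ, h⟩ := exists_frB hM hB m (le_cent_of_comm hPab) fun u hu h1 t ht =>
    hfree t ht.1 u hu h1 (mul_inv_eq_iff_eq_mul.2 (Subgroup.mem_centralizer_singleton_iff.1 ht.2))
  obtain ⟨h1, h2⟩ := h.rank_le hP1
  have h3 := h.card_eq
  rw [h.card_corb, he] at h3
  rw [card_inE, he] at h1 h2
  have h4 : e ≤ 3 → blockRank p B = e := fun h5 => (h2 h5).elim id fun h6 => by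
    have h7 : (Nat.card P).Prime := by rcases h6 with h6 | h6 <;> rw [h6] <;> norm_num
    have := Fact.mk h7
    obtain ⟨n, hn⟩ := m.bp.isP.exists_card_eq
    obtain ⟨z, hz⟩ := exists_prime_orderOf_dvd_card' (G := P) p (by
      rw [hn]; exact dvd_pow_self _ fun h0 => h7.ne_one (by rw [hn, h0, pow_zero]))
    obtain ⟨ι, _, r, h8, h9, h10, h11⟩ := H21.CB.exists_rel ⟨hM, hB, m, isCyclic_of_prime_card rfl,
      subP_sblk hM m.bp z.2, (Subgroup.orderOf_coe z).trans hz⟩
    rw [H21.card_iE (inf_le_left.trans inf_le_right), he] at h8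
    exact h1.antisymm (h8.trans (card_le_blockRank r h9 h10 h11))
  exact ⟨by omega, h1, by omega, fun h5 => ⟨by rw [h3, h4 h5], h4 h5⟩⟩

end Cfsg.Agent.S4639
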