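import Cfsg.Statements.S4640
import Cfsg.Agent.H8.Ab

set_option autoImplicit false
open Cfsg

namespace Cfsg.Agent.S4640

open H8 H28 H5 MonoidAlgebra
open H7 (eB fB VG redG ev fB_mem_VG isPBlock_principalBlock isPBlock_nonempty)

/-- Let N be a normal subgroup of the finite group G of index a power of the prime p, M a maximal ideal of the algebraic integers containing p, b a block of N stabilized by every element of G, and B a block of G covering b (some member of B has a member of b as a constituent of its restriction to N). Suppose that B has a commutative defect group P. Then G = NP and P ∩ N is a defect group of b; every member of B restricts to a member of b; every member of b is the restriction of exactly [G : N] members of B; B contains exactly [G : N] times as many irreducible characters as b; and B and b have the same p-regular rank. -/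
theorem result {G : Type*} [Group G] [Fintype G] (p : ℕ) [Fact p.Prime] (M : Ideal Cfsg.AlgInt) (hM : Cfsg.IsPModular p M) (N : Subgroup G) [N.Normal] [Fintype N] (hNi : ∃ k : ℕ, N.index = p ^ k) (b : Set (Cfsg.IrrCharacter N)) (hb : Cfsg.IsPBlock M b) (hstab : ∀ g : G, Cfsg.StabilizesBlock N b g) (B : Set (Cfsg.IrrCharacter G)) (hB : Cfsg.IsPBlock M B) (hcov : ∃ χ ∈ B, ∃ θ ∈ b, Cfsg.classInner (fun n : N => (χ : G → ℂ) n) (θ : N → ℂ) ≠ 0) (P : Subgroup G) (hPD : Cfsg.IsDefectGroup p M B P) (hPab : ∀ x ∈ P, ∀ y ∈ P, x * y = y * x) : N ⊔ P = ⊤ ∧ Cfsg.IsDefectGroup p M b ((P ⊓ N).subgroupOf N) ∧ (∀ χ ∈ B, ∃ θ ∈ b, ∀ n : N, (χ : G → ℂ) n = (θ : N → ℂ) n) ∧ (∀ θ ∈ b, Nat.card {χ : Cfsg.IrrCharacter G // χ ∈ B ∧ ∀ n : N, (χ : G → ℂ) n = (θ : N → ℂ) n} = N.index) ∧ Nat.card B = N.index * Nat.card b ∧ Cfsg.blockRank p B = Cfsg.blockRank p b := by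
  classical
  haveI := charP_kk hM
  have := Fintype.ofFinite G
  have hpel := exists_pow_mem_of_index hNi
  have h0 := (cover_sub_iff hM hB hb).1 hcov
  have hfix : eb M N b ∈ Fix (kk M) ⊤ :=
    mem_Fix.2 fun g _ => ((stabilizesBlock_iff hM hb).1 (hstab g)).2
  have h1 : eB M B = eb M N b := by rw [eB_eq_orbs_of_pel hM hpel hB hb h0, orbs_eq_self hfix]
  obtain ⟨h2, h3⟩ := IsDef.sup_eq_of_pel hM le_top (top_le_norm N) (fun x _ => hpel x)
    (isPrim_eb hM hb) hfix (h1 ▸ (isDefectGroup_iff hM hB).1 hPD)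
  obtain ⟨e, m⟩ := exists_maxP_block hM hB hPD
  have hdec : ∀ g : G, ∃ n ∈ N, ∃ u ∈ P, n * u = g := fun g =>
    (mem_sup_of_le_normalizer' (le_top.trans (top_le_norm N))).1 (h2 ▸ Subgroup.mem_top g)
  have hab : commutator G ≤ N := by
    rw [← Subgroup.Normal.quotient_commutative_iff_commutator_le]
    refine ⟨⟨fun a b => ?_⟩⟩
    obtain ⟨a, rfl⟩ := QuotientGroup.mk_surjective a
    obtain ⟨b, rfl⟩ := QuotientGroup.mk_surjective b
    obtain ⟨n, hn, u, hu, rfl⟩ := hdec a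
    obtain ⟨n', hn', v, hv, rfl⟩ := hdec b
    simp only [QuotientGroup.mk_mul, (QuotientGroup.eq_one_iff _).2 hn,
      (QuotientGroup.eq_one_iff _).2 hn', one_mul]
    rw [← QuotientGroup.mk_mul, hPab u hu v hv, QuotientGroup.mk_mul]
  have hreg : ∀ s : G, ¬ p ∣ orderOf s → s ∈ N := fun s hs =>
    mem_of_pow_mem_of_regular (hpel s).choose_spec hs
  have hirr : ∀ χ ∈ B, IsIrrCharacter N fun n : N => χ.1 n := fun χ hχ => by
    by_contra h
    obtain ⟨l, h4, h5, h6⟩ := H6.exists_hom_mul_eq hab χ.2 h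
    have hl := (isCharacter_unitsHom l).isClassFunction
    have h7 := bstar_res hM hB m hl (fun g u hu => by
      rw [← mul_inv_cancel_left u g, map_mul, h5 (hreg _ (H7.isPPart_not_dvd hu)), mul_one])
      χ.2.isClassFunction
    rw [h6, blockPart_irr hχ] at h7
    refine h4 (MonoidHom.ext fun g => ?_)
    obtain ⟨n, hn, u, hu, rfl⟩ := hdec g
    have h8 := eq_one_of_bstar_eq hM m.bp (res_mem_FSt hl) χ.2.isClassFunction h7 hu
      ((subP_sblk hM m.bp hu).sec_ne_zero_of_central hM hB m (le_cent_of_comm hPab hu) hχ)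
    rw [map_mul, h5 hn, one_mul]
    exact Units.ext h8
  have hres : ∀ χ ∈ B, ∃ θ ∈ b, ∀ n : N, χ.1 n = θ.1 n := fun χ hχ =>
    ⟨⟨_, hirr χ hχ⟩, mem_of_cover_of_stable hM hB hb h0 hfix hχ
      (by rw [(hirr χ hχ).classInner_self]; exact one_ne_zero), fun _ => rfl⟩
  have hext : ∀ θ ∈ b, ∃ χ ∈ B, ∀ n : N, χ.1 n = θ.1 n := fun θ hθ => by
    obtain ⟨χ, hχ, h4⟩ := exists_above_of_cover hM hB hb h0 hθ
    exact ⟨χ, hχ, congrFun ((hirr χ hχ).eq_of_classInner_ne_zero θ.2 h4)⟩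
  have hcnt : ∀ θ ∈ b, Nat.card {χ : IrrCharacter G // χ ∈ B ∧ ∀ n : N, χ.1 n = θ.1 n} =
      N.index := fun θ hθ => by
    obtain ⟨χ, hχ, h4⟩ := hext θ hθ
    have h5 : ∀ μ : {μ : G →* ℂˣ // N ≤ μ.ker}, ∀ n : N,
        ((fun g => (μ.1 g : ℂ)) * χ.1) n = θ.1 n := fun μ n => by
      simp [show μ.1 n = 1 from μ.2 n.2, h4]
    rw [← card_hom_ker hab]
    have h8 : ∀ μ : {μ : G →* ℂˣ // N ≤ μ.ker},
        (⟨_, H6.hom_mul_irr χ.2 μ.1⟩ : IrrCharacter G) ∈ B := fun μ =>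
      mem_of_over_of_pel hM hpel hB hb h0 hθ (by
        rw [funext (h5 μ), θ.2.classInner_self]; exact one_ne_zero)
    refine (Nat.card_eq_of_bijective (fun μ => ⟨_, h8 μ, h5 μ⟩) ⟨fun μ ν h => Subtype.ext
        (H6.hom_eq_of_mul_eq χ.2.isCharacter (hirr χ hχ) μ.2 ν.2 (congrArg (·.1.1) h)),
        fun ψ => ?_⟩).symm
    obtain ⟨μ, h6, h7⟩ := H6.exists_hom_of_res_eq χ.2.isCharacter (hirr χ hχ) ψ.1.2.isCharacter
      fun n => (ψ.2.2 n).trans (h4 n).symm
    exact ⟨⟨μ, h6⟩, Subtype.ext (Subtype.ext h7.symm)⟩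
  refine ⟨h2, (isDefectGroup_subgroupOf_iff' hM hb inf_le_right).2 h3, hres, hcnt, ?_, ?_⟩
  · choose r hr1 hr2 using fun χ : B => hres χ.1 χ.2
    rw [← Nat.card_congr (Equiv.sigmaFiberEquiv fun χ : B => (⟨r χ, hr1 χ⟩ : b)), Nat.card_sigma,
      Finset.sum_congr rfl fun θ _ => ?_, Finset.sum_const, smul_eq_mul, mul_comm,
      Nat.card_eq_fintype_card, Finset.card_univ]
    rw [← hcnt θ.1 θ.2]
    exact Nat.card_congr ⟨fun χ => ⟨χ.1.1, χ.1.2, fun n =>
      (hr2 _ n).trans (congrArg (fun θ : b => θ.1.1 n) χ.2)⟩,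
      fun χ => ⟨⟨χ.1, χ.2.1⟩, Subtype.ext (Subtype.ext (funext fun n => by
        rw [← hr2, χ.2.2]))⟩, fun _ => rfl, fun _ => rfl⟩
  · have h4 : ∀ φ : G → ℂ, LinearMap.funLeft ℂ ℂ (fun n : N => (n : G)) (rp p φ) =
        rp p fun n : N => φ n := fun φ => funext fun n => by simp [rp_apply]
    rw [blockRank_eq, blockRank_eq, finrank_eq_map_of_inj
      (LinearMap.funLeft ℂ ℂ fun n : N => (n : G)) _ fun v hv h => ?_, regSp, regSp,
      Submodule.map_span, Set.image_image]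
    · refine congrArg (fun S => Module.finrank ℂ (Submodule.span ℂ S)) (Set.ext fun φ => ?_)
      simp only [h4]
      refine ⟨fun ⟨χ, h5, h6⟩ => ?_, fun ⟨θ, h5, h6⟩ => ?_⟩
      · obtain ⟨θ, h7, h8⟩ := hres χ h5
        exact ⟨θ, h7, by rw [← h6]; simp only [h8]⟩
      · obtain ⟨χ, h7, h8⟩ := hext θ h5
        exact ⟨χ, h7, by rw [← h6]; simp only [h8]⟩
    · rw [← regSp_rp hM (fB_mem_VG hM hB) hv, rp_eq_zero_iff]
      exact fun g hg => congrFun h ⟨g, hreg g hg⟩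

end Cfsg.Agent.S4640
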