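import Cfsg.Statements.S4641
import Cfsg.Agent.H21.Mod3

set_option autoImplicit false
open Cfsg

namespace Cfsg.Agent.S4641

open H5 H7 H8 H21 Finset
open scoped ComplexConjugate

/-- Let B be a block of the finite group G relative to a maximal ideal M of the algebraic integers containing the prime p, let p^a be the p-part of the order of G and p^d the order of a defect group D of B, and let g be the greatest common divisor of the degrees of the members of B. Then the p-part of g is exactly p^(a−d), and writing g = p^(a−d)·u there is a positive integer v, prime to p and at least the p-regular rank of B (its number of irreducible Brauer characters), with Σ_{χ ∈ B} χ(1)² = p^(2a−d)·u²·v. -/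
theorem result {G : Type*} [Group G] [Finite G] (p : ℕ) [Fact p.Prime] (M : Ideal Cfsg.AlgInt) (hM : Cfsg.IsPModular p M) (B : Set (Cfsg.IrrCharacter G)) (hB : Cfsg.IsPBlock M B) (D : Subgroup G) (hD : Cfsg.IsDefectGroup p M B D) (a d : ℕ) (ha : (Nat.card G).factorization p = a) (hd : Nat.card D = p ^ d) (g : ℕ) (hg1 : ∀ χ ∈ B, g ∣ Cfsg.charDegree (χ : G → ℂ)) (hg2 : ∀ g' : ℕ, (∀ χ ∈ B, g' ∣ Cfsg.charDegree (χ : G → ℂ)) → g' ∣ g) : g.factorization p = a - d ∧ ∃ v : ℕ, 0 < v ∧ ¬ p ∣ v ∧ Cfsg.blockRank p B ≤ v ∧ ∑ᶠ χ ∈ B, Cfsg.charDegree (χ : G → ℂ) ^ 2 = p ^ (2 * a - d) * (g / p ^ (a - d)) ^ 2 * v := by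
  classical
  have := Fintype.ofFinite G
  obtain ⟨W⟩ := exists_wed G M
  have hp := hM.1
  have hV := fB_mem_VG hM hB
  have hd' : d = blockDefect p B :=
    Nat.pow_right_injective hp.two_le (hd.symm.trans (card_isDefectGroup hM hB hD))
  subst hd' ha
  have hda := blockDefect_le (p := p) (B := B)
  obtain ⟨ψ, hψ, h0⟩ := exists_blockHeight_eq_zero (p := p) (isPBlock_nonempty hM hB)
  have hg0 : g ≠ 0 := fun h => (charDegree_pos ψ).ne' (Nat.eq_zero_of_zero_dvd (h ▸ hg1 ψ hψ))
  have h1 : p ^ ((Nat.card G).factorization p - blockDefect p B) ∣ g := hg2 _ fun χ hχ => by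
    rw [hp.pow_dvd_iff_le_factorization (charDegree_pos χ).ne']
    have := factorization_degree (p := p) hχ
    omega
  have h2 : g.factorization p = (Nat.card G).factorization p - blockDefect p B := by
    have h3 := (Nat.factorization_le_iff_dvd hg0 (charDegree_pos ψ).ne').2 (hg1 ψ hψ) p
    have := factorization_degree (p := p) hψ
    have := (hp.pow_dvd_iff_le_factorization hg0).1 h1
    omega
  refine ⟨h2, ?_⟩
  have h3 : ¬ p ∣ g / p ^ ((Nat.card G).factorization p - blockDefect p B) :=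
    h2 ▸ Nat.not_dvd_ordCompl hp hg0
  obtain ⟨g', hg'⟩ := h1
  rw [hg', Nat.mul_div_cancel_left _ (pow_pos hp.pos _)] at h3 ⊢
  have h4 : ∀ j ∈ W.blk B, ∃ r : ℕ, 0 < r ∧ (W.n j : ℂ) * W.Φ j 1 =
      (p ^ (2 * (Nat.card G).factorization p - blockDefect p B) * g' ^ 2 * r : ℕ) := by
    intro j hj
    obtain ⟨m, hm⟩ := Wed.dvd_n hM hB hj hg1
    have e1 : W.Φ j 1 = (∑ χ with χ ∈ B, W.d χ j * charDegree χ.1 : ℕ) := by
      rw [Wed.Φ_eq_blk hV hj]; simp [irr_apply_one]
    have e2 := val_le_of_gen_vanish hM (W.isCharacter_Φ j).isGeneralizedCharacter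
      (fun g hg => W.Φ_sing hM j hg) (y := 1) (by simpa using hp.ne_one)
    rw [e1, card_centralizer_one, val_natCast hM Nat.card_pos.ne', val_natCast_le_iff hM] at e2
    have e3 : g' ∣ ∑ χ with χ ∈ B, W.d χ j * charDegree χ.1 := dvd_sum fun χ hχ =>
      ((Dvd.intro_left _ hg'.symm).trans (hg1 χ (mem_filter.1 hχ).2)).mul_left _
    obtain ⟨r, hr⟩ := ((hp.coprime_iff_not_dvd.2 h3).pow_left _).mul_dvd_of_dvd_of_dvd e2 e3
    refine ⟨m * r, Nat.mul_pos (Nat.pos_of_mul_pos_left (hm ▸ W.pos j))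
      (Nat.pos_of_ne_zero fun h => ?_), ?_⟩
    · have := W.inner_φ_Φ hM j j
      rw [(W.isCharacter_Φ j).eq_zero_of_apply_one (by rw [e1, hr, h]; simp),
        classInner_zero_right] at this
      simp at this
    · rw [e1, hr, hm, hg', show 2 * (Nat.card G).factorization p - blockDefect p B =
        (Nat.card G).factorization p - blockDefect p B + (Nat.card G).factorization p by omega]
      push_cast; ring
  choose! r hr hr' using h4
  have h5 : ∑ χ with χ ∈ B, charDegree χ.1 ^ 2 =
      p ^ (2 * (Nat.card G).factorization p - blockDefect p B) * g' ^ 2 * ∑ j ∈ W.blk B, r j := by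
    have := congrFun (Wed.sum_n_smul_Φ (W := W) hM hV) 1
    simp only [Finset.sum_apply, Pi.smul_apply, smul_eq_mul] at this
    rw [sum_congr rfl hr'] at this
    simp only [irr_apply_one, ← sq] at this
    rw [mul_sum]
    exact_mod_cast this.symm
  have h6 : blockRank p B ≤ ∑ j ∈ W.blk B, r j := by
    rw [← Wed.card_blk (W := W) hM hB, card_eq_sum_ones]
    exact sum_le_sum hr
  have h7 := (blockRank_pos hM hB).trans_le h6
  refine ⟨_, h7, fun h => ?_, h6, by rw [finsum_mem_irr, h5]⟩
  have h8 := factorization_sum_sq hM hB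
  have hg'0 : g' ≠ 0 := fun h => h3 (h ▸ dvd_zero p)
  rw [h5, Nat.factorization_mul (mul_ne_zero (pow_ne_zero _ hp.ne_zero) (pow_ne_zero _ hg'0))
    h7.ne', Nat.factorization_mul (pow_ne_zero _ hp.ne_zero) (pow_ne_zero _ hg'0),
    hp.factorization_pow] at h8
  have := hp.factorization_pos_of_dvd h7.ne' h
  simp only [Finsupp.add_apply, Finsupp.single_eq_same] at h8
  omega

end Cfsg.Agent.S4641
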