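import Cfsg.Statements.S4642
import Cfsg.Agent.H7.PCon

set_option autoImplicit false
open Cfsg

open H5 H7 H8 H28

namespace Cfsg.Agent.S4642

/-- Let G be a finite group, p a prime, M a maximal ideal of the algebraic integers containing p, K the largest normal subgroup of G of order prime to p, and L the preimage in G of the largest normal p-subgroup of G/K. Let Q be a Sylow p-subgroup of L and suppose C_G(Q) ≤ L. Let θ be an irreducible character of K invariant under conjugation by every element of G, and let B be the set of irreducible characters of G whose restriction to K contains θ. Then B is a block of G, every Sylow p-subgroup of G is a defect group of B, and B is of principal type: for every p-subgroup R of G exactly one block of C_G(R) induces B. -/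
theorem result {G : Type*} [Group G] [Fintype G] (p : ℕ) [Fact p.Prime] (M : Ideal Cfsg.AlgInt) (hM : Cfsg.IsPModular p M) (K : Subgroup G) (hK : K = Cfsg.pPrimeCore p G) [Fintype K] (L : Subgroup G) (hL : L = Cfsg.pPrimePCore p G) (Q : Subgroup G) (hQL : Q ≤ L) (hQp : IsPGroup p Q) (hQS : ¬ p ∣ Q.relIndex L) (hCQ : Subgroup.centralizer (Q : Set G) ≤ L) (θ : Cfsg.IrrCharacter K) (hθ : ∀ g : G, Cfsg.IsConjCharOf K g (θ : K → ℂ) (θ : K → ℂ)) (B : Set (Cfsg.IrrCharacter G)) (hBdef : ∀ χ : Cfsg.IrrCharacter G, χ ∈ B ↔ Cfsg.classInner (fun k : K => (χ : G → ℂ) k) (θ : K → ℂ) ≠ 0) : Cfsg.IsPBlock M B ∧ (∀ S : Sylow p G, Cfsg.IsDefectGroup p M B S) ∧ ∀ R : Subgroup G, IsPGroup p R → ∃! f : Set (Cfsg.IrrCharacter (Subgroup.centralizer (R : Set G))), Cfsg.IsInducedBlock M (Subgroup.centralizer (R : Set G)) f B := by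
  haveI := charP_kk hM
  subst hK hL
  have hN' : ¬ p ∣ Nat.card (pPrimeCore p G) := not_dvd_card_pPrimeCore hM.1
  have h1 := isPrim_eb hM (isPBlock_singleton hM hN' θ)
  have hG : IsPConstrained p G := fun S => by
    obtain ⟨g, hg, h⟩ := (isSylowIn_of_not_dvd_relIndex hQL hQp hQS).exists_conj
      (isSylowIn_map_subtype S)
    rw [← h, ← cj_centralizer, ← cj_normal (pPrimePCore p G) g]
    exact cj_le_cj.2 hCQ
  have hfix := eb_singleton_mem_Fix (M := M) (θ := θ) fun g => Subtype.ext (funext fun n =>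
    hθ g n _ rfl)
  obtain ⟨B', hB, he, h2⟩ := exists_block_over_singleton hM hN'
    (isPrim_top_of_pcon hM hG rfl h1 hfix)
  obtain rfl : B = B' := Set.ext fun χ => (hBdef χ).trans (h2 χ).symm
  refine ⟨hB, fun S => ?_, fun R hR => ?_⟩
  · rw [H8.isDefectGroup_iff hM hB, he,
      isDef_iff_of_coeff_one (coeff_one_ne_zero_of_coprime hM hN' h1)]
    exact isSylowIn_top S
  · have h3 := isPrim_Br_of_pcon hM hG rfl h1 hfix hR
    obtain ⟨f, hf, h4⟩ := exists_block_eb hM h3
    have h5 : ∀ f', IsInducedBlock M (𝐂 R) f' B ↔ IsPBlock M f' ∧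
        eb M _ f * eb M _ f' = eb M _ f' := fun f' => by
      rw [← isBrauerPairOf_iff_induced hM hR, isBrauerPairOf_iff hM, he, h4]
      tauto
    refine ⟨f, (h5 f).2 ⟨hf, (isPrim_eb hM hf).idem⟩, fun f' hf' => ?_⟩
    obtain ⟨h6, h7⟩ := (h5 f').1 hf'
    exact (eb_inj hM hf h6 ((isPrim_eb hM hf).eq_of_mul_ne_zero (isCommSub_ZA le_rfl)
      (isPrim_eb hM h6) (h7.symm ▸ (isPrim_eb hM h6).ne))).symm

end Cfsg.Agent.S4642
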