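import Cfsg.Statements.S4645
import Cfsg.Agent.H8.Ab

set_option autoImplicit false
open Cfsg

namespace Cfsg.Agent.S4645

open H8 H28 H5 MonoidAlgebra
open H7 (eB fB VG redG ev fB_mem_VG isPBlock_principalBlock isPBlock_nonempty)

/-- Let B be a block of the finite group G relative to a maximal ideal M of the algebraic integers containing the prime p, with a nontrivial cyclic defect group P; let c be a block of C_G(P) inducing B and T the stabilizer of c in N_G(P). Let Q be a nontrivial subgroup of P (so C_G(P) ≤ C_G(Q)), f the block of C_G(Q) induced by c inside C_G(Q), and T' the stabilizer of f in N_G(Q). Then T' = T·C_G(Q), the index of C_G(Q) in T' equals the index of C_G(P) in T, f has p-regular rank 1, and f is a nilpotent block of C_G(Q). -/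
theorem result {G : Type*} [Group G] [Finite G] (p : ℕ) [Fact p.Prime] (M : Ideal Cfsg.AlgInt) (hM : Cfsg.IsPModular p M) (B : Set (Cfsg.IrrCharacter G)) (hB : Cfsg.IsPBlock M B) (P : Subgroup G) (hPD : Cfsg.IsDefectGroup p M B P) (hP1 : P ≠ ⊥) (hcyc : IsCyclic P) (c : Set (Cfsg.IrrCharacter (Subgroup.centralizer (P : Set G)))) (hc : Cfsg.IsInducedBlock M (Subgroup.centralizer (P : Set G)) c B) (T : Subgroup G) (hT : ∀ g : G, g ∈ T ↔ (g ∈ Subgroup.normalizer (P : Set G) ∧ Cfsg.StabilizesBlock (Subgroup.centralizer (P : Set G)) c g)) (Q : Subgroup G) (hQP : Q ≤ P) (hQ1 : Q ≠ ⊥) (f : Set (Cfsg.IrrCharacter (Subgroup.centralizer (Q : Set G)))) (hf : Cfsg.IsInducedBlockIn M (Subgroup.centralizer (Q : Set G)) (Subgroup.centralizer (P : Set G)) c f) (T' : Subgroup G) (hT' : ∀ g : G, g ∈ T' ↔ (g ∈ Subgroup.normalizer (Q : Set G) ∧ Cfsg.StabilizesBlock (Subgroup.centralizer (Q : Set G)) f g)) : T' = T ⊔ Subgroup.centralizer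 (Q : Set G) ∧ (Subgroup.centralizer (Q : Set G)).relIndex T' = (Subgroup.centralizer (P : Set G)).relIndex T ∧ Cfsg.blockRank p f = 1 ∧ Cfsg.IsNilpotentBlock p M f := by
  haveI := charP_kk hM
  have m := maxP_of_induced_cent hM hPD hc
  have hP := le_cent_of_isCyclic hcyc
  obtain rfl := eq_nstab hM hc.1 hT
  obtain ⟨h1, h2⟩ := (inducedIn_iff_ple hM m.bp.isP hQP (hP.trans (centralizer_anti hQP)) hc.1
    rfl).1 hf
  obtain rfl := eq_nstab hM h1 hT'
  have h3 : ⊤ ⊓ 𝐍 P ⊓ stab (eb M (𝐂 P) c) ≤ 𝐍 Q :=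
    fun g hg => norm_le_norm_of_cyclic hcyc hQP hg.1.2
  have h4 : ⊤ ⊓ 𝐍 P ⊓ stab (eb M (𝐂 P) c) ⊓ 𝐂 Q ≤ 𝐂 P := fun g hg => by
    obtain ⟨x, hx⟩ := (Subgroup.ne_bot_iff_exists_ne_one).1 hQ1
    exact free_of_cyclic m.bp.isP hcyc (inf_le_left.trans inf_le_right) (m.not_dvd_of_comm hP) hg.1 (hQP x.2)
      (by simpa using hx) (mul_inv_eq_iff_eq_mul.2 (hg.2 x x.2).symm)
  have h5 : ⊤ ⊓ 𝐍 Q ⊓ stab (eb M (𝐂 Q) f) = ⊤ ⊓ 𝐍 P ⊓ stab (eb M (𝐂 P) c) ⊔ 𝐂 Q := by
    refine le_antisymm (fun g hg => ?_) (sup_le (fun g hg => ⟨⟨trivial, h3 hg⟩,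
      h2.ca_eq top_le_norm_top m.bp trivial hg.1.2 hg.2 (h3 hg)⟩)
      (by simpa using (m.isBP h2).cent_le_stab le_rfl))
    obtain ⟨t, ht, y, hy, rfl⟩ := (m.fus_iff_of_comm hP hQP).1
      (fus_of_mem_stab top_le_norm_top m.bp h2 hg)
    exact Subgroup.mul_mem_sup ht hy.2
  have h6 := (isNilpotentBlock_cent_iff hM m hP rfl h1 h2).2 h4
  refine ⟨h5, ?_, nil_rank hM h6, h6⟩
  rw [h5, sup_comm, relIndex_sup_eq (le_normalizer_centralizer h3), le_antisymm h4
    (le_inf (by simpa using m.bp.cent_le_stab le_rfl) (centralizer_anti hQP))]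

end Cfsg.Agent.S4645
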