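import Cfsg.Statements.S4647
import Cfsg.Agent.H8.MinDim

set_option autoImplicit false
open Cfsg

namespace Cfsg.Agent.S4647

open H8 H28 H5 MonoidAlgebra
open H7 (eB fB VG redG ev fB_mem_VG isPBlock_principalBlock isPBlock_nonempty)

/-- Let B be a block of the finite group G relative to a maximal ideal M of the algebraic integers containing the prime p, p^a the p-part of the order of G and p^d the order of a defect group D of B. If Σ_{χ ∈ B} χ(1)² = p^(2a−d) (the least possible value), then B is nilpotent. -/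
theorem result {G : Type*} [Group G] [Finite G] (p : ℕ) [Fact p.Prime] (M : Ideal Cfsg.AlgInt) (hM : Cfsg.IsPModular p M) (B : Set (Cfsg.IrrCharacter G)) (hB : Cfsg.IsPBlock M B) (D : Subgroup G) (hD : Cfsg.IsDefectGroup p M B D) (a d : ℕ) (ha : (Nat.card G).factorization p = a) (hd : Nat.card D = p ^ d) (hmin : ∑ᶠ χ ∈ B, Cfsg.charDegree (χ : G → ℂ) ^ 2 = p ^ (2 * a - d)) : Cfsg.IsNilpotentBlock p M B := by
  haveI := charP_kk hM
  refine (H8.isNilpotentBlock_iff hM).2 ⟨hB, H8.anil_of_finrank (H8.eB_mem_Fix B ⊤)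
    (H7.eB_mul_self hM hB) ((H8.isDefectGroup_iff hM hB).1 hD) ?_⟩
  have h1 : d ≤ a := by
    rw [← ha, ← Nat.Prime.pow_dvd_iff_le_factorization Fact.out Nat.card_pos.ne', ← hd]
    exact D.card_subgroup_dvd_card
  refine (Nat.mul_le_mul_right _ (H8.finrank_eB_le (H7.fB_mem_VG hM hB))).trans ?_
  rw [hmin, hd, ← pow_add, ha, Nat.sub_add_cancel (by omega)]

end Cfsg.Agent.S4647
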