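import Cfsg.Statements.S4649
import Cfsg.Agent.H21.Dade5

set_option autoImplicit false
open Cfsg

namespace Cfsg.Agent.S4649

open H5 H7 H8 H28 H21 Finset
open scoped ComplexConjugate

/-- A block with cyclic defect group, of a finite group relative to a maximal ideal M of the algebraic integers containing the prime p, is nilpotent if and only if its p-regular rank is 1 (it has a unique irreducible Brauer character). -/
theorem result {G : Type*} [Group G] [Finite G] (p : ℕ) [Fact p.Prime] (M : Ideal Cfsg.AlgInt) (hM : Cfsg.IsPModular p M) (B : Set (Cfsg.IrrCharacter G)) (hB : Cfsg.IsPBlock M B) (P : Subgroup G) (hPD : Cfsg.IsDefectGroup p M B P) (hcyc : IsCyclic P) : Cfsg.IsNilpotentBlock p M B ↔ Cfsg.blockRank p B = 1 := by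
  have := charP_kk hM
  obtain ⟨e, m⟩ := exists_maxP_block hM hB hPD
  refine ⟨nil_rank hM, fun h => (isNilpotentBlock_iff hM).2
    ⟨hB, (m.anil_iff_of_comm (le_cent_of_isCyclic hcyc)).2 ?_⟩⟩
  by_cases hP : P = ⊥
  · exact fun x _ y hy => by rw [Subgroup.mem_bot.1 (hP ▸ hy : y ∈ ⊥), one_mul, mul_one]
  · exact Subgroup.relIndex_eq_one.1 ((cyc_rank hM hB m hcyc hP).symm.trans h)

end Cfsg.Agent.S4649
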