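import Cfsg.Statements.S4650
import Cfsg.Agent.H8.Ab

set_option autoImplicit false
open Cfsg

namespace Cfsg.Agent.S4650

open H8 H28 H5 MonoidAlgebra
open H7 (eB fB VG redG ev fB_mem_VG isPBlock_principalBlock isPBlock_nonempty)

/-- Let B be a block of the finite group G relative to a maximal ideal M of the algebraic integers containing the prime p, with a nontrivial commutative defect group P; let c be a block of C_G(P) inducing B and T the stabilizer of c in N_G(P). Then T/C_G(P) acts freely on the non-identity elements of P (an element of T fixing a non-identity element of P under conjugation lies in C_G(P)) if and only if, for every nontrivial subgroup Q of P, the block of C_G(Q) induced by c inside C_G(Q) is a nilpotent block of C_G(Q). -/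
theorem result {G : Type*} [Group G] [Finite G] (p : ℕ) [Fact p.Prime] (M : Ideal Cfsg.AlgInt) (hM : Cfsg.IsPModular p M) (B : Set (Cfsg.IrrCharacter G)) (hB : Cfsg.IsPBlock M B) (P : Subgroup G) (hPD : Cfsg.IsDefectGroup p M B P) (hPab : ∀ x ∈ P, ∀ y ∈ P, x * y = y * x) (hP1 : P ≠ ⊥) (c : Set (Cfsg.IrrCharacter (Subgroup.centralizer (P : Set G)))) (hc : Cfsg.IsInducedBlock M (Subgroup.centralizer (P : Set G)) c B) (T : Subgroup G) (hT : ∀ g : G, g ∈ T ↔ (g ∈ Subgroup.normalizer (P : Set G) ∧ Cfsg.StabilizesBlock (Subgroup.centralizer (P : Set G)) c g)) : (∀ g ∈ T, ∀ x ∈ P, x ≠ 1 → g * x * g⁻¹ = x → g ∈ Subgroup.centralizer (P : Set G)) ↔ ∀ Q : Subgroup G, Q ≤ P → Q ≠ ⊥ → ∀ f : Set (Cfsg.IrrCharacter (Subgroup.centralizer (Q : Set G))), Cfsg.IsInducedBlockIn M (Subgroup.centralizer (Q : Set G)) (Subgroup.centralizer (P : Set G)) c f → Cfsg.IsNilpotentBlock p M f := by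
  haveI := charP_kk hM
  have m := maxP_of_induced_cent hM hPD hc
  have hP := le_cent_of_comm hPab
  obtain rfl := eq_nstab hM hc.1 hT
  refine ⟨fun h Q hQ hQ1 f hf => ?_, fun h g hg x hx hx1 h1 => ?_⟩
  · obtain ⟨h1, h2⟩ := (inducedIn_iff_ple hM m.bp.isP hQ (hP.trans (centralizer_anti hQ)) hc.1
      rfl).1 hf
    refine (isNilpotentBlock_cent_iff hM m hP rfl h1 h2).2 fun g hg => ?_
    obtain ⟨x, hx⟩ := (Subgroup.ne_bot_iff_exists_ne_one).1 hQ1
    exact h g hg.1 x (hQ x.2) (by simpa using hx) (mul_inv_eq_iff_eq_mul.2 (hg.2 x x.2).symm)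
  · have hQ := Subgroup.zpowers_le.2 hx
    obtain ⟨β, hβ⟩ := exists_PLE top_le_norm_top m.bp hQ
    obtain ⟨f, hf, rfl⟩ := (m.isBP hβ).exists_block hM
    refine (isNilpotentBlock_cent_iff hM m hP rfl hf hβ).1 (h _ hQ (by simpa using hx1) f
      ((inducedIn_iff_ple hM m.bp.isP hQ (hP.trans (centralizer_anti hQ)) hc.1 rfl).2 ⟨hf, hβ⟩))
      ⟨hg, ?_⟩
    rw [centralizer_zpowers]
    exact Subgroup.mem_centralizer_singleton_iff.2 (mul_inv_eq_iff_eq_mul.1 h1)

end Cfsg.Agent.S4650
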