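import Cfsg.Statements.S4651
import Cfsg.Agent.H7.KR

set_option autoImplicit false
open Cfsg

open H5 H28 H8 H7

namespace Cfsg.Agent.S4651

/-- An alternating-sum identity over chains of p-subgroups (the character-count form behind the chain reformulation of Alperin's weight conjecture, which holds unconditionally for the difference k − l). Let b be a block of the finite group G relative to a maximal ideal M of the algebraic integers containing the prime p. Consider the nonempty chains s = {Q_0 < Q_1 < ⋯ < Q_m} of nontrivial p-subgroups of G in which every member is normal in the largest member; let N_G(s) be the intersection of the normalizers of the members (the stabilizer of the chain), and let b_s be the set of irreducible characters of N_G(s) lying in blocks of N_G(s) that induce b. Then #G · (k(b) − l(b)) equals the sum over all such chains s of (−1)^m · #N_G(s) · (k(b_s) − l(b_s)), where k counts irreducible characters and l is the p-regular rank; equivalently, k(b)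 − l(b) is the alternating sum of k(b_s) − l(b_s) over representatives of the conjugacy classes of such chains. -/
theorem result {G : Type*} [Group G] [Finite G] (p : ℕ) [Fact p.Prime] (M : Ideal Cfsg.AlgInt) (hM : Cfsg.IsPModular p M) (b : Set (Cfsg.IrrCharacter G)) (hb : Cfsg.IsPBlock M b) : (Nat.card G : ℤ) * ((Nat.card b : ℤ) - (Cfsg.blockRank p b : ℤ)) = ∑ᶠ s ∈ {s : Finset (Subgroup G) | s.Nonempty ∧ (∀ Q ∈ s, ∀ R ∈ s, Q ≤ R ∨ R ≤ Q) ∧ (∀ Q ∈ s, Q ≠ ⊥ ∧ IsPGroup p Q) ∧ ∃ T ∈ s, ∀ Q ∈ s, Q ≤ T ∧ T ≤ Subgroup.normalizer ((Q : Subgroup G) : Set G)}, (-1 : ℤ) ^ (s.card - 1) * (Nat.card (((⨅ Q ∈ s, Subgroup.normalizer ((Q : Subgroup G) : Set G) : Subgroup G))) : ℤ) * ((Nat.card {ψ : Cfsg.IrrCharacter (((⨅ Q ∈ s, Subgroup.normalizer ((Q : Subgroup G) : Set G) : Subgroup G))) | ∃ β : Set (Cfsg.IrrCharacter (((⨅ Q ∈ s, Subgroup.normalizer ((Q : Subgroup G) : Set G) : Subgroup G)))), ψ ∈ β ∧ Cfsg.IsInducedBlock M (((⨅ Q ∈ s, Subgroup.normalizer ((Q : Subgroup G) : Set G) : Subgroup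 G))) β b} : ℤ) - (Cfsg.blockRank p {ψ : Cfsg.IrrCharacter (((⨅ Q ∈ s, Subgroup.normalizer ((Q : Subgroup G) : Set G) : Subgroup G))) | ∃ β : Set (Cfsg.IrrCharacter (((⨅ Q ∈ s, Subgroup.normalizer ((Q : Subgroup G) : Set G) : Subgroup G)))), ψ ∈ β ∧ Cfsg.IsInducedBlock M (((⨅ Q ∈ s, Subgroup.normalizer ((Q : Subgroup G) : Set G) : Subgroup G))) β b} : ℤ)) := by
  classical
  have := Fintype.ofFinite (Subgroup G)
  have h := kr_sum (b := b) hM (Finset.univ.filter (NC p)) (by simp)
  have h0 : (∅ : Finset (Subgroup G)) ∈ Finset.univ.filter (NC p) :=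
    Finset.mem_filter.2 ⟨Finset.mem_univ _, by simp, by simp, by simp⟩
  have h1 : nn (∅ : Finset (Subgroup G)) = ⊤ := by simp [nn]
  rw [← Finset.add_sum_erase _ _ h0, blockRank_indU hM, (rho_top hM hb h1).1, (rho_top hM hb h1).2,
    h1, Subgroup.card_top, Finset.card_empty, pow_zero, one_mul, add_eq_zero_iff_eq_neg,
    ← Finset.sum_neg_distrib] at h
  rw [h, finsum_mem_eq_finite_toFinset_sum _ (Set.toFinite _)]
  refine Finset.sum_congr ?_ fun s hs => ?_
  · ext s
    simp only [Finset.mem_erase, Finset.mem_filter, Finset.mem_univ, true_and,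
      Set.Finite.mem_toFinset, Set.mem_ofPred_eq, ← Finset.nonempty_iff_ne_empty]
    refine and_congr_right fun hne => ⟨fun h => ⟨h.chain, h.pg, ?_⟩, fun ⟨h1, h2, T, h3, h4⟩ =>
      ⟨h1, h2, fun Q hQ => (Finset.sup_le fun R hR => (h4 R hR).1).trans (h4 Q hQ).2⟩⟩
    obtain ⟨T, h2, h3⟩ := s.exists_maximal hne
    refine ⟨T, h2, fun Q hQ => ⟨(h.chain Q hQ T h2).elim id (h3 hQ), ?_⟩⟩
    exact (Finset.le_sup (f := id) h2).trans (h.norm Q hQ)
  · obtain ⟨n, hn⟩ := Nat.exists_eq_succ_of_ne_zero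
      (Finset.card_pos.2 ((Set.Finite.mem_toFinset _).1 hs).1).ne'
    rw [hn, Nat.succ_sub_one, pow_succ, mul_assoc ((-1 : ℤ) ^ n) (Nat.card _ : ℤ)]
    exact (fun a c : ℤ => (by ring : -(a * -1 * c) = a * c)) _ _

end Cfsg.Agent.S4651
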