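import Cfsg.Statements.S4654
import Cfsg.Agent.H8.Lift

set_option autoImplicit false
open Cfsg

namespace Cfsg.Agent.S4654

open H8 H28 H5 MonoidAlgebra
open H7 (eB fB VG redG ev fB_mem_VG isPBlock_principalBlock isPBlock_nonempty)

/-- Fix a prime p and a maximal ideal M of the algebraic integers containing p. Let P be a normal p-subgroup of the finite group G, B a p-block of G and e a p-block of C_G(P) such that (P, e) is a Brauer pair of B (as P is normal, this says that e occurs in the idempotent of B, which is supported on C_G(P)). Let T be the stabilizer of e in G under conjugation. Then the idempotent of e is a block idempotent of T: some block E of T has, at every element of T, the same idempotent coefficient as e (zero off C_G(P)); and the idempotent of B is the sum of the distinct G-conjugates of the idempotent of e: its coefficient at g is the sum over all x in G of the coefficient of e at x⁻¹ g x, divided by the order of T. -/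
theorem result {G : Type*} [Group G] [Fintype G] (p : ℕ) [Fact p.Prime] (M : Ideal Cfsg.AlgInt) (hM : Cfsg.IsPModular p M) (P : Subgroup G) [P.Normal] (hP : IsPGroup p P) (B : Set (Cfsg.IrrCharacter G)) (e : Set (Cfsg.IrrCharacter (Subgroup.centralizer (P : Set G)))) (hBe : Cfsg.IsBrauerPairOf p M B P e) (T : Subgroup G) (hT : ∀ x : G, x ∈ T ↔ Cfsg.StabilizesBlock (Subgroup.centralizer (P : Set G)) e x) : (∃ E : Set (Cfsg.IrrCharacter T), Cfsg.IsPBlock M E ∧ ∀ t : T, Cfsg.blockCoeff E t = Cfsg.subgroupBlockCoeff (Subgroup.centralizer (P : Set G)) e (t : G)) ∧ ∀ g : G, Cfsg.blockCoeff B g = (Nat.card T : ℂ)⁻¹ * ∑ x : G, Cfsg.subgroupBlockCoeff (Subgroup.centralizer (P : Set G)) e (x⁻¹ * g * x) := by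
  haveI := charP_kk hM
  obtain ⟨-, he, hB, h⟩ := (isBrauerPairOf_iff hM).1 hBe
  have hT' := eq_stab hM he hT
  have h1 := isPrim_eb hM he
  have hC : 𝐂 P ≤ T := hT' ▸ le_inf_stab le_top h1.mem.2
  constructor
  · obtain ⟨E, h2, -, h3⟩ := exists_block_over (K := T) hM hP he
      (hT' ▸ le_inf le_top (mem_Fix_iff_le_stab.1 (isBP_eb hM hP he).fix_self)) hC
      (le_top.trans (top_le_norm P)) (hT' ▸ mem_Fix_inf_stab _ _)
    exact ⟨E, h2, h3⟩
  · have h2 := isPrim_eB hM hB
    have h3 := Br_eq_self_of_normal le_rfl hP le_top (top_le_norm P) h2.mem h2.idem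
    rw [h3] at h
    have h4 : IsPrim (ZA (kk M) (𝐂 P) ⊤) (eB M B) :=
      (isPrim_iff_of_normal le_rfl hP le_top (top_le_norm P) inf_le_right le_top).1 h2
    have h5 := fB_eq_orbs hM he (fB_mem_VG hM hB)
      (eq_orbs le_rfl le_top (top_le_norm _) (top_le_norm _) h4 h1 h)
    have h6 : stab (fb (𝐂 P) e) = T := by
      ext x
      rw [hT, stabilizesBlock_iff_fb, and_iff_right (mem_normalizer_of_normal _ x), mem_stab]
    intro g
    have h7 := congrArg (fun a : ℂ[G] => a.coeff g) (sum_ca_eq_smul (fb (𝐂 P) e))
    simp only [← h5, h6, coeff_finset_sum, coeff_ca, coeff_fb] at h7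
    rw [h7, coeff_smul, Finsupp.smul_apply, H7.coeff_fB, smul_eq_mul,
      inv_mul_cancel_left₀ (card_ne_zero_complex T)]

end Cfsg.Agent.S4654
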