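import Cfsg.Statements.S4657
import Cfsg.Agent.H8.Fusion

set_option autoImplicit false
open Cfsg

namespace Cfsg.Agent.S4657

open H8 H28 H5 MonoidAlgebra
open H7 (eB fB VG redG ev fB_mem_VG isPBlock_principalBlock isPBlock_nonempty)

/-- Fix a prime p and a maximal ideal M of the algebraic integers containing p. Every Brauer pair (P, e) of the finite group G is a Brauer pair of exactly one p-block B of G. -/
theorem result {G : Type*} [Group G] [Fintype G] (p : ℕ) [Fact p.Prime] (M : Ideal Cfsg.AlgInt) (hM : Cfsg.IsPModular p M) (P : Subgroup G) (e : Set (Cfsg.IrrCharacter (Subgroup.centralizer (P : Set G)))) (hPe : Cfsg.IsBrauerPair p M P e) : ∃! B : Set (Cfsg.IrrCharacter G), Cfsg.IsBrauerPairOf p M B P e := by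
  haveI := charP_kk hM
  obtain ⟨he, h1⟩ := (isBrauerPair_iff hM).1 hPe
  obtain ⟨b, hb, h2⟩ := exists_prim_Br_mul (X := ⊤) (H := ⊤) le_rfl h1.isP le_top le_rfl
    (cent_le_inf le_rfl) h1.prim
  obtain ⟨B, hB, rfl⟩ := exists_block_of_isPrim hM hb
  refine ⟨B, (isBrauerPairOf_iff hM).2 ⟨h1.isP, he, hB, h2⟩, fun B' h3 => ?_⟩
  obtain ⟨-, -, hB', h4⟩ := (isBrauerPairOf_iff hM).1 h3
  exact H7.eB_inj hM hB' hB (eq_of_Br_mul le_rfl h1.isP le_top (isPrim_eB hM hB') hb h1.prim.ne h4 h2)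

end Cfsg.Agent.S4657
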