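import Cfsg.Statements.S4661
import Cfsg.Agent.H8.Fusion

set_option autoImplicit false
open Cfsg

namespace Cfsg.Agent.S4661

open H8 H28 H5 MonoidAlgebra
open H7 (eB fB VG redG ev fB_mem_VG isPBlock_principalBlock isPBlock_nonempty)

/-- Fix a prime p and a maximal ideal M of the algebraic integers containing p. Let (P, e) be a maximal Brauer pair of the p-block B of the finite group G, Q ≤ P, and f the p-block of C_G(Q) with (Q, f) ≤ (P, e). Then C_P(Q) is contained in a defect group of f (as a block of the group C_G(Q)); and for some x in G the conjugate pair (x Q x⁻¹, conjugate of f) again lies below (P, e) and C_P(x Q x⁻¹) is a defect group of the conjugate of f in C_G(x Q x⁻¹). -/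
theorem result {G : Type*} [Group G] [Fintype G] (p : ℕ) [Fact p.Prime] (M : Ideal Cfsg.AlgInt) (hM : Cfsg.IsPModular p M) (B : Set (Cfsg.IrrCharacter G)) (P Q : Subgroup G) (e : Set (Cfsg.IrrCharacter (Subgroup.centralizer (P : Set G)))) (f : Set (Cfsg.IrrCharacter (Subgroup.centralizer (Q : Set G)))) (hmax : Cfsg.IsMaximalBrauerPair p M B P e) (hQP : Q ≤ P) (hf : Cfsg.IsPBlock M f) (hle : Cfsg.SubpairLE p M Q f P e) : (∃ D : Subgroup (Subgroup.centralizer (Q : Set G)), Cfsg.IsDefectGroup p M f D ∧ (P ⊓ Subgroup.centralizer (Q : Set G)).subgroupOf (Subgroup.centralizer (Q : Set G)) ≤ D) ∧ ∃ x : G, Cfsg.SubpairLE p M (Q.map (MulAut.conj x).toMonoidHom) (Cfsg.conjBlock Q x f) P e ∧ Cfsg.IsDefectGroup p M (Cfsg.conjBlock Q x f) ((P ⊓ Subgroup.centralizer ((Q.map (MulAut.conj x).toMonoidHom) : Set G)).subgroupOf (Subgroup.centralizer ((Q.map (MulAut.conj x).toMonoidHom) : Set G))) := by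
  haveI := charP_kk hM
  have m := maxP_of hM hmax
  have h := ple_of_subpairLE hM hle
  have h1 := m.isBP h
  constructor
  · obtain ⟨D, h2, h3⟩ := m.exists_isDef_ge h le_rfl (cent_le_inf le_rfl) h1.fix_cent
    rw [top_inf_eq] at h2 h3
    exact ⟨D.subgroupOf _, (isDefectGroup_subgroupOf_iff' hM hf h2.le).2 h2,
      Subgroup.comap_mono h3⟩
  · obtain ⟨x, -, h2, h3⟩ := m.exists_conj_isDef h1 (m.br_of_ple h) le_rfl (cent_le_inf le_rfl)
      h1.fix_cent
    refine ⟨x, (subpairLE_conj_iff hM hf (isPBlock_of_max hM hmax).1).2 h2, ?_⟩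
    rw [top_inf_eq, cj_centralizer] at h3
    rwa [isDefectGroup_subgroupOf_iff' hM ((isPBlock_conjBlock_iff hM Q x).2 hf) inf_le_right,
      eb_conjBlock]

end Cfsg.Agent.S4661
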