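import Cfsg.Statements.S4662
import Cfsg.Agent.H8.Fusion

set_option autoImplicit false
open Cfsg

namespace Cfsg.Agent.S4662

open H8 H28 H5 MonoidAlgebra
open H7 (eB fB VG redG ev fB_mem_VG isPBlock_principalBlock isPBlock_nonempty)

/-- Fix a prime p and a maximal ideal M of the algebraic integers containing p. Let (P, e) be a maximal Brauer pair of the p-block B of the finite group G, Q ≤ P, and f the p-block of C_G(Q) with (Q, f) ≤ (P, e). Let T be the stabilizer of f in N_G(Q). Then the idempotent of f is a block idempotent of T, and N_P(Q) is contained in a defect group of that block of T; moreover for some x in G the conjugate pair (x Q x⁻¹, conjugate of f) again lies below (P, e) and, with T' the stabilizer of the conjugate of f in N_G(x Q x⁻¹), N_P(x Q x⁻¹) is a defect group of the block of T' whose idempotent is that of the conjugate of f. -/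
theorem result {G : Type*} [Group G] [Fintype G] (p : ℕ) [Fact p.Prime] (M : Ideal Cfsg.AlgInt) (hM : Cfsg.IsPModular p M) (B : Set (Cfsg.IrrCharacter G)) (P Q : Subgroup G) (e : Set (Cfsg.IrrCharacter (Subgroup.centralizer (P : Set G)))) (f : Set (Cfsg.IrrCharacter (Subgroup.centralizer (Q : Set G)))) (hmax : Cfsg.IsMaximalBrauerPair p M B P e) (hQP : Q ≤ P) (hf : Cfsg.IsPBlock M f) (hle : Cfsg.SubpairLE p M Q f P e) (T : Subgroup G) (hT : ∀ y : G, y ∈ T ↔ y ∈ Subgroup.normalizer (Q : Set G) ∧ Cfsg.StabilizesBlock (Subgroup.centralizer (Q : Set G)) f y) : (∃ F : Set (Cfsg.IrrCharacter T), Cfsg.IsPBlock M F ∧ (∀ t : T, Cfsg.blockCoeff F t = Cfsg.subgroupBlockCoeff (Subgroup.centralizer (Q : Set G)) f (t : G)) ∧ ∃ D : Subgroup T, Cfsg.IsDefectGroup p M F D ∧ (P ⊓ Subgroup.normalizer (Q : Set G)).subgroupOf T ≤ D) ∧ ∃ x : G, Cfsg.SubpairLE p M (Q.map (MulAut.conj x).toMonoidHom) (Cfsg.conjBlock Q x f) P e ∧ ∀ (T' : Subgroup G), (∀ y : G, y ∈ T' ↔ y ∈ Subgroup.normalizer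 ((Q.map (MulAut.conj x).toMonoidHom) : Set G) ∧ Cfsg.StabilizesBlock (Subgroup.centralizer ((Q.map (MulAut.conj x).toMonoidHom) : Set G)) (Cfsg.conjBlock Q x f) y) → ∃ F' : Set (Cfsg.IrrCharacter T'), Cfsg.IsPBlock M F' ∧ (∀ t : T', Cfsg.blockCoeff F' t = Cfsg.subgroupBlockCoeff (Subgroup.centralizer ((Q.map (MulAut.conj x).toMonoidHom) : Set G)) (Cfsg.conjBlock Q x f) (t : G)) ∧ Cfsg.IsDefectGroup p M F' ((P ⊓ Subgroup.normalizer ((Q.map (MulAut.conj x).toMonoidHom) : Set G)).subgroupOf T') := by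
  haveI := charP_kk hM
  have m := maxP_of hM hmax
  have h := ple_of_subpairLE hM hle
  have h1 := m.isBP h
  obtain rfl := eq_nstab hM hf hT
  constructor
  · obtain ⟨F, hF, h2, h3⟩ := exists_block_over hM h1.isP hf h1.le_stab
      (le_trans (by rw [top_inf_eq]) (h1.cent_le_stab le_rfl)) (inf_le_left.trans inf_le_right)
      (mem_Fix_nstab _ _ _)
    obtain ⟨D, h4, h5⟩ := m.exists_isDef_ge h (h1.cent_le_stab le_rfl) inf_le_left
      (mem_Fix_nstab _ _ _)
    rw [h.inf_stab top_le_norm_top m.bp] at h5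
    exact ⟨F, hF, h3, D.subgroupOf _,
      (isDefectGroup_subgroupOf_iff' hM hF h4.le).2 (by rw [h2]; exact h4), Subgroup.comap_mono h5⟩
  · obtain ⟨x, -, h2, h3⟩ := m.exists_fullyNormalized h
    refine ⟨x, (subpairLE_conj_iff hM hf (isPBlock_of_max hM hmax).1).2 h2, fun T' hT' => ?_⟩
    have hf' := (isPBlock_conjBlock_iff hM Q x).2 hf
    obtain rfl := eq_nstab hM hf' hT'
    rw [← eb_conjBlock] at h2 h3
    have h4 := m.isBP h2
    obtain ⟨F, hF, h5, h6⟩ := exists_block_over hM h4.isP hf' h4.le_stab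
      (le_trans (by rw [top_inf_eq]) (h4.cent_le_stab le_rfl)) (inf_le_left.trans inf_le_right)
      (mem_Fix_nstab _ _ _)
    exact ⟨F, hF, h6, (isDefectGroup_subgroupOf_iff' hM hF h3.le).2 (by rw [h5]; exact h3)⟩

end Cfsg.Agent.S4662
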