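import Cfsg.Statements.S4664
import Cfsg.Agent.H8.Ht

set_option autoImplicit false
open Cfsg

namespace Cfsg.Agent.S4664

open H8 H28 H5 MonoidAlgebra
open H7 (eB fB VG redG ev fB_mem_VG isPBlock_principalBlock isPBlock_nonempty)

/-- Fix a prime p and a maximal ideal M of the algebraic integers containing p, and let B be a p-block of the finite group G. Let m be the p'-part of the order of G and η = exp(2πi/m). Then every coefficient of the idempotent of B lies in the cyclotomic field ℚ(η). -/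
theorem result {G : Type*} [Group G] [Fintype G] (p : ℕ) [Fact p.Prime] (M : Ideal Cfsg.AlgInt) (hM : Cfsg.IsPModular p M) (B : Set (Cfsg.IrrCharacter G)) (hB : Cfsg.IsPBlock M B) (g : G) : Cfsg.blockCoeff B g ∈ IntermediateField.adjoin ℚ ({Complex.exp (2 * Real.pi * Complex.I / ((Nat.card G / p ^ (Nat.card G).factorization p : ℕ) : ℂ))} : Set ℂ) := by
  classical
  by_cases hg : p ∣ orderOf g
  · rw [H7.blockCoeff_eq_zero hM hB hg]
    exact zero_mem _
  set m := Nat.card G / p ^ (Nat.card G).factorization p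
  have hm : m ≠ 0 := (Nat.ordCompl_pos p Nat.card_pos.ne').ne'
  haveI : NeZero m := ⟨hm⟩
  have h1 : orderOf g⁻¹ ∣ m := by
    rw [orderOf_inv]
    exact (Nat.dvd_ordCompl_of_dvd_not_dvd (orderOf_dvd_natCard g) hg)
  rw [H7.blockCoeff_eq_sum]
  refine mul_mem (inv_mem (natCast_mem _ _)) (sum_mem fun χ _ => mul_mem ?_ ?_)
  · rw [H7.irr_apply_one]
    exact natCast_mem _ _
  · obtain ⟨s, -, h2, h3⟩ := χ.2.isCharacter.exists_eigenvalues g⁻¹
    have h4 := h3 1
    rw [zpow_one] at h4
    rw [← H7.irr_apply_inv, h4]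
    refine IntermediateField.multiset_sum_mem _ _ fun z hz => ?_
    obtain ⟨ω, h5, rfl⟩ := Multiset.mem_map.1 hz
    obtain ⟨c, hc⟩ := h1
    obtain ⟨i, -, h6⟩ := (Complex.isPrimitiveRoot_exp m hm).eq_pow_of_pow_eq_one (ξ := (ω : ℂ))
      (by rw [hc, pow_mul, ← Units.val_pow_eq_pow_val, h2 ω h5]; simp)
    rw [zpow_one, ← h6]
    exact pow_mem (IntermediateField.mem_adjoin_simple_self _ _) i

end Cfsg.Agent.S4664
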