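import Cfsg.Statements.S4665
import Cfsg.Agent.H21.Contrib

set_option autoImplicit false
open Cfsg

namespace Cfsg.Agent.S4665

open H5 H7 H8 H21 Finset

/-- Fix a prime p, a maximal ideal M of the algebraic integers containing p, and a p-block B of the finite group G, and let p^a be the p-part of the order of G. Let χ be an integer combination of the irreducible characters in B. If the function that agrees with χ on p-regular elements and vanishes on p-singular elements is again an integer combination of the irreducible characters in B, then p^a divides χ(1). -/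
theorem result {G : Type*} [Group G] [Fintype G] (p : ℕ) [Fact p.Prime] (M : Ideal Cfsg.AlgInt) (hM : Cfsg.IsPModular p M) (B : Set (Cfsg.IrrCharacter G)) (hB : Cfsg.IsPBlock M B) (χ : G → ℂ) (hχ : (∃ n : Cfsg.IrrCharacter G → ℤ, ∀ g : G, χ g = ∑ᶠ ψ ∈ B, (n ψ : ℂ) * (ψ : G → ℂ) g)) (h0 : (∃ n : Cfsg.IrrCharacter G → ℤ, ∀ g : G, Cfsg.pRegularPart p χ g = ∑ᶠ ψ ∈ B, (n ψ : ℂ) * (ψ : G → ℂ) g)) : ∃ k : ℤ, χ 1 = (p ^ (Nat.card G).factorization p : ℂ) * k := by
  have h1 := (ZB_iff.2 hχ).1
  have h2 := val_le_of_gen_vanish hM (ZB_iff.2 h0).1 (fun g hg => rp_of_dvd _ hg) (y := 1)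
    (by simpa using hM.1.ne_one)
  obtain ⟨k, hk⟩ := h1.exists_apply_one
  have h3 : Subgroup.centralizer ({1} : Set G) = ⊤ := by
    ext g; simp [Subgroup.mem_centralizer_iff]
  rw [rp_of_reg _ (by simpa using hM.1.ne_one), hk, h3, Subgroup.card_top,
    val_natCast hM Nat.card_pos.ne', val_intCast_le_iff hM] at h2
  obtain ⟨m, rfl⟩ := h2
  exact ⟨m, by rw [hk]; push_cast; rfl⟩

end Cfsg.Agent.S4665
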