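import Cfsg.Statements.S4668
import Cfsg.Agent.H8.Lift
import Cfsg.Agent.H1.Subnormal

set_option autoImplicit false
open Cfsg

namespace Cfsg.Agent.S4668

open H8 H28 H5 MonoidAlgebra
open H7 (eB fB VG redG ev fB_mem_VG isPBlock_principalBlock isPBlock_nonempty)

/-- Fix a prime p and a maximal ideal M of the algebraic integers containing p. Let Q₀ < Q₁ < ⋯ < Q_m be a strictly increasing chain of p-subgroups of the finite group G and N the intersection of their normalizers. Then every block idempotent of N is supported on C_G(Q_m): for every p-block E of N, the idempotent coefficient of E vanishes at every element of N outside C_G(Q_m). -/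
theorem result {G : Type*} [Group G] [Fintype G] (p : ℕ) [Fact p.Prime] (M : Ideal Cfsg.AlgInt) (hM : Cfsg.IsPModular p M) (m : ℕ) (Q : Fin (m + 1) → Subgroup G) (hQ : StrictMono Q) (hQp : ∀ i, IsPGroup p (Q i)) (N : Subgroup G) (hN : ∀ g : G, g ∈ N ↔ ∀ i, g ∈ Subgroup.normalizer (Q i : Set G)) (E : Set (Cfsg.IrrCharacter N)) (hE : Cfsg.IsPBlock M E) (n : N) (hn : (n : G) ∉ Subgroup.centralizer (Q (Fin.last m) : Set G)) : Cfsg.blockCoeff E n = 0 := by
  haveI := charP_kk hM
  by_contra h
  have h0 : ¬ p ∣ orderOf n := fun h1 => h (H7.blockCoeff_eq_zero hM hE h1)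
  have hL := hQp (Fin.last m)
  have hle : ∀ i, Q i ≤ Q (Fin.last m) := fun i => hQ.monotone (Fin.le_last i)
  have h1 : N ≤ 𝐍 (Q (Fin.last m) ⊓ N) :=
    le_normalizer_inf (fun g hg => (hN g).1 hg _) Subgroup.le_normalizer
  have h2 := mem_Supp_centralizer_of_normal le_rfl (hL.to_le inf_le_left) inf_le_right h1
    (eb_mem_ZA (M := M) N E) (eb_idem (fB_mem_VG hM hE))
  have h3 : (n : G) ∈ 𝐂 (Q (Fin.last m) ⊓ N) :=
    mem_of_coeff_ne_zero (fb_mem_Supp_of_eb (fB_mem_VG hM hE) h2) (by rwa [coeff_fb_coe])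
  let R : ℕ → Subgroup G := fun j =>
    Q (Fin.last m) ⊓ ⨅ i : Fin (m + 1), ⨅ _ : j ≤ (i : ℕ), 𝐍 (Q i)
  have hR : ∀ j g, g ∈ R j ↔ g ∈ Q (Fin.last m) ∧ ∀ i : Fin (m + 1), j ≤ i → g ∈ 𝐍 (Q i) := by
    intro j g; simp only [R, Subgroup.mem_inf, Subgroup.mem_iInf]
  have hA : (Nat.card (Subgroup.zpowers (n : G))).Coprime p := by
    rw [Nat.card_zpowers, Subgroup.orderOf_coe]
    exact ((Nat.Prime.coprime_iff_not_dvd hM.1).2 h0).symm
  have key : ∀ j, j ≤ m + 1 → (n : G) ∈ 𝐂 (R j) := by
    intro j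
    induction j with
    | zero =>
      intro _
      refine centralizer_anti (fun g hg => ?_) h3
      exact ⟨((hR 0 g).1 hg).1, (hN g).2 fun i => ((hR 0 g).1 hg).2 i (Nat.zero_le _)⟩
    | succ j ih =>
      intro hj
      have h4 := ih (by omega)
      let i : Fin (m + 1) := ⟨j, by omega⟩
      have h5 : Q i ≤ R j := fun g hg => (hR j g).2 ⟨hle i hg, fun l hl =>
        Subgroup.le_normalizer (hQ.monotone (show i ≤ l from hl) hg)⟩
      have h6 : R j ≤ R (j + 1) := fun g hg => (hR _ g).2 ⟨((hR j g).1 hg).1, fun l hl =>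
        ((hR j g).1 hg).2 l (by omega)⟩
      have h7 : (n : G) ∈ 𝐍 (R (j + 1)) := by
        refine mem_normalizer_of_cj_le fun g hg => ?_
        rw [mem_cj, hR] at hg
        refine (hR _ g).2 ⟨?_, fun l hl => ?_⟩
        · simpa [mul_assoc] using conj_mem_of_mem_normalizer ((hN n).1 n.2 _) hg.1
        · simpa [mul_assoc] using conj_mem_of_mem_normalizer
            (normalizer_le_normalizer_normalizer _ ((hN n).1 n.2 l)) (hg.2 l hl)
      have h8 := H1.AxB_of_coprime (A := Subgroup.zpowers (n : G)) (B := Q i) (Q := R (j + 1))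
        (hL.to_le inf_le_left) (hQp i) hA (Subgroup.zpowers_le.2 h7)
        ((h5.trans h6).trans Subgroup.le_normalizer)
        (Subgroup.zpowers_le.2 (centralizer_anti h5 h4)) (by
          refine le_trans (fun g hg => ?_) (le_centralizer_comm.1 (Subgroup.zpowers_le.2 h4))
          refine (hR j g).2 ⟨((hR _ g).1 hg.1).1, fun l hl => ?_⟩
          rcases Nat.eq_or_lt_of_le hl with h9 | h9
          · rw [show l = i from Fin.ext h9.symm]
            exact Subgroup.centralizer_le_normalizer _ hg.2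
          · exact ((hR _ g).1 hg.1).2 l h9)
      exact Subgroup.zpowers_le.1 (le_centralizer_comm.1 h8)
  refine hn (centralizer_anti (fun g hg => (hR (m + 1) g).2 ⟨hg, fun i hi => ?_⟩) (key _ le_rfl))
  exact absurd i.2 (by omega)

end Cfsg.Agent.S4668
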