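import Cfsg.Statements.S4669
import Cfsg.Agent.H8.Dom

set_option autoImplicit false
open Cfsg

namespace Cfsg.Agent.S4669

open H8 H28 H5 MonoidAlgebra
open H7 (eB fB VG redG ev fB_mem_VG isPBlock_principalBlock isPBlock_nonempty)

/-- Fix a prime p and a maximal ideal M of the algebraic integers containing p. If the p-block B of the finite group G has a defect group P contained in the centre of G, then B has p-regular rank one (a single irreducible Brauer character). -/
theorem result {G : Type*} [Group G] [Fintype G] (p : ℕ) [Fact p.Prime] (M : Ideal Cfsg.AlgInt) (hM : Cfsg.IsPModular p M) (B : Set (Cfsg.IrrCharacter G)) (hB : Cfsg.IsPBlock M B) (P : Subgroup G) (hD : Cfsg.IsDefectGroup p M B P) (hPZ : P ≤ Subgroup.center G) : Cfsg.blockRank p B = 1 := by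
  haveI : P.Normal := ⟨fun n hn g => by
    rwa [Subgroup.mem_center_iff.1 (hPZ hn) g, mul_inv_cancel_right]⟩
  have hπ := QuotientGroup.mk'_surjective P
  have h : RegInj p (QuotientGroup.mk' P) ⊤ := regInj_mk (isPGroup_of_isDefectGroup hD) fun x _ =>
    mem_centralizer'.2 fun y hy => (Subgroup.mem_center_iff.1 (hPZ hy) x).symm
  have h1 := isDefectGroup_dom (hπ := hπ) hM h hB hD
  have h2 := isPBlock_dom (hπ := hπ) hM h hB
  rw [(Subgroup.map_eq_bot_iff _).2 (by rw [QuotientGroup.ker_mk'])] at h1
  obtain ⟨χ, hχ⟩ := isPBlock_nonempty hM h2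
  rw [← blockRank_dom hM hπ h (fB_mem_VG hM hB), H7.eq_blockOf_of_mem hM h2 hχ,
    (H7.blockOf_eq_singleton_iff hM).2 ((H7.isDefectGroup_bot_iff hM h2 hχ).1 h1),
    blockRank_singleton hM.1]

end Cfsg.Agent.S4669
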