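import Cfsg.Statements.S4670
import Cfsg.Agent.H8.Lift

set_option autoImplicit false
open Cfsg

namespace Cfsg.Agent.S4670

open H8 H28 H5 MonoidAlgebra
open H7 (eB fB VG redG ev fB_mem_VG isPBlock_principalBlock isPBlock_nonempty)

/-- Fix a prime p and a maximal ideal M of the algebraic integers containing p. Let P be a p-subgroup of the finite group G and H a subgroup containing N_G(P). For every p-block B of G with defect group P there is exactly one p-block c of H with defect group P whose idempotent agrees with that of B, modulo the local ideal at M, at every element of C_G(P) (their Brauer-map images at P coincide); and every p-block c of H with defect group P arises in this way from exactly one such B. This is the Brauer correspondence over H. -/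
theorem result {G : Type*} [Group G] [Fintype G] (p : ℕ) [Fact p.Prime] (M : Ideal Cfsg.AlgInt) (hM : Cfsg.IsPModular p M) (P H : Subgroup G) (hP : IsPGroup p P) (hH : Subgroup.normalizer (P : Set G) ≤ H) : (∀ B : Set (Cfsg.IrrCharacter G), Cfsg.IsPBlock M B → Cfsg.IsDefectGroup p M B P → ∃! c : Set (Cfsg.IrrCharacter H), Cfsg.IsPBlock M c ∧ Cfsg.IsDefectGroup p M c (P.subgroupOf H) ∧ ∀ x : G, x ∈ Subgroup.centralizer (P : Set G) → Cfsg.MemLocalIdeal M (Cfsg.blockCoeff B x - Cfsg.subgroupBlockCoeff H c x)) ∧ (∀ c : Set (Cfsg.IrrCharacter H), Cfsg.IsPBlock M c → Cfsg.IsDefectGroup p M c (P.subgroupOf H) → ∃! B : Set (Cfsg.IrrCharacter G), Cfsg.IsPBlock M B ∧ Cfsg.IsDefectGroup p M B P ∧ ∀ x : G, x ∈ Subgroup.centralizer (P : Set G) → Cfsg.MemLocalIdeal M (Cfsg.blockCoeff B x - Cfsg.subgroupBlockCoeff H c x)) := by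
  haveI := charP_kk hM
  have hPH : P ≤ H := Subgroup.le_normalizer.trans hH
  have h0 : ⊤ ⊓ 𝐍 P = H ⊓ 𝐍 P := by rw [top_inf_eq, inf_eq_right.2 hH]
  constructor
  · intro B hB hD
    obtain ⟨c', ⟨h1, h2, h3⟩, h4⟩ := first_main_gen h0 hPH (isPrim_eB hM hB)
      ((isDefectGroup_iff hM hB).1 hD)
    obtain ⟨c, hc, rfl⟩ := exists_block_eb hM h1
    refine ⟨c, ⟨hc, (isDefectGroup_subgroupOf_iff' hM hc hPH).2 h2,
      (Br_eB_eq_iff hM P hB hc).1 h3⟩, fun c' ⟨h5, h6, h7⟩ => eb_inj hM h5 hc (h4 _ ?_)⟩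
    exact ⟨isPrim_eb hM h5, (isDefectGroup_subgroupOf_iff' hM h5 hPH).1 h6,
      (Br_eB_eq_iff hM P hB h5).2 h7⟩
  · intro c hc hD
    obtain ⟨c', ⟨h1, h2, h3⟩, h4⟩ := first_main_gen h0.symm le_top (isPrim_eb hM hc)
      ((isDefectGroup_subgroupOf_iff' hM hc hPH).1 hD)
    obtain ⟨B, hB, rfl⟩ := exists_block_of_isPrim hM h1
    refine ⟨B, ⟨hB, (isDefectGroup_iff hM hB).2 h2,
      (Br_eB_eq_iff hM P hB hc).1 h3.symm⟩, fun c' ⟨h5, h6, h7⟩ => H7.eB_inj hM h5 hB (h4 _ ?_)⟩
    exact ⟨isPrim_eB hM h5, (isDefectGroup_iff hM h5).1 h6,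
      ((Br_eB_eq_iff hM P h5 hc).2 h7).symm⟩

end Cfsg.Agent.S4670
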