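import Cfsg.Statements.S4671
import Cfsg.Agent.H8.Lift

set_option autoImplicit false
open Cfsg

namespace Cfsg.Agent.S4671

open H8 H28 H5 MonoidAlgebra
open H7 (eB fB VG redG ev fB_mem_VG isPBlock_principalBlock isPBlock_nonempty)

/-- Fix a prime p and a maximal ideal M of the algebraic integers containing p. Let N be a normal subgroup of the finite group G, B a p-block of G and P a defect group of B. Then there is a p-block c of N, stable under conjugation by P and covered by B (some member of B has a constituent in c on restriction to N), such that P ∩ N is a defect group of c. -/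
theorem result {G : Type*} [Group G] [Fintype G] (p : ℕ) [Fact p.Prime] (M : Ideal Cfsg.AlgInt) (hM : Cfsg.IsPModular p M) (N : Subgroup G) [N.Normal] [Fintype N] (B : Set (Cfsg.IrrCharacter G)) (hB : Cfsg.IsPBlock M B) (P : Subgroup G) (hP : Cfsg.IsDefectGroup p M B P) : ∃ c : Set (Cfsg.IrrCharacter N), Cfsg.IsPBlock M c ∧ (∀ x ∈ P, Cfsg.StabilizesBlock N c x) ∧ (∃ χ ∈ B, ∃ θ ∈ c, Cfsg.classInner (fun n : N => (χ : G → ℂ) n) (θ : N → ℂ) ≠ 0) ∧ Cfsg.IsDefectGroup p M c ((P ⊓ N).subgroupOf N) := by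
  haveI := charP_kk hM
  have h1 := isPrim_eB hM hB
  obtain ⟨c₀, h2, h3⟩ := exists_prim_mul_ne_zero (S := ZA (kk M) N N) (isCommSub_ZA le_rfl) h1.ne
  obtain ⟨x, -, h4, -, h5⟩ := exists_stable_cover le_top (top_le_norm N) h1 h2 h3
    ((isDefectGroup_iff hM hB).1 hP)
  obtain ⟨c, hc, h6⟩ := exists_block_eb hM
    (h2.ca_of_mem (mem_normalizer_of_normal N x) (mem_normalizer_of_normal N x))
  rw [← h6] at h4 h5
  refine ⟨c, hc, fun y hy => (stabilizesBlock_iff hM hc).2 ⟨mem_normalizer_of_normal N y, h4 y hy⟩,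
    (cover_sub_iff hM hB hc).2 ?_, (isDefectGroup_subgroupOf_iff' hM hc inf_le_right).2 h5⟩
  rw [h6]; exact cover_ca h1.mem.2 h3 trivial

end Cfsg.Agent.S4671
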