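import Cfsg.Statements.S4672
import Cfsg.Agent.H8.Lift

set_option autoImplicit false
open Cfsg

namespace Cfsg.Agent.S4672

open H8 H28 H5 MonoidAlgebra
open H7 (eB fB VG redG ev fB_mem_VG isPBlock_principalBlock isPBlock_nonempty)

/-- Fix a prime p and a maximal ideal M of the algebraic integers containing p. Let N be a normal subgroup of the finite group G of p-power index and c a p-block of N stable under conjugation by G. Then the idempotent of c is a block idempotent of G: there is a p-block B of G whose idempotent coefficients agree with those of c on N and vanish off N; and for every defect group P of such a block B, G = NP and P ∩ N is a defect group of c. -/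
theorem result {G : Type*} [Group G] [Fintype G] (p : ℕ) [Fact p.Prime] (M : Ideal Cfsg.AlgInt) (hM : Cfsg.IsPModular p M) (N : Subgroup G) [N.Normal] (hN : ∃ k : ℕ, N.index = p ^ k) (c : Set (Cfsg.IrrCharacter N)) (hc : Cfsg.IsPBlock M c) (hst : ∀ x : G, Cfsg.StabilizesBlock N c x) : (∃ B : Set (Cfsg.IrrCharacter G), Cfsg.IsPBlock M B ∧ ∀ g : G, Cfsg.blockCoeff B g = Cfsg.subgroupBlockCoeff N c g) ∧ ∀ B : Set (Cfsg.IrrCharacter G), Cfsg.IsPBlock M B → (∀ g : G, Cfsg.blockCoeff B g = Cfsg.subgroupBlockCoeff N c g) → ∀ P : Subgroup G, Cfsg.IsDefectGroup p M B P → N ⊔ P = ⊤ ∧ Cfsg.IsDefectGroup p M c ((P ⊓ N).subgroupOf N) := by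
  haveI := charP_kk hM
  have h1 := isPrim_eb hM hc
  have h2 : eb M N c ∈ Fix (kk M) ⊤ := fun x _ => ((stabilizesBlock_iff hM hc).1 (hst x)).2
  have h3 : ∀ x ∈ (⊤ : Subgroup G), ∃ n : ℕ, x ^ p ^ n ∈ N := fun x _ =>
    exists_pow_mem_of_index hN x
  constructor
  · obtain ⟨B, hB, h4⟩ := exists_block_of_isPrim hM (isPrim_of_pel hM le_top h3 h1 h2)
    exact ⟨B, hB, fB_eq_fb_iff.1 (fB_eq_of_eB_eq (fB_mem_VG hM hB) (fB_mem_VG hM hc) h4)⟩
  · intro B hB h4 P hP
    rw [isDefectGroup_iff hM hB, eB_eq_of_fB_eq (fB_eq_fb_iff.2 h4)] at hP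
    obtain ⟨h5, h6⟩ := hP.sup_eq_of_pel hM le_top (top_le_norm N) h3 h1 h2
    exact ⟨h5, (isDefectGroup_subgroupOf_iff' hM hc inf_le_right).2 h6⟩

end Cfsg.Agent.S4672
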