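import Cfsg.Statements.S4673
import Cfsg.Agent.H8.Lift

set_option autoImplicit false
open Cfsg

namespace Cfsg.Agent.S4673

open H8 H28 H5 MonoidAlgebra
open H7 (eB fB VG redG ev fB_mem_VG isPBlock_principalBlock isPBlock_nonempty)

/-- Fix a prime p and a maximal ideal M of the algebraic integers containing p. Let N ≤ L be normal subgroups of the finite group G with L/N a p-group, let B be a p-block of G covering the p-block c of N (some member of B has a constituent in c on restriction to N), and suppose that N contains a defect group of B. Then the stabilizer T of c in G satisfies T ∩ L = N. -/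
theorem result {G : Type*} [Group G] [Fintype G] (p : ℕ) [Fact p.Prime] (M : Ideal Cfsg.AlgInt) (hM : Cfsg.IsPModular p M) (N L : Subgroup G) [N.Normal] [L.Normal] [Fintype N] (hNL : N ≤ L) (hLN : ∃ k : ℕ, (N.subgroupOf L).index = p ^ k) (B : Set (Cfsg.IrrCharacter G)) (hB : Cfsg.IsPBlock M B) (c : Set (Cfsg.IrrCharacter N)) (hc : Cfsg.IsPBlock M c) (hcov : (∃ χ ∈ B, ∃ θ ∈ c, Cfsg.classInner (fun n : N => (χ : G → ℂ) n) (θ : N → ℂ) ≠ 0)) (hD : ∃ D : Subgroup G, Cfsg.IsDefectGroup p M B D ∧ D ≤ N) (T : Subgroup G) (hT : ∀ x : G, x ∈ T ↔ Cfsg.StabilizesBlock N c x) : T ⊓ L = N := by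
  haveI := charP_kk hM
  obtain rfl := eq_stab hM hc hT
  have h1 := isPrim_eb hM hc
  have h2 := isPrim_eB hM hB
  rw [cover_sub_iff hM hB hc] at hcov
  obtain ⟨D, hD, hDN⟩ := hD
  rw [isDefectGroup_iff hM hB] at hD
  obtain ⟨h3, h4⟩ := fr_isPrim_mul le_top (top_le_norm N) h1 h2 hcov
  have h5 : eB M B * eb M N c * eb M N c = eB M B * eb M N c := by rw [mul_assoc, h1.idem.eq]
  have h6 : N ≤ ⊤ ⊓ stab (eb M N c) ⊓ L := le_inf (le_inf_stab le_top h1.mem.2) hNL
  have h7 : ∀ x ∈ ⊤ ⊓ stab (eb M N c) ⊓ L, ∃ n : ℕ, x ^ p ^ n ∈ N := fun x hx =>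
    exists_pow_mem_of_relIndex (le_top.trans (top_le_norm N)) hLN hx.2
  have h8 : eb M N c ∈ Fix (kk M) (⊤ ⊓ stab (eb M N c) ⊓ L) :=
    Fix_anti inf_le_left (mem_Fix_inf_stab _ _)
  have h9 := isPrim_of_pel hM h6 h7 h1 h8
  obtain ⟨Q, hQ⟩ := exists_isDef p le_rfl Subgroup.le_normalizer h9
  obtain ⟨P, hP, h10⟩ := exists_isDef_inf_eq inf_le_left
    (le_normalizer_inf Subgroup.le_normalizer (le_top.trans (top_le_norm L))) h3 h9
    (by rw [h5]; exact h3.ne) hQ
  have h11 := fr_isDef le_top (top_le_norm N) h1 h3 h5 hP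
  rw [h4] at h11
  obtain ⟨g, -, h12⟩ := hD.exists_conj h11
  have h13 : P ≤ N := h12 ▸ cj_le_of_mem_normalizer hDN (mem_normalizer_of_normal N g)
  rw [← (hQ.sup_eq_of_pel hM h6 (le_top.trans (top_le_norm N)) h7 h1 h8).1, sup_eq_left, ← h10]
  exact inf_le_left.trans h13

end Cfsg.Agent.S4673
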