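import Cfsg.Statements.S4674
import Cfsg.Agent.H8.Lift

set_option autoImplicit false
open Cfsg

namespace Cfsg.Agent.S4674

open H8 H28 H5 MonoidAlgebra
open H7 (eB fB VG redG ev fB_mem_VG isPBlock_principalBlock isPBlock_nonempty)

/-- Fix a prime p and a maximal ideal M of the algebraic integers containing p. Let N be a normal subgroup of the finite group G, Q a p-subgroup of N, H = N_G(Q) and L = H ∩ N = N_N(Q). Let d be a p-block of N with defect group Q and e the p-block of L with defect group Q that induces d inside N (its Brauer correspondent). Then block induction from H to G is a bijection from the p-blocks of H covering e onto the p-blocks of G covering d: every block of H covering e induces exactly one block of G, and that block covers d; and every block of G covering d is induced by exactly one block of H covering e. -/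
theorem result {G : Type*} [Group G] [Fintype G] (p : ℕ) [Fact p.Prime] (M : Ideal Cfsg.AlgInt) (hM : Cfsg.IsPModular p M) (N : Subgroup G) [N.Normal] [Fintype N] (Q : Subgroup G) (hQ : IsPGroup p Q) (hQN : Q ≤ N) [Fintype ↥(Subgroup.normalizer (Q : Set G) ⊓ N)] (d : Set (Cfsg.IrrCharacter N)) (hd : Cfsg.IsPBlock M d) (hdQ : Cfsg.IsDefectGroup p M d (Q.subgroupOf N)) (e : Set (Cfsg.IrrCharacter ↥(Subgroup.normalizer (Q : Set G) ⊓ N))) (he : Cfsg.IsPBlock M e) (heQ : Cfsg.IsDefectGroup p M e (Q.subgroupOf (Subgroup.normalizer (Q : Set G) ⊓ N))) (hed : Cfsg.IsInducedBlockIn M N (Subgroup.normalizer (Q : Set G) ⊓ N) e d) : (∀ c : Set (Cfsg.IrrCharacter ↥(Subgroup.normalizer (Q : Set G))), Cfsg.IsPBlock M c → (∃ ψ ∈ c, ∃ ξ ∈ e, Cfsg.classInner (fun l : ↥(Subgroup.normalizer (Q : Set G) ⊓ N) => (ψ : ↥(Subgroup.normalizer (Q : Set G)) → ℂ) (Subgroup.inclusion inf_le_left l)) (ξ : ↥(Subgroup.normalizer (Q : Set G) ⊓ N) →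 ℂ) ≠ 0) → ∃! B : Set (Cfsg.IrrCharacter G), Cfsg.IsInducedBlock M (Subgroup.normalizer (Q : Set G)) c B ∧ (∃ χ ∈ B, ∃ θ ∈ d, Cfsg.classInner (fun n : N => (χ : G → ℂ) n) (θ : N → ℂ) ≠ 0)) ∧ (∀ B : Set (Cfsg.IrrCharacter G), Cfsg.IsPBlock M B → (∃ χ ∈ B, ∃ θ ∈ d, Cfsg.classInner (fun n : N => (χ : G → ℂ) n) (θ : N → ℂ) ≠ 0) → ∃! c : Set (Cfsg.IrrCharacter ↥(Subgroup.normalizer (Q : Set G))), (Cfsg.IsPBlock M c ∧ ∃ ψ ∈ c, ∃ ξ ∈ e, Cfsg.classInner (fun l : ↥(Subgroup.normalizer (Q : Set G) ⊓ N) => (ψ : ↥(Subgroup.normalizer (Q : Set G)) → ℂ) (Subgroup.inclusion inf_le_left l)) (ξ : ↥(Subgroup.normalizer (Q : Set G) ⊓ N) → ℂ) ≠ 0) ∧ Cfsg.IsInducedBlock M (Subgroup.normalizer (Q : Set G)) c B) := by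
  haveI := charP_kk hM
  have h1 := isPrim_eb hM hd
  have h2 := isPrim_eb hM he
  rw [isDefectGroup_subgroupOf_iff' hM hd hQN] at hdQ
  rw [isInducedBlockIn_iff_ind' hM inf_le_right he hd] at hed
  have h3 : Br Q (eb M N d) = eb M (𝐍 Q ⊓ N) e := by
    generalize eb M (𝐍 Q ⊓ N) e = e' at h2 hed
    rw [inf_comm] at h2 hed
    exact eq_Br_of_ind h1 hdQ h2 hed
  have h4 : ∀ c : Set (IrrCharacter (𝐍 Q)), IsPBlock M c →
      IsPrim (ZA (kk M) (⊤ ⊓ 𝐍 Q) (⊤ ⊓ 𝐍 Q)) (eb M (𝐍 Q) c) := fun c hc => by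
    rw [top_inf_eq]; exact isPrim_eb hM hc
  have h5 : ∀ c : Set (IrrCharacter (𝐍 Q)), IsPBlock M c → ∀ B, IsPBlock M B →
      (IsInducedBlock M (𝐍 Q) c B ↔ Br Q (eB M B) * eb M (𝐍 Q) c = eb M (𝐍 Q) c) :=
    fun c hc B hB => by
      rw [isInducedBlock_iff_ind' hM hc hB, ind_norm_iff hQ Subgroup.le_normalizer
        (inf_le_right.trans (Subgroup.centralizer_le_normalizer _)) le_top le_rfl
        (isPrim_eb hM hc) (isPrim_eB hM hB)]
  constructor
  · intro c hc h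
    rw [cover_incl_iff hM inf_le_left hc he, ← h3] at h
    obtain ⟨b, hb, h6⟩ := exists_ind_norm (H := ⊤) hQ Subgroup.le_normalizer
      (inf_le_right.trans (Subgroup.centralizer_le_normalizer _)) le_top le_rfl (isPrim_eb hM hc)
    obtain ⟨B, hB, rfl⟩ := exists_block_of_isPrim hM hb
    have h7 := (isInducedBlock_iff_ind' hM hc hB).2 h6
    refine ⟨B, ⟨h7, (cover_sub_iff hM hB hd).2 ?_⟩, fun B' h8 => H7.induced_unique hM h8.1 h7⟩
    exact hk_cover (X := N) le_top (Fix_anti hQN h1.mem.2) hQ le_top hb.mem (h4 c hc).mem h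
      ((h5 c hc B hB).1 h7)
  · intro B hB h
    rw [cover_sub_iff hM hB hd] at h
    obtain ⟨c', h6, h7, h8⟩ := hk_exists le_top (top_le_norm N) h1 hdQ (isPrim_eB hM hB) h
    rw [top_inf_eq] at h6
    obtain ⟨c, hc, rfl⟩ := exists_block_eb hM h6
    refine ⟨c, ⟨⟨hc, (cover_incl_iff hM inf_le_left hc he).2 (h3 ▸ h7)⟩, (h5 c hc B hB).2 h8⟩,
      fun c' ⟨⟨h9, h10⟩, h11⟩ => eb_inj hM h9 hc ?_⟩
    rw [cover_incl_iff hM inf_le_left h9 he, ← h3] at h10
    exact hk_unique le_top (top_le_norm N) h1 hdQ (isPrim_eB hM hB) (h4 _ h9) (h4 _ hc) h10 h7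
      ((h5 _ h9 B hB).1 h11) h8

end Cfsg.Agent.S4674
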