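import Cfsg.Statements.S4679
import Cfsg.Agent.H8.Fusion

set_option autoImplicit false
open Cfsg

namespace Cfsg.Agent.S4679

open H8 H28 H5 MonoidAlgebra
open H7 (eB fB VG redG ev fB_mem_VG isPBlock_principalBlock isPBlock_nonempty)

/-- Fix a prime p and a maximal ideal M of the algebraic integers containing p, a p-block B of the finite group G with maximal Brauer pair (P, e), its fusion system F on P, a Brauer pair (Q, f) ≤ (P, e), and let T be the stabilizer of f in N_G(Q). Then Q is fully normalized in F if and only if N_P(Q) is a defect group of the block of T whose idempotent is that of f. -/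
theorem result {G : Type*} [Group G] [Fintype G] (p : ℕ) [Fact p.Prime] (M : Ideal Cfsg.AlgInt) (hM : Cfsg.IsPModular p M) (B : Set (Cfsg.IrrCharacter G)) (P : Subgroup G) (e : Set (Cfsg.IrrCharacter (Subgroup.centralizer (P : Set G)))) (hmax : Cfsg.IsMaximalBrauerPair p M B P e) (F : Cfsg.FusionSystem P) (hF : Cfsg.IsBlockFusionSystemOn p M B P e F) (Q : Subgroup G) (f : Set (Cfsg.IrrCharacter (Subgroup.centralizer (Q : Set G)))) (hQP : Q ≤ P) (hf : Cfsg.IsPBlock M f) (hle : Cfsg.SubpairLE p M Q f P e) (T : Subgroup G) (hT : ∀ y : G, y ∈ T ↔ y ∈ Subgroup.normalizer (Q : Set G) ∧ Cfsg.StabilizesBlock (Subgroup.centralizer (Q : Set G)) f y) : F.IsFullyNormalized Q ↔ ∃ F' : Set (Cfsg.IrrCharacter T), Cfsg.IsPBlock M F' ∧ (∀ t : T, Cfsg.blockCoeff F' t = Cfsg.subgroupBlockCoeff (Subgroup.centralizer (Q : Set G)) f (t : G)) ∧ Cfsg.IsDefectGroup p M F' ((P ⊓ Subgroup.normalizer (Q : Set G)).subgroupOf T) := by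
  haveI := charP_kk hM
  have m := maxP_of hM hmax
  have h := ple_of_subpairLE hM hle
  have h1 := m.isBP h
  obtain rfl := eq_nstab hM hf hT
  have h2 := m.isDef_iff_card h (h1.cent_le_stab le_rfl) inf_le_left (mem_Fix_nstab _ _ _)
  rw [h.inf_stab top_le_norm_top m.bp] at h2
  have hC := le_trans (by rw [top_inf_eq]) (h1.cent_le_stab le_rfl)
  have h3 : F.IsFullyNormalized Q ↔ IsDef p (⊤ ⊓ 𝐍 Q ⊓ stab (eb M (𝐂 Q) f)) (eb M (𝐂 Q) f)
      (P ⊓ 𝐍 Q) := by
    rw [h2, FusionSystem.IsFullyNormalized, and_iff_right hQP, blockFS_forall_isConj hM hF]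
    refine forall_congr' fun x => forall_congr' fun hx => ?_
    rw [cj_nstab (Subgroup.mem_top x), PLE.inf_stab top_le_norm_top m.bp
      ((fus_iff top_le_norm_top m.bp h).1 hx).2]
    rfl
  have h4 : P ⊓ 𝐍 Q ≤ ⊤ ⊓ 𝐍 Q ⊓ stab (eb M (𝐂 Q) f) := by
    rw [← h.inf_stab top_le_norm_top m.bp]; exact inf_le_right
  rw [h3]
  constructor
  · intro h5
    obtain ⟨F', hF', h6, h7⟩ := exists_block_over hM h1.isP hf h1.le_stab hC
      (inf_le_left.trans inf_le_right) (mem_Fix_nstab _ _ _)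
    exact ⟨F', hF', h7, (isDefectGroup_subgroupOf_iff' hM hF' h4).2 (by rw [h6]; exact h5)⟩
  · rintro ⟨F', hF', h5, h6⟩
    rw [isDefectGroup_subgroupOf_iff' hM hF' h4, eb_eq_of_coeff hC h5] at h6
    exact h6

end Cfsg.Agent.S4679
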