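import Cfsg.Statements.S4680
import Cfsg.Agent.H8.Fusion

set_option autoImplicit false
open Cfsg

namespace Cfsg.Agent.S4680

open H8 H28 H5 MonoidAlgebra
open H7 (eB fB VG redG ev fB_mem_VG isPBlock_principalBlock isPBlock_nonempty)

/-- Fix a prime p and a maximal ideal M of the algebraic integers containing p, a p-block B of the finite group G with maximal Brauer pair (P, e), its fusion system F on P, and a Brauer pair (Q, f) ≤ (P, e). Then Q is centric in F if and only if Z(Q) is a defect group of f as a block of C_G(Q). -/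
theorem result {G : Type*} [Group G] [Fintype G] (p : ℕ) [Fact p.Prime] (M : Ideal Cfsg.AlgInt) (hM : Cfsg.IsPModular p M) (B : Set (Cfsg.IrrCharacter G)) (P : Subgroup G) (e : Set (Cfsg.IrrCharacter (Subgroup.centralizer (P : Set G)))) (hmax : Cfsg.IsMaximalBrauerPair p M B P e) (F : Cfsg.FusionSystem P) (hF : Cfsg.IsBlockFusionSystemOn p M B P e F) (Q : Subgroup G) (f : Set (Cfsg.IrrCharacter (Subgroup.centralizer (Q : Set G)))) (hQP : Q ≤ P) (hf : Cfsg.IsPBlock M f) (hle : Cfsg.SubpairLE p M Q f P e) : F.IsCentric Q ↔ Cfsg.IsDefectGroup p M f ((Q ⊓ Subgroup.centralizer (Q : Set G)).subgroupOf (Subgroup.centralizer (Q : Set G))) := by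
  haveI := charP_kk hM
  have m := maxP_of hM hmax
  have h := ple_of_subpairLE hM hle
  have h1 := m.isBP h
  rw [isDefectGroup_subgroupOf_iff' hM hf inf_le_right, FusionSystem.IsCentric,
    and_iff_right hQP, blockFS_forall_isConj hM hF]
  constructor
  · intro h2
    obtain ⟨x, -, h3, h4⟩ := m.exists_conj_isDef h1 (m.br_of_ple h) le_rfl (cent_le_inf le_rfl)
      h1.fix_cent
    have h5 : P ⊓ 𝐂 (cj x Q) ≤ cj x Q := h2 x ⟨trivial, _, h, h3⟩
    rw [top_inf_eq] at h4
    rwa [show P ⊓ cj x (𝐂 Q) = cj x (Q ⊓ 𝐂 Q) by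
      rw [cj_inf, cj_centralizer]
      exact le_antisymm (le_inf h5 inf_le_right) (inf_le_inf_right _ h3.le), isDef_ca_iff] at h4
  · intro h2 x hx
    have h3 := ((fus_iff top_le_norm_top m.bp h).1 hx).2
    have h4 := h2.ca x
    rw [cj_inf, cj_centralizer] at h4
    obtain ⟨D, h5, h6⟩ := m.exists_isDef_ge h3 le_rfl (cent_le_inf le_rfl) (m.isBP h3).fix_cent
    rw [top_inf_eq] at h5 h6
    have h7 := h4.eq_of_le ((inf_le_inf_right _ h3.le).trans h6) h5.le h5.isP h5.ne
    exact h6.trans (h7.le.trans inf_le_left)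

end Cfsg.Agent.S4680
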