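import Cfsg.Statements.S4681
import Cfsg.Agent.H8.Lift

set_option autoImplicit false
open Cfsg

namespace Cfsg.Agent.S4681

open H8 H28 H5 MonoidAlgebra
open H7 (eB fB VG redG ev fB_mem_VG isPBlock_principalBlock isPBlock_nonempty)

/-- Fix a prime p and a maximal ideal M of the algebraic integers containing p. Let B₀ be the principal p-block of the finite group G, P a Sylow p-subgroup and e₀ the principal p-block of C_G(P). Then (P, e₀) is a maximal Brauer pair of B₀, and the fusion system of B₀ on (P, e₀) is the fusion system of G on P: its maps from each subgroup of P are exactly the conjugation maps into P by elements of G. -/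
theorem result {G : Type*} [Group G] [Fintype G] (p : ℕ) [Fact p.Prime] (M : Ideal Cfsg.AlgInt) (hM : Cfsg.IsPModular p M) (S : Sylow p G) : Cfsg.IsMaximalBrauerPair p M (Cfsg.principalBlock M G) (S : Subgroup G) (Cfsg.principalBlock M (Subgroup.centralizer ((S : Subgroup G) : Set G))) ∧ ∀ F : Cfsg.FusionSystem (S : Subgroup G), Cfsg.IsBlockFusionSystemOn p M (Cfsg.principalBlock M G) (S : Subgroup G) (Cfsg.principalBlock M (Subgroup.centralizer ((S : Subgroup G) : Set G))) F → ∀ Q : Subgroup G, F.Hom Q = (Cfsg.groupFusionSystem (S : Subgroup G)).Hom Q := by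
  haveI := charP_kk hM
  have m := maxP_principal hM (isSylowIn_top S)
  refine ⟨(isMaximal_iff_maxP hM).2 ⟨isPBlock_principalBlock, isPBlock_principalBlock, m⟩,
    fun F hF Q => Set.ext fun φ => ?_⟩
  rw [blockFS_hom_iff hM hF]
  simp only [fus_iff_of_aug top_le_norm_top m.bp (aug_eb_principal hM _)]
  constructor
  · rintro ⟨g, h1, -, h2, h3⟩
    exact ⟨h2, fun x => by rw [h1]; exact h3 (conj_mem_cj x.2), g, h1⟩
  · rintro ⟨h1, h2, g, h3⟩
    refine ⟨g, h3, trivial, h1, ?_⟩
    rintro _ ⟨x, hx, rfl⟩
    have := h2 ⟨x, hx⟩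
    rwa [h3] at this

end Cfsg.Agent.S4681
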