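import Cfsg.Statements.S4682
import Cfsg.Agent.H8.Lift

set_option autoImplicit false
open Cfsg

namespace Cfsg.Agent.S4682

open H8 H28 H5 MonoidAlgebra
open H7 (eB fB VG redG ev fB_mem_VG isPBlock_principalBlock isPBlock_nonempty)

/-- Fix a prime p and a maximal ideal M of the algebraic integers containing p, a p-block B of the finite group G with maximal Brauer pair (P, e), P abelian, and a Brauer pair (Q, f) ≤ (P, e). Let T_Q be the stabilizer of f in N_G(Q) and T_P the stabilizer of e in N_G(P). Then every element of T_Q is a product of an element of T_P and an element of C_G(Q); and the index of C_G(Q) in T_Q equals the index of T_P ∩ C_G(Q) in T_P ∩ N_G(Q). -/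
theorem result {G : Type*} [Group G] [Fintype G] (p : ℕ) [Fact p.Prime] (M : Ideal Cfsg.AlgInt) (hM : Cfsg.IsPModular p M) (B : Set (Cfsg.IrrCharacter G)) (P : Subgroup G) (e : Set (Cfsg.IrrCharacter (Subgroup.centralizer (P : Set G)))) (hmax : Cfsg.IsMaximalBrauerPair p M B P e) (hab : ∀ x ∈ P, ∀ y ∈ P, x * y = y * x) (Q : Subgroup G) (f : Set (Cfsg.IrrCharacter (Subgroup.centralizer (Q : Set G)))) (hQP : Q ≤ P) (hf : Cfsg.IsPBlock M f) (hle : Cfsg.SubpairLE p M Q f P e) (TQ : Subgroup G) (hTQ : ∀ y : G, y ∈ TQ ↔ y ∈ Subgroup.normalizer (Q : Set G) ∧ Cfsg.StabilizesBlock (Subgroup.centralizer (Q : Set G)) f y) (TP : Subgroup G) (hTP : ∀ y : G, y ∈ TP ↔ y ∈ Subgroup.normalizer (P : Set G) ∧ Cfsg.StabilizesBlock (Subgroup.centralizer (P : Set G)) e y) : (∀ x ∈ TQ, ∃ y ∈ TP, ∃ c ∈ Subgroup.centralizer (Q : Set G), x = y * c) ∧ ((Subgroup.centralizer (Q : Set G)).subgroupOf TQ).index = ((TP ⊓ Subgroup.centralizer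 (Q : Set G)).subgroupOf (TP ⊓ Subgroup.normalizer (Q : Set G))).index := by
  haveI := charP_kk hM
  have m := maxP_of hM hmax
  have h := ple_of_subpairLE hM hle
  obtain rfl := eq_nstab hM hf hTQ
  obtain rfl := eq_nstab hM (isPBlock_of_max hM hmax).1 hTP
  have hP : P ≤ 𝐂 P := fun x hx y hy => hab y hy x hx
  have h1 : ∀ x ∈ ⊤ ⊓ 𝐍 Q ⊓ stab (eb M (𝐂 Q) f), ∃ y ∈ ⊤ ⊓ 𝐍 P ⊓ stab (eb M (𝐂 P) e),
      ∃ c ∈ 𝐂 Q, x = y * c := by
    intro x hx
    obtain ⟨y, hy, h2⟩ := m.exists_fus_of_comm hP (fus_of_mem_stab m.hHX m.bp h hx) le_top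
    refine ⟨_, h2, x⁻¹ * y⁻¹ * x, ?_, by group⟩
    rw [← mem_cj, cj_centralizer]
    exact inv_mem hy.2
  refine ⟨h1, ?_⟩
  have h2 : ⊤ ⊓ 𝐍 Q ⊓ stab (eb M (𝐂 Q) f) = ⊤ ⊓ 𝐍 P ⊓ stab (eb M (𝐂 P) e) ⊓ 𝐍 Q ⊔ 𝐂 Q := by
    refine le_antisymm (fun x hx => ?_) (sup_le (fun x hx => ?_) ?_)
    · obtain ⟨y, hy, c, hc, rfl⟩ := h1 x hx
      refine Subgroup.mul_mem_sup ⟨hy, ?_⟩ hc
      simpa using (𝐍 Q).mul_mem hx.1.2 ((𝐍 Q).inv_mem (Subgroup.centralizer_le_normalizer _ hc))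
    · exact ⟨⟨trivial, hx.2⟩, h.ca_eq m.hHX m.bp trivial hx.1.1.2 hx.1.2 hx.2⟩
    · exact le_trans (by rw [top_inf_eq]) ((m.isBP h).cent_le_stab le_rfl)
  change (𝐂 Q).relIndex _ = Subgroup.relIndex _ _
  rw [h2, relIndex_sup_of_le (le_normalizer_centralizer inf_le_right) le_rfl le_sup_right,
    ← Subgroup.inf_relIndex_right (𝐂 Q), ← Subgroup.inf_relIndex_right (_ ⊓ 𝐂 Q)]
  congr 1
  exact le_antisymm (le_inf (le_inf (inf_le_right.trans inf_le_left) inf_le_left) inf_le_right)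
    (inf_le_inf_right _ inf_le_right)

end Cfsg.Agent.S4682
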