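import Cfsg.Statements.S4685
import Cfsg.Agent.H8.Nil

set_option autoImplicit false
open Cfsg

namespace Cfsg.Agent.S4685

open H8 H28 H5 MonoidAlgebra
open H7 (eB fB VG redG ev fB_mem_VG isPBlock_principalBlock isPBlock_nonempty)

/-- Fix a prime p and a maximal ideal M of the algebraic integers containing p, a p-block B of the finite group G with maximal Brauer pair (P, e) and fusion system F on P. Then for every h the number of irreducible characters of height h in B is divisible by the index of Z(P) ∩ foc(F) in Z(P), where foc(F) is the focal subgroup of F. -/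
theorem result {G : Type*} [Group G] [Fintype G] (p : ℕ) [Fact p.Prime] (M : Ideal Cfsg.AlgInt) (hM : Cfsg.IsPModular p M) (B : Set (Cfsg.IrrCharacter G)) (P : Subgroup G) (e : Set (Cfsg.IrrCharacter (Subgroup.centralizer (P : Set G)))) (hmax : Cfsg.IsMaximalBrauerPair p M B P e) (F : Cfsg.FusionSystem P) (hF : Cfsg.IsBlockFusionSystemOn p M B P e F) (h : ℕ) : ((P ⊓ Subgroup.centralizer (P : Set G) ⊓ F.focalSubgroup).subgroupOf (P ⊓ Subgroup.centralizer (P : Set G))).index ∣ Nat.card {χ : Cfsg.IrrCharacter G // χ ∈ B ∧ Cfsg.blockHeight p B (χ : G → ℂ) = h} := by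
  haveI := charP_kk hM
  obtain ⟨he, hB⟩ := isPBlock_of_max hM hmax
  have m := maxP_of hM hmax
  rw [Subgroup.inf_subgroupOf_left]
  refine relIndex_dvd_card hM hB m (F := F.focalSubgroup) ?_ inf_le_left
    (fun d => (⌊d.re⌋₊).factorization p - sInf ((fun ψ : IrrCharacter G =>
      (charDegree (ψ : G → ℂ)).factorization p) '' B) = h) fun χ hχ _ u hu => ?_
  · rintro u _ ⟨g, h1, rfl⟩
    exact Subgroup.subset_closure ⟨_, (MulAut.conj g).toMonoidHom.comp (Subgroup.subtype _),
      ⟨u, Subgroup.mem_zpowers u⟩, (blockFS_hom_iff hM hF).2 ⟨g, fun _ => rfl, h1⟩, rfl⟩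
  · exact (subP_sblk hM m.bp hu.1).sec_ne_zero_of_central hM hB m hu.2 hχ

end Cfsg.Agent.S4685
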