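import Cfsg.Statements.S4687
import Cfsg.Agent.H8.Lift

set_option autoImplicit false
open Cfsg

namespace Cfsg.Agent.S4687

open H8 H28 H5 MonoidAlgebra
open H7 (eB fB VG redG ev fB_mem_VG isPBlock_principalBlock isPBlock_nonempty)

/-- Fix a prime p and a maximal ideal M of the algebraic integers containing p, and a p-block B of the finite group G with maximal Brauer pair (P, e), P abelian. Then B is nilpotent if and only if its inertial quotient is trivial: every element of N_G(P) stabilizing e centralizes P. -/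
theorem result {G : Type*} [Group G] [Fintype G] (p : ℕ) [Fact p.Prime] (M : Ideal Cfsg.AlgInt) (hM : Cfsg.IsPModular p M) (B : Set (Cfsg.IrrCharacter G)) (P : Subgroup G) (e : Set (Cfsg.IrrCharacter (Subgroup.centralizer (P : Set G)))) (hmax : Cfsg.IsMaximalBrauerPair p M B P e) (hab : ∀ x ∈ P, ∀ y ∈ P, x * y = y * x) : Cfsg.IsNilpotentBlock p M B ↔ ∀ x : G, x ∈ Subgroup.normalizer (P : Set G) → Cfsg.StabilizesBlock (Subgroup.centralizer (P : Set G)) e x → x ∈ Subgroup.centralizer (P : Set G) := by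
  haveI := charP_kk hM
  have m := maxP_of hM hmax
  have he := (isPBlock_of_max hM hmax).1
  have hP : P ≤ 𝐂 P := fun x hx y hy => hab y hy x hx
  rw [isNilpotentBlock_iff hM, and_iff_right (isPBlock_of_max hM hmax).2, m.anil_iff]
  constructor
  · intro h x h1 h2
    have h3 := (stabilizesBlock_cent_iff hM he).1 ⟨h1, h2⟩
    obtain ⟨u, hu, h4⟩ := h P x (fus_of_mem_stab m.hHX m.bp (PLE.refl _ _)
      ⟨⟨trivial, h3.1⟩, h3.2⟩)
    simpa using (𝐂 P).mul_mem (hP hu) h4
  · intro h Q x hx
    obtain ⟨y, hy, h1⟩ := m.exists_fus_of_comm hP hx le_top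
    have h2 := (stabilizesBlock_cent_iff hM he).2 ⟨h1.1.2, h1.2⟩
    have h3 := centralizer_anti hx.le (h _ h2.1 h2.2)
    have h4 : x⁻¹ * y⁻¹ * x ∈ 𝐂 Q := by
      rw [← mem_cj, cj_centralizer]
      exact inv_mem hy.2
    refine ⟨1, one_mem _, ?_⟩
    convert (𝐂 Q).mul_mem h3 h4 using 1; group

end Cfsg.Agent.S4687
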