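import Cfsg.Statements.S4688
import Cfsg.Agent.H8.Lift

set_option autoImplicit false
open Cfsg

namespace Cfsg.Agent.S4688

open H8 H28 H5 MonoidAlgebra
open H7 (eB fB VG redG ev fB_mem_VG isPBlock_principalBlock isPBlock_nonempty)

/-- Fix a prime p and a maximal ideal M of the algebraic integers containing p, and a nilpotent p-block B of the finite group G with maximal Brauer pair (P, e). Then for every Brauer pair (Q, f) of B, f is a nilpotent block of C_G(Q); and if moreover (Q, f) ≤ (P, e), then C_P(Q) is a defect group of f as a block of C_G(Q). -/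
theorem result {G : Type*} [Group G] [Fintype G] (p : ℕ) [Fact p.Prime] (M : Ideal Cfsg.AlgInt) (hM : Cfsg.IsPModular p M) (B : Set (Cfsg.IrrCharacter G)) (P : Subgroup G) (e : Set (Cfsg.IrrCharacter (Subgroup.centralizer (P : Set G)))) (hmax : Cfsg.IsMaximalBrauerPair p M B P e) (hnil : Cfsg.IsNilpotentBlock p M B) (Q : Subgroup G) (f : Set (Cfsg.IrrCharacter (Subgroup.centralizer (Q : Set G)))) (hQf : Cfsg.IsBrauerPairOf p M B Q f) : Cfsg.IsNilpotentBlock p M f ∧ (Cfsg.SubpairLE p M Q f P e → Cfsg.IsDefectGroup p M f ((P ⊓ Subgroup.centralizer (Q : Set G)).subgroupOf (Subgroup.centralizer (Q : Set G)))) := by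
  haveI := charP_kk hM
  have m := maxP_of hM hmax
  obtain ⟨hB, hn⟩ := (isNilpotentBlock_iff hM).1 hnil
  obtain ⟨hQ, hf, -, h⟩ := (isBrauerPairOf_iff hM).1 hQf
  have h1 := isBP_eb hM hQ hf
  constructor
  · have := hn.local m.prim.mem m.prim.idem h1 h
    rw [top_inf_eq] at this
    exact (isNilpotentBlock_iff_eb hM).2 ⟨hf, this⟩
  · intro hle
    have h2 := m.isDef_iff_card (ple_of_subpairLE hM hle) le_rfl (cent_le_inf le_rfl) h1.fix_cent
    rw [top_inf_eq] at h2
    refine (isDefectGroup_subgroupOf_iff' hM hf inf_le_right).2 (h2.2 fun x hx => ?_)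
    obtain ⟨u, hu, h3⟩ := m.anil_iff.1 hn Q x hx
    rw [show x = u * (u⁻¹ * x) by group, ← cj_cj, cj_eq_self_of_mem h3, ← card_cj u (P ⊓ 𝐂 Q),
      cj_inf, cj_eq_self_of_mem hu]

end Cfsg.Agent.S4688
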