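import Cfsg.Statements.S4692
import Cfsg.Agent.H8.Ab

set_option autoImplicit false
open Cfsg

namespace Cfsg.Agent.S4692

open H8 H28 H5 MonoidAlgebra
open H7 (eB fB VG redG ev fB_mem_VG isPBlock_principalBlock isPBlock_nonempty)

/-- Fix a prime p and a maximal ideal M of the algebraic integers containing p. Let N be a normal subgroup of p-power index in the finite group G and c a p-block of N stable under conjugation by G, and let B be the p-block of G whose idempotent is that of c (it exists and is unique). Then c is nilpotent as a block of N if and only if B is nilpotent as a block of G. -/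
theorem result {G : Type*} [Group G] [Fintype G] (p : ℕ) [Fact p.Prime] (M : Ideal Cfsg.AlgInt) (hM : Cfsg.IsPModular p M) (N : Subgroup G) [N.Normal] (hN : ∃ k : ℕ, N.index = p ^ k) (c : Set (Cfsg.IrrCharacter N)) (hc : Cfsg.IsPBlock M c) (hst : ∀ x : G, Cfsg.StabilizesBlock N c x) (B : Set (Cfsg.IrrCharacter G)) (hB : Cfsg.IsPBlock M B) (hBc : ∀ g : G, Cfsg.blockCoeff B g = Cfsg.subgroupBlockCoeff N c g) : Cfsg.IsNilpotentBlock p M c ↔ Cfsg.IsNilpotentBlock p M B := by
  have h1 := eB_eq_of_fB_eq (M := M) (fB_eq_fb_iff.2 hBc)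
  have h2 : eb M N c ∈ ZA (kk M) N ⊤ := ⟨(eb_mem_ZA N c).1, h1 ▸ eB_mem_Fix B ⊤⟩
  have h3 := eb_idem (fB_mem_VG hM hc)
  rw [isNilpotentBlock_iff_eb hM, isNilpotentBlock_iff hM, and_iff_right hc, and_iff_right hB, h1]
  exact ⟨anil_top_of_pel hM (exists_pow_mem_of_index hN) h2 h3,
    anil_of_pel hM (exists_pow_mem_of_index hN) h2 h3⟩

end Cfsg.Agent.S4692
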