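import Cfsg.Statements.S4693
import Cfsg.Agent.H8.Lift

set_option autoImplicit false
open Cfsg

namespace Cfsg.Agent.S4693

open H8 H28 H5 MonoidAlgebra
open H7 (eB fB VG redG ev fB_mem_VG isPBlock_principalBlock isPBlock_nonempty)

/-- Fix a prime p and a maximal ideal M of the algebraic integers containing p, a p-block B of the finite group G with maximal Brauer pair (P, e) and fusion system F on P, and a Brauer pair (Q, f) ≤ (P, e) with Q centric in F. Suppose every element of G normalizes Q and stabilizes f. Then the idempotent of B agrees with that of f modulo M at every element of G, and f is the idempotent of a nilpotent block of Q·C_G(Q): some p-block of Q·C_G(Q) has the idempotent coefficients of f and is nilpotent. -/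
theorem result {G : Type*} [Group G] [Fintype G] (p : ℕ) [Fact p.Prime] (M : Ideal Cfsg.AlgInt) (hM : Cfsg.IsPModular p M) (B : Set (Cfsg.IrrCharacter G)) (P : Subgroup G) (e : Set (Cfsg.IrrCharacter (Subgroup.centralizer (P : Set G)))) (hmax : Cfsg.IsMaximalBrauerPair p M B P e) (F : Cfsg.FusionSystem P) (hF : Cfsg.IsBlockFusionSystemOn p M B P e F) (Q : Subgroup G) (f : Set (Cfsg.IrrCharacter (Subgroup.centralizer (Q : Set G)))) (hQP : Q ≤ P) (hf : Cfsg.IsPBlock M f) (hle : Cfsg.SubpairLE p M Q f P e) (hcen : F.IsCentric Q) (hG : ∀ x : G, x ∈ Subgroup.normalizer (Q : Set G) ∧ Cfsg.StabilizesBlock (Subgroup.centralizer (Q : Set G)) f x) : (∀ g : G, Cfsg.MemLocalIdeal M (Cfsg.blockCoeff B g - Cfsg.subgroupBlockCoeff (Subgroup.centralizer (Q : Set G)) f g)) ∧ ∃ F' : Set (Cfsg.IrrCharacter ↥(Q ⊔ Subgroup.centralizer (Q : Set G))), Cfsg.IsPBlock M F' ∧ (∀ t : ↥(Q ⊔ Subgroup.centralizer (Q : Set G)), Cfsg.blockCoeff F' t = Cfsg.subgroupBlockCoeff (Subgroup.centralizer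 (Q : Set G)) f (t : G)) ∧ Cfsg.IsNilpotentBlock p M F' := by
  haveI := charP_kk hM
  have m := maxP_of hM hmax
  have hB := (isPBlock_of_max hM hmax).2
  have h := ple_of_subpairLE hM hle
  have h1 := m.isBP h
  have h2 : ⊤ ≤ 𝐍 Q := fun x _ => (hG x).1
  have h3 : eb M (𝐂 Q) f ∈ Fix (kk M) ⊤ := fun x _ =>
    ((stabilizesBlock_cent_iff hM hf).1 (hG x)).2
  constructor
  · have h4 := m.br_of_ple h
    rw [Br_eq_self_of_normal le_rfl h1.isP le_top h2 m.prim.mem m.prim.idem] at h4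
    have h5 := m.prim.eq_of_mul_ne_zero (isCommSub_ZA le_rfl)
      (isPrim_eb_over hM h1.isP hf le_top le_top h2 h3) (by rw [h4]; exact h1.prim.ne)
    have h6 := (Br_eB_eq_iff hM ⊥ hB hf).1 (by rw [h5])
    exact fun g => h6 g (by rw [centralizer_bot]; trivial)
  · have h4 : eb M (𝐂 Q) f ∈ Fix (kk M) (Q ⊔ 𝐂 Q) := Fix_anti le_top h3
    obtain ⟨F', hF', h5, h6⟩ := exists_block_over hM h1.isP hf le_sup_left le_sup_right
      (le_top.trans h2) h4
    refine ⟨F', hF', h6, (isNilpotentBlock_iff_eb hM).2 ⟨hF', ?_⟩⟩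
    rw [h5]
    intro R g h7 h8 x hx _ _ h9
    have hQC : Q ≤ 𝐍 (𝐂 Q) := le_normalizer_centralizer Subgroup.le_normalizer
    obtain ⟨n, hn⟩ := exists_pow_mem_sup h1.isP hQC (sup_comm Q _ ▸ hx)
    refine centralizer_anti ?_ (mem_of_pow_mem_of_regular hn h9)
    have h10 : Br R (eb M (𝐂 Q) f) ≠ 0 := fun h10 => h7.prim.ne (by rw [← h8, h10, zero_mul])
    obtain ⟨y, -, h11, h12⟩ := m.exists_conj_isDef h1 (m.br_of_ple h) (K := Q ⊔ 𝐂 Q)
      (inf_le_right.trans le_sup_right) (le_inf le_top (le_top.trans h2)) h4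
    have h13 := (blockFS_forall_isConj (W := fun R => FusionSystem.centralizerIn P R ≤ R) hM
      hF).1 hcen.2 y ⟨trivial, _, h, h11⟩
    rw [cj_eq_self (h2 (Subgroup.mem_top y))] at h13
    rw [cj_sup, cj_centralizer, cj_eq_self (h2 (Subgroup.mem_top y)), h3 y trivial, inf_comm,
      sup_inf_of_le_normalizer (Or.inl hQC) hQP, inf_comm, sup_eq_left.2 (show P ⊓ 𝐂 Q ≤ Q from h13)] at h12
    obtain ⟨z, -, h14⟩ := h12.exists_le_conj h7.le h7.isP h10
    rwa [cj_eq_self (h2 (Subgroup.mem_top z))] at h14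

end Cfsg.Agent.S4693
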