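import Cfsg.Statements.S4694
import Cfsg.Agent.H8.Ab

set_option autoImplicit false
open Cfsg

namespace Cfsg.Agent.S4694

open H8 H28 H5 MonoidAlgebra
open H7 (eB fB VG redG ev fB_mem_VG isPBlock_principalBlock isPBlock_nonempty)

/-- Fix a prime p and a maximal ideal M of the algebraic integers containing p, a p-block B of the finite group G and a Brauer pair (Q, e) of B. Let T be the stabilizer of e in N_G(Q) and suppose that (Q, e) carries a weight: the block of T whose idempotent is that of e contains an irreducible character χ that is constant on the cosets of Q and whose degree has p-part equal to the p-part of the index of Q in T. Then Z(Q) is a defect group of e as a block of C_G(Q), and Q is the largest normal p-subgroup of T: every p-subgroup of T normalized by T lies in Q. -/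
theorem result {G : Type*} [Group G] [Fintype G] (p : ℕ) [Fact p.Prime] (M : Ideal Cfsg.AlgInt) (hM : Cfsg.IsPModular p M) (B : Set (Cfsg.IrrCharacter G)) (Q : Subgroup G) (e : Set (Cfsg.IrrCharacter (Subgroup.centralizer (Q : Set G)))) (hQe : Cfsg.IsBrauerPairOf p M B Q e) (T : Subgroup G) (hT : ∀ y : G, y ∈ T ↔ y ∈ Subgroup.normalizer (Q : Set G) ∧ Cfsg.StabilizesBlock (Subgroup.centralizer (Q : Set G)) e y) (F' : Set (Cfsg.IrrCharacter T)) (hF' : Cfsg.IsPBlock M F') (hF'e : ∀ t : T, Cfsg.blockCoeff F' t = Cfsg.subgroupBlockCoeff (Subgroup.centralizer (Q : Set G)) e (t : G)) (χ : Cfsg.IrrCharacter T) (hχ : χ ∈ F') (hχQ : ∀ q : G, q ∈ Q → ∀ t : T, ∀ t' : T, (t' : G) = q * (t : G) → (χ : T → ℂ) t' = (χ : T → ℂ) t) (hdeg : (Cfsg.charDegree (χ : T → ℂ)).factorization p + (Nat.card Q).factorization p = (Nat.card T).factorization p) : Cfsg.IsDefectGroup p M e ((Q ⊓ Subgroup.centralizer (Q : Set G)).subgroupOf (Subgroup.centralizer (Q : Set G))) ∧ ∀ R : Subgroup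 G, R ≤ T → IsPGroup p R → (∀ t ∈ T, t ∈ Subgroup.normalizer (R : Set G)) → R ≤ Q := by
  haveI := charP_kk hM
  obtain ⟨hQ, he, -, -⟩ := (isBrauerPairOf_iff hM).1 hQe
  have hf := isBP_eb hM hQ he
  have hT' := eq_nstab hM he hT
  have hQT : Q ≤ T := hT' ▸ hf.le_stab
  have hCT : 𝐂 Q ≤ T := by simpa [hT'] using hf.cent_le_stab le_rfl
  have hTN : T ≤ 𝐍 Q := fun y hy => ((hT y).1 hy).1
  have h1 := eb_eq_of_coeff (M := M) hCT hF'e
  haveI := H7.normal_subgroupOf_of_le hQT hTN
  let π := QuotientGroup.mk' (Q.subgroupOf T)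
  have hπ : Function.Surjective π := QuotientGroup.mk'_surjective _
  have hk : π.ker = Q.subgroupOf T := QuotientGroup.ker_mk' _
  obtain ⟨η, rfl⟩ := H7.exists_infl_eq (f := π) (hf := hπ) (χ := χ) (by
    rw [hk]; exact fun q hq t => hχQ q hq t _ rfl)
  have h2 : val M (η.1 1) = val M (Nat.card (T ⧸ Q.subgroupOf T) : ℂ) := by
    rw [H7.val_one_eq_card_iff hM]
    have h3 := H7.factorization_index_add (p := p) (Q.subgroupOf T)
    rw [card_subgroupOf_of_le hQT, ← hdeg, Nat.add_right_cancel_iff] at h3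
    rw [show Nat.card (T ⧸ Q.subgroupOf T) = (Q.subgroupOf T).index from rfl, h3]
    simp [charDegree]
  have h3 : IsPBlock M {η} := (H7.blockOf_eq_singleton_iff hM).2 h2 ▸ H7.isPBlock_blockOf η
  have h4 := (isDefectGroup_iff hM h3).1 ((H7.isDefectGroup_bot_iff hM h3 rfl).2 h2)
  have h5 : ∀ R : Subgroup G, R ≤ T → (R.subgroupOf T).map π = ⊥ → R ≤ Q := fun R hR h x hx => by
    rw [Subgroup.map_eq_bot_iff, hk] at h
    exact h (show (⟨x, hR hx⟩ : T) ∈ R.subgroupOf T from hx)
  refine ⟨?_, fun R hR hR1 hR2 => h5 R hR (le_bot_iff.1 ?_)⟩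
  · obtain ⟨D, hD⟩ := exists_isDef p le_rfl Subgroup.le_normalizer (isPrim_eb hM he)
    rw [isDefectGroup_subgroupOf_iff' hM he inf_le_right]
    have h6 := hD.le_of_normal le_rfl (eb_mem_ZA _ e) (isPrim_eb hM he).idem (hQ.to_inf_left)
      inf_le_right (le_normalizer_of_le_centralizer
        (le_centralizer_comm.1 (inf_le_left.trans (le_centralizer_comm.1 le_rfl))))
    suffices D ≤ Q from le_antisymm (le_inf this hD.le) h6 ▸ hD
    have hDT := hD.le.trans hCT
    have hXT : Q ⊔ 𝐂 Q ≤ T := sup_le hQT hCT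
    obtain ⟨X, hX⟩ : ∃ X, X = (Q ⊔ 𝐂 Q).subgroupOf T := ⟨_, rfl⟩
    have hX1 : X.map T.subtype = Q ⊔ 𝐂 Q := hX ▸ Subgroup.map_subgroupOf_eq_of_le hXT
    haveI : X.Normal :=
      hX ▸ H7.normal_subgroupOf_of_le hXT (hTN.trans (norm_le_norm_sup_cent Q))
    haveI : (X.map π).Normal := Subgroup.Normal.map inferInstance π hπ
    have h7 : IsPrim (ZA (kk M) X X) (eB M F') := by
      rw [← isPrim_emb_iff T.subtype_injective, hX1]
      exact (isBP_iff_sup_cent hQ).1 (h1.symm ▸ hf : IsBP p ⊤ ⊤ Q (eb M T F'))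
    have h8 : IsPGroup p (π.ker ⊓ X : Subgroup T) :=
      IsPGroup.to_inf_left (by rw [hk]; exact (isPGroup_subgroupOf_iff hQT).2 hQ)
    have h9 : RegInj p π X := regInj_of_cent h8 fun x hx h y hy => by
      have hx' : (x : G) ∈ 𝐂 Q ⊔ Q := by rw [sup_comm, ← hX1]; exact ⟨x, hx, rfl⟩
      obtain ⟨n, hn⟩ := exists_pow_mem_sup hQ (le_normalizer_centralizer Subgroup.le_normalizer) hx'
      exact Subtype.ext (mem_of_pow_mem_of_regular hn (by rwa [Subgroup.orderOf_coe]) y
        (hk.le hy.1))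
    have hDX : D.subgroupOf T ≤ X := hX ▸ Subgroup.comap_mono (hD.le.trans le_sup_right)
    have hD1 := (isPGroup_subgroupOf_iff hDT).2 hD.isP
    have h10 : Br (D.subgroupOf T) (eB M F') ≠ 0 := fun h => hD.ne (by
      rw [← h1, ← Subgroup.map_subgroupOf_eq_of_le hDT, eb, ← emb_Br T.subtype_injective, h,
        map_zero])
    have h11 := Br_ne_zero_of_cover (h9.isPrim_emb hM le_rfl Subgroup.le_normalizer h7)
      (hD1.map π) (Subgroup.map_mono hDX) (Br_emb_ne_zero le_rfl Subgroup.le_normalizer h8 h7.mem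
        h7.idem hD1 hDX h10) (e := eB M {η})
      ⟨Supp_mono (top_le_norm _) (mem_Supp_top _), eB_mem_Fix _ _⟩ (isPrim_eB hM h3).idem (by
        rw [emb_eB hπ (fB_mem_VG hM hF'), (isCommSub_ZA le_rfl _
          (eB_mem_ZA _) _ (eB_mem_ZA _)).eq, eB_mul_eB_of_subset (fB_dom_mem_VG (fB_mem_VG hM hF'))
          (fB_mem_VG hM h3) (Set.singleton_subset_iff.2 hχ)]
        exact (isPrim_eB hM h3).ne)
    obtain ⟨g, -, hg⟩ := h4.max _ le_top (hD1.map π) h11
    exact h5 D hDT (cj_eq_bot.1 (le_bot_iff.1 hg))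
  · haveI := H7.normal_subgroupOf_of_le hR hR2
    haveI : ((R.subgroupOf T).map π).Normal := Subgroup.Normal.map inferInstance π hπ
    exact h4.le_of_normal le_rfl (eB_mem_ZA _) (isPrim_eB hM h3).idem
      (((isPGroup_subgroupOf_iff hR).2 hR1).map π) le_top (top_le_norm _)

end Cfsg.Agent.S4694
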