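import Cfsg.Statements.S4696
import Cfsg.Agent.H21.Dade5

set_option autoImplicit false
open Cfsg

namespace Cfsg.Agent.S4696

open H5 H7 H8 H28 H21 Finset
open scoped ComplexConjugate

/-- Let p be a prime, M a maximal ideal of the algebraic integers containing p, and B a p-block of the finite group G whose defect group D is cyclic of order p^a with a ≥ 1. Let C = C_G(D), let b be a block of C inducing B, let T be the stabilizer of b in N_G(D) (the elements g of N_G(D) such that the g-conjugate of every member of b is again in b), and let e be the index of C in T (the inertial index of B). Then e divides p − 1, every irreducible character in B has height zero, and B is the disjoint union of a set X of e characters and a set Y of (p^a − 1)/e characters, the members of Y agreeing on p-regular elements, for which there are signs δ_χ = ±1 (χ ∈ X) and δ₀ = ±1 such that: for every ψ ∈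 Y and every p-regular g, δ₀ ψ(g) + Σ_{χ ∈ X} δ_χ χ(g) = 0; for all χ, χ' ∈ X the integers δ_χ χ(1) and δ_χ' χ'(1) are congruent modulo p^a; and for ψ ∈ Y and χ ∈ X, ψ(1) ≡ −e δ₀ δ_χ χ(1) modulo p^a. -/
theorem result {G : Type*} [Group G] [Finite G] (p : ℕ) [Fact p.Prime] (M : Ideal Cfsg.AlgInt) (hM : Cfsg.IsPModular p M) (D : Subgroup G) (hD : IsCyclic D) (a : ℕ) (ha : 1 ≤ a) (hDa : Nat.card D = p ^ a) (B : Set (Cfsg.IrrCharacter G)) (hB : Cfsg.IsPBlock M B) (hBD : Cfsg.IsDefectGroup p M B D) (b : Set (Cfsg.IrrCharacter (Subgroup.centralizer (D : Set G)))) (hind : Cfsg.IsInducedBlock M (Subgroup.centralizer (D : Set G)) b B) (T : Subgroup G) (hT : ∀ g : G, g ∈ T ↔ (g ∈ Subgroup.normalizer (D : Set G) ∧ ∀ θ ∈ b, ∀ θ' : Cfsg.IrrCharacter (Subgroup.centralizer (D : Set G)), (∀ h h' : Subgroup.centralizer (D : Set G), (h' : G) = g * h * g⁻¹ → (θ' : Subgroup.centralizer (D : Set G) →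 ℂ) h' = (θ : Subgroup.centralizer (D : Set G) → ℂ) h) → θ' ∈ b)) (e : ℕ) (he : (Subgroup.centralizer (D : Set G)).relIndex T = e) : e ∣ p - 1 ∧ (∀ χ ∈ B, Cfsg.blockHeight p B (χ : G → ℂ) = 0) ∧ ∃ X Y : Set (Cfsg.IrrCharacter G), B = X ∪ Y ∧ Disjoint X Y ∧ Nat.card X = e ∧ Nat.card Y = (p ^ a - 1) / e ∧ (∀ ψ ∈ Y, ∀ ψ' ∈ Y, ∀ g : G, ¬ p ∣ orderOf g → (ψ : G → ℂ) g = (ψ' : G → ℂ) g) ∧ ∃ (δ : Cfsg.IrrCharacter G → ℤ) (δ₀ : ℤ), (∀ χ ∈ X, δ χ = 1 ∨ δ χ = -1) ∧ (δ₀ = 1 ∨ δ₀ = -1) ∧ (∀ ψ ∈ Y, ∀ g : G, ¬ p ∣ orderOf g → (δ₀ : ℂ) * (ψ : G → ℂ) g + ∑ᶠ χ ∈ X, (δ χ : ℂ) * (χ : G → ℂ) g = 0) ∧ (∀ χ ∈ X, ∀ χ' ∈ X, δ χ * (Cfsg.charDegree (χ : G → ℂ) : ℤ) ≡ δ χ' * (Cfsg.charDegree (χ' : G → ℂ) : ℤ) [ZMOD (p : ℤ) ^ a]) ∧ (∀ ψ ∈ Y, ∀ χ ∈ X, (Cfsg.charDegree (ψ : G → ℂ) : ℤ) ≡ -((e : ℤ) * δ₀ * δ χ * (Cfsg.charDegree (χ : G → ℂ) : ℤ)) [ZMOD (p : ℤ) ^ a]) := by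
  classical
  have := charP_kk hM
  have := Fintype.ofFinite G
  have hP : D ≠ ⊥ := by
    rintro rfl
    exact (Nat.one_lt_pow (by omega) hM.1.one_lt).ne (Subgroup.card_bot.symm.trans hDa)
  have m := maxP_of_induced_cent hM hBD hind
  rw [eq_nstab' hM hind.1 hT] at he
  obtain ⟨X, Y, c, δ, h, h1, h2⟩ := cyc_star hM hB m hD hP
  have h3 := he ▸ cyc_relIndex_dvd hM hB m hD hP
  rw [h1, he, hDa] at h2
  have h4 : 0 < e := Nat.pos_of_dvd_of_pos h3 (Nat.sub_pos_of_lt hM.1.one_lt)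
  have h5 : ∀ χ ∈ X, ∀ η ∈ Y, (p : ℤ) ^ a ∣ c χ * charDegree χ.1 + δ * (#Y * charDegree η.1) :=
    fun χ hχ η hη => (pow_dvd_pow _ ((hM.1.pow_dvd_iff_le_factorization Nat.card_pos.ne').1
      (hDa ▸ D.card_subgroup_dvd_card))).trans (h.dvd hM hχ hη)
  obtain ⟨η, hη⟩ := h.ne
  refine ⟨h3, fun χ hχ => h.height hM (fun h6 => hM.1.ne_one (Nat.dvd_one.1 ((Nat.dvd_add_right
      (h6.mul_right e)).1 (h2 ▸ dvd_pow_self p (by omega))))) ((blockDefect_eq_zero_iff hM hB hBD).not.2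
      hP) hχ, X, Y, h.coe_eq, disjoint_coe.2 h.disj, by simpa using h1.trans he, ?_,
    fun ψ hψ ψ' hψ' g hg => h.eq_reg hψ hψ' hg, c, -δ, h.pm,
    by rcases h.sign with h | h <;> simp [h], fun ψ hψ g hg => ?_, fun χ hχ χ' hχ' => ?_,
    fun ψ hψ χ hχ => ?_⟩
  · simp [← h2, h4]
  · have h6 := congrFun (h.rel ψ hψ) g
    simp only [Pi.smul_apply, Finset.sum_apply, H8.rp_of_reg _ hg, smul_eq_mul] at h6
    rw [finsum_mem_coe_finset, ← h6]; push_cast; ring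
  · exact Int.modEq_iff_dvd.2 (((h5 χ' hχ' η hη).sub (h5 χ hχ η hη)).trans (dvd_of_eq (by ring)))
  · have h6 : (p : ℤ) ^ a = #Y * e + 1 := by exact_mod_cast h2.symm
    refine Int.modEq_iff_dvd.2 ?_
    refine (((h5 χ hχ ψ hψ).mul_left (e * δ)).sub (dvd_mul_right _ (charDegree ψ.1 : ℤ))).trans
      (dvd_of_eq ?_)
    rw [h6]
    rcases h.sign with h | h <;> rw [h] <;> ring

end Cfsg.Agent.S4696
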