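import Cfsg.Statements.S4702
import Cfsg.Agent.H5.Zs4
import Cfsg.Agent.H19.Ab2b

set_option autoImplicit false
open Cfsg

namespace Cfsg.Agent.S4702

/-- Let G be a triply transitive permutation group on a finite set of odd size m ≥ 3 in which only the identity fixes three or more points. Then m = 2^a + 1 for some a ≥ 1 and G is isomorphic to SL(2, 2^a). -/
theorem result {α : Type*} [Fintype α] [DecidableEq α] (hm : 3 ≤ Fintype.card α) (hodd : Odd (Fintype.card α)) (G : Subgroup (Equiv.Perm α)) (h3 : MulAction.IsMultiplyPretransitive G α 3) (hfix : ∀ g : G, 3 ≤ Nat.card (MulAction.fixedBy α g) → g = 1) : ∃ a : ℕ, 1 ≤ a ∧ Fintype.card α = 2 ^ a + 1 ∧ ∃ (F : Type) (_ : Field F) (_ : Fintype F), Fintype.card F = 2 ^ a ∧ Nonempty (G ≃* Matrix.SpecialLinearGroup (Fin 2) F) := by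
  have hc : 3 ≤ Nat.card α := by rwa [Nat.card_eq_fintype_card]
  have hZ := H5.zs_of_sharp (G := G) h3 (fun x => eq_bot_iff.2 fun g hg => hfix g (by
    simpa using Nat.card_le_card_of_injective (β := MulAction.fixedBy α g)
      (fun i => ⟨x i, congrArg (fun y : Fin 3 ↪ α => y i) hg⟩)
      fun i j e => x.injective (congrArg Subtype.val e))) hc
  obtain ⟨a, b, h⟩ := Fintype.exists_pair_of_one_lt_card (α := α) (by omega)
  have h1 := hZ.card_F h
  rw [Nat.card_eq_fintype_card] at h1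
  obtain ⟨K, _, _, _, h2, -, ⟨e⟩⟩ := hZ.pgl_psl_of_even_F h
    (by simpa [h1, Nat.odd_add_one] using hodd) (hZ.card_D_of_mt3 h3 hc h)
  obtain ⟨n, -, hn⟩ := FiniteField.card K 2
  exact ⟨n, n.2, by rw [h1, ← h2, hn], K, _, _, hn, (H19.psl2_sl2 K).map e.trans⟩

end Cfsg.Agent.S4702
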