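import Cfsg.Statements.S4704
import Cfsg.Agent.H21.DL12

set_option autoImplicit false
open Cfsg

namespace Cfsg.Agent.S4704

/-- Let G be a finite group with centre Z, p > 7 a prime, and suppose a Sylow p-subgroup of G has order p and is not normal. Let ζ be a faithful irreducible character of G and t the number of conjugacy classes of G consisting of elements of order p. Then one of the following holds: G/Z is isomorphic to PSL(2, p), ζ has degree (p + 1)/2 or (p − 1)/2 and t = 2; or ζ has degree at least p − 1; or ζ has degree at least p + 3/2 − √(p + 5/4) and p ≤ t^2 − 3t + 1. -/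
theorem result {G : Type*} [Group G] [Finite G] (p : ℕ) [Fact p.Prime] (hp : 7 < p) (P : Sylow p G) (hP : Nat.card P = p) (hnn : ¬ (P : Subgroup G).Normal) (ζ : G → ℂ) (hζ : Cfsg.IsIrrCharacter G ζ) (hfaith : ∀ g : G, ζ g = ζ 1 → g = 1) (t : ℕ) (ht : Nat.card {c : ConjClasses G // ∃ g : G, ConjClasses.mk g = c ∧ orderOf g = p} = t) : ((∃ (F : Type) (_ : Field F) (_ : Fintype F), Fintype.card F = p ∧ Nonempty (G ⧸ Subgroup.center G ≃* Matrix.ProjectiveSpecialLinearGroup (Fin 2) F)) ∧ (2 * Cfsg.charDegree ζ = p + 1 ∨ 2 * Cfsg.charDegree ζ = p - 1) ∧ t = 2) ∨ p - 1 ≤ Cfsg.charDegree ζ ∨ ((p : ℝ) + 3 / 2 - Real.sqrt ((p : ℝ) + 5 / 4) ≤ (Cfsg.charDegree ζ : ℝ) ∧ (p : ℤ) ≤ (t : ℤ) ^ 2 - 3 * t + 1) := by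
  obtain ⟨x, hx, hi, e⟩ := H21.exists_gen_of_card P hP
  have h8 : p ≠ 8 := by rintro rfl; exact absurd (Fact.out : Nat.Prime 8) (by decide)
  have h9 : p ≠ 9 := by rintro rfl; exact absurd (Fact.out : Nat.Prime 9) (by decide)
  have h10 : p ≠ 10 := by rintro rfl; exact absurd (Fact.out : Nat.Prime 10) (by decide)
  have h1 := ht ▸ H21.DL.classes_mul hx hi
  exact (H21.DL.thmB hx hi (e ▸ hnn) (by omega) hζ hfaith h1).imp_right (Or.imp_right fun h =>
    H21.DL.real_bound h.1 h.2 (by omega) (H21.aq_pos x))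

end Cfsg.Agent.S4704
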