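import Cfsg.Statements.S4708
import Cfsg.Agent.H21.BT
import Cfsg.Agent.H7.Dade

set_option autoImplicit false
open Cfsg

namespace Cfsg.Agent.S4708

open H5 H7 H8 H28 H21 Finset
open scoped ComplexConjugate

/-- Let p be a prime, M a maximal ideal of the algebraic integers containing p, G a finite group and H a normal subgroup. Write λ(X) for the sum of the squares of the degrees of the irreducible characters in the principal p-block of a group X. Then λ(H) ≤ λ(G) ≤ [G : H]·λ(H). -/
theorem result {G : Type*} [Group G] [Finite G] (p : ℕ) [Fact p.Prime] (M : Ideal Cfsg.AlgInt) (hM : Cfsg.IsPModular p M) (H : Subgroup G) [H.Normal] : (∑ᶠ θ ∈ Cfsg.principalBlock M H, Cfsg.charDegree (θ : H → ℂ) ^ 2) ≤ (∑ᶠ χ ∈ Cfsg.principalBlock M G, Cfsg.charDegree (χ : G → ℂ) ^ 2) ∧ (∑ᶠ χ ∈ Cfsg.principalBlock M G, Cfsg.charDegree (χ : G → ℂ) ^ 2) ≤ H.index * ∑ᶠ θ ∈ Cfsg.principalBlock M H, Cfsg.charDegree (θ : H → ℂ) ^ 2 := by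
  classical
  have := Fintype.ofFinite G
  have := Fintype.ofFinite H
  choose m hm using fun (χ : IrrCharacter G) (θ : IrrCharacter H) =>
    (χ.2.isCharacter.restrict H).exists_classInner_nat θ.2.isCharacter
  have h1 : ∀ χ : IrrCharacter G, χ ∈ principalBlock M G →
      charDegree χ.1 = ∑ θ with θ ∈ principalBlock M H, m χ θ * charDegree θ.1 := fun χ hχ => by
    have := (χ.2.isClassFunction.restrict H).apply_eq_sum_irr 1
    simp only [hm, OneMemClass.coe_one, irr_apply_one] at this
    rw [sum_filter_of_ne fun θ _ h => mem_principal_of_over hM hχ (by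
      rw [hm]; exact_mod_cast left_ne_zero_of_mul h)]
    exact_mod_cast this
  have h2 : ∀ θ : IrrCharacter H, ∑ χ, m χ θ * charDegree χ.1 = H.index * charDegree θ.1 := by
    intro θ
    have := (isClassFunction_indFun H θ.1).apply_eq_sum_irr 1
    simp only [indFun_apply_one, fun χ : IrrCharacter G => classInner_indFun_left H θ.1
      χ.2.isClassFunction, ← conj_classInner _ θ.1, hm, irr_apply_one, map_natCast] at this
    exact_mod_cast this.symm
  rw [finsum_mem_irr, finsum_mem_irr]
  constructor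
  · calc _ ≤ ∑ θ with θ ∈ principalBlock M H, ∑ χ with χ ∈ principalBlock M G,
          (m χ θ * charDegree θ.1) ^ 2 := sum_le_sum fun θ hθ => ?_
      _ ≤ _ := sum_comm.trans_le (sum_le_sum fun χ hχ => by
        rw [h1 χ (mem_filter.1 hχ).2]; exact sum_sq_le_sq_sum_of_nonneg fun _ _ => zero_le)
    obtain ⟨χ, h3, h4⟩ := exists_above_of_cover hM isPBlock_principalBlock isPBlock_principalBlock
      (principal_cover hM H) (mem_filter.1 hθ).2
    refine le_trans ?_ (single_le_sum (fun _ _ => zero_le) (mem_filter.2 ⟨mem_univ χ, h3⟩))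
    exact Nat.pow_le_pow_left (Nat.le_mul_of_pos_left _ (Nat.pos_of_ne_zero fun h => h4 (by
      rw [hm, h, Nat.cast_zero]))) 2
  · rw [sum_congr rfl fun χ hχ => (sq _).trans ((congrArg (· * charDegree χ.1)
      (h1 χ (mem_filter.1 hχ).2)).trans (sum_mul _ _ _)), sum_comm, mul_sum]
    refine sum_le_sum fun θ _ => ?_
    rw [sq, ← mul_assoc, ← h2, sum_mul]
    exact (sum_le_sum fun _ _ => (mul_right_comm _ _ _).le).trans
      (sum_le_sum_of_subset (filter_subset _ _))

end Cfsg.Agent.S4708
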