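import Cfsg.Statements.S4709
import Cfsg.Agent.H21.AbFrob

set_option autoImplicit false
open Cfsg

namespace Cfsg.Agent.S4709

/-- Let p be a prime, M a maximal ideal of the algebraic integers containing p, and G a finite group with a nontrivial abelian Sylow p-subgroup P; put N = N_G(P), C = C_G(P). Suppose N/C is cyclic of order m with 1 < m < #P − 1 (C has index m in N and N is generated by C and one element), and C_G(y) ∩ N = C for every non-identity y ∈ P. Put r = (#P − 1)/m. Then there is s ≤ m such that the principal p-block is the disjoint union of a set X of s characters containing the principal character and a set Y of r characters, with integers a_χ ≠ 0 (χ ∈ X), d and a sign δ = ±1, such that: every χ ∈ X takes the value a_χ at every element whose p-part is a non-identity element of P; there is a map ζ from the non-principal linear characters ψ of P onto Y,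 constant on N-conjugacy classes, with ζ_ψ(z) = d + δ·Σ ψ'(y) for every z whose p-part y is a non-identity element of P, the sum running over the N-conjugates ψ' of ψ; (d − δ)^2 + (r − 1) d^2 + Σ_{χ ∈ X} a_χ^2 = m + 1; all members of Y agree on p-regular elements; and (r d − δ) η(g) + Σ_{χ ∈ X} a_χ χ(g) = 0 for every η ∈ Y and every p-regular g. -/
theorem result {G : Type*} [Group G] [Finite G] (p : ℕ) [Fact p.Prime] (M : Ideal Cfsg.AlgInt) (hM : Cfsg.IsPModular p M) (P : Sylow p G) (hab : IsMulCommutative P) (hP1 : Nat.card P ≠ 1) (m : ℕ) (hm1 : 1 < m) (hm2 : m + 1 < Nat.card P) (hCN : (Subgroup.centralizer ((P : Subgroup G) : Set G)).relIndex (Subgroup.normalizer ((P : Subgroup G) : Set G)) = m) (hcyc : ∃ g : G, g ∈ Subgroup.normalizer ((P : Subgroup G) : Set G) ∧ Subgroup.centralizer ((P : Subgroup G) : Set G) ⊔ Subgroup.zpowers g = Subgroup.normalizer ((P : Subgroup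 G) : Set G)) (hfrob : ∀ y : G, y ∈ (P : Subgroup G) → y ≠ 1 → Subgroup.centralizer ({y} : Set G) ⊓ Subgroup.normalizer ((P : Subgroup G) : Set G) = Subgroup.centralizer ((P : Subgroup G) : Set G)) : ∃ (s : ℕ) (X Y : Set (Cfsg.IrrCharacter G)), s ≤ m ∧ Cfsg.principalBlock M G = X ∪ Y ∧ Disjoint X Y ∧ Nat.card X = s ∧ Nat.card Y = (Nat.card P - 1) / m ∧ (∃ χ₁ ∈ X, (χ₁ : G → ℂ) = fun _ => 1) ∧ ∃ (a : Cfsg.IrrCharacter G → ℤ) (d δ : ℤ) (ζ : (↥(P : Subgroup G) →* ℂˣ) → Cfsg.IrrCharacter G), (δ = 1 ∨ δ = -1) ∧ (∀ χ ∈ X, a χ ≠ 0 ∧ ∀ z y : G, Cfsg.IsPPart p z y → y ∈ (P : Subgroup G) → y ≠ 1 → (χ : G → ℂ) z = (a χ : ℂ)) ∧ (∀ ψ : ↥(P : Subgroup G) →* ℂˣ, ψ ≠ 1 → ζ ψ ∈ Y) ∧ (∀ η ∈ Y, ∃ ψ : ↥(P : Subgroup G) →* ℂˣ, ψ ≠ 1 ∧ ζ ψ = η) ∧ (∀ ψ ψ' : ↥(P : Subgroup G) →* ℂˣ, ψ ≠ 1 → (∃ n : G, n ∈ Subgroup.normalizer ((P : Subgroup G) : Set G) ∧ ∀ w w' : ↥(P : Subgroup G), (w' : G) = n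 * w * n⁻¹ → ψ' w' = ψ w) → ζ ψ' = ζ ψ) ∧ (∀ ψ : ↥(P : Subgroup G) →* ℂˣ, ψ ≠ 1 → ∀ (z : G) (y : ↥(P : Subgroup G)), Cfsg.IsPPart p z (y : G) → (y : G) ≠ 1 → (ζ ψ : G → ℂ) z = (d : ℂ) + (δ : ℂ) * ∑ᶠ ψ' ∈ {ψ' : ↥(P : Subgroup G) →* ℂˣ | ∃ n : G, n ∈ Subgroup.normalizer ((P : Subgroup G) : Set G) ∧ ∀ w w' : ↥(P : Subgroup G), (w' : G) = n * w * n⁻¹ → ψ' w' = ψ w}, ((ψ' y : ℂˣ) : ℂ)) ∧ ((d - δ) ^ 2 + ((Nat.card P - 1) / m - 1 : ℤ) * d ^ 2 + ∑ᶠ χ ∈ X, a χ ^ 2 = (m : ℤ) + 1) ∧ (∀ η ∈ Y, ∀ η' ∈ Y, ∀ g : G, ¬ p ∣ orderOf g → (η : G → ℂ) g = (η' : G → ℂ) g) ∧ (∀ η ∈ Y, ∀ g : G, ¬ p ∣ orderOf g → ((((Nat.card P - 1) / m : ℕ) : ℂ) * d - δ) * (η : G → ℂ) g + ∑ᶠ χ ∈ X, (a χ : ℂ) * (χ : G → ℂ) g = 0) := by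
  classical
  rw [← H21.card_range_normalizerMonoidHom] at hCN
  subst hCN
  obtain ⟨δ, d, ζ, a, Y, h, hn⟩ := H21.AF.exists_data ⟨hab, hfrob⟩ hM hm2
  have h1 := h.card_X_le
  have h2 := h.two_le_card_Y
  have h3 : 1 ≤ (d - δ) ^ 2 + (Y.card - 1) * d ^ 2 := by
    have h4 : (2 : ℤ) ≤ Y.card := by exact_mod_cast h2
    by_cases hd : d = 0
    · rcases h.sign with h | h <;> simp [h, hd]
    · have := sq_pos_of_ne_zero hd
      nlinarith [sq_nonneg (d - δ)]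
  have h5 : ∀ ψ : (P : Subgroup G) →* ℂˣ, {ψ' : ↥(P : Subgroup G) →* ℂˣ | ∃ n : G,
      n ∈ Subgroup.normalizer ((P : Subgroup G) : Set G) ∧ ∀ w w' : ↥(P : Subgroup G),
      (w' : G) = n * w * n⁻¹ → ψ' w' = ψ w} =
      {ψ' | H21.CRel (P : Subgroup G).normalizerMonoidHom.range ψ ψ'} := fun ψ => by
    simp only [H21.crel_range_iff]
  refine ⟨_, principalBlock M G \ Y, Y, by omega, h.B_eq, Set.disjoint_sdiff_left, rfl, ?_,
    ⟨H5.irrOne G, ⟨H7.irrOne_mem_principalBlock hM, h.one_notMem⟩, rfl⟩, a, d, δ, ζ, h.sign,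
    fun χ hχ => ⟨(h.a_ne_zero_iff hχ.2).2 hχ.1, fun z y hz hy h1 =>
      h.nonexc_apply hχ.1 hχ.2 hz hy h1⟩, fun ψ hψ => h.toExcData.mem_Y hψ,
    fun η hη => (h.mem η).1 hη, fun ψ ψ' hψ h6 => ?_, fun ψ hψ z y hz h1 => ?_, ?_,
    fun η hη η' hη' g hg => (h.rel_reg hg hη').1 η hη, fun η hη g hg => ?_⟩
  · rw [← h.card_Y, Nat.card_coe_set_eq, Set.ncard_coe_finset]
  · have h7 := H21.crel_range_iff.2 h6
    exact ((h.inj _ _ hψ (h7.ne_one hψ)).2 h7).symm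
  · rw [h5, h.exc_apply hψ hz (by simpa using h1)]
    rfl
  · rw [← h.sum_X _ fun χ hχ => by simp [hχ], ← hn, h.card_Y]
    push_cast [Nat.cast_sub (show 1 ≤ Nat.card P by omega)]
    rfl
  · rw [← h.card_Y, ← h.sum_X _ fun χ hχ => by simp [hχ]]
    exact (h.rel_reg hg hη).2

end Cfsg.Agent.S4709
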