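import Cfsg.Statements.S4711
import Cfsg.Agent.H7.Quot
import Cfsg.Agent.H7.Twist
import Cfsg.Agent.H5.FrobChar
import Cfsg.Agent.H1.PSolv
import Cfsg.Agent.H1.PConstr
import Cfsg.Agent.S0938

set_option autoImplicit false
open Cfsg

open H5 H28 H8 H7

namespace Cfsg.Agent.S4711

open scoped ComplexConjugate

theorem sum_eq_zero {G : Type*} [Group G] [Finite G] {N P : Subgroup G} [Fintype P] (hPN : P ≤ N)
    (hn : N ≤ Subgroup.normalizer (P : Set G)) {χ : G → ℂ} (hχ : IsCharacter G χ)
    (h : IsIrrCharacter N fun n : N => χ n) (hP : ¬ P ≤ charKer χ) : ∑ x : P, χ x = 0 := by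
  classical
  have := Fintype.ofFinite (P.subgroupOf N)
  haveI : (P.subgroupOf N).Normal := (Subgroup.normal_subgroupOf_iff_le_normalizer hPN).2 hn
  by_contra h0
  have h1 := h.le_charKer_of_classInner_one (K := P.subgroupOf N) (by
    rw [classInner]
    refine mul_ne_zero (inv_ne_zero (card_ne_zero_complex _)) ?_
    simp only [map_one, mul_one]
    rwa [← Equiv.sum_comp (Subgroup.subgroupOfEquivOfLe hPN).toEquiv] at h0)
  refine hP fun x hx => hχ.mem_charKer_iff.2 ?_
  have h2 := apply_eq_of_mem_charKer (h1 (x := ⟨x, hPN hx⟩) hx)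
  exact h2

/-- Let p be a prime, M a maximal ideal of the algebraic integers containing p, G a finite group, P a Sylow p-subgroup and N = N_G(P). Then G has p-length 1 (G = O_{p',p,p'}(G)) if and only if every irreducible character in the principal p-block of G restricts to an irreducible character of N. -/
theorem result {G : Type*} [Group G] [Finite G] (p : ℕ) [Fact p.Prime] (M : Ideal Cfsg.AlgInt) (hM : Cfsg.IsPModular p M) (P : Sylow p G) : Cfsg.PLengthLE p 1 G ↔ ∀ χ ∈ Cfsg.principalBlock M G, Cfsg.IsIrrCharacter ↥(Subgroup.normalizer ((P : Subgroup G) : Set G)) (fun n : ↥(Subgroup.normalizer ((P : Subgroup G) : Set G)) => (χ : G → ℂ) n) := by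
  classical
  have := Fintype.ofFinite G
  constructor
  · intro h χ hχ
    rw [H1.pLengthLE_one_iff_normalizer_sup P] at h
    obtain ⟨χ', h1, h2⟩ := χ.2.exists_quotient (pPrimeCore p G) (pPrimeCore_le_charKer hM hχ)
    have hs : Function.Surjective ((QuotientGroup.mk' (pPrimeCore p G)).comp
        (Subgroup.normalizer ((P : Subgroup G) : Set G)).subtype) := by
      intro q
      obtain ⟨g, rfl⟩ := QuotientGroup.mk_surjective q
      have hg : g ∈ (Subgroup.normalizer ((P : Subgroup G) : Set G) ⊔ pPrimeCore p G :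
        Subgroup G) := h ▸ Subgroup.mem_top g
      obtain ⟨a, ha, b, hb, rfl⟩ := Subgroup.mem_sup_of_normal_right.1 hg
      exact ⟨⟨a, ha⟩, (QuotientGroup.mk_mul_of_mem a hb).symm⟩
    have h3 := h1.comp_surjective _ hs
    simpa [h2] using h3
  · intro h
    have hB := isPBlock_principalBlock (M := M) (G := G)
    set B := principalBlock M G with hBdef
    set W := Subgroup.normalClosure ((P : Subgroup G) : Set G) with hW
    -- the key identity
    have key : ∀ s : G, ¬ p ∣ orderOf s → ∑ χ : IrrCharacter G with χ ∈ B, χ.1 s * conj (χ.1 1) =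
        ∑ χ : IrrCharacter G with χ ∈ B, χ.1 s * conj (∑ x : (P : Subgroup G), χ.1 x) := by
      intro s hs
      simp only [map_sum, Finset.mul_sum]
      rw [Finset.sum_comm, Finset.sum_eq_single (1 : (P : Subgroup G))]
      · rfl
      · intro x _ hx
        refine weak_block_orth hM hB hs ?_
        rw [Subgroup.orderOf_coe]
        obtain ⟨k, hk⟩ := IsPGroup.iff_orderOf.1 P.isPGroup' x
        rw [hk]
        refine dvd_pow_self p ?_
        rintro rfl
        exact hx (orderOf_eq_one_iff.1 hk)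
      · simp
    have key2 : ∀ s ∈ W, ¬ p ∣ orderOf s → ∀ χ ∈ B, χ.1 s = χ.1 1 := by
      intro s hsW hs
      have h1 : ∑ χ : IrrCharacter G with χ ∈ B, χ.1 s * conj (χ.1 1) =
          ∑ χ : IrrCharacter G with χ ∈ B, χ.1 1 * conj (χ.1 1) := by
        rw [key s hs, key 1 (by simp [hM.1.ne_one])]
        refine Finset.sum_congr rfl fun χ hχ => ?_
        by_cases hP : (P : Subgroup G) ≤ charKer χ.1
        · haveI := χ.2.charKer_normal
          rw [apply_eq_of_mem_charKer (Subgroup.normalClosure_le_normal hP hsW)]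
        · rw [sum_eq_zero Subgroup.le_normalizer le_rfl χ.2.isCharacter
            (h χ (Finset.mem_filter.1 hχ).2) hP]
          simp
      have h2 : ∀ χ : IrrCharacter G, (χ.1 s * conj (χ.1 1)).re ≤ (χ.1 1 * conj (χ.1 1)).re ∧
          ((χ.1 s * conj (χ.1 1)).re = (χ.1 1 * conj (χ.1 1)).re → χ.1 s = χ.1 1) := by
        intro χ
        obtain ⟨n, hn, hn'⟩ := χ.2.exists_apply_one
        have h3 := χ.2.isCharacter.re_apply_le s
        have h4 := χ.2.isCharacter.mem_charKer_iff_re (g := s)
        rw [χ.2.mem_charKer_iff] at h4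
        have hn0 : (0 : ℝ) < n := by exact_mod_cast hn
        rw [h4]
        simp only [hn', map_natCast, Complex.mul_re, Complex.natCast_re, Complex.natCast_im,
          mul_zero, sub_zero] at h3 ⊢
        exact ⟨by nlinarith, fun h5 => by nlinarith⟩
      intro χ hχ
      have h3 := congrArg Complex.re h1
      simp only [Complex.re_sum] at h3
      exact (h2 χ).2 ((Finset.sum_eq_sum_iff_of_le fun χ _ => (h2 χ).1).1 h3 χ (by simpa using hχ))
    obtain ⟨K, hKn, hK, hKp, -, -⟩ := S0938.result p M hM B hB _ (isPBlock_nonempty hM hB).some_mem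
    have hKO : K ≤ pPrimeCore p G :=
      H1.le_pPrimeCore hKn ((Nat.Prime.coprime_iff_not_dvd hM.1).2 hKp).symm
    rw [H1.pLengthLE_one_iff_sylow_le P]
    refine le_trans Subgroup.subset_normalClosure (H1.le_pPrimePCore_iff.2 ?_)
    rintro ⟨_, w, hw, rfl⟩
    obtain ⟨x, hx⟩ := exists_isPPart (p := p) w
    have h1 : x⁻¹ * w ∈ K := by
      change x⁻¹ * w ∈ (K : Set G)
      rw [hK]
      exact key2 _ (W.mul_mem (W.inv_mem (isPPart_mem hx hw)) hw) (isPPart_not_dvd hx)
    obtain ⟨k, hk⟩ := isPElt_iff.1 (isPPart_isPElt hx)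
    refine ⟨k, Subtype.ext ?_⟩
    have h2 : (w : G ⧸ pPrimeCore p G) = x := (QuotientGroup.eq.2 (hKO h1)).symm
    simp only [SubgroupClass.coe_pow, QuotientGroup.mk'_apply, OneMemClass.coe_one, h2]
    rw [← QuotientGroup.mk_pow, hk, QuotientGroup.mk_one]

end Cfsg.Agent.S4711
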