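import Cfsg.Statements.S4714
import Cfsg.Agent.H8.Ht

set_option autoImplicit false
open Cfsg

namespace Cfsg.Agent.S4714

open H8 H28 H5 MonoidAlgebra
open H7 (eB fB VG redG ev fB_mem_VG isPBlock_principalBlock isPBlock_nonempty)

/-- Let p be a prime, M a maximal ideal of the algebraic integers containing p, D a p-subgroup of the finite group G with G = D·C_G(D), and B a p-block with defect group D. Let χ be a member of B having D in its kernel (there is exactly one, the canonical character of B). Then the irreducible characters in B are exactly the functions θ on G for which there is an irreducible character ζ of D such that θ(yx) = ζ(y)χ(x) whenever y ∈ D, x has order prime to p and x commutes with y, and θ(z) = 0 whenever the p-part of z does not lie in D. -/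
theorem result {G : Type*} [Group G] [Finite G] (p : ℕ) [Fact p.Prime] (M : Ideal Cfsg.AlgInt) (hM : Cfsg.IsPModular p M) (D : Subgroup G) (hD : IsPGroup p D) (hG : D ⊔ Subgroup.centralizer (D : Set G) = ⊤) (B : Set (Cfsg.IrrCharacter G)) (hB : Cfsg.IsPBlock M B) (hBD : Cfsg.IsDefectGroup p M B D) (χ : Cfsg.IrrCharacter G) (hχ : χ ∈ B) (hχD : ∀ y ∈ D, (χ : G → ℂ) y = (χ : G → ℂ) 1) : (∀ θ : Cfsg.IrrCharacter G, θ ∈ B ↔ ∃ ζ : Cfsg.IrrCharacter D, (∀ (y : D) (x : G), ¬ p ∣ orderOf x → Commute (y : G) x → (θ : G → ℂ) ((y : G) * x) = (ζ : D → ℂ) y * (χ : G → ℂ) x) ∧ (∀ z : G, (∀ y : G, Cfsg.IsPPart p z y → y ∉ D) → (θ : G → ℂ) z = 0)) ∧ ∀ ζ : Cfsg.IrrCharacter D, ∃ θ ∈ B, (∀ (y : D) (x : G), ¬ p ∣ orderOf x → Commute (y : G) x → (θ : G → ℂ) ((y : G) * x) = (ζ : D → ℂ) y * (χ : G → ℂ) x) ∧ (∀ z : G, (∀ y : G, Cfsg.IsPPart p z y → y ∉ D) → (θ : G → ℂ) z = 0) := by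
  have := Fintype.ofFinite D
  haveI := normal_of_sup_cent hG
  have key : ∀ θ ∈ B, ∀ ζ : IrrCharacter D, classInner (fun u : D => θ.1 u) ζ.1 ≠ 0 →
      (∀ (y : D) (x : G), ¬ p ∣ orderOf x → Commute (y : G) x → θ.1 (y * x) = ζ.1 y * χ.1 x) ∧
      (∀ z, (∀ y, IsPPart p z y → y ∉ D) → θ.1 z = 0) := fun θ hθ ζ h =>
    ⟨fun y x hx _ => pc_apply hM hG hB hBD hχ hχD hθ h y hx,
      fun z hz => apply_eq_zero_of_normal_defect hM hB hBD hθ fun ⟨x, h1, h2⟩ => hz x h2 h1⟩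
  have ex := fun ζ => (exists_over_of_normal_pgroup hM hD hB ζ).imp fun θ h =>
    And.intro h.1 (key θ h.1 ζ h.2)
  refine ⟨fun θ => ⟨fun h => ?_, fun ⟨ζ, h1, h2⟩ => ?_⟩, ex⟩
  · obtain ⟨ζ, h1⟩ := exists_irr_below D θ
    exact ⟨ζ, key θ h ζ h1⟩
  · obtain ⟨θ', h3, h4, h5⟩ := ex ζ
    have : θ = θ' := Subtype.ext (eq_of_apply_ppart (p := p) (P := D)
      (fun u s hs hc => by rw [h1 u s hs hc, h4 u s hs hc]) fun g hg => by
        rw [h2 g fun y hy hy' => hg ⟨y, hy', hy⟩, h5 g fun y hy hy' => hg ⟨y, hy', hy⟩])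
    exact this ▸ h3

end Cfsg.Agent.S4714
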