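import Cfsg.Statements.S4715
import Cfsg.Agent.H7.Green

set_option autoImplicit false
open Cfsg

open H5 H28 H8 H7

namespace Cfsg.Agent.S4715

/-- Let p be a prime, M a maximal ideal of the algebraic integers containing p, B a p-block of the finite group G with defect group D of order p^d, H = D·C_G(D), b a block of H inducing B, T the stabilizer of b in N_G(D) and e = [T : H] the inertial index of B; let n be the integer with p^n ≤ e < p^(n+1) and p^c the order of the centre of D. Then every irreducible character in B has height h with h + c ≤ n + d. -/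
theorem result {G : Type*} [Group G] [Finite G] (p : ℕ) [Fact p.Prime] (M : Ideal Cfsg.AlgInt) (hM : Cfsg.IsPModular p M) (B : Set (Cfsg.IrrCharacter G)) (hB : Cfsg.IsPBlock M B) (D : Subgroup G) (hBD : Cfsg.IsDefectGroup p M B D) (d : ℕ) (hDd : Nat.card D = p ^ d) (H : Subgroup G) (hH : H = D ⊔ Subgroup.centralizer (D : Set G)) (b : Set (Cfsg.IrrCharacter H)) (hind : Cfsg.IsInducedBlock M H b B) (T : Subgroup G) (hT : ∀ g : G, g ∈ T ↔ (g ∈ Subgroup.normalizer (D : Set G) ∧ ∀ θ ∈ b, ∀ θ' : Cfsg.IrrCharacter H, (∀ h h' : H, (h' : G) = g * h * g⁻¹ → (θ' : H → ℂ) h' = (θ : H → ℂ) h) → θ' ∈ b)) (e : ℕ) (he : H.relIndex T = e) (n : ℕ) (hn : p ^ n ≤ e ∧ e < p ^ (n + 1)) (c : ℕ) (hc : Nat.card (Subgroup.center D) = p ^ c) : ∀ χ ∈ B, Cfsg.blockHeight p B (χ : G → ℂ) + c ≤ n + d := by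
  haveI := charP_kk hM
  subst hH he
  intro χ hχ
  have m := maxP_of_induced_sup_cent hM hBD hind
  have h1 := card_center_mul_pow_height_le hM hB m hχ
  have h2 : T = ⊤ ⊓ 𝐍 D ⊓ stab (eb M _ b) := by
    ext g
    rw [hT, top_inf_eq, Subgroup.mem_inf]
    refine and_congr_right fun hg => ?_
    rw [stab_variant_iff (norm_le_norm_sup_cent D hg), mem_stab,
      ca_eb_eq_iff (fB_mem_VG hM hind.1) (norm_le_norm_sup_cent D hg)]
  rw [← h2, pow_blockDefect_eq hM hB hBD, hDd, ← map_subtype_center, card_map_subtype, hc] at h1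
  have h3 := h1.trans_lt (Nat.mul_lt_mul_of_pos_right hn.2 (pow_pos hM.1.pos d))
  rw [← pow_add, ← pow_add, Nat.pow_lt_pow_iff_right hM.1.one_lt] at h3
  omega

end Cfsg.Agent.S4715
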