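import Cfsg.Statements.S4716
import Cfsg.Agent.H21.KB

set_option autoImplicit false
open Cfsg

namespace Cfsg.Agent.S4716

open H5 H7 H8 H21 Finset
open scoped ComplexConjugate

/-- Let p be a prime, M a maximal ideal of the algebraic integers containing p, and B a p-block of defect d of the finite group G all of whose irreducible characters have height zero. Let y be a p-element, C = C_G(y), and b a block of C inducing B and having the same defect d (a major subsection). Then k(B)^2 ≤ p^(2d)·l(b), where k(B) is the number of irreducible characters in B and l(b) the p-regular rank of b (its number of irreducible Brauer characters); in particular (y = 1) k(B)^2 ≤ p^(2d)·l(B). -/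
theorem result {G : Type*} [Group G] [Finite G] (p : ℕ) [Fact p.Prime] (M : Ideal Cfsg.AlgInt) (hM : Cfsg.IsPModular p M) (B : Set (Cfsg.IrrCharacter G)) (hB : Cfsg.IsPBlock M B) (d : ℕ) (hd : Cfsg.blockDefect p B = d) (hh : ∀ χ ∈ B, Cfsg.blockHeight p B (χ : G → ℂ) = 0) (y : G) (hy : ∃ k : ℕ, orderOf y = p ^ k) (b : Set (Cfsg.IrrCharacter ↥(Subgroup.centralizer ({y} : Set G)))) (hind : Cfsg.IsInducedBlock M (Subgroup.centralizer ({y} : Set G)) b B) (hbd : Cfsg.blockDefect p b = d) : Nat.card B ^ 2 ≤ p ^ (2 * d) * Cfsg.blockRank p b := by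
  classical
  subst hd
  have h := isSec_cent (p := p) hy
  obtain ⟨k, hu⟩ := exists_pow_succ_eq_one h.pelt
  have h1 := sum_le_sum fun χ (hχ : χ ∈ univ.filter (· ∈ B)) =>
    sum_pow_height_le_av hM h hu hind hbd (mem_filter.1 hχ).2 (hh χ (mem_filter.1 hχ).2)
  rw [sum_const, ← mul_sum, sum_av hM h hind, ← card_block_eq, nsmul_eq_mul, hbd] at h1
  have h2 := card_le_sum_pow_height (B := B) hM.1 2
  have h3 := TT_pos hM.1 k
  have h4 : (Nat.card B : ℝ) ^ 2 ≤ p ^ (2 * blockDefect p B) * blockRank p b := by
    refine le_of_mul_le_mul_right (le_trans ?_ (h1.trans (le_of_eq (by ring)))) h3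
    rw [sq, mul_assoc]
    gcongr
  exact_mod_cast h4

end Cfsg.Agent.S4716
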