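import Cfsg.Statements.S4717
import Cfsg.Agent.H8.Ht

set_option autoImplicit false
open Cfsg

namespace Cfsg.Agent.S4717

open H8 H28 H5 MonoidAlgebra
open H7 (eB fB VG redG ev fB_mem_VG isPBlock_principalBlock isPBlock_nonempty)

/-- Let p be a prime, M a maximal ideal of the algebraic integers containing p, and r a natural number; say that a finite group X has deficiency class r when X has no non-principal p-block of defect ≥ r. If G has deficiency class r then so does the centralizer of every p-element of G; conversely, if r > 0 and the centralizer of every element of order p has deficiency class r, then G has deficiency class r. -/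
theorem result {G : Type*} [Group G] [Finite G] (p : ℕ) [Fact p.Prime] (M : Ideal Cfsg.AlgInt) (hM : Cfsg.IsPModular p M) (r : ℕ) : ((∀ B' : Set (Cfsg.IrrCharacter G), Cfsg.IsPBlock M B' → B' ≠ Cfsg.principalBlock M G → Cfsg.blockDefect p B' < r) → ∀ y : G, (∃ k : ℕ, orderOf y = p ^ k) → (∀ B' : Set (Cfsg.IrrCharacter ↥(Subgroup.centralizer ({y} : Set G))), Cfsg.IsPBlock M B' → B' ≠ Cfsg.principalBlock M ↥(Subgroup.centralizer ({y} : Set G)) → Cfsg.blockDefect p B' < r)) ∧ (0 < r → (∀ y : G, orderOf y = p → (∀ B' : Set (Cfsg.IrrCharacter ↥(Subgroup.centralizer ({y} : Set G))), Cfsg.IsPBlock M B' → B' ≠ Cfsg.principalBlock M ↥(Subgroup.centralizer ({y} : Set G)) → Cfsg.blockDefect p B' < r)) → (∀ B' : Set (Cfsg.IrrCharacter G), Cfsg.IsPBlock M B' → B' ≠ Cfsg.principalBlock M G → Cfsg.blockDefect p B' < r)) := by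
  refine ⟨fun h y hy b hb hne => ?_, fun hr h B hB hne => ?_⟩
  · obtain ⟨B, hB⟩ := (isSec_cent (p := p) hy).exists_induced hM hb
    refine (blockDefect_le_of_induced hM hB).trans_lt (h B hB.2.1 fun h1 => hne ?_)
    exact (H7.third_main_centralizer hM hy hb).1 (h1 ▸ hB)
  · obtain ⟨D, hD⟩ := H8.exists_isDefectGroup hM hB
    have hP := H8.isPGroup_of_isDefectGroup hD
    by_cases h0 : D = ⊥
    · rwa [(H7.blockDefect_eq_zero_iff hM hB hD).2 h0]
    · obtain ⟨y, hy, h1⟩ := exists_orderOf_eq_of_isPGroup (hP.to_inf_left (K := 𝐂 D))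
        (center_ne_bot hP h0)
      have h2 : H7.IsPElt p y := ⟨1, by simpa using h1⟩
      obtain ⟨b, h3, -, h4⟩ := (isSec_cent h2).exists_major hM hB hD hy.1 hy.2
      refine h4 ▸ h y h1 b h3.1 fun h5 => hne ?_
      exact H7.induced_unique hM h3 (h5 ▸ H7.isInducedBlock_principal_centralizer hM h2)

end Cfsg.Agent.S4717
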