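import Cfsg.Statements.S4719
import Cfsg.Agent.H7.Four
import Cfsg.Agent.H7.Landau
import Cfsg.Agent.H7.Real
import Cfsg.Agent.H8.Dom

set_option autoImplicit false
universe u
open Cfsg

open H5 H28 H8 H7

namespace Cfsg.Agent.S4719

theorem card_eq_mul_map {G : Type*} [Group G] {N X : Subgroup G} [N.Normal] (h : N ≤ X) :
    Nat.card X = Nat.card N * Nat.card (X.map (QuotientGroup.mk' N)) := by
  rw [← H4.card_comap_mk, Subgroup.comap_map_eq, QuotientGroup.ker_mk', sup_eq_left.2 h]

theorem aux (a r : ℕ) : ∃ N : ℕ, ∀ (G : Type u) [Group G] [Finite G] (M : Ideal AlgInt),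
    IsPModular 2 M → (Nat.card G).factorization 2 ≤ a →
    (∀ B, IsPBlock M B → B ≠ principalBlock M G → blockDefect 2 B < r) →
    ∀ E : Subgroup G, (∀ x ∈ E, ∀ y ∈ E, x * y = y * x) → (∀ x ∈ E, x * x = 1) →
      Nat.card E = 2 ^ (r + 1) → Nat.card G ≤ N := by
  induction r with
  | zero =>
    obtain ⟨N, hN⟩ := landau.{u} (2 ^ (2 * a))
    refine ⟨N, fun G _ _ M hM ha h _ _ _ _ => hN G ?_⟩
    have h1 : principalBlock M G = Set.univ := Set.eq_univ_of_forall fun χ => by
      by_contra h2
      refine absurd (h _ (isPBlock_blockOf χ) fun h3 => h2 ?_) (Nat.not_lt_zero _)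
      exact h3 ▸ mem_blockOf_self hM χ
    have h2 := card_le_pow_defect hM (isPBlock_principalBlock (M := M) (G := G))
    rw [blockDefect_principal hM, h1, Nat.card_univ, card_irr] at h2
    exact h2.trans (Nat.pow_le_pow_right two_pos (by omega))
  | succ r ih =>
    obtain ⟨N, hN⟩ := ih
    obtain ⟨N', hN'⟩ := four_bound.{u} (2 * N + 2 * N + 2 * N + a)
    refine ⟨N', fun G _ _ M hM ha h E hc h2 hE => ?_⟩
    have key : ∀ u ∈ E, u ≠ 1 → Nat.card (Subgroup.centralizer ({u} : Set G)) ≤ 2 * N := by
      intro u hu hu1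
      have ho := H10.orderOf_two_of (h2 u hu) hu1
      have hpu : IsPElt 2 u := ⟨1, by rw [ho, pow_one]⟩
      set C := Subgroup.centralizer ({u} : Set G) with hC
      set Z := Subgroup.zpowers (⟨u, self_mem_centralizer u⟩ : C) with hZ
      have hZc : Z ≤ Subgroup.center C := by
        rw [hZ, Subgroup.zpowers_le, Subgroup.mem_center_iff]
        exact fun g => Subtype.ext (Subgroup.mem_centralizer_singleton_iff.1 g.2)
      haveI : Z.Normal := H10.normal_of_le_center hZc
      have hZ2 : Nat.card Z = 2 := by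
        rw [hZ, Nat.card_zpowers, ← Subgroup.orderOf_coe]; exact ho
      have hZp : IsPGroup 2 Z := IsPGroup.of_card (n := 1) hZ2
      have hEC : E ≤ C := fun x hx => Subgroup.mem_centralizer_singleton_iff.2 (hc x hx u hu)
      have hπ := QuotientGroup.mk'_surjective Z
      rw [← Z.card_mul_index, hZ2]
      refine Nat.mul_le_mul_left 2 (hN (C ⧸ Z) M hM ?_ (fun b hb hb1 => ?_)
        ((E.subgroupOf C).map (QuotientGroup.mk' Z)) ?_ ?_ ?_)
      · refine le_trans ?_ ha
        exact (Nat.factorization_le_iff_dvd Nat.card_pos.ne' Nat.card_pos.ne').2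
          (Z.index_dvd_card.trans C.card_subgroup_dvd_card) 2
      · obtain ⟨χ, hχ⟩ := isPBlock_nonempty hM hb
        have hb' := isPBlock_blockOf (M := M) (infl _ hπ χ)
        obtain ⟨D, hD⟩ := H7.exists_isDefectGroup hM hb
        obtain ⟨P, hP, hDP⟩ := exists_defect_of_dom (hπ := hπ) hM hb' hb (fun ψ hψ =>
          mem_blockOf.2 (sameBlock_infl hM (sameBlock_of_mem hM hb hχ hψ))) hD
        obtain ⟨B, hB⟩ := inducedBlockDefined_centralizer hM hpu hb'
        obtain ⟨Q, hQ, hPQ⟩ := exists_isDefectGroup_ge_of_induced hM hB hP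
        have h3 := h B hB.2.1 (fun h3 => hb1 (by
          have h4 := (third_main_centralizer hM hpu hb').1 (h3 ▸ hB)
          have h5 : infl _ hπ χ ∈ principalBlock M C := h4 ▸ mem_blockOf_self hM _
          rw [infl_mem_principal_iff_of_central hM (by rwa [QuotientGroup.ker_mk'])
            (by rwa [QuotientGroup.ker_mk'])] at h5
          exact block_eq_of_mem hM hb isPBlock_principalBlock hχ h5))
        have h4 := card_eq_mul_map (normal_le_of_isDefectGroup hM hb' hP hZp)
        have h5 := Subgroup.card_le_of_le hDP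
        have h6 := Subgroup.card_le_of_le hPQ
        rw [Subgroup.card_map_of_injective C.subtype_injective, card_isDefectGroup hM hB.2.1 hQ]
          at h6
        rw [card_isDefectGroup hM hb hD] at h5
        rw [hZ2] at h4
        have h7 : 2 ^ (blockDefect 2 b + 1) ≤ 2 ^ blockDefect 2 B := by
          rw [pow_succ]; omega
        have := (Nat.pow_le_pow_iff_right one_lt_two).1 h7
        omega
      · rintro _ ⟨x, hx, rfl⟩ _ ⟨y, hy, rfl⟩
        rw [← map_mul, ← map_mul]
        exact congrArg _ (Subtype.ext (hc _ hx _ hy))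
      · rintro _ ⟨x, hx, rfl⟩
        rw [← map_mul, show x * x = 1 from Subtype.ext (h2 _ hx), map_one]
      · have h3 := card_eq_mul_map (N := Z) (X := E.subgroupOf C)
          (by rw [hZ, Subgroup.zpowers_le]; exact hu)
        rw [Nat.card_congr (Subgroup.subgroupOfEquivOfLe hEC).toEquiv, hE, hZ2, pow_succ] at h3
        omega
    have h3 : 2 < Nat.card E := by
      rw [hE, pow_succ, pow_succ]
      have := Nat.one_le_two_pow (n := r)
      omega
    have := Fintype.ofFinite E
    obtain ⟨s, hs⟩ := Fintype.exists_ne_of_one_lt_card (by rw [← Nat.card_eq_fintype_card]; omega)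
      (1 : E)
    obtain ⟨t, ht⟩ : ∃ t : E, t ≠ 1 ∧ t ≠ s := by
      classical
      by_contra h4
      push Not at h4
      have h5 : (Finset.univ : Finset E) ⊆ {1, s} := fun x _ => by
        by_cases hx : x = 1
        · simp [hx]
        · simp [h4 x hx]
      have h6 := (Finset.card_le_card h5).trans Finset.card_le_two
      rw [Finset.card_univ, ← Nat.card_eq_fintype_card] at h6
      omega
    have h4 := key s s.2 (fun h => hs (Subtype.ext h))
    have h5 := key t t.2 (fun h => ht.1 (Subtype.ext h))
    have h6 := key (s * t) (mul_mem s.2 t.2) (fun h => ht.2 (Subtype.ext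
      (mul_left_cancel (h.trans (h2 s s.2).symm))))
    exact hN' G s t (h2 s s.2) (h2 t t.2) (hc s s.2 t t.2) (by omega)

/-- For every natural number a there is a bound N with the following property. Let G be a finite group with Sylow 2-subgroups of order 2^a and r ≥ 0 such that G has no non-principal 2-block (relative to a maximal ideal of the algebraic integers containing 2) of defect ≥ r, and suppose a Sylow 2-subgroup of G contains an elementary abelian subgroup of order 2^(r+1). Then the order of G is at most N. -/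
theorem result (a : ℕ) : ∃ N : ℕ, ∀ (G : Type u) [Group G] [Finite G] (M : Ideal Cfsg.AlgInt) (r : ℕ) (P : Sylow 2 G), Cfsg.IsPModular 2 M → Nat.card P = 2 ^ a → (∀ B : Set (Cfsg.IrrCharacter G), Cfsg.IsPBlock M B → B ≠ Cfsg.principalBlock M G → Cfsg.blockDefect 2 B < r) → (∃ E : Subgroup G, E ≤ (P : Subgroup G) ∧ IsMulCommutative E ∧ (∀ x ∈ E, x * x = 1) ∧ Nat.card E = 2 ^ (r + 1)) → Nat.card G ≤ N := by
  choose N hN using aux.{u} a
  refine ⟨(Finset.range (a + 1)).sup N, fun G _ _ M r P hM hP h ⟨E, hEP, hc, h2, hE⟩ => ?_⟩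
  have h1 : (Nat.card G).factorization 2 = a :=
    Nat.pow_right_injective le_rfl (P.card_eq_multiplicity.symm.trans hP)
  have h3 := Subgroup.card_le_of_le hEP
  rw [hE, hP, Nat.pow_le_pow_iff_right one_lt_two] at h3
  exact (hN r G M hM h1.le h E (fun x hx y hy => setLike_mul_comm hx hy)
    h2 hE).trans (Finset.le_sup (f := N) (Finset.mem_range.2 (by omega)))

end Cfsg.Agent.S4719
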