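import Cfsg.Statements.S4720
import Cfsg.Agent.H21.AbFrob

set_option autoImplicit false
open Cfsg

namespace Cfsg.Agent.S4720

open H5 H7 H8 H21 Finset
open scoped ComplexConjugate

/-- Let p be a prime, M a maximal ideal of the algebraic integers containing p, P a p-subgroup of the finite group G, N a subgroup with P ≤ N ≤ N_G(P), and U a nonempty subset of P normalized by N such that an element of U and an element of P that are conjugate in G are already conjugate in N, and such that λ(C_G(y)) = w·#C_N(y) for every y ∈ U with one rational number w, where λ(X) denotes the sum of the squares of the degrees of the irreducible characters in the principal p-block of X. For a complex function θ on P and χ in the principal block of G put a_χ(θ) = #P⁻¹ Σ_{y ∈ P} χ(y) θ(y⁻¹). Then for generalized characters θ, η of P with θ vanishing outside U, Σ_χ a_χ(θ)·conj(a_χ(η)) = (w/#P²)·Σ_{y ∈ P} θ(y)·conj(Σ_{x ∈ N} η(x y x⁻¹)) (η extended by zero off P; the conjugates lie in P),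 the first sum over the principal p-block of G. -/
theorem result {G : Type*} [Group G] [Finite G] (p : ℕ) [Fact p.Prime] (M : Ideal Cfsg.AlgInt) (hM : Cfsg.IsPModular p M) (P : Subgroup G) (hP : IsPGroup p P) (N : Subgroup G) (hPN : P ≤ N) (hNN : N ≤ Subgroup.normalizer (P : Set G)) (U : Set G) (hUne : U.Nonempty) (hUP : U ⊆ (P : Set G)) (hUN : ∀ n ∈ N, ∀ u ∈ U, n * u * n⁻¹ ∈ U) (hfus : ∀ u ∈ U, ∀ g : G, g * u * g⁻¹ ∈ (P : Set G) → ∃ n ∈ N, n * u * n⁻¹ = g * u * g⁻¹) (w : ℚ) (hw : ∀ y ∈ U, ((∑ᶠ ψ ∈ Cfsg.principalBlock M ↥(Subgroup.centralizer ({y} : Set G)), Cfsg.charDegree (ψ : ↥(Subgroup.centralizer ({y} : Set G)) → ℂ) ^ 2) : ℚ) = w * Nat.card ↥(N ⊓ Subgroup.centralizer ({y} : Set G))) (θ η : ↥P → ℂ) (hθ : Cfsg.IsGeneralizedCharacter ↥P θ) (hη : Cfsg.IsGeneralizedCharacter ↥P η) (hθU : ∀ y : ↥P, (y : G) ∉ U → θ y = 0) : ∑ᶠ χ ∈ Cfsg.principalBlock M G, ((Nat.card ↥P : ℂ)⁻¹ * ∑ᶠ y : ↥P, (χ : G → ℂ) (y : G) * θ y⁻¹) * (starRingEnd ℂ) ((Nat.card ↥P : ℂ)⁻¹ * ∑ᶠ y :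 ↥P, (χ : G → ℂ) (y : G) * η y⁻¹) = ((w : ℂ) / ((Nat.card ↥P : ℂ) ^ 2)) * ∑ᶠ y : ↥P, θ y * (starRingEnd ℂ) (∑ᶠ x : ↥N, Cfsg.extendByZero P η ((x : G) * (y : G) * (x : G)⁻¹)) := by
  classical
  have := Fintype.ofFinite G
  have hB := isPBlock_principalBlock (M := M) (G := G)
  simp only [finsum_mem_irr] at hw ⊢
  simp only [finsum_eq_sum_of_fintype]
  have key : ∀ y z : P, θ y * conj (η z) *
      ∑ χ with χ ∈ principalBlock M G, χ.1 (y : G)⁻¹ * χ.1 z =
      w * (θ y * conj (η z) * #{x : N | (x : G) * y * (x : G)⁻¹ = z}) := fun y z => by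
    by_cases hy : (y : G) ∈ U; swap
    · simp [hθU y hy]
    have hpy := isPElt_of_mem hP y.2
    by_cases hc : IsConj (y : G) z
    · obtain ⟨g, hg⟩ := isConj_iff.1 hc
      obtain ⟨n, hn, hn'⟩ := hfus y hy g (hg ▸ z.2)
      rw [hg] at hn'
      have h1 := sum_principal_mul_conj' hM hpy (y := 1) (y' := 1) (by simpa using hM.1.ne_one)
        (by simpa using hM.1.ne_one)
      have h2 := congrArg (Rat.cast : ℚ → ℂ) (hw y hy)
      have h3 : #{x : N | (x : G) * y * (x : G)⁻¹ = z} =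
          Nat.card ↥(N ⊓ Subgroup.centralizer ({(y : G)} : Set G)) := by
        rw [← Fintype.card_subtype, ← Nat.card_eq_fintype_card]
        refine Nat.card_congr ⟨fun x => ⟨n⁻¹ * x.1, N.mul_mem (N.inv_mem hn) x.1.2, ?_⟩,
          fun c => ⟨⟨n * c, N.mul_mem hn c.2.1⟩, ?_⟩, fun x => by simp, fun c => by simp⟩
        · refine Subgroup.mem_centralizer_singleton_iff.2 ?_
          have := x.2.trans hn'.symm
          calc _ = n⁻¹ * (x.1 * y * (x.1 : G)⁻¹) * x.1 := by group
            _ = _ := by rw [this]; group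
        · have := Subgroup.mem_centralizer_singleton_iff.1 c.2.2
          rw [← hn']
          calc _ = n * (c * y) * (c : G)⁻¹ * n⁻¹ := by simp only; group
            _ = _ := by rw [this]; group
      rw [h3, mul_left_comm]
      congr 1
      push_cast at h2
      rw [← h2]
      simp only [OneMemClass.coe_one, mul_one, irr_apply_one, map_natCast] at h1
      simp only [sq]
      rw [← h1]
      exact sum_congr rfl fun χ _ => by
        rw [irr_apply_inv, ← hg, χ.2.isCharacter.isClassFunction, mul_comm]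
    · have h1 := block_orth hM hB (isPPart_self hM.1.ne_one (isPElt_of_mem hP z.2))
        (isPPart_self hM.1.ne_one hpy) fun h => hc h.symm
      rw [card_eq_zero.2 (filter_eq_empty_iff.2 fun (x : N) _ h => hc (isConj_iff.2 ⟨x, h⟩))]
      rw [sum_congr rfl fun _ _ => mul_comm _ _, h1]
      simp
  have h2 : ∀ y : P, ∑ x : N, extendByZero P η (x * y * (x : G)⁻¹) =
      ∑ z : P, η z * #{x : N | (x : G) * y * (x : G)⁻¹ = z} := fun y => by
    simp only [card_eq_sum_ones, Nat.cast_sum, mul_sum, sum_filter]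
    rw [sum_comm]
    refine sum_congr rfl fun x _ => ?_
    have hx : (x : G) * y * (x : G)⁻¹ ∈ P := (Subgroup.mem_normalizer_iff.1 (hNN x.2) y).1 y.2
    rw [sum_eq_single ⟨_, hx⟩ (fun z _ hz => by rw [if_neg fun h => hz (Subtype.ext h.symm)]; simp)
      (by simp), ← extendByZero_coe P η ⟨_, hx⟩]
    simp
  simp only [h2, map_sum, map_mul, map_natCast, map_inv₀, mul_sum, sum_mul]
  rw [sum_comm]
  rw [← Equiv.sum_comp (Equiv.inv P)]
  conv_rhs => rw [sum_comm]
  refine sum_congr rfl fun z _ => ?_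
  rw [sum_comm, ← Equiv.sum_comp (Equiv.inv P)]
  refine sum_congr rfl fun y _ => ?_
  have := key y z
  rw [mul_sum] at this
  rw [div_eq_mul_inv, mul_comm (w : ℂ), mul_assoc, ← mul_assoc (θ y), ← this, mul_sum]
  refine sum_congr rfl fun χ _ => ?_
  simp only [Equiv.inv_apply, inv_inv, Subgroup.coe_inv, irr_apply_inv, Complex.conj_conj]
  ring

end Cfsg.Agent.S4720
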