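import Cfsg.Statements.S4721
import Cfsg.Agent.H21.AbFrob3

set_option autoImplicit false
open Cfsg

namespace Cfsg.Agent.S4721

/-- Let p be a prime, M a maximal ideal of the algebraic integers containing p, and G a finite group with a nontrivial abelian Sylow p-subgroup P, N = N_G(P), C = C_G(P), such that N/C is cyclic of order 3, #P > 4, and C_G(y) ∩ N = C for every non-identity y ∈ P. Then the principal p-block is the disjoint union of a set X of exactly 3 characters containing the principal character and a set Y of (#P − 1)/3 characters, with signs a_χ = ±1 (χ ∈ X, a = 1 at the principal character) and δ = ±1 such that every χ ∈ X takes the value a_χ at every element whose p-part is a non-identity element of P, and there is a map ζ from the non-principal linear characters of P onto Y, constant on N-conjugacy classes, with ζ_ψ(z) = δ·Σ ψ'(y) over the N-orbit of ψ, for z with p-part y ≠ 1 in P.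 If moreover G has an involution lying in no proper normal subgroup of G, then exactly two of the three numbers −δ and a_χ (χ ∈ X non-principal) equal −1, and the product of the degrees of the two non-principal members of X and of any member of Y is a perfect square. -/
theorem result {G : Type*} [Group G] [Finite G] (p : ℕ) [Fact p.Prime] (M : Ideal Cfsg.AlgInt) (hM : Cfsg.IsPModular p M) (P : Sylow p G) (hab : IsMulCommutative P) (hP1 : Nat.card P ≠ 1) (hCN : (Subgroup.centralizer ((P : Subgroup G) : Set G)).relIndex (Subgroup.normalizer ((P : Subgroup G) : Set G)) = 3) (hcyc : ∃ g : G, g ∈ Subgroup.normalizer ((P : Subgroup G) : Set G) ∧ Subgroup.centralizer ((P : Subgroup G) : Set G) ⊔ Subgroup.zpowers g = Subgroup.normalizer ((P : Subgroup G) : Set G)) (hm2 : 3 + 1 < Nat.card P) (hfrob : ∀ y : G, y ∈ (P : Subgroup G) → y ≠ 1 → Subgroup.centralizer ({y} : Set G) ⊓ Subgroup.normalizer ((P : Subgroup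 G) : Set G) = Subgroup.centralizer ((P : Subgroup G) : Set G)) : ∃ (X Y : Set (Cfsg.IrrCharacter G)), Cfsg.principalBlock M G = X ∪ Y ∧ Disjoint X Y ∧ Nat.card X = 3 ∧ Nat.card Y = (Nat.card P - 1) / 3 ∧ (∃ χ₁ ∈ X, (χ₁ : G → ℂ) = fun _ => 1) ∧ ∃ (a : Cfsg.IrrCharacter G → ℤ) (δ : ℤ) (ζ : (↥(P : Subgroup G) →* ℂˣ) → Cfsg.IrrCharacter G), (δ = 1 ∨ δ = -1) ∧ (∀ χ ∈ X, (a χ = 1 ∨ a χ = -1) ∧ ∀ z y : G, Cfsg.IsPPart p z y → y ∈ (P : Subgroup G) → y ≠ 1 → (χ : G → ℂ) z = (a χ : ℂ)) ∧ (∀ ψ : ↥(P : Subgroup G) →* ℂˣ, ψ ≠ 1 → ζ ψ ∈ Y) ∧ (∀ η ∈ Y, ∃ ψ : ↥(P : Subgroup G) →* ℂˣ, ψ ≠ 1 ∧ ζ ψ = η) ∧ (∀ ψ ψ' : ↥(P : Subgroup G) →* ℂˣ, ψ ≠ 1 → (∃ n : G, n ∈ Subgroup.normalizer ((P : Subgroup G) : Set G) ∧ ∀ w w' : ↥(P : Subgroup G), (w' : G) = n * w * n⁻¹ → ψ' w' = ψ w) → ζ ψ' = ζ ψ) ∧ (∀ ψ : ↥(P : Subgroup G) →* ℂˣ, ψ ≠ 1 → ∀ (z : G) (y : ↥(P : Subgroup G)), Cfsg.IsPPart p z (y : G) → (y : G) ≠ 1 → (ζ ψ : G → ℂ)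 z = (δ : ℂ) * ∑ᶠ ψ' ∈ {ψ' : ↥(P : Subgroup G) →* ℂˣ | ∃ n : G, n ∈ Subgroup.normalizer ((P : Subgroup G) : Set G) ∧ ∀ w w' : ↥(P : Subgroup G), (w' : G) = n * w * n⁻¹ → ψ' w' = ψ w}, ((ψ' y : ℂˣ) : ℂ)) ∧ ((∃ t : G, orderOf t = 2 ∧ ∀ K : Subgroup G, K.Normal → t ∈ K → K = ⊤) → Nat.card {χ : Cfsg.IrrCharacter G // χ ∈ X ∧ (χ : G → ℂ) ≠ (fun _ => 1) ∧ a χ = -1} + (if δ = 1 then 1 else 0) = 2 ∧ ∀ η ∈ Y, IsSquare (Cfsg.charDegree (η : G → ℂ) * ∏ᶠ χ ∈ {χ : Cfsg.IrrCharacter G | χ ∈ X ∧ (χ : G → ℂ) ≠ fun _ => 1}, Cfsg.charDegree (χ : G → ℂ))) := by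
  classical
  rw [← H21.card_range_normalizerMonoidHom] at hCN
  obtain ⟨δ, ζ, a, Y, χ₂, χ₃, h, h23, h12, h13, hX, ha₂, ha₃⟩ :=
    H21.AF.exists_data_three ⟨hab, hfrob⟩ hM hCN hm2
  have h5 : ∀ ψ : (P : Subgroup G) →* ℂˣ, {ψ' : ↥(P : Subgroup G) →* ℂˣ | ∃ n : G,
      n ∈ Subgroup.normalizer ((P : Subgroup G) : Set G) ∧ ∀ w w' : ↥(P : Subgroup G),
      (w' : G) = n * w * n⁻¹ → ψ' w' = ψ w} =
      {ψ' | H21.CRel (P : Subgroup G).normalizerMonoidHom.range ψ ψ'} := fun ψ => by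
    simp only [H21.crel_range_iff]
  have h6 : ∀ χ : IrrCharacter G, (χ ∈ principalBlock M G \ Y ∧ χ.1 ≠ fun _ => 1) ↔
      χ = χ₂ ∨ χ = χ₃ := fun χ => by
    have : (χ.1 ≠ fun _ => 1) ↔ χ ≠ H5.irrOne G := not_congr (Subtype.ext_iff (a2 := H5.irrOne G)).symm
    rw [hX, this]
    simp only [Set.mem_insert_iff, Set.mem_singleton_iff]
    constructor
    · tauto
    · rintro (rfl | rfl) <;> simp [h12.symm, h13.symm]
  refine ⟨principalBlock M G \ Y, Y, h.B_eq, Set.disjoint_sdiff_left, ?_, ?_,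
    ⟨H5.irrOne G, ⟨H7.irrOne_mem_principalBlock hM, h.one_notMem⟩, rfl⟩, a, δ, ζ, h.sign,
    fun χ hχ => ⟨?_, fun z y hz hy h1 =>
      h.nonexc_apply hχ.1 hχ.2 hz hy h1⟩, fun ψ hψ => h.toExcData.mem_Y hψ,
    fun η hη => (h.mem η).1 hη, fun ψ ψ' hψ h6 => ?_, fun ψ hψ z y hz h1 => ?_, ?_⟩
  · rw [hX, Nat.card_coe_set_eq, Set.ncard_eq_three]
    exact ⟨_, _, _, h12, h13, h23, rfl⟩
  · rw [← hCN, ← h.card_Y, Nat.card_coe_set_eq, Set.ncard_coe_finset]
  · rw [hX] at hχ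
    rcases hχ with rfl | rfl | rfl
    exacts [Or.inl h.a_one, ha₂, ha₃]
  · have h7 := H21.crel_range_iff.2 h6
    exact ((h.inj _ _ hψ (h7.ne_one hψ)).2 h7).symm
  · rw [h5, h.exc_apply hψ hz (by simpa using h1), Int.cast_zero, zero_add]
    rfl
  rintro ⟨t, ht, hK⟩
  have h7 : ∀ η ∈ Y, -δ * a χ₂ * a χ₃ = 1 ∧ ¬ (δ = -1 ∧ a χ₂ = 1 ∧ a χ₃ = 1) ∧
      IsSquare (charDegree η.1 * (charDegree χ₂.1 * charDegree χ₃.1)) := fun η hη => by
    obtain ⟨h8, h9⟩ := h.invol hCN h23 h12 h13 hX ha₂ ha₃ ht hK hη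
    have h10 : (0 : ℤ) < charDegree η.1 * (charDegree χ₂.1 * charDegree χ₃.1) := by
      have := H7.charDegree_pos η
      have := H7.charDegree_pos χ₂
      have := H7.charDegree_pos χ₃
      positivity
    have h11 : -δ * a χ₂ * a χ₃ = 1 := by
      have h12 := h9.nonneg
      rcases h.sign with h | h <;> rcases ha₂ with h' | h' <;> rcases ha₃ with h'' | h'' <;>
        simp only [h, h', h''] at h12 ⊢ <;> first | rfl | (exfalso; nlinarith)
    refine ⟨h11, ?_, ?_⟩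
    · rintro ⟨h12, h13, h14⟩
      rw [h12, h13, h14] at h8
      omega
    · rw [← Int.isSquare_natCast_iff]
      convert h9 using 1
      push_cast
      linear_combination -(charDegree η.1 * charDegree χ₂.1 * charDegree χ₃.1 : ℤ) * h11
  constructor
  · obtain ⟨η, hη⟩ := Finset.card_pos.1 (show 0 < Y.card by have := h.two_le_card_Y; omega)
    obtain ⟨h8, h9, -⟩ := h7 η hη
    rw [Nat.card_eq_fintype_card, Fintype.card_subtype, show (Finset.univ.filter fun χ =>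
      χ ∈ principalBlock M G \ Y ∧ (χ.1 ≠ fun _ => 1) ∧ a χ = -1) =
        ({χ₂, χ₃} : Finset _).filter (a · = -1) by ext; simp [← and_assoc, ← h6],
      Finset.card_filter, Finset.sum_pair h23]
    rcases h.sign with h | h <;> rcases ha₂ with h' | h' <;> rcases ha₃ with h'' | h'' <;>
      simp_all
  · intro η hη
    rw [show {χ : IrrCharacter G | χ ∈ principalBlock M G \ Y ∧ χ.1 ≠ fun _ => 1} = {χ₂, χ₃} from
      Set.ext h6, finprod_mem_pair h23]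
    exact (h7 η hη).2.2

end Cfsg.Agent.S4721
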