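import Cfsg.Statements.S4722
import Cfsg.Agent.H21.AbFrob

set_option autoImplicit false
open Cfsg

namespace Cfsg.Agent.S4722

open H5 H7 H8 H21 Finset
open scoped ComplexConjugate

theorem signs_aux {ι : Type*} [DecidableEq ι] (s : Finset ι) (n : ι → ℤ) (d t : ι → ℝ)
    (hd : ∀ i, 0 < d i) {o : ι} (ho : o ∈ s) (hd1 : d o = 1) (ht1 : t o = 1) (hn : 0 < n o)
    (h1 : ∑ i ∈ s, n i * t i ^ 2 / d i = 0) (h2 : ∑ i ∈ s, n i * d i = 0)
    (h3 : ∑ i ∈ s, n i * t i = 0) :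
    (2 ≤ #{i ∈ s | 0 < n i} ∧ 2 ≤ #{i ∈ s | n i < 0}) ∨ ∃ i ∈ s, i ≠ o ∧ t i = d i := by
  have key : ∀ c : ℝ, ∑ i ∈ s, n i * ((t i - c * d i) ^ 2 / d i) = 0 := fun c => by
    have : ∀ i ∈ s, n i * ((t i - c * d i) ^ 2 / d i) =
        n i * t i ^ 2 / d i - 2 * c * (n i * t i) + c ^ 2 * (n i * d i) := fun i _ => by
      have := (hd i).ne'
      field_simp
      ring
    rw [sum_congr rfl this, sum_add_distrib, sum_sub_distrib, ← mul_sum, ← mul_sum, h1, h2, h3]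
    ring
  have hq : ∀ c i, 0 ≤ (t i - c * d i) ^ 2 / d i := fun c i => div_nonneg (sq_nonneg _) (hd i).le
  have hz : ∀ c i, n i ≠ 0 → n i * ((t i - c * d i) ^ 2 / d i) = 0 → t i = c * d i :=
    fun c i hi h => by
      have := (mul_eq_zero.1 h).resolve_left (Int.cast_ne_zero.2 hi)
      rw [div_eq_zero_iff, or_iff_left (hd i).ne', sq_eq_zero_iff] at this
      linarith
  obtain ⟨j, hj, hjn⟩ : ∃ j ∈ s, n j < 0 := by
    by_contra! h
    refine (sum_pos' (f := fun i => n i * d i) (fun i hi => mul_nonneg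
      (Int.cast_nonneg_iff.2 (h i hi)) (hd i).le) ⟨o, ho, mul_pos (Int.cast_pos.2 hn) (hd o)⟩).ne' h2
  have hjo : j ≠ o := fun h => by rw [h] at hjn; omega
  by_cases hp : 2 ≤ #{i ∈ s | 0 < n i}
  · by_cases hm : 2 ≤ #{i ∈ s | n i < 0}
    · exact .inl ⟨hp, hm⟩
    have hu : ∀ i ∈ s, n i < 0 → i = j := fun i hi h =>
      card_le_one.1 (by omega : #{i ∈ s | n i < 0} ≤ 1) i (mem_filter.2 ⟨hi, h⟩) j
        (mem_filter.2 ⟨hj, hjn⟩)
    have := (sum_eq_zero_iff_of_nonneg fun i hi => ?_).1 (key (t j / d j)) o ho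
    · have := hz _ _ hn.ne' this
      rw [ht1, hd1, mul_one, eq_div_iff (hd j).ne', one_mul] at this
      exact .inr ⟨j, hj, hjo, this.symm⟩
    · rcases lt_or_ge (n i) 0 with h | h
      · rw [hu i hi h, div_mul_cancel₀ _ (hd j).ne']; simp
      · exact mul_nonneg (Int.cast_nonneg_iff.2 h) (hq _ _)
  · have hu : ∀ i ∈ s, 0 < n i → i = o := fun i hi h =>
      card_le_one.1 (by omega : #{i ∈ s | 0 < n i} ≤ 1) i (mem_filter.2 ⟨hi, h⟩) o
        (mem_filter.2 ⟨ho, hn⟩)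
    have := (sum_eq_zero_iff_of_nonpos fun i hi => ?_).1 (key 1) j hj
    · exact .inr ⟨j, hj, hjo, by simpa using hz _ _ hjn.ne this⟩
    · rcases lt_or_ge 0 (n i) with h | h
      · rw [hu i hi h, ht1, hd1]; simp
      · exact mul_nonpos_of_nonpos_of_nonneg (Int.cast_nonpos.2 h) (hq _ _)

theorem signs {ι : Type*} [DecidableEq ι] (s : Finset ι) (n : ι → ℤ) (d t : ι → ℝ)
    (hd : ∀ i, 0 < d i) {o : ι} (ho : o ∈ s) (hd1 : d o = 1) (ht1 : t o = 1) (hn : n o ≠ 0)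
    (h1 : ∑ i ∈ s, n i * t i ^ 2 / d i = 0) (h2 : ∑ i ∈ s, n i * d i = 0)
    (h3 : ∑ i ∈ s, n i * t i = 0) :
    (2 ≤ #{i ∈ s | 0 < n i} ∧ 2 ≤ #{i ∈ s | n i < 0}) ∨ ∃ i ∈ s, i ≠ o ∧ t i = d i := by
  rcases hn.lt_or_gt with h | h
  · have := signs_aux s (-n) d t hd ho hd1 ht1 (by simpa using h) (by simpa [neg_div] using h1)
      (by simpa using h2) (by simpa using h3)
    simpa [and_comm] using this
  · exact signs_aux s n d t hd ho hd1 ht1 h h1 h2 h3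

/-- Let M be a maximal ideal of the algebraic integers containing 2, P a 2-subgroup of the finite group G, U a subset of P, and t an involution of G such that no element of U is inverted by any conjugate of t. Let θ be a generalized character of P vanishing outside U, and for χ in the principal 2-block B₀ put a_χ = #P⁻¹ Σ_{y ∈ P} χ(y) θ(y⁻¹). Then Σ_{χ ∈ B₀} a_χ χ(t)^2/χ(1) = 0, Σ_{χ ∈ B₀} a_χ χ(1) = 0 and Σ_{χ ∈ B₀} a_χ χ(t) = 0. If moreover #P⁻¹ Σ_{y ∈ P} θ(y) ≠ 0, then either at least two of the a_χ have positive real part and at least two have negative real part, or G has a proper normal subgroup containing O_2'(G) and t. -/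
theorem result {G : Type*} [Group G] [Finite G] (M : Ideal Cfsg.AlgInt) (hM : Cfsg.IsPModular 2 M) (P : Subgroup G) (hP : IsPGroup 2 P) (U : Set G) (hUP : U ⊆ (P : Set G)) (t : G) (ht : orderOf t = 2) (hinv : ∀ u ∈ U, ∀ g : G, (g * t * g⁻¹) * u * (g * t * g⁻¹)⁻¹ ≠ u⁻¹) (θ : ↥P → ℂ) (hθ : Cfsg.IsGeneralizedCharacter ↥P θ) (hθU : ∀ y : ↥P, (y : G) ∉ U → θ y = 0) : (∑ᶠ χ ∈ Cfsg.principalBlock M G, ((Nat.card ↥P : ℂ)⁻¹ * ∑ᶠ y : ↥P, (χ : G → ℂ) (y : G) * θ y⁻¹) * (χ : G → ℂ) t ^ 2 / (χ : G → ℂ) 1 = 0) ∧ (∑ᶠ χ ∈ Cfsg.principalBlock M G, ((Nat.card ↥P : ℂ)⁻¹ * ∑ᶠ y : ↥P, (χ : G → ℂ) (y : G) * θ y⁻¹) * (χ : G → ℂ) 1 = 0) ∧ (∑ᶠ χ ∈ Cfsg.principalBlock M G, ((Nat.card ↥P : ℂ)⁻¹ * ∑ᶠ y : ↥P, (χ : G → ℂ) (y : G) * θ y⁻¹) * (χ : G → ℂ) t = 0) ∧ ((Nat.card ↥P : ℂ)⁻¹ * ∑ᶠ y : ↥P, θ y ≠ 0 → (2 ≤ Nat.card {χ : Cfsg.IrrCharacter G // χ ∈ Cfsg.principalBlock M G ∧ 0 < (((Nat.card ↥P : ℂ)⁻¹ * ∑ᶠ y : ↥P, (χ : G → ℂ) (y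 : G) * θ y⁻¹)).re} ∧ 2 ≤ Nat.card {χ : Cfsg.IrrCharacter G // χ ∈ Cfsg.principalBlock M G ∧ (((Nat.card ↥P : ℂ)⁻¹ * ∑ᶠ y : ↥P, (χ : G → ℂ) (y : G) * θ y⁻¹)).re < 0}) ∨ ∃ K : Subgroup G, K.Normal ∧ K ≠ ⊤ ∧ Cfsg.pPrimeCore 2 G ≤ K ∧ t ∈ K) := by
  classical
  have := Fintype.ofFinite G
  have : Fact (Nat.Prime 2) := ⟨Nat.prime_two⟩
  have hB := isPBlock_principalBlock (M := M) (G := G)
  simp only [finsum_mem_irr]
  simp only [finsum_eq_sum_of_fintype]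
  have key : ∀ F : IrrCharacter G → ℂ, (∀ y : G, y ∈ P → y⁻¹ ∈ U →
      ∑ χ with χ ∈ principalBlock M G, χ.1 y * F χ = 0) → ∑ χ with χ ∈ principalBlock M G,
        ((Nat.card P : ℂ)⁻¹ * ∑ y : P, χ.1 y * θ y⁻¹) * F χ = 0 := fun F hF => by
    simp only [mul_assoc, ← mul_sum, sum_mul]
    rw [sum_comm]
    refine mul_eq_zero_of_right _ (sum_eq_zero fun y _ => ?_)
    by_cases hy : (y : G)⁻¹ ∈ U
    · simp only [mul_left_comm _ (θ _), ← mul_sum, hF y y.2 hy, mul_zero]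
    · simp [hθU y⁻¹ hy]
  have ht2 : t * t = 1 := by rw [← sq, ← ht, pow_orderOf_eq_one]
  have hti : t⁻¹ = t := inv_eq_of_mul_eq_one_right ht2
  have htp : IsPElt 2 t := isPElt_iff.2 ⟨1, by rw [pow_one, sq, ht2]⟩
  have hinv' : ∀ y s : G, y⁻¹ ∈ U → IsConj t s → s * y * s⁻¹ ≠ y⁻¹ := fun y s hy hs h => by
    obtain ⟨c, rfl⟩ := isConj_iff.1 hs
    refine hinv _ hy c ?_
    rw [← _root_.conj_inv, h]
  have h1 := key (fun χ => χ.1 t ^ 2 / χ.1 1) fun y hyP hy => by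
    have := sum_block_pair_eq_zero hM hB (s := t) (t := t) (isPElt_of_mem hP hyP)
      fun s' t' z hs' ht' hz hyz => by
        obtain ⟨c, rfl⟩ := isConj_iff.1 hyz
        have e : ∀ s, IsConj t s → s * s = 1 := fun s hs => by
          obtain ⟨c, rfl⟩ := isConj_iff.1 hs
          rw [conj_mul, ht2]; simp
        have e1 : s' * (s' * t') * s'⁻¹ = (s' * t')⁻¹ := by
          rw [← mul_assoc, e s' hs', one_mul, mul_inv_rev, inv_eq_of_mul_eq_one_right (e t' ht')]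
        have e2 := isPPart_conj hz s'
        rw [e1] at e2
        have e3 := isPPart_unique e2 (isPPart_inv hz)
        refine hinv' y (c⁻¹ * s' * c) hy (hs'.trans (isConj_iff.2 ⟨c⁻¹, by group⟩)) ?_
        calc _ = c⁻¹ * (s' * (c * y * c⁻¹) * s'⁻¹) * c := by group
          _ = _ := by rw [e3]; group
    simpa only [hti, sq] using this
  have h2 := key (fun χ => χ.1 1) fun y hyP hy => by
    have := block_orth hM hB (isPPart_self Nat.prime_two.ne_one (isPElt_of_mem hP hyP))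
      (isPPart_one (y := 1) (by simp)) fun h => hinv' y t hy (IsConj.refl _) (by
        rw [isConj_one_right.1 h.symm]; simp)
    simpa using this
  have h3 := key (fun χ => χ.1 t) fun y hyP hy => by
    have := block_orth hM hB (isPPart_self Nat.prime_two.ne_one (isPElt_of_mem hP hyP))
      (isPPart_self Nat.prime_two.ne_one htp) fun h => hinv' y y hy h.symm (by
        obtain ⟨c, rfl⟩ := isConj_iff.1 h.symm
        rw [mul_inv_cancel_right, conj_inv, hti])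
    simpa only [hti] using this
  refine ⟨by simpa only [mul_div_assoc] using h1, h2, h3, fun h0 => ?_⟩
  have h4 : ∀ χ : IrrCharacter G, ∃ n : ℤ,
      (Nat.card P : ℂ)⁻¹ * ∑ y : P, χ.1 y * θ y⁻¹ = n := fun χ => by
    obtain ⟨n, hn⟩ := (χ.2.isCharacter.restrict P).isGeneralizedCharacter.exists_classInner_int hθ
    exact ⟨n, by rw [← hn, classInner_def]; simp only [hθ.apply_inv]⟩
  choose n hn using h4
  simp only [hn] at h1 h2 h3 ⊢
  have h5 : ∀ χ : IrrCharacter G, χ.1 t = (χ.1 t).re := fun χ =>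
    (Complex.conj_eq_iff_re.1 (by rw [← irr_apply_inv, hti])).symm
  have h6 : ∀ χ : IrrCharacter G, χ.1 1 = ((charDegree χ.1 : ℝ) : ℂ) := fun χ => by
    rw [irr_apply_one]; simp
  have := signs (univ.filter (· ∈ principalBlock M G)) n (fun χ => charDegree χ.1)
    (fun χ => (χ.1 t).re) (fun χ => by exact_mod_cast charDegree_pos χ) (o := irrOne G)
    (mem_filter.2 ⟨mem_univ _, irrOne_mem_principalBlock hM⟩)
    (by have : (1 : ℂ) = _ := h6 (irrOne G); exact_mod_cast this.symm) rfl (fun h => h0 (by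
      have := hn (irrOne G)
      rw [h, Int.cast_zero] at this
      rw [← this, ← Equiv.sum_comp (Equiv.inv P)]
      simp [irrOne]))
    (by
      rw [sum_congr rfl fun χ _ => by rw [h5, h6]] at h1
      simp only [mul_div_assoc]
      exact_mod_cast h1)
    (by rw [sum_congr rfl fun χ _ => by rw [h6]] at h2; exact_mod_cast h2)
    (by rw [sum_congr rfl fun χ _ => by rw [h5]] at h3; exact_mod_cast h3)
  rcases this with h | ⟨χ, hχ, hne, h⟩
  · left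
    simpa [Nat.card_eq_fintype_card, Fintype.card_subtype, filter_filter] using h
  · exact .inr ⟨charKer χ.1, χ.2.charKer_normal, fun h => hne (Subtype.ext
      (χ.2.charKer_eq_top_iff.1 h)), pPrimeCore_le_charKer hM (mem_filter.1 hχ).2,
      χ.2.mem_charKer_iff.2 (by rw [h5, h6, h])⟩

end Cfsg.Agent.S4722
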