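import Cfsg.Statements.S4723
import Cfsg.Agent.H8.Ht

set_option autoImplicit false
open Cfsg

namespace Cfsg.Agent.S4723

open H8 H28 H5 MonoidAlgebra
open H7 (eB fB VG redG ev fB_mem_VG isPBlock_principalBlock isPBlock_nonempty)

/-- Let p be a prime, M a maximal ideal of the algebraic integers containing p, H a normal subgroup of the finite group G and b a p-block of H. Let T be the stabilizer of b in G. Then b contains a character θ of height zero whose own stabilizer in G (the elements g with θ(g h g⁻¹) = θ(h) for all h ∈ H) has index prime to p in T, i.e. contains a Sylow p-subgroup of T. -/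
theorem result {G : Type*} [Group G] [Finite G] (p : ℕ) [Fact p.Prime] (M : Ideal Cfsg.AlgInt) (hM : Cfsg.IsPModular p M) (H : Subgroup G) [H.Normal] (b : Set (Cfsg.IrrCharacter ↥H)) (hb : Cfsg.IsPBlock M b) (T : Subgroup G) (hT : (∀ g : G, g ∈ T ↔ ∀ θ ∈ b, ∀ θ' : Cfsg.IrrCharacter ↥H, (∀ h h' : ↥H, (h' : G) = g * h * g⁻¹ → (θ' : ↥H → ℂ) h' = (θ : ↥H → ℂ) h) → θ' ∈ b)) : ∃ θ ∈ b, Cfsg.blockHeight p b (θ : ↥H → ℂ) = 0 ∧ ∃ S : Subgroup G, S ≤ T ∧ (∀ g : G, g ∈ S ↔ (g ∈ T ∧ ∀ h h' : ↥H, (h' : G) = g * h * g⁻¹ → (θ : ↥H → ℂ) h' = (θ : ↥H → ℂ) h)) ∧ ¬ p ∣ S.relIndex T := by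
  haveI := charP_kk hM
  have := Fintype.ofFinite H
  have hT' : T = stab (eb M H b) := by
    ext g
    rw [hT, stab_variant_iff (mem_normalizer_of_normal H g), mem_stab,
      ca_eb_eq_iff (fB_mem_VG hM hb) (mem_normalizer_of_normal H g)]
  have h2 := isPrim_eb hM hb
  have h1 : eb M H b ∈ Fix (kk M) T := hT' ▸ mem_Fix_stab _
  have hHT : H ≤ T := hT' ▸ mem_Fix_iff_le_stab.1 h2.mem.2
  have hTH : T ≤ 𝐍 H := le_top.trans (top_le_norm H)
  obtain ⟨D, hD⟩ := exists_isDef p hHT hTH (h2.of_fix hHT h1)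
  obtain ⟨f, h3, h4, h5⟩ := exists_cover_Br hD.isP le_top (Fix_anti hD.le h1) hD.ne
  obtain ⟨B, hB, rfl⟩ := exists_block_of_isPrim hM h3
  obtain ⟨P, hP, h6⟩ := ((exists_isDef_ge le_rfl top_le_norm_top h3 le_top hD.isP h5))
  rw [← isDefectGroup_iff hM hB] at hP
  obtain ⟨χ, hχ, h7⟩ := H7.exists_blockHeight_eq_zero (p := p) (isPBlock_nonempty hM hB)
  obtain ⟨θ, hθ, h8⟩ := exists_below_of_cover hM hB hb h4 hχ
  have h9 := factorization_degree_ge (p := p) h8
  have hI : H6.inertia θ.1 ≤ T := hT' ▸ inertia_le_stab hM hb hθ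
  obtain ⟨h11, h12⟩ := hD.stable hHT hTH h2 h1
  have h13 := (isDefectGroup_subgroupOf_iff' hM hb inf_le_right).2 h11
  have e1 := H21.factorization_degree (p := p) hχ
  have e2 := H21.factorization_degree (p := p) hθ
  have e3 := factorization_card_defect hM hB hP
  have e4 := factorization_card_defect hM hb h13
  rw [card_subgroupOf_of_le inf_le_right] at e4
  have e5 := factorization_card_eq (p := p) h6
  have e6 := factorization_card_eq (p := p) (inf_le_left : D ⊓ H ≤ D)
  have e7 := factorization_card_eq (p := p) (le_sup_left : H ≤ H ⊔ D)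
  rw [relIndex_sup_eq (hD.le.trans hTH)] at e7
  have e8 := factorization_card_eq (p := p) (sup_le hHT hD.le)
  rw [Nat.factorization_eq_zero_of_not_dvd h12] at e8
  have e9 := factorization_index_eq (p := p) hI
  have e10 := H7.factorization_index_add (p := p) T
  refine ⟨θ, hθ, by omega, H6.inertia θ.1, hI, fun g => ⟨fun hg => ⟨hI hg, fun h h' e => ?_⟩,
    fun hg => H6.mem_inertia'.2 fun n => hg.2 _ _ rfl⟩, fun h => ?_⟩
  · rw [← H6.mem_inertia'.1 hg h]
    exact congrArg θ.1 (Subtype.ext e)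
  · have := hM.1.factorization_pos_of_dvd (relIndex_ne_zero' _ _) h
    omega

end Cfsg.Agent.S4723
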