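import Cfsg.Statements.S4725
import Cfsg.Agent.H8.Ht

set_option autoImplicit false
open Cfsg

namespace Cfsg.Agent.S4725

open H8 H28 H5 MonoidAlgebra
open H7 (eB fB VG redG ev fB_mem_VG isPBlock_principalBlock isPBlock_nonempty)

/-- Let p be a prime, M a maximal ideal of the algebraic integers containing p, H a subgroup of the finite group G, and b a p-block of H inducing the p-block B of G, with b and B of the same defect. Then for every height-zero ζ ∈ b there is a height-zero χ ∈ B whose multiplicity in the character induced from ζ is not divisible by p. -/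
theorem result {G : Type*} [Group G] [Fintype G] (p : ℕ) [Fact p.Prime] (M : Ideal Cfsg.AlgInt) (hM : Cfsg.IsPModular p M) (H : Subgroup G) (b : Set (Cfsg.IrrCharacter ↥H)) (B : Set (Cfsg.IrrCharacter G)) (hind : Cfsg.IsInducedBlock M H b B) (hdef : Cfsg.blockDefect p b = Cfsg.blockDefect p B) (ζ : Cfsg.IrrCharacter ↥H) (hζ : ζ ∈ b) (hζ0 : Cfsg.blockHeight p b (ζ : ↥H → ℂ) = 0) : ∃ χ ∈ B, Cfsg.blockHeight p B (χ : G → ℂ) = 0 ∧ ∃ a : ℕ, Cfsg.classInner (Cfsg.indFun H (ζ : ↥H → ℂ)) (χ : G → ℂ) = (a : ℂ) ∧ ¬ p ∣ a := by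
  classical
  by_contra hc
  push Not at hc
  have h1 := val_blockPart_indFun hM hind hζ
  have h2 := H21.factorization_degree (p := p) hζ
  have h3 := H7.factorization_index_add (p := p) H
  rw [charDegree_indFun, Nat.factorization_mul Subgroup.index_ne_zero_of_finite
    (H7.charDegree_ne_zero ζ), Finsupp.add_apply, blockPart_one_eq_sum] at h1
  refine ne_of_lt (Valuation.map_sum_lt _ (pow_ne_zero _ (val_p_ne_zero hM)) fun χ hχ => ?_) h1
  have h4 := (Finset.mem_filter.1 hχ).2
  have h5 := H21.factorization_degree (p := p) h4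
  obtain ⟨a, ha⟩ := (ζ.2.isCharacter.ind (H := H)).exists_classInner_nat χ.2.isCharacter
  rw [ha, map_mul, H7.val_irr_one hM]
  by_cases h0 : blockHeight p B χ.1 = 0
  · rw [show (charDegree χ.1).factorization p =
      H.index.factorization p + (charDegree ζ.1).factorization p by omega]
    exact mul_lt_of_lt_one_left (pow_pos (val_p_pos hM) _)
      ((val_natCast_lt_one_iff hM a).2 (hc χ h4 h0 a ha))
  · exact lt_of_le_of_lt (mul_le_of_le_one_left' (val_natCast_le_one M a))
      ((val_p_pow_lt_iff hM).2 (by omega))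

end Cfsg.Agent.S4725
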