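import Cfsg.Statements.S4726
import Cfsg.Agent.H8.Ht

set_option autoImplicit false
open Cfsg

namespace Cfsg.Agent.S4726

open H8 H28 H5 MonoidAlgebra
open H7 (eB fB VG redG ev fB_mem_VG isPBlock_principalBlock isPBlock_nonempty)

/-- Let p be a prime, M a maximal ideal of the algebraic integers containing p, H a subgroup of the finite group G and b a p-block of H with defect group D₀ such that C_G(D₀) ≤ H. Then b induces a block of G, and for every block B of G induced by b there is a defect group D of B with Z(D) ≤ Z(D₀) ≤ D₀ ≤ D (as subgroups of G). In particular, if the defect groups of B are abelian then D₀ is a defect group of B. -/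
theorem result {G : Type*} [Group G] [Finite G] (p : ℕ) [Fact p.Prime] (M : Ideal Cfsg.AlgInt) (hM : Cfsg.IsPModular p M) (H : Subgroup G) (b : Set (Cfsg.IrrCharacter ↥H)) (hb : Cfsg.IsPBlock M b) (D₀ : Subgroup ↥H) (hD₀ : Cfsg.IsDefectGroup p M b D₀) (hC : Subgroup.centralizer ((D₀.map H.subtype : Subgroup G) : Set G) ≤ H) : Cfsg.InducedBlockDefined M H b ∧ ∀ B : Set (Cfsg.IrrCharacter G), Cfsg.IsInducedBlock M H b B → (∃ D : Subgroup G, Cfsg.IsDefectGroup p M B D ∧ (Subgroup.center ↥D).map D.subtype ≤ ((Subgroup.center ↥D₀).map D₀.subtype).map H.subtype ∧ ((Subgroup.center ↥D₀).map D₀.subtype).map H.subtype ≤ D₀.map H.subtype ∧ D₀.map H.subtype ≤ D) ∧ (∀ D : Subgroup G, Cfsg.IsDefectGroup p M B D → IsMulCommutative ↥D → Cfsg.IsDefectGroup p M B (D₀.map H.subtype)) := by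
  haveI := charP_kk hM
  have h1 := (isDefectGroup_iff_map hM hb).1 hD₀
  have h2 := isPrim_eb hM hb
  refine ⟨(inducedBlockDefined_iff hM hb).2 (h1.exists_ind le_top h2 (inf_le_right.trans hC)),
    fun B hind => ?_⟩
  obtain ⟨-, hB, h3⟩ := (isInducedBlock_iff_ind hM).1 hind
  obtain ⟨P, h4, h5, h6⟩ := h3.exists_isDef_cent le_top h2 (isPrim_eB hM hB) h1
    (inf_le_right.trans hC)
  refine ⟨⟨P, (isDefectGroup_iff hM hB).2 h4, ?_, Subgroup.map_mono (Subgroup.map_subtype_le _),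
    h5⟩, fun D hD hc => ?_⟩
  · rintro _ ⟨z, hz, rfl⟩
    have h7 : (z : G) ∈ 𝐂 (D₀.map H.subtype) := mem_centralizer'.2 fun x hx =>
      congrArg Subtype.val (Subgroup.mem_center_iff.1 hz ⟨x, h5 hx⟩)
    obtain ⟨y, hy, h8⟩ := h6 ⟨z.2, h7⟩
    refine ⟨y, ⟨⟨y, hy⟩, Subgroup.mem_center_iff.2 fun w => Subtype.ext (Subtype.ext ?_), rfl⟩, h8⟩
    have := mem_centralizer'.1 h7 _ (Subgroup.mem_map_of_mem H.subtype w.2)
    rw [← h8] at this
    exact this
  · obtain ⟨g, -, rfl⟩ := ((isDefectGroup_iff hM hB).1 hD).exists_conj h4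
    have h7 : cj g D ≤ 𝐂 (cj g D) := by
      rw [← cj_centralizer]; exact cj_mono g (le_centralizer_self_iff.2 hc)
    rw [le_antisymm h5 (fun x hx => h6 ⟨hx, centralizer_anti h5 (h7 hx)⟩)]
    exact (isDefectGroup_iff hM hB).2 h4

end Cfsg.Agent.S4726
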