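import Cfsg.Statements.S4727
import Cfsg.Agent.H7.PCon

set_option autoImplicit false
open Cfsg

open H5 H7 H8 H28

namespace Cfsg.Agent.S4727

theorem aux {G : Type*} [Group G] [Finite G] {p : ℕ} {M : Ideal AlgInt} (hM : IsPModular p M)
    {π : Set ℕ} (hπ : p ∉ π) {B : Set (IrrCharacter G)} {D : Subgroup G}
    (hD : IsDefectGroup p M B D) {B₁ : Set (IrrCharacter (𝐍 D))}
    (h : IsInducedBlock M (𝐍 D) B₁ B) (hker : ∀ n ∈ piCore π (𝐍 D), n ∈ blockKer B₁) {y : G}
    {C : Subgroup G} (hy : IsSec p y C) {b : Set (IrrCharacter C)} (hb : IsInducedBlock M C b B) :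
    ∀ x ∈ piCore π C, ∀ ξ ∈ b, ξ.1 x = ξ.1 1 := by
  haveI := Fact.mk hM.1
  obtain rfl := hy.eq_cent
  have hP := hy.pelt.isPGroup_zpowers
  obtain ⟨-, h1, -, h2⟩ := (isBrauerPairOf_iff hM).1 ((isBrauerPairOf_iff_induced hM hP).2 hb)
  have h3 := triv_of_brauer_corr hM hπ hD h hker (isBP_eb hM hP h1) h2
  rw [top_inf_eq] at h3
  exact (triv_eb_iff hM (fun h => hπ (H1.piCore_isPi p hM.1 h)) h1).1 h3

/-- Let p be a prime, π a set of primes containing p, M a maximal ideal of the algebraic integers containing p, and B a p-block of the finite group G with defect group D; let B₁ be the block of N_G(D) with defect group D that induces B (the Brauer correspondent of B). Suppose every element of O_π'(N_G(D)), the largest normal subgroup of N_G(D) whose order has no prime divisor in π, lies in the kernel of every member of B₁. If y is a p-element whose centralizer C has a normal Hall π'-subgroup (every element of C whose order has no prime divisor in π lies in O_π'(C)),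 then χ(y x) = χ(y) for every χ ∈ B and every x ∈ C whose order has no prime divisor in π. -/
theorem result {G : Type*} [Group G] [Finite G] (p : ℕ) [Fact p.Prime] (M : Ideal Cfsg.AlgInt) (hM : Cfsg.IsPModular p M) (π : Set ℕ) (hpπ : p ∈ π) (B : Set (Cfsg.IrrCharacter G)) (hB : Cfsg.IsPBlock M B) (D : Subgroup G) (hBD : Cfsg.IsDefectGroup p M B D) (B₁ : Set (Cfsg.IrrCharacter ↥(Subgroup.normalizer (D : Set G)))) (hB₁ : Cfsg.IsInducedBlock M (Subgroup.normalizer (D : Set G)) B₁ B) (hB₁D : Cfsg.IsDefectGroup p M B₁ (D.subgroupOf (Subgroup.normalizer (D : Set G)))) (hker : ∀ n : ↥(Subgroup.normalizer (D : Set G)), n ∈ Cfsg.piCore {q | q ∉ π} ↥(Subgroup.normalizer (D : Set G)) → n ∈ Cfsg.blockKer B₁) (y : G) (hy : ∃ k : ℕ, orderOf y = p ^ k) (hC : ∀ x : ↥(Subgroup.centralizer ({y} : Set G)), (∀ q : ℕ, q.Prime → q ∣ orderOf x → q ∉ π) → x ∈ Cfsg.piCore {q | q ∉ π} ↥(Subgroup.centralizer ({y} : Set G))) : ∀ χ ∈ B, ∀ x : G, x ∈ Subgroup.centralizer ({y} : Set G)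 → (∀ q : ℕ, q.Prime → q ∣ orderOf x → q ∉ π) → (χ : G → ℂ) (y * x) = (χ : G → ℂ) y := by
  classical
  intro χ hχ x hx hx'
  have hπ : p ∉ {q | q ∉ π} := fun h => h hpπ
  have hs := isSec_cent (G := G) (p := p) hy
  have := Fintype.ofFinite (Subgroup.centralizer ({y} : Set G))
  have h1 : ¬ p ∣ orderOf (⟨x, hx⟩ : Subgroup.centralizer ({y} : Set G)) := fun h =>
    hx' p hM.1 (by rwa [Subgroup.orderOf_mk] at h) hpπ
  have h2 : ¬ p ∣ orderOf (1 : Subgroup.centralizer ({y} : Set G)) := by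
    rw [orderOf_one, Nat.dvd_one]; exact hM.1.ne_one
  have h3 := hs.apply_eq_sum_sec hM hB hχ h1
  have h4 := hs.apply_eq_sum_sec hM hB hχ h2
  simp only [OneMemClass.coe_one, mul_one] at h3 h4
  rw [h3, h4]
  refine Finset.sum_congr rfl fun b hb => ?_
  rw [sec_of_reg _ h1, sec_of_reg _ h2, blockPart_eq_sum, blockPart_eq_sum]
  refine Finset.sum_congr rfl fun ξ hξ => ?_
  rw [aux hM hπ hBD hB₁ hker hs (mem_indBlocks.1 hb) _ (hC ⟨x, hx⟩ (by
    simpa only [Subgroup.orderOf_mk] using hx')) ξ (Finset.mem_filter.1 hξ).2]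

end Cfsg.Agent.S4727
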