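import Cfsg.Statements.S4728
import Cfsg.Agent.H7.PCon

set_option autoImplicit false
open Cfsg

open H5 H7 H8 H28

namespace Cfsg.Agent.S4728

/-- Let p be a prime, π a set of primes containing p, M a maximal ideal of the algebraic integers containing p, B a p-block of the finite group G with defect group D, and B₁ the block of N_G(D) with defect group D inducing B. Let D₀ be a p-subgroup, H₀ = D₀·C_G(D₀), and b a block of H₀ inducing B. Write O_π'(X) for the largest normal subgroup of X whose order has no prime divisor in π. Suppose that O_π'(C_G(D₀)) is a normal Hall π'-subgroup of C_G(D₀) (it contains every element of C_G(D₀) whose order has no prime divisor in π) and that every element of it lies in the kernel of every member of b. Then every element of O_π'(N_G(D)) lies in the kernel of every member of B₁. -/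
theorem result {G : Type*} [Group G] [Finite G] (p : ℕ) [Fact p.Prime] (M : Ideal Cfsg.AlgInt) (hM : Cfsg.IsPModular p M) (π : Set ℕ) (hpπ : p ∈ π) (B : Set (Cfsg.IrrCharacter G)) (hB : Cfsg.IsPBlock M B) (D : Subgroup G) (hBD : Cfsg.IsDefectGroup p M B D) (B₁ : Set (Cfsg.IrrCharacter ↥(Subgroup.normalizer (D : Set G)))) (hB₁ : Cfsg.IsInducedBlock M (Subgroup.normalizer (D : Set G)) B₁ B) (hB₁D : Cfsg.IsDefectGroup p M B₁ (D.subgroupOf (Subgroup.normalizer (D : Set G)))) (D₀ : Subgroup G) (hD₀ : IsPGroup p D₀) (H₀ : Subgroup G) (hH₀ : H₀ = D₀ ⊔ Subgroup.centralizer (D₀ : Set G)) (b : Set (Cfsg.IrrCharacter ↥H₀)) (hb : Cfsg.IsInducedBlock M H₀ b B) (hcompl : ∀ x : ↥(Subgroup.centralizer (D₀ : Set G)), (∀ q : ℕ, q.Prime → q ∣ orderOf x → q ∉ π) → x ∈ Cfsg.piCore {q | q ∉ π} ↥(Subgroup.centralizer (D₀ : Set G))) (hkerb : ∀ x : ↥(Subgroup.centralizer (D₀ : Set G)), x ∈ Cfsg.piCore {q | q ∉ π} ↥(Subgroup.centralizer (D₀ :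 Set G)) → ∀ θ ∈ b, ∀ h : ↥H₀, (h : G) = (x : G) → (θ : ↥H₀ → ℂ) h = (θ : ↥H₀ → ℂ) 1) : ∀ n : ↥(Subgroup.normalizer (D : Set G)), n ∈ Cfsg.piCore {q | q ∉ π} ↥(Subgroup.normalizer (D : Set G)) → n ∈ Cfsg.blockKer B₁ := by
  haveI := charP_kk hM
  subst hH₀
  have hπ : p ∉ {q | q ∉ π} := fun h => h hpπ
  obtain ⟨hb', -, h1⟩ := (isInducedBlock_iff_ind hM).1 hb
  have h3 := isPrim_eb hM hb'
  have hbp := (isBP_iff_sup_cent hD₀).2 h3
  have h4 := (ind_norm_iff hD₀ le_sup_left (inf_le_right.trans le_sup_right) le_top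
    (sup_cent_le_norm D₀) h3 (isPrim_eB hM hB)).1 h1
  set K := piCoreOf {q | q ∉ π} (𝐂 D₀) with hK
  have hKle : K ≤ D₀ ⊔ 𝐂 D₀ := (piCoreOf_le _ _).trans le_sup_right
  have h5 : Triv K (eb M _ b) := by
    rw [← map_subtype_subgroupOf hKle, triv_eb_iff hM (by
      rw [card_subgroupOf hKle]; exact not_dvd_card_piCoreOf hM.1 hπ _) hb']
    rintro x ⟨y, hy, h⟩ χ hχ
    exact hkerb y hy χ hχ x h.symm
  obtain ⟨e, m⟩ := exists_maxP le_rfl top_le_norm_top (isPrim_eB hM hB)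
    ((H8.isDefectGroup_iff hM hB).1 hBD)
  obtain ⟨x, -, hx⟩ := m.exists_conj hbp h4
  refine (triv_max_iff hM hπ hBD hB₁ m.bp.prim.ne m.br).1 ((PLE.triv_up hx (h5.ca x)).mono ?_)
  intro y hy
  have h6 : y ∈ 𝐂 D := (piCoreOf_le _ _ hy).2
  refine ⟨mem_cj.2 ?_, h6⟩
  have h7 : x⁻¹ * y * x ∈ 𝐂 D₀ := by
    rw [← mem_cj, cj_centralizer]; exact centralizer_anti hx.le h6
  refine ⟨⟨_, h7⟩, hcompl _ fun q hq h => H1.piCoreOf_isPi (π := {q | q ∉ π}) (⊤ ⊓ 𝐂 D) q hq (h.trans ?_), rfl⟩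
  rw [Subgroup.orderOf_mk]
  have := orderOf_conj' x⁻¹ y
  rw [inv_inv] at this
  rw [this]
  exact Subgroup.orderOf_dvd_natCard _ hy

end Cfsg.Agent.S4728
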