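import Cfsg.Statements.S4729
import Cfsg.Agent.H21.BT

set_option autoImplicit false
open Cfsg

namespace Cfsg.Agent.S4729

open H5 H7 H8 H28 H21 Finset
open scoped ComplexConjugate

/-- Let p be a prime, M a maximal ideal of the algebraic integers containing p, G a finite perfect group and P a Sylow p-subgroup. If the principal p-block of G contains a faithful irreducible character of degree less than 2p, then the centralizer of P is a p-group. -/
theorem result {G : Type*} [Group G] [Finite G] (p : ℕ) [Fact p.Prime] (M : Ideal Cfsg.AlgInt) (hM : Cfsg.IsPModular p M) (hperf : commutator G = ⊤) (P : Sylow p G) (χ : Cfsg.IrrCharacter G) (hχ : χ ∈ Cfsg.principalBlock M G) (hfaith : ∀ g : G, (χ : G → ℂ) g = (χ : G → ℂ) 1 → g = 1) (hdeg : Cfsg.charDegree (χ : G → ℂ) < 2 * p) : IsPGroup p ↥(Subgroup.centralizer ((P : Subgroup G) : Set G)) := by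
  intro ⟨g, hg⟩
  obtain ⟨a, b, -, ⟨k, rfl⟩, ⟨n, h1⟩, h2, h3, -⟩ := H3.exists_decomp hM.1.ne_zero g
  rw [hfaith _ (eq_one_of_principal_small hM hperf hχ hdeg (hM.1.coprime_iff_not_dvd.1 h2.symm)
    fun h => P.not_dvd_index (h.trans (Subgroup.index_dvd_of_le fun x hx =>
      Subgroup.mem_centralizer_singleton_iff.2 (Commute.zpow_right (hg x hx) k).eq))), mul_one] at h3
  exact ⟨n, Subtype.ext (h3 ▸ h1)⟩

end Cfsg.Agent.S4729
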