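import Cfsg.Statements.S4731
import Cfsg.Agent.H21.BT

set_option autoImplicit false
open Cfsg

namespace Cfsg.Agent.S4731

open H5 H7 H8 H28 H21 Finset
open scoped ComplexConjugate

/-- Let p ≠ q be primes, M_p and M_q maximal ideals of the algebraic integers containing p and q respectively, and G a finite group with no element of order pq; let q^b be the q-part of the order of G. For a p-block B_p (relative to M_p), a q-block B_q (relative to M_q) and a p-singular element y, the sum of χ(1)χ(y) over the irreducible characters χ lying in both B_p and B_q is q^b times an algebraic integer. -/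
theorem result {G : Type*} [Group G] [Finite G] (p q : ℕ) [Fact p.Prime] [Fact q.Prime] (hpq : p ≠ q) (Mp Mq : Ideal Cfsg.AlgInt) (hMp : Cfsg.IsPModular p Mp) (hMq : Cfsg.IsPModular q Mq) (hno : ∀ g : G, orderOf g ≠ p * q) (b : ℕ) (hb : (Nat.card G).factorization q = b) (Bp : Set (Cfsg.IrrCharacter G)) (hBp : Cfsg.IsPBlock Mp Bp) (Bq : Set (Cfsg.IrrCharacter G)) (hBq : Cfsg.IsPBlock Mq Bq) (y : G) (hy : p ∣ orderOf y) : ∃ ω : Cfsg.AlgInt, ∑ᶠ χ ∈ Bp ∩ Bq, (Cfsg.charDegree (χ : G → ℂ) : ℂ) * (χ : G → ℂ) y = (q : ℂ) ^ b * (ω : ℂ) := by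
  classical
  obtain ⟨c, h1, h2⟩ := block_inter hMp hMq hBp hBq (fun g => not_dvd_of_orderOf_ne
    ((Nat.coprime_primes hMp.1 hMq.1).2 hpq) hno (orderOf_pos g).ne') hy
  exact ⟨⟨c, h1⟩, by simpa only [finsum_mem_irr, ← irr_apply_one, ← hb] using h2⟩

end Cfsg.Agent.S4731
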