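import Cfsg.Statements.S4732
import Cfsg.Agent.H8.BF3
import Cfsg.Agent.S4469

set_option autoImplicit false
universe u v
open Cfsg

namespace Cfsg.Agent.S4732

open H8

/-- Let p be a prime. There is a function f of two natural-number arguments such that every finite group G admitting a faithful representation of degree n over a field of characteristic p, with Sylow p-subgroups of order p^m, has a normal abelian subgroup A with [G : A] < f(m, n). -/
theorem result (p : ℕ) [Fact p.Prime] : ∃ f : ℕ → ℕ → ℕ, ∀ (G : Type u) [Group G] [Finite G] (F : Type v) [Field F] [CharP F p] (n : ℕ) (ρ : Representation F G (Fin n → F)), Function.Injective ρ → ∀ m : ℕ, (Nat.card G).factorization p = m → ∃ A : Subgroup G, A.Normal ∧ IsMulCommutative A ∧ A.index < f m n := by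
  let J : ℕ → ℕ := fun n => Nat.factorial n * 12 ^ (n * (Nat.primeCounting (n + 1) + 1))
  refine ⟨fun m n => Nat.factorial (BF.bd2 (p ^ m) n * ∑ d ∈ Finset.range (n * n + 1), J d) + 1,
    fun G _ _ F _ _ n ρ hρ m hm => ?_⟩
  classical
  have := Fintype.ofFinite G
  obtain ⟨M, hM⟩ := H7.exists_isPModular (Fact.out : p.Prime)
  have := charP_kk hM
  obtain ⟨σ, hσ⟩ := BF.exists_spec (k := kk M) (p := p)
    ((LinearMap.toMatrixAlgEquiv' (R := F) (n := Fin n)).toMulEquiv.toMonoidHom.comp ρ)
    ((LinearMap.toMatrixAlgEquiv' (R := F) (n := Fin n)).injective.comp hρ)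
  obtain ⟨K, hK, h1⟩ := BF.exists_coprime (p := p) hσ
  obtain ⟨χ, h2, h3, h4⟩ := BF.exists_char hM hK (σ.comp K.subtype) (hσ.comp K.subtype_injective)
  obtain ⟨A, -, h5, h6⟩ := S4469.result χ h2 h3 _ rfl
  refine ⟨(A.map K.subtype).normalCore, inferInstance, ⟨⟨fun a b => Subtype.ext ?_⟩⟩, ?_⟩
  · obtain ⟨x, hx, e1⟩ := Subgroup.normalCore_le _ a.2
    obtain ⟨y, hy, e2⟩ := Subgroup.normalCore_le _ b.2
    rw [Subgroup.coe_mul, Subgroup.coe_mul, ← e1, ← e2, ← map_mul, h5 x hx y hy, map_mul]
  · rw [Subgroup.normalCore_eq_ker, Subgroup.index_ker]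
    refine Nat.lt_succ_of_le ((Subgroup.card_le_card_group _).trans ?_)
    rw [Nat.card_perm]
    refine Nat.factorial_le ?_
    rw [← Subgroup.index, Subgroup.index_map_subtype, mul_comm, ← hm]
    exact Nat.mul_le_mul h1 (h6.trans (Finset.single_le_sum (f := J) (fun _ _ => Nat.zero_le _)
      (Finset.mem_range.2 (Nat.lt_succ_of_le h4))))

end Cfsg.Agent.S4732
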