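import Cfsg.Statements.S4734
import Cfsg.Agent.H7.PCon

set_option autoImplicit false
open Cfsg

open H5 H7 H8 H28

namespace Cfsg.Agent.S4734

/-- Let p be a prime, π a set of primes containing p, M a maximal ideal of the algebraic integers containing p, B a p-block of the finite group G with defect group D, and B₁ the block of N_G(D) with defect group D inducing B. Write O_π'(X) for the largest normal subgroup of X whose order has no prime divisor in π, and suppose every element of O_π'(N_G(D)) lies in the kernel of every member of B₁. Let G₀ be a subgroup and B₀ a block of G₀ with defect group D₀ such that C_G(D₀) ≤ G₀ and B₀ induces B. Then every element of O_π'(G₀) lies in the kernel of every member of B₀. -/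
theorem result {G : Type*} [Group G] [Finite G] (p : ℕ) [Fact p.Prime] (M : Ideal Cfsg.AlgInt) (hM : Cfsg.IsPModular p M) (π : Set ℕ) (hpπ : p ∈ π) (B : Set (Cfsg.IrrCharacter G)) (hB : Cfsg.IsPBlock M B) (D : Subgroup G) (hBD : Cfsg.IsDefectGroup p M B D) (B₁ : Set (Cfsg.IrrCharacter ↥(Subgroup.normalizer (D : Set G)))) (hB₁ : Cfsg.IsInducedBlock M (Subgroup.normalizer (D : Set G)) B₁ B) (hB₁D : Cfsg.IsDefectGroup p M B₁ (D.subgroupOf (Subgroup.normalizer (D : Set G)))) (hker : ∀ n : ↥(Subgroup.normalizer (D : Set G)), n ∈ Cfsg.piCore {q | q ∉ π} ↥(Subgroup.normalizer (D : Set G)) → n ∈ Cfsg.blockKer B₁) (G₀ : Subgroup G) (B₀ : Set (Cfsg.IrrCharacter ↥G₀)) (hB₀ : Cfsg.IsInducedBlock M G₀ B₀ B) (D₀ : Subgroup ↥G₀) (hD₀ : Cfsg.IsDefectGroup p M B₀ D₀) (hC : Subgroup.centralizer ((D₀.map G₀.subtype : Subgroup G) : Set G) ≤ G₀) : ∀ x : ↥G₀, x ∈ Cfsg.piCore {q | q ∉ π} ↥G₀ → x ∈ Cfsg.blockKer B₀ := by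
  haveI := charP_kk hM
  have hπ : p ∉ {q | q ∉ π} := fun h => h hpπ
  obtain ⟨hb, -, h1⟩ := (isInducedBlock_iff_ind hM).1 hB₀
  have h2 := (isDefectGroup_iff_map hM hb).1 hD₀
  have h3 := isPrim_eb hM hb
  have hfix := Fix_anti h2.le h3.mem.2
  obtain ⟨g, hg, h4⟩ := exists_prim_Br (H := ⊤) h2.isP le_top h3.mem h3.idem
    (inf_le_right.trans hC) hfix h2.ne
  have h5 := (ind_iff_Br h2.isP le_top (le_normalizer_of_le h2.le) le_top (inf_le_right.trans hC)
    h3 hfix hg h4 (isPrim_eB hM hB)).1 h1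
  have h6 := triv_of_brauer_corr hM hπ hBD hB₁ hker ⟨le_top, h2.isP, hg⟩ h5
  have h7 := triv_down (K := piCoreOf {q | q ∉ π} G₀) h3 (not_dvd_card_piCoreOf hM.1 hπ _)
    (piCoreOf_le _ _) (H1.le_normalizer_piCoreOf _) h2.isP
    (h2.le.trans (H1.le_normalizer_piCoreOf _)) hfix hg.ne h4 (h6.mono (by
      rw [top_inf_eq]; exact H1.piCoreOf_inf_le_piCoreOf hC))
  exact (triv_eb_iff hM (fun h => hπ (H1.piCore_isPi p hM.1 h)) hb).1 h7

end Cfsg.Agent.S4734
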