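import Cfsg.Statements.S4735
import Cfsg.Agent.H21.BT
import Cfsg.Agent.H7.Dade

set_option autoImplicit false
open Cfsg

namespace Cfsg.Agent.S4735

open H5 H7 H8 H28 H21 Finset
open scoped ComplexConjugate

/-- Let p be a prime, M a maximal ideal of the algebraic integers containing p, G a finite group, H = O_p'(G) and Ḡ = G/H. For x ∈ G write λ(G, x) for the sum of |χ(x)|^2 over the irreducible characters χ in the principal p-block of G. Then λ(G, x) is a positive integer, λ(G, x) = λ(Ḡ, x̄) where x̄ is the image of x, and λ(G, x) ≤ #C_Ḡ(x̄). Moreover λ(G, 1) = [G : H] if and only if the principal block is the only p-block of Ḡ. -/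
theorem result {G : Type*} [Group G] [Finite G] (p : ℕ) [Fact p.Prime] (M : Ideal Cfsg.AlgInt) (hM : Cfsg.IsPModular p M) (x : G) : (∃ n : ℕ, 0 < n ∧ ∑ᶠ χ ∈ Cfsg.principalBlock M G, Complex.normSq ((χ : G → ℂ) x) = n) ∧ ∑ᶠ χ ∈ Cfsg.principalBlock M G, Complex.normSq ((χ : G → ℂ) x) = ∑ᶠ ψ ∈ Cfsg.principalBlock M (G ⧸ Cfsg.pPrimeCore p G), Complex.normSq ((ψ : G ⧸ Cfsg.pPrimeCore p G → ℂ) (QuotientGroup.mk x)) ∧ ∑ᶠ χ ∈ Cfsg.principalBlock M G, Complex.normSq ((χ : G → ℂ) x) ≤ (Nat.card ↥(Subgroup.centralizer ({(QuotientGroup.mk x : G ⧸ Cfsg.pPrimeCore p G)} : Set (G ⧸ Cfsg.pPrimeCore p G))) : ℝ) ∧ ((∑ᶠ χ ∈ Cfsg.principalBlock M G, Cfsg.charDegree (χ : G → ℂ) ^ 2) = (Cfsg.pPrimeCore p G).index ↔ ∀ B : Set (Cfsg.IrrCharacter (G ⧸ Cfsg.pPrimeCore p G)), Cfsg.IsPBlock M B → B = Cfsg.principalBlock M (G ⧸ Cfsg.pPrimeCore p G)) := by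
  classical
  have h1 : Set.BijOn (infl _ (QuotientGroup.mk'_surjective (pPrimeCore p G)))
      (principalBlock M _) (principalBlock M G) :=
    ⟨fun _ => infl_mem_principal hM, infl_injective.injOn, fun χ hχ => by
      obtain ⟨ψ, rfl⟩ := exists_infl_eq (hf := QuotientGroup.mk'_surjective (pPrimeCore p G))
        (χ := χ) (by simpa using pPrimeCore_le_charKer hM hχ)
      exact ⟨ψ, (infl_mem_principal_iff_of_not_dvd hM
        (by simpa using not_dvd_card_pPrimeCore hM.1)).1 hχ, rfl⟩⟩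
  have h2 := (finsum_mem_eq_of_bijOn (g := fun χ => Complex.normSq (χ.1 x)) _ h1
    fun _ _ => rfl).symm
  refine ⟨?_, h2, ?_, ?_⟩
  · obtain ⟨n, hn⟩ := exists_int_of_fixed
      (x := ∑ χ with χ ∈ principalBlock M G, χ.1 x * χ.1 x⁻¹) (IsIntegral.sum _ fun χ _ =>
        (χ.2.isGeneralizedCharacter.isIntegral_apply _).mul
          (χ.2.isGeneralizedCharacter.isIntegral_apply _)) fun σ => by
      obtain ⟨k, hk, h⟩ := exists_pow_of_ringHom_char (G := G) σ.toRingHom
      rw [map_sum, ← sum_irrPow hk (fun χ => (irrPow_mem_principal_iff hk).2) fun χ => χ.1 x * χ.1 x⁻¹]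
      exact sum_congr rfl fun χ _ => (map_mul _ _ _).trans (congrArg₂ _
        (h _ χ.2.isGeneralizedCharacter _) (h _ χ.2.isGeneralizedCharacter _))
    have h3 : ∑ χ with χ ∈ principalBlock M G, Complex.normSq (χ.1 x) = n := by
      simp only [irr_apply_inv, Complex.mul_conj] at hn
      exact_mod_cast hn
    have h4 : (1 : ℝ) ≤ n := h3 ▸ le_trans (by simp [irrOne]) (single_le_sum
      (fun _ _ => Complex.normSq_nonneg _) (mem_filter.2 ⟨mem_univ _, irrOne_mem_principalBlock hM⟩))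
    lift n to ℕ using by exact_mod_cast zero_le_one.trans h4
    exact ⟨n, by exact_mod_cast h4, by rw [finsum_mem_irr, h3, Int.cast_natCast]⟩
  · rw [h2, finsum_mem_irr, ← sum_irr_normSq]
    exact sum_le_sum_of_subset_of_nonneg (filter_subset _ _) fun _ _ _ => Complex.normSq_nonneg _
  · have h3 : ∑ ψ : IrrCharacter (G ⧸ pPrimeCore p G), charDegree ψ.1 ^ 2 = (pPrimeCore p G).index := by
      have := sum_irr_one_sq (G ⧸ pPrimeCore p G)
      simp only [irr_apply_one] at this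
      exact_mod_cast this
    rw [← finsum_mem_eq_of_bijOn (f := fun ψ => charDegree ψ.1 ^ 2) _ h1 fun _ _ => rfl,
      finsum_mem_irr, ← h3]
    refine ⟨fun h B hB => ?_, fun h => ?_⟩
    · obtain ⟨ψ, hψ⟩ := isPBlock_nonempty hM hB
      refine block_eq_of_mem hM hB isPBlock_principalBlock hψ (by_contra fun h4 => h.not_lt ?_)
      exact sum_lt_sum_of_subset (filter_subset _ _) (mem_univ ψ) (by simpa using h4)
        (pow_pos (charDegree_pos ψ) 2) fun _ _ _ => zero_le
    · rw [filter_true_of_mem fun ψ _ => h _ (isPBlock_blockOf ψ) ▸ mem_blockOf_self hM ψ]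

end Cfsg.Agent.S4735
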