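import Cfsg.Statements.S4736
import Cfsg.Agent.H7.Fong
import Cfsg.Agent.S4713

set_option autoImplicit false
open Cfsg

open H5 H28 H8 H7

namespace Cfsg.Agent.S4736

/-- Let p be a prime, M a maximal ideal of the algebraic integers containing p, and G a finite p-solvable group with Sylow p-subgroup P. Then P is abelian if and only if every irreducible character in the principal p-block of G has height zero. -/
theorem result {G : Type*} [Group G] [Finite G] (p : ℕ) [Fact p.Prime] (M : Ideal Cfsg.AlgInt) (hM : Cfsg.IsPModular p M) (hsolv : Cfsg.IsPSolvable p G) (P : Sylow p G) : IsMulCommutative P ↔ ∀ χ ∈ Cfsg.principalBlock M G, Cfsg.blockHeight p (Cfsg.principalBlock M G) (χ : G → ℂ) = 0 := by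
  refine ⟨fun h χ hχ => ?_, fun h => ?_⟩
  · have := fong_height hM hsolv isPBlock_principalBlock
      ((isDefectGroup_principal_iff hM).2 (H28.isSylowIn_top P)) hχ
    rw [Subgroup.center_eq_top_iff.2 h] at this
    simpa using this
  have hf := QuotientGroup.mk'_surjective (pPrimeCore p G)
  have h2 := H1.isPConstrained_iff_centralizer_quotient.1 (H1.isPConstrained_of_isPSolvable hsolv)
  have h3 := ((S4713.result p (H1.isPSolvable_quotient hsolv _) (P.mapSurjective hf)).2 fun ψ =>
    (blockHeight_principal_eq_zero_iff hM (infl _ hf ψ)).1 (h _ (infl_mem_principal hM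
      (sameBlock_of_centralizer hM H1.pCore_isPGroup (fun g hg h1 => by
        obtain ⟨k, hk⟩ := isPElt_of_mem H1.pCore_isPGroup (h2 hg)
        rcases k with _ | k
        · exact orderOf_eq_one_iff.1 hk
        · exact absurd (hk ▸ dvd_pow_self p k.succ_ne_zero) h1) (irrOne _) ψ)))).2
  refine ⟨⟨fun a b => Subtype.ext (commutatorElement_eq_one_iff_mul_comm.1 ?_)⟩⟩
  refine Subgroup.disjoint_def.1 (Subgroup.disjoint_of_coprime_natCard ?_)
    (mul_mem (mul_mem (mul_mem a.2 b.2) (inv_mem a.2)) (inv_mem b.2)) (?_ : _ ∈ pPrimeCore p G)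
  · obtain ⟨k, hk⟩ := P.2.exists_card_eq
    exact hk ▸ H1.pPrimeCore_coprime.symm.pow_left k
  · rw [← QuotientGroup.ker_mk' (pPrimeCore p G), MonoidHom.mem_ker,
      map_commutatorElement, commutatorElement_eq_one_iff_mul_comm]
    exact congrArg Subtype.val (h3.1.1 ⟨_, Subgroup.mem_map_of_mem _ a.2⟩
      ⟨_, Subgroup.mem_map_of_mem _ b.2⟩)

end Cfsg.Agent.S4736
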