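import Cfsg.Statements.S4955
import Cfsg.Agent.H6.KGV

set_option autoImplicit false
open Cfsg

namespace Cfsg.Agent.S4955
open H6 H20 H19 H18 Subgroup
open scoped Classical

/-- Let X be a finite group with an abelian normal Sylow p-subgroup V (a normal p-subgroup of index prime to p in which any two elements commute), and let G be a complement to V in X. Then for every v in V, writing C for the centralizer of v in G, the number k(X) of conjugacy classes of X satisfies k(X) ≤ (order of C)·(order of V) − ((order of G) − k(G)); the statement is written with the subtracted term moved to the left. In particular, if some v in V is centralized by no nonidentity element of G, then k(X) is at most the order of V. -/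
theorem result {X : Type*} [Group X] [Finite X] (p : ℕ) [Fact p.Prime] (V : Subgroup X) [V.Normal] (hVp : IsPGroup p V) (hidx : ¬ p ∣ V.index) (hab : ∀ a ∈ V, ∀ b ∈ V, a * b = b * a) (G : Subgroup X) (hGV : Subgroup.IsComplement' V G) (v : X) (hv : v ∈ V) : Nat.card (ConjClasses X) + Nat.card G ≤ Nat.card ↥(G ⊓ Subgroup.centralizer ({v} : Set X)) * Nat.card V + Nat.card (ConjClasses G) := by
  have hp : p.Prime := Fact.out
  have hs := sdprod_top hGV
  have hV : Ab V := comm_iff_le_cent.2 fun a ha => mem_cent.2 fun b hb => hab b hb a ha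
  have h1 : #C[v] = #(G ⊓ C[v]) * #V := by
    have := (hs.modl (L := C[v]) (le_cent1_iff.2 (comm_iff_le_cent.1 hV hv))).card
    rw [top_inf_eq] at this
    rw [← this, mul_comm]
  have h2 := sum_irr_ker_deg hs.normal
  have h3 := card_Irr_ker hs
  have h4 := Finset.card_filter_add_card_filter_not (s := Irr (⊤ : Subgroup X)) fun χ => V ≤ cker χ
  rw [hs.relIndex_left] at h2
  rw [← card_Irr_top, ← card_Irr_classes, ← h1, ← h4, h3, add_assoc, add_comm, add_le_add_iff_right,
    ← Nat.cast_le (α := ℝ), ← mul_le_mul_iff_right₀ (Nat.cast_pos.2 (gens_pos v))]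
  calc _ = ∑ χ ∈ Irr ⊤ with ¬ V ≤ cker χ, ((gens v).ncard : ℝ) +
        ∑ χ ∈ Irr ⊤ with V ≤ cker χ, ∑ y ∈ fin (gens v), ‖χ y‖ ^ 2 := by
        rw [← h2, Finset.sum_const, nsmul_eq_mul, Nat.cast_add, mul_add, mul_comm, Nat.cast_sum,
          Finset.mul_sum]
        refine congrArg _ (Finset.sum_congr rfl fun χ h => ?_)
        rw [sum_fin_congr (g := fun _ => (deg χ : ℝ) ^ 2) fun y hy => by
          rw [cker_apply ((Finset.mem_filter.1 h).2 (zpowers_le.2 hv (gens_mem hy))),
            chr_norm_one (irr_chr (Finset.mem_filter.1 h).1)], sum_fin_const]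
        simp
    _ ≤ ∑ χ ∈ Irr ⊤, ∑ y ∈ fin (gens v), ‖χ y‖ ^ 2 := by
        rw [← Finset.sum_filter_not_add_sum_filter (Irr ⊤) fun χ => V ≤ cker χ]
        refine add_le_add (Finset.sum_le_sum fun χ h => ?_) le_rfl
        have h5 := (Finset.mem_filter.1 h).1
        refine card_gens_le (irr_zirr h5) (chr_ne_zero hp (irr_chr h5) (fun e => hidx (e.trans ?_))
          ((pG_iff.2 hVp).elt hv))
        simpa using deg_dvd_of_ab hs.normal h5 (by rw [comm_iff_der.1 hV]; exact bot_le)
    _ = _ := by
        rw [Finset.sum_comm, sum_fin_congr (g := fun _ => (#C[v] : ℝ)) fun y hy => by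
          rw [sum_irr_norm_sq' (mem_top _), top_inf_eq, gens_cent hy], sum_fin_const, nsmul_eq_mul]

end Cfsg.Agent.S4955
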