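import Cfsg.Statements.S4956
import Cfsg.Agent.H6.KGV

set_option autoImplicit false
open Cfsg

namespace Cfsg.Agent.S4956
open H6 H20 H19 H18 Subgroup
open scoped Classical

/-- Let X be a finite group, V an abelian normal subgroup of X (any two elements of V commute) and G a complement to V in X whose order is coprime to that of V. Let S be a set of representatives of the orbits of G on V under conjugation: S lies in V and every element of V is conjugate under G to exactly one member of S. Then the number of conjugacy classes of X equals the sum, over s in S, of the number of conjugacy classes of the centralizer of s in G. -/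
theorem result {X : Type*} [Group X] [Finite X] (V : Subgroup X) [V.Normal] (hab : ∀ a ∈ V, ∀ b ∈ V, a * b = b * a) (G : Subgroup X) (hGV : Subgroup.IsComplement' V G) (hcop : (Nat.card V).Coprime (Nat.card G)) (S : Finset X) (hSV : ∀ s ∈ S, s ∈ V) (hrep : ∀ v ∈ V, ∃! s, s ∈ S ∧ ∃ g ∈ G, g * v * g⁻¹ = s) : Nat.card (ConjClasses X) = ∑ s ∈ S, Nat.card (ConjClasses ↥(G ⊓ Subgroup.centralizer ({s} : Set X))) := by
  have hs := sdprod_top hGV
  have hV : Ab V := comm_iff_le_cent.2 fun a ha => mem_cent.2 fun b hb => hab b hb a ha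
  choose! r hr hu using hrep
  refine Nat.eq_of_mul_eq_mul_right (card_pos G) ?_
  rw [← card_Irr_top, card_Irr_sdprod hV hs hcop, Finset.sum_mul,
    ← Finset.sum_fiberwise_of_maps_to (t := S) (g := r) fun v hv => (hr v (mem_fin.1 hv)).1]
  refine Finset.sum_congr rfl fun s hS => ?_
  rw [Finset.sum_congr (s₂ := fin {y | ∃ x ∈ G, x * s * x⁻¹ = y})
    (g := fun _ => (Irr (G ⊓ C[s])).card * #(G ⊓ C[s])) (Finset.ext fun v => ?_) ?_, sum_fin_const,
    ← card_Irr_classes, ← card_inf_mul_relIndex C[s] G, ← H24.card_conj_orbit, inf_comm C[s],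
    smul_eq_mul, mul_comm, mul_assoc]
  · rfl
  · intro v hv
    obtain ⟨g, hg, rfl⟩ := mem_fin.1 hv
    rw [← cj_cent1, ← cj_of_mem hg, ← cj_inf, card_Irr_cj, card_cj, cj_of_mem hg]
  · simp only [Finset.mem_filter, mem_fin]
    refine ⟨fun ⟨a, b⟩ => ?_, ?_⟩
    · obtain ⟨g, hg, e⟩ := (hr v a).2
      exact ⟨g⁻¹, inv_mem hg, by rw [← b, ← e]; group⟩
    · rintro ⟨g, hg, rfl⟩
      have a := conj_mem_of_norm (hs.norm hg) (hSV s hS)
      exact ⟨a, (hu _ a s ⟨hS, g⁻¹, inv_mem hg, by group⟩).symm⟩

end Cfsg.Agent.S4956
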