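import Cfsg.Statements.S4959
import Cfsg.Agent.H7.RV

set_option autoImplicit false
open Cfsg

open H5 H7 H8 H7.RV

namespace Cfsg.Agent.S4959

/-- Let X be a finite group and V a normal subgroup of X in which every element has order dividing the prime p, whose index in X is prime to p and which is its own centralizer in X; so V is an elementary abelian normal Sylow p-subgroup, and any complement G to V in X is a group of order prime to p acting faithfully on the vector space V by conjugation (the coprime linear setting of the k(GV) problem). Let G be a complement to V in X, let v be in V and let H be the centralizer of v in G. Suppose there is a subgroup U of V normalized by H, on which H acts faithfully, and carrying an H-invariant bi-additive pairing β with values in the integers modulo p that is nondegenerate on U (equivalently: the restriction of the module V to H has a faithful self-dual submodule; such a v is called a real vector for G). Then the number of conjugacy classes of X is at most the order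 of V (the real-vector criterion for the k(GV) problem). The pairing is given as a function on X whose relevant values are those on pairs from U. -/
theorem result {X : Type*} [Group X] [Finite X] (p : ℕ) [Fact p.Prime] (V : Subgroup X) [V.Normal] (hVexp : ∀ v ∈ V, v ^ p = 1) (hidx : ¬ p ∣ V.index) (hself : Subgroup.centralizer (V : Set X) = V) (G : Subgroup X) (hGV : Subgroup.IsComplement' V G) (v : X) (hv : v ∈ V) (U : Subgroup X) (hUV : U ≤ V) (hUinv : ∀ h ∈ G, h * v * h⁻¹ = v → ∀ u ∈ U, h * u * h⁻¹ ∈ U) (hUfaith : ∀ h ∈ G, h * v * h⁻¹ = v → (∀ u ∈ U, h * u * h⁻¹ = u) → h = 1) (β : X → X → ZMod p) (hβl : ∀ u ∈ U, ∀ u' ∈ U, ∀ w ∈ U, β (u * u') w = β u w + β u' w) (hβr : ∀ u ∈ U, ∀ w ∈ U, ∀ w' ∈ U, β u (w * w') = β u w + β u w') (hβinv : ∀ h ∈ G, h * v * h⁻¹ = v → ∀ u ∈ U, ∀ w ∈ U, β (h * u * h⁻¹) (h * w * h⁻¹) = β u w) (hβnd : ∀ u ∈ U, (∀ w ∈ U, β u w = 0) → u = 1) : Nat.card (ConjClasses X) ≤ Nat.card V := by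
  have hp : p.Prime := Fact.out
  obtain ⟨M, hM⟩ := exists_isPModular hp
  have hV : ∀ a ∈ V, ∀ b ∈ V, a * b = b * a := fun a ha b hb => hself.ge hb a ha
  have hc : ∀ h : (G ⊓ Subgroup.centralizer {v} : Subgroup X), h.1 * v * h.1⁻¹ = v := fun h =>
    mul_inv_eq_iff_eq_mul.2 (Subgroup.mem_centralizer_singleton_iff.1 h.2.2)
  let φ := U.normalizerMonoidHom.comp (Subgroup.inclusion (show G ⊓ Subgroup.centralizer {v} ≤ _ from
    fun h hh => Subgroup.mem_normalizer_fintype (hUinv h hh.1 (hc ⟨h, hh⟩))))
  have hH : ¬ p ∣ Nat.card (G ⊓ Subgroup.centralizer {v} : Subgroup X) := fun h => hidx (h.trans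
    (hGV.symm.index_eq_card ▸ Subgroup.card_dvd_of_le inf_le_left))
  obtain ⟨Ψ, h1, h2⟩ := @exists_psi' p _ _ _ _ M U { (inferInstance : Group U) with
      mul_comm := fun a b => Subtype.ext (hV _ (hUV a.2) _ (hUV b.2)) } _
    (fun u => Subtype.ext (hVexp _ (hUV u.2))) hM hH φ
    (fun h e => Subtype.ext (hUfaith h h.2.1 (hc h) fun u hu => congrArg Subtype.val (e ⟨u, hu⟩)))
    (β · ·) (fun a b c => hβl _ a.2 _ b.2 _ c.2) (fun a b c => hβr _ a.2 _ b.2 _ c.2)
    (fun h a b => hβinv h h.2.1 (hc h) _ a.2 _ b.2) fun a e =>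
      Subtype.ext (hβnd _ a.2 fun w hw => e ⟨w, hw⟩)
  haveI : NeZero (p ^ 2 * Nat.card (G ⊓ Subgroup.centralizer {v} : Subgroup X)) :=
    ⟨(mul_pos (pow_pos hp.pos 2) Nat.card_pos).ne'⟩
  obtain ⟨z, hz⟩ := IsCyclic.exists_ofOrder_eq_natCard
    (α := rootsOfUnity (p ^ 2 * Nat.card (G ⊓ Subgroup.centralizer {v} : Subgroup X)) ℂ)
  rw [HasEnoughRootsOfUnity.natCard_rootsOfUnity] at hz
  refine real_vector hVexp hidx hV hGV hv hUV hM z h1 fun y hy => (h2 y (hy.trans hz)).imp_right
    fun h3 h => (h3 h).imp_left fun h4 => ?_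
  rwa [Nat.card_congr (Equiv.subtypeEquivRight
    (q := (· ∈ (Subgroup.centralizer {h.1}).subgroupOf U)) fun u => ?_)] at h4
  rw [Subgroup.mem_subgroupOf, Subgroup.mem_centralizer_singleton_iff, eq_comm (a := u.1 * _),
    ← mul_inv_eq_iff_eq_mul]
  exact Subtype.ext_iff

end Cfsg.Agent.S4959
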