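import Cfsg.Statements.S4964
import Cfsg.Agent.H8.Dom
import Cfsg.Agent.H2.Coprime
import Cfsg.Agent.H1.Frattini
import Cfsg.Agent.H1.Core

set_option autoImplicit false
open Cfsg

open H5 H28 H8 H7 MonoidAlgebra

namespace Cfsg.Agent.S4964

/-- Let D be a normal p-subgroup of the finite group G, let D′ be its commutator subgroup (normal in G), and fix a maximal ideal M of the algebraic integers containing p. Then (i) two irreducible characters of G ⧸ D′ lie in the same p-block if and only if their inflations to G do, and (ii) every p-block of G contains the inflation of some irreducible character of G ⧸ D′; so inflation induces a bijection between the p-blocks of G ⧸ D′ and the p-blocks of G. -/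
theorem result {G : Type*} [Group G] [Finite G] (p : ℕ) [Fact p.Prime] (M : Ideal Cfsg.AlgInt) (hM : Cfsg.IsPModular p M) (D : Subgroup G) [D.Normal] (hD : IsPGroup p D) : (∀ χ ψ : Cfsg.IrrCharacter (G ⧸ ⁅D, D⁆), Cfsg.SameBlock M (χ : G ⧸ ⁅D, D⁆ → ℂ) (ψ : G ⧸ ⁅D, D⁆ → ℂ) ↔ Cfsg.SameBlock M ((χ : G ⧸ ⁅D, D⁆ → ℂ) ∘ QuotientGroup.mk) ((ψ : G ⧸ ⁅D, D⁆ → ℂ) ∘ QuotientGroup.mk)) ∧ ∀ B : Set (Cfsg.IrrCharacter G), Cfsg.IsPBlock M B → ∃ χ : Cfsg.IrrCharacter (G ⧸ ⁅D, D⁆), ∃ θ ∈ B, (θ : G → ℂ) = (χ : G ⧸ ⁅D, D⁆ → ℂ) ∘ QuotientGroup.mk := by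
  classical
  haveI := charP_kk hM
  have hπ := QuotientGroup.mk'_surjective ⁅D, D⁆
  have hDD : ⁅D, D⁆ ≤ D := Subgroup.commutator_le_left D D
  have hk : IsPGroup p (QuotientGroup.mk' ⁅D, D⁆).ker := by
    rw [QuotientGroup.ker_mk']
    exact hD.to_le hDD
  refine ⟨fun χ ψ => ⟨fun h => sameBlock_infl (hf := hπ) hM h, fun h => ?_⟩, fun B hB => ?_⟩
  · have hB := isPBlock_blockOf (M := M) (infl _ hπ χ)
    haveI : (D.map (QuotientGroup.mk' ⁅D, D⁆)).Normal := Subgroup.Normal.map inferInstance _ hπ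
    let X := (𝐂 (D.map (QuotientGroup.mk' ⁅D, D⁆))).comap (QuotientGroup.mk' ⁅D, D⁆)
    have hreg : RegInj p (QuotientGroup.mk' ⁅D, D⁆) X := by
      refine regInj_of_cent (hk.to_le inf_le_left) fun x hx hp => ?_
      rw [QuotientGroup.ker_mk']
      refine centralizer_anti (inf_le_left.trans hDD) (Subgroup.zpowers_le.1
        (H2.le_centralizer_of_frattini ?_ ?_))
      · rw [Nat.card_zpowers]
        exact (H1.coprime_card_of_isPGroup (hD.to_subgroup _)
          (H1.coprime_iff_not_dvd.2 hp)).symm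
      · refine le_trans ?_ (H1.commutator_le_frattiniOf_of_isNilpotent hD.isNilpotent)
        rw [Subgroup.commutator_le]
        intro d hd y hy
        have h1 := mem_centralizer'.1 ((Subgroup.zpowers_le.2 hx) hy) _
          (Subgroup.mem_map_of_mem (QuotientGroup.mk' ⁅D, D⁆) hd)
        rw [← QuotientGroup.ker_mk' ⁅D, D⁆, MonoidHom.mem_ker, map_commutatorElement,
          commutatorElement_eq_one_iff_mul_comm]
        exact h1
    have h1 := (isPrim_iff_of_normal le_rfl hD le_top (normal_iff_top_le.1 inferInstance) (X' := X)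
      (fun x hx => map_mem_cent_map _ hx.2) le_top).1 (isPrim_eB hM hB)
    have h2 := hreg.isPrim_emb hM le_top (normal_iff_top_le.1 inferInstance) h1
    rw [map_top_surj hπ, Subgroup.map_comap_eq_self_of_surjective hπ,
      ← isPrim_iff_of_normal le_rfl (hD.map _) le_top (normal_iff_top_le.1 inferInstance)
        inf_le_right le_top, emb_eB hπ (fB_mem_VG hM hB)] at h2
    have h3 := (isPBlock_iff hM).2 ⟨fB_dom_mem_VG (fB_mem_VG hM hB), h2⟩
    exact sameBlock_of_mem hM h3 (mem_blockOf_self hM _) h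
  · obtain ⟨χ, hχ⟩ := dom_nonempty hM hπ hk hB
    exact ⟨χ, _, hχ, rfl⟩

end Cfsg.Agent.S4964
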