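import Cfsg.Statements.S4965
import Cfsg.Agent.H7.Quot

set_option autoImplicit false
open Cfsg

namespace Cfsg.Agent.S4965

open H8 H28 H5 MonoidAlgebra
open H7 (eB fB VG redG ev fB_mem_VG isPBlock_principalBlock isPBlock_nonempty)

/-- Let X be a finite group with an abelian normal subgroup V (any two elements of V commute), and let φ be the action of X ⧸ V on V induced by conjugation (well defined because V is abelian; the hypothesis hφ says that the class of x acts as conjugation by x). Then X has at most as many conjugacy classes as the semidirect product of V by X ⧸ V formed with this action: the split extension has the largest class number among extensions with the given action. -/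
theorem result {X : Type*} [Group X] [Finite X] (V : Subgroup X) [V.Normal] (hab : ∀ a ∈ V, ∀ b ∈ V, a * b = b * a) (φ : X ⧸ V →* MulAut ↥V) (hφ : ∀ (x : X) (v : ↥V), ((φ (QuotientGroup.mk x) v : ↥V) : X) = x * v * x⁻¹) : Nat.card (ConjClasses X) ≤ Nat.card (ConjClasses (SemidirectProduct ↥V (X ⧸ V) φ)) := by
  classical
  set Y := SemidirectProduct ↥V (X ⧸ V) φ
  haveI : Finite Y := Finite.of_equiv _ SemidirectProduct.equivProd.symm
  have hcard : Nat.card Y = Nat.card X := by
    rw [SemidirectProduct.card, mul_comm, ← Subgroup.card_eq_card_quotient_mul_card_subgroup]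
  let A := {p : X × X // Commute p.1 p.2}
  haveI : Nonempty A := ⟨⟨(1, 1), Commute.refl _⟩⟩
  let π : A → (X ⧸ V) × (X ⧸ V) := fun p => (p.1.1, p.1.2)
  let b : A → A := fun p => Function.invFun π (π p)
  have hb : ∀ p, π (b p) = π p := fun p => Function.invFun_eq ⟨p, rfl⟩
  have hm : ∀ x y : X, (x : X ⧸ V) = y → y * x⁻¹ ∈ V := by
    intro x y h
    have := QuotientGroup.eq.1 h
    have h2 := (inferInstance : V.Normal).conj_mem _ this x
    simpa [mul_assoc] using h2
  have h1 : ∀ p, p.1.1 * (b p).1.1⁻¹ ∈ V := fun p => hm _ _ (congrArg Prod.fst (hb p))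
  have h2 : ∀ p, p.1.2 * (b p).1.2⁻¹ ∈ V := fun p => hm _ _ (congrArg Prod.snd (hb p))
  let F : A → {p : Y × Y // Commute p.1 p.2} := fun p =>
    ⟨(⟨⟨_, h1 p⟩, (b p).1.1⟩, ⟨⟨_, h2 p⟩, (b p).1.2⟩), by
      refine SemidirectProduct.ext (Subtype.ext ?_) ?_
      · change ((_ : V) * φ _ _ : V).1 = ((_ : V) * φ _ _ : V).1
        simp only [Subgroup.coe_mul, hφ]
        have e1 := p.2.eq
        have e2 := (b p).2.eq
        calc _ = (p.1.1 * p.1.2) * ((b p).1.1 * (b p).1.2)⁻¹ := by group
          _ = (p.1.2 * p.1.1) * ((b p).1.2 * (b p).1.1)⁻¹ := by rw [e1, e2]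
          _ = _ := by group
      · change (((b p).1.1 * (b p).1.2 : X) : X ⧸ V) = (((b p).1.2 * (b p).1.1 : X) : X ⧸ V)
        rw [(b p).2.eq]⟩
  have hF : Function.Injective F := by
    intro p q h
    have h' := congrArg Subtype.val h
    have ha := congrArg Prod.fst h'
    have hb' := congrArg Prod.snd h'
    have hπ : π p = π q := by
      rw [← hb p, ← hb q]
      exact Prod.ext (congrArg SemidirectProduct.right ha) (congrArg SemidirectProduct.right hb')
    have hbb : b p = b q := by simp only [b, hπ]
    have e1 : p.1.1 * (b p).1.1⁻¹ = q.1.1 * (b q).1.1⁻¹ :=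
      congrArg (fun y : Y => (y.left : X)) ha
    have e2 : p.1.2 * (b p).1.2⁻¹ = q.1.2 * (b q).1.2⁻¹ :=
      congrArg (fun y : Y => (y.left : X)) hb'
    rw [hbb] at e1 e2
    exact Subtype.ext (Prod.ext (mul_right_cancel e1) (mul_right_cancel e2))
  have := Nat.card_le_card_of_injective F hF
  rw [card_comm_eq_card_conjClasses_mul_card, card_comm_eq_card_conjClasses_mul_card, hcard] at this
  exact Nat.le_of_mul_le_mul_right this Nat.card_pos

end Cfsg.Agent.S4965
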