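import Cfsg.Statements.S4966
import Cfsg.Agent.H25.SD1

set_option autoImplicit false
open Cfsg

namespace Cfsg.Agent.S4966
open _root_.H25 Subgroup

/-- Let F be a finite field of characteristic p, G a finite group of order prime to p, and V a finite-dimensional representation of G over F carrying a nondegenerate G-invariant bilinear form (equivalently, V is self-dual). Then V is the direct sum of two G-invariant subspaces U and W such that U carries a G-invariant alternating bilinear form that is nondegenerate on U and W carries a G-invariant symmetric bilinear form that is nondegenerate on W; moreover when p = 2 the decomposition can be chosen with G acting trivially on W. -/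
theorem result {F : Type*} [Field F] [Fintype F] (p : ℕ) [Fact p.Prime] [CharP F p] {G : Type*} [Group G] [Finite G] (hcop : ¬ p ∣ Nat.card G) {V : Type*} [AddCommGroup V] [Module F V] [FiniteDimensional F V] (ρ : Representation F G V) (B : LinearMap.BilinForm F V) (hB : B.Nondegenerate) (hBinv : ∀ g : G, ∀ x y : V, B (ρ g x) (ρ g y) = B x y) : ∃ U W : Submodule F V, IsCompl U W ∧ (∀ g : G, ∀ u ∈ U, ρ g u ∈ U) ∧ (∀ g : G, ∀ w ∈ W, ρ g w ∈ W) ∧ (∃ A : LinearMap.BilinForm F V, (∀ x : V, A x x = 0) ∧ (∀ g : G, ∀ x ∈ U, ∀ y ∈ U, A (ρ g x) (ρ g y) = A x y) ∧ (∀ x ∈ U, (∀ y ∈ U, A x y = 0) → x = 0)) ∧ (∃ S : LinearMap.BilinForm F V, (∀ x y : V, S x y = S y x) ∧ (∀ g : G, ∀ x ∈ W, ∀ y ∈ W, S (ρ g x) (ρ g y) = S x y) ∧ (∀ x ∈ W, (∀ y ∈ W, S x y = 0) → x = 0)) ∧ (p = 2 → ∀ g : G, ∀ w ∈ W, ρ g w = w) := by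
  have : NeZero (Nat.card G : F) := ⟨fun h => hcop ((CharP.cast_eq_zero_iff F p _).1 h)⟩
  obtain ⟨U, W, h1, h2, h3, h4, ⟨A, -, a2, a3, a4⟩, ⟨S, s1, -, s3, s4⟩, h5⟩ :=
    H25.SD.dec hBinv ⊤ (fun _ _ _ => trivial) fun y _ h => hB.2 y fun x => h x trivial
  obtain ⟨π, p0, p1, -⟩ := H25.SD.exists_proj h1
  obtain ⟨π', q0, q1, -⟩ := H25.SD.exists_proj h1.symm
  refine ⟨U, W, ⟨h1, codisjoint_iff.2 h2⟩, h3, h4, ⟨A.flip.comp π π, fun x => a2 trivial _ (p0 x),
    fun g x hx y hy => ?_, fun x hx h => a4 x hx fun y hy => ?_⟩, ⟨S.flip.comp π' π',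
    fun x y => (s1 _ (q0 y) _ (q0 x)).trans (one_mul _), fun g x hx y hy => ?_,
    fun x hx h => s4 x hx fun y hy => ?_⟩, fun h => h5 ((CharP.cast_eq_zero_iff F p 2).2 (h ▸ dvd_rfl))⟩
  · simp [p1 x hx, p1 y hy, p1 _ (h3 g x hx), p1 _ (h3 g y hy), a3 g y hy x hx]
  · simpa [p1 x hx, p1 y hy] using h y hy
  · simp [q1 x hx, q1 y hy, q1 _ (h4 g x hx), q1 _ (h4 g y hy), s3 g y hy x hx]
  · simpa [q1 x hx, q1 y hy] using h y hy

end Cfsg.Agent.S4966
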