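import Cfsg.Statements.S4967
import Cfsg.Agent.H25.SD2

set_option autoImplicit false
open Cfsg

namespace Cfsg.Agent.S4967
open _root_.H25 Subgroup

/-- Let F be a finite field with r elements and of characteristic p, H a finite abelian group of order prime to p, and V a faithful irreducible representation of H over F of dimension n (faithful: distinct elements act differently; irreducible: the only H-invariant subspaces are 0 and V). Call V self-dual when it carries a nondegenerate H-invariant bilinear form. If n = 1 and V is self-dual then H has order at most 2. If n ≥ 2 then V is self-dual if and only if n is even and the order of H divides r^(n/2) + 1. -/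
theorem result {F : Type*} [Field F] [Fintype F] (p : ℕ) [Fact p.Prime] [CharP F p] {H : Type*} [CommGroup H] [Finite H] (hcop : ¬ p ∣ Nat.card H) {V : Type*} [AddCommGroup V] [Module F V] [FiniteDimensional F V] (ρ : Representation F H V) (hfaith : Function.Injective ρ) (hirr : ∀ U : Submodule F V, (∀ h : H, ∀ u ∈ U, ρ h u ∈ U) → U = ⊥ ∨ U = ⊤) : (Module.finrank F V = 1 → (∃ B : LinearMap.BilinForm F V, B.Nondegenerate ∧ ∀ h : H, ∀ x y : V, B (ρ h x) (ρ h y) = B x y) → Nat.card H ≤ 2) ∧ (2 ≤ Module.finrank F V → ((∃ B : LinearMap.BilinForm F V, B.Nondegenerate ∧ ∀ h : H, ∀ x y : V, B (ρ h x) (ρ h y) = B x y) ↔ (Even (Module.finrank F V) ∧ Nat.card H ∣ Fintype.card F ^ (Module.finrank F V / 2) + 1))) := by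
  by_cases h0 : Module.finrank F V = 0
  · simp [h0]
  have : Nontrivial V := Module.nontrivial_of_finrank_pos (R := F) (by omega)
  obtain ⟨I, hI, e, he⟩ := H25.SD.model ρ hirr
  letI := Ideal.Quotient.field I
  have : Finite V := Module.finite_of_finite F
  have : Finite (MonoidAlgebra F H ⧸ I) := Finite.of_equiv _ e.toEquiv
  rw [e.finrank_eq, H25.SD.transport e he]
  exact H25.SD.main _ (Ideal.Quotient.mkₐ_surjective F I) fun a b h => hfaith (LinearMap.ext fun x =>
    e.injective (by rw [he, he]; exact congrArg (· * e x) h))

end Cfsg.Agent.S4967
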