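import Cfsg.Statements.S5005
import Cfsg.Agent.H7.OneA

set_option autoImplicit false
open Cfsg

open H5 H7 H7.One H7.OneA H18.CT

namespace Cfsg.Agent.S5005

/-- All irreducible complex characters of the Mathieu group `M₂₂` lie in a single 2-block: any two of them lie in the same block relative to every maximal ideal of the algebraic integers containing 2. -/
theorem result (M : Ideal Cfsg.AlgInt) (hM : Cfsg.IsPModular 2 M)
    (χ ψ : Cfsg.IrrCharacter ↥Cfsg.Spor.M22) : Cfsg.SameBlock M (χ : ↥Cfsg.Spor.M22 → ℂ) (ψ : ↥Cfsg.Spor.M22 → ℂ) := by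
  haveI := Fact.mk Nat.prime_two
  obtain ⟨_, g, Mo, -⟩ := md (MulEquiv.subgroupCongr H15.MM22.gen_eq)
  refine single hM (fun y hy => H7.OneA.con Mo hy) (fun θ m hm => ?_) χ ψ
  by_contra h2
  have hc := Mo.card
  have h1 := dg_sq_le θ
  obtain ⟨k, hk⟩ : 2 ^ 7 ∣ dg θ := ((Nat.prime_two.coprime_iff_not_dvd.2 h2).pow_left 7).dvd_of_dvd_mul_right
    (by rw [← hm, hc]; norm_num)
  have h3 : k * m = 3465 := by rw [hc, hk] at hm; nlinarith
  have h4 : k ≤ 5 := by rw [hc, hk] at h1; nlinarith
  have b5 := bound hm Nat.prime_two h2 (by norm_num) (by norm_num) (x5_ord Mo) (c5_card Mo) 0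
    (w := 88704) (D := 128 * k) hc (by norm_num) (by norm_num) (by omega)
  have b7 := bound hm Nat.prime_two h2 (by norm_num) (by norm_num) (x7_ord Mo) (c7_card Mo) 0
    (w := 63360) (D := 128 * k) hc (by norm_num) (by norm_num) (by omega)
  have b11 := bound hm Nat.prime_two h2 (by norm_num) (by norm_num) (x11_ord Mo) (c11_card Mo) 0
    (w := 40320) (D := 128 * k) hc (by norm_num) (by norm_num) (by omega)
  obtain ⟨y, y1, y2, y3⟩ := exists_ne (χ := θ) (k := 2) Nat.prime_three (by rw [hc]; norm_num)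
    (by rw [hk]; interval_cases k <;> omega)
  have h0 : ∀ g, 0 ≤ ‖θ.1 g‖ ^ 2 := fun _ => by positivity
  have h5 : 0 < so (fun g => ‖θ.1 g‖ ^ 2) 3 + so (fun g => ‖θ.1 g‖ ^ 2) 9 := by
    have h6 := le_so h0 y
    have h7 : 0 < ‖θ.1 y‖ ^ 2 := by positivity
    have h8 := so_nonneg h0 3
    have h9 := so_nonneg h0 9
    obtain ⟨i, hi, e⟩ := (Nat.dvd_prime_pow Nat.prime_three).1 y2
    interval_cases i
    · exact absurd (orderOf_eq_one_iff.1 e) y1
    all_goals
      rw [e] at h6
      norm_num at h6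
      linarith
  have hs := sum_so_le θ {1, 3, 9, 5, 7, 11}
  rw [Finset.sum_insert (by decide), Finset.sum_insert (by decide), Finset.sum_insert (by decide),
    Finset.sum_insert (by decide),
    Finset.sum_pair (by decide), so_one, irr_apply_one, Complex.norm_natCast, hc,
    show charDegree θ.1 = _ from hk] at hs
  interval_cases k <;> first | omega | (norm_num at b5 b7 b11 hs; linarith)

end Cfsg.Agent.S5005
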