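import Cfsg.Statements.S5006
import Cfsg.Agent.H7.OneB

set_option autoImplicit false
open Cfsg

open H5 H7 H7.One H7.OneB H18.CT

namespace Cfsg.Agent.S5006

/-- All irreducible complex characters of the Mathieu group `M₂₄` lie in a single 2-block: any two of them lie in the same block relative to every maximal ideal of the algebraic integers containing 2. -/
theorem result (M : Ideal Cfsg.AlgInt) (hM : Cfsg.IsPModular 2 M)
    (χ ψ : Cfsg.IrrCharacter ↥Cfsg.M24) : Cfsg.SameBlock M (χ : ↥Cfsg.M24 → ℂ) (ψ : ↥Cfsg.M24 → ℂ) := by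
  haveI := Fact.mk Nat.prime_two
  obtain ⟨_, g, Mo, -⟩ := md (MulEquiv.subgroupCongr H15.MM24.gen_eq)
  refine single hM (fun y hy => H7.OneB.con Mo hy) (fun θ m hm => ?_) χ ψ
  by_contra h2
  have hc := Mo.card
  have h1 := dg_sq_le θ
  obtain ⟨k, hk⟩ : 2 ^ 10 ∣ dg θ := ((Nat.prime_two.coprime_iff_not_dvd.2 h2).pow_left 10).dvd_of_dvd_mul_right
    (by rw [← hm, hc]; norm_num)
  have h3 : k * m = 239085 := by rw [hc, hk] at hm; nlinarith
  have h4 : k ≤ 15 := by rw [hc, hk] at h1; nlinarith
  have b5 := bound hm Nat.prime_two h2 (by norm_num) (by norm_num) (x5_ord Mo) (c5_card Mo) 2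
    (w := 4080384) (D := 256 * k) hc (by norm_num) (by norm_num) (by omega)
  have b7 := bound hm Nat.prime_two h2 (by norm_num) (by norm_num) (x7_ord Mo) (c7_card Mo) 1
    (w := 5829120) (D := 512 * k) hc (by norm_num) (by norm_num) (by omega)
  have b11 := bound hm Nat.prime_two h2 (by norm_num) (by norm_num) (x11_ord Mo) (c11_card Mo) 0
    (w := 22256640) (D := 1024 * k) hc (by norm_num) (by norm_num) (by omega)
  have b23 := bound hm Nat.prime_two h2 (by norm_num) (by norm_num) (x23_ord Mo) (c23_card Mo) 0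
    (w := 10644480) (D := 1024 * k) hc (by norm_num) (by norm_num) (by omega)
  have hs := sum_so_le θ {1, 5, 7, 11, 23}
  rw [Finset.sum_insert (by decide), Finset.sum_insert (by decide), Finset.sum_insert (by decide),
    Finset.sum_pair (by decide), so_one, irr_apply_one, Complex.norm_natCast, hc,
    show charDegree θ.1 = _ from hk] at hs
  interval_cases k <;> first | omega | (norm_num at b5 b7 b11 b23 hs; linarith)

end Cfsg.Agent.S5006
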