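import Cfsg.Statements.S5015
import Cfsg.Agent.H13.Root1

set_option autoImplicit false
open Cfsg

namespace Cfsg.Agent.S5015

/-- Let a group Y act doubly transitively on a set Ω with at least three points, and suppose that the stabilizer of a point α contains a nilpotent subgroup A, normalized by that stabilizer, which acts regularly on the points other than α. Then for any y in Y moving α, the subgroups A and y A y⁻¹ are the unipotent subgroups of a rank one group, and the normal closure of A in Y (the subgroup generated by all conjugates of A) is generated by A and y A y⁻¹ alone. -/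
theorem result {Y Ω : Type*} [Group Y] [MulAction Y Ω]
    (h2 : MulAction.IsMultiplyPretransitive Y Ω 2) (hΩ : 3 ≤ ENat.card Ω) (α : Ω) (A : Subgroup Y)
    (hA : A ≤ MulAction.stabilizer Y α) (hAn : ∀ y ∈ MulAction.stabilizer Y α, Cfsg.conjBy A y = A)
    (hnil : Group.IsNilpotent A) (hreg : ∀ β γ : Ω, β ≠ α → γ ≠ α → ∃! a : Y, a ∈ A ∧ a • β = γ)
    (y : Y) (hy : y ∉ MulAction.stabilizer Y α) :
    Cfsg.IsRankOnePair A (Cfsg.conjBy A y) ∧ Subgroup.normalClosure (A : Set Y) = A ⊔ Cfsg.conjBy A y := by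
  open H13.Root in
  rw [MulAction.is_two_pretransitive_iff] at h2
  have hy' : y • α ≠ α := hy
  have hcj : ∀ g g' : Y, g • α = g' • α → conjBy A g = conjBy A g' := by
    intro g g' e
    rw [cj_eq_cj_iff]
    exact hAn _ (by rw [MulAction.mem_stabilizer_iff, mul_smul, e, inv_smul_smul])
  have hfix : ∀ a ∈ A, ∀ β, β ≠ α → a • β = β → a = 1 := fun a ha β hβ e =>
    (hreg β β hβ hβ).unique ⟨ha, e⟩ ⟨one_mem _, one_smul _ _⟩
  obtain ⟨γ, hγ1, hγ2⟩ : ∃ γ : Ω, γ ≠ α ∧ γ ≠ y • α := by
    by_contra hn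
    push Not at hn
    have : (Set.univ : Set Ω) ⊆ {α, y • α} := fun γ _ => by
      by_cases e : γ = α
      · exact Or.inl e
      · exact Or.inr (hn γ e)
    have h3 := Set.encard_le_encard this
    rw [Set.encard_univ, Set.encard_pair hy'.symm] at h3
    exact absurd (hΩ.trans h3) (by decide)
  have hregB : ∀ (g : Y) (β γ : Ω), β ≠ g • α → γ ≠ g • α → ∃ b ∈ conjBy A g, b • β = γ := by
    intro g β γ hβ hγ
    obtain ⟨a, ⟨ha, e⟩, -⟩ := hreg (g⁻¹ • β) (g⁻¹ • γ) (by rwa [Ne, inv_smul_eq_iff])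
      (by rwa [Ne, inv_smul_eq_iff])
    exact ⟨_, conj_mem_cj ha g, by rw [mul_smul, mul_smul, e, smul_inv_smul]⟩
  have hfixB : ∀ (g : Y), ∀ b ∈ conjBy A g, b • g • α = g • α := by
    intro g b hb
    obtain ⟨a, ha, rfl⟩ := exists_of_mem_cj hb
    rw [mul_smul, mul_smul, inv_smul_smul, show a • α = α from hA ha]
  have key : ∀ g g' : Y, g • α ≠ g' • α → RankOneCondition (conjBy A g) (conjBy A g') := by
    intro g g' hne a ha ha1
    have h1 : a⁻¹ • g' • α ≠ g' • α := by
      intro e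
      obtain ⟨a, ha', rfl⟩ := exists_of_mem_cj ha
      have := hfix a⁻¹ (inv_mem ha') (g⁻¹ • g' • α) (by rw [Ne, inv_smul_eq_iff]; exact hne.symm) (by
        rw [← smul_left_cancel_iff g, smul_inv_smul]
        simpa [mul_smul] using e)
      exact ha1 (by simp [inv_eq_one.1 this])
    obtain ⟨b, hb, e⟩ := hregB g' (g • α) _ hne h1
    refine ⟨b⁻¹, inv_mem hb, ?_, ?_⟩
    · rintro h
      rw [inv_eq_one.1 h, one_smul, eq_inv_smul_iff, hfixB g a ha] at e
      exact hne e
    · rw [inv_inv, cj_cj, cj_cj]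
      exact hcj _ _ (by rw [mul_smul, mul_smul, e])
  have hne : A ≠ conjBy A y := by
    intro e
    obtain ⟨a, ⟨ha, e'⟩, -⟩ := hreg (y • α) γ hy' hγ1
    rw [hfixB y a (e ▸ ha)] at e'
    exact hγ2 e'.symm
  have hp : IsRankOnePair A (conjBy A y) := by
    refine ⟨hne, hnil, nilpotent_map _ hnil, ?_, ?_⟩
    · simpa using key 1 y (by rw [one_smul]; exact hy'.symm)
    · simpa using key y 1 (by rw [one_smul]; exact hy')
  refine ⟨hp, le_antisymm ?_ (sup_le Subgroup.le_normalClosure ?_)⟩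
  · rw [Subgroup.normalClosure, Subgroup.closure_le]
    intro x hx
    obtain ⟨a, ha, hc⟩ := Group.mem_conjugatesOfSet_iff.1 hx
    obtain ⟨g, rfl⟩ := isConj_iff.1 hc
    have h1 : conjBy A g ≤ A ⊔ conjBy A y := by
      by_cases e : g • α = α
      · rw [hAn g e]; exact le_sup_left
      · obtain ⟨a', ⟨ha', e'⟩, -⟩ := hreg (y • α) (g • α) hy' e
        rw [← hcj (a' * y) g (by rw [mul_smul, e']), ← cj_cj]
        exact cj_le_of_mem le_sup_right (Subgroup.mem_sup_left ha')
    exact h1 (conj_mem_cj ha g)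
  · intro x hx
    obtain ⟨a, ha, rfl⟩ := exists_of_mem_cj hx
    exact Subgroup.normalClosure_normal.conj_mem _ (Subgroup.subset_normalClosure ha) y

end Cfsg.Agent.S5015
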