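import Cfsg.Statements.S5017
import Cfsg.Agent.H13.Root1
import Cfsg.Agent.H13.BN2

set_option autoImplicit false
open Cfsg

namespace Cfsg.Agent.S5017

/-- Let X be a rank one group with unipotent subgroups A and B and N a normal subgroup of X. Then either X = N A or N lies in the centre of X. Consequently a perfect rank one group is quasisimple. -/
theorem result {X : Type*} [Group X] {A B : Subgroup X} (h : Cfsg.IsRankOneGroup X A B) :
    (∀ N : Subgroup X, N.Normal → N ⊔ A = ⊤ ∨ N ≤ Subgroup.center X) ∧
    (Group.IsPerfect X → Cfsg.IsQuasisimple X) := by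
  open H13.Root in
  have key : ∀ N : Subgroup X, N.Normal → N ⊔ A = ⊤ ∨ N ≤ Subgroup.center X := by
    intro N hN
    rcases central_or_le_sup h.2 (N := N) (by rw [h.1]; exact le_top)
      (fun x _ => cj_eq_self_iff.2 (by rw [Subgroup.normalizer_eq_top]; trivial)) with h1 | h1
    · exact Or.inr fun n hn => Subgroup.mem_center_iff.2 fun x => (h1 n hn x (by rw [h.1]; trivial)).symm
    · left
      rw [eq_top_iff, ← h.1]
      exact sup_le le_sup_right h1
  refine ⟨key, fun hp => ⟨hp, ?_⟩⟩
  have hnt : Nontrivial (X ⧸ Subgroup.center X) := by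
    rw [QuotientGroup.nontrivial_iff]
    intro e
    exact comm_ne_bot h.2 (comm_bot_iff.2 fun a _ b _ =>
      (Subgroup.mem_center_iff.1 (e ▸ Subgroup.mem_top b) a))
  refine ⟨fun K hK => ?_⟩
  rcases key (K.comap (QuotientGroup.mk' _)) inferInstance with h1 | h1
  · right
    have := h.2.nilpotent_left
    have h2 := H13.BN.eq_top_of_sup_solvable (B := A) inferInstance hp.commutator_eq_top
      (by rwa [sup_comm] at h1)
    rw [← Subgroup.map_comap_eq_self_of_surjective (QuotientGroup.mk'_surjective _) K, h2]
    exact Subgroup.map_top_of_surjective _ (QuotientGroup.mk'_surjective _)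
  · left
    rw [eq_bot_iff]
    intro k hk
    obtain ⟨x, rfl⟩ := QuotientGroup.mk_surjective k
    exact (QuotientGroup.eq_one_iff x).2 (h1 hk)

end Cfsg.Agent.S5017
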