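import Cfsg.Statements.S5018
import Cfsg.Agent.H13.Root1

set_option autoImplicit false
open Cfsg

namespace Cfsg.Agent.S5018

/-- A rank one group is not nilpotent, and its second centre equals its centre. -/
theorem result {X : Type*} [Group X] {A B : Subgroup X} (h : Cfsg.IsRankOneGroup X A B) :
    Subgroup.upperCentralSeries X 2 = Subgroup.center X ∧ ¬ Group.IsNilpotent X := by
  open H13.Root in
  constructor
  · refine le_antisymm (fun z hz => ?_) ?_
    · have h1 := central_of_le_normalizer h.2 (N := Subgroup.upperCentralSeries X 2)
        (fun x _ => cj_eq_self_iff.2 (by rw [Subgroup.normalizer_eq_top]; trivial)) (fun n hn => ?_) z hz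
      · exact Subgroup.mem_center_iff.2 fun x => (h1 x (by rw [h.1]; trivial)).symm
      · by_contra hne
        have hp := pair_of_mem_U h.2 (cj_mem_U left_mem_U (by rw [h.1]; trivial)) left_mem_U hne
        obtain ⟨a, ha, ha1⟩ := exists_ne_one (left_ne_bot h.2)
        have h2 := Subgroup.mem_upperCentralSeries_succ_iff.1 hn a
        rw [Subgroup.upperCentralSeries_one, commutatorElement_def] at h2
        have h3 := eq_one_of_cj_eq hp (conj_mem_cj ha n) (by
          have : n * a * n⁻¹ = (n * a * n⁻¹ * a⁻¹) * a := by group
          rw [this, cj_mul_of_mem ha]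
          exact cj_eq_of_commute fun y _ => (Subgroup.mem_center_iff.1 h2 y).symm)
        exact ha1 (by simpa using h3)
    · rw [← Subgroup.upperCentralSeries_one]
      exact Subgroup.upperCentralSeries_mono X (by norm_num)
  · intro hn
    exact not_nilpotent h.2 inferInstance

end Cfsg.Agent.S5018
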