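import Cfsg.Statements.S5020
import Cfsg.Agent.H13.Special2
import Cfsg.Agent.S5017
import Cfsg.Agent.H1.Layer

set_option autoImplicit false
open Cfsg

namespace Cfsg.Agent.S5020

/-- Let X be a special rank one group with abelian unipotent subgroups A and B, and H = N(A) ∩ N(B) its diagonal subgroup. Then either A has at most three elements and X is isomorphic to SL₂(2), SL₂(3) or PSL₂(3); or X = X' A with the commutator subgroup X' quasisimple and the commutator subgroup ⁅A, H⁆ having more than three elements. -/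
theorem result {X : Type*} [Group X] {A B : Subgroup X} (h : Cfsg.IsRankOneGroup X A B)
    (hs : Cfsg.IsSpecialRankOnePair A B) (hab : Cfsg.HasAbelianUnipotents A B) :
    (ENat.card A ≤ 3 ∧ (Nonempty (X ≃* Matrix.SpecialLinearGroup (Fin 2) (ZMod 2)) ∨
        Nonempty (X ≃* Matrix.SpecialLinearGroup (Fin 2) (ZMod 3)) ∨
        Nonempty (X ≃* Matrix.ProjectiveSpecialLinearGroup (Fin 2) (ZMod 3)))) ∨
    (commutator X ⊔ A = ⊤ ∧ Cfsg.IsQuasisimple (commutator X) ∧
      3 < ENat.card ↥(⁅A, Cfsg.rankOneDiagonal A B⁆ : Subgroup X)) := by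
  have hA := H13.Root.comm_self_bot hab.1
  by_cases h3 : 3 < ENat.card A
  · have hp := H13.Root.perfect_of_card hs hA h3
    rw [h.1] at hp
    have hp' : commutator X = ⊤ := hp
    have hq := (Cfsg.Agent.S5017.result h).2 ⟨hp'⟩
    refine Or.inr ⟨by rw [hp', top_sup_eq], ?_, h3.trans_le ?_⟩
    · rw [hp']
      exact H1.isQuasisimple_of_equiv hq Subgroup.topEquiv.symm
    · exact Set.encard_le_encard (H13.Root.le_comm_diag hs hA h3)
  · left
    push Not at h3
    refine ⟨h3, ?_⟩
    have hfin : Finite A := ENat.card_lt_top.1 (h3.trans_lt (by decide))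
    obtain ⟨a, ha, ha1⟩ := H13.Root.exists_ne_one (H13.Root.left_ne_bot hs.1)
    have h4 : Nat.card A ≤ 3 := by
      rw [ENat.card_eq_coe_natCard] at h3
      exact_mod_cast h3
    have h5 : 1 < Nat.card A := (Subgroup.one_lt_card_iff_ne_bot A).2 (H13.Root.left_ne_bot hs.1)
    have key : ∀ (p : ℕ) [Fact p.Prime], Nat.card A = p →
        Nonempty (X ≃* Matrix.SpecialLinearGroup (Fin 2) (ZMod p)) ∨
        (Nonempty (X ≃* Matrix.ProjectiveSpecialLinearGroup (Fin 2) (ZMod p))) := by
      intro p _ hp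
      have hz : ∀ {C : Subgroup X} {c : X}, Nat.card C = p → c ∈ C → c ≠ 1 → C ≤ Subgroup.zpowers c := by
        intro C c hC hc hc1 d hd
        have := mem_zpowers_of_prime_card hC (g := ⟨c, hc⟩) (g' := ⟨d, hd⟩) (fun e => hc1 (congrArg Subtype.val e))
        obtain ⟨n, hn⟩ := this
        exact ⟨n, congrArg Subtype.val hn⟩
      have hap : a ^ p = 1 := congrArg Subtype.val (hp ▸ pow_card_eq_one' (x := (⟨a, ha⟩ : A)))
      obtain ⟨φ, -, -, e, hk⟩ := H13.Root.exists_hom_zmod hs hA ha ha1 hap
      have hB : Nat.card B = p := by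
        rw [← hp, ← H13.Root.Nn_cj_left hs.1 ha ha1]
        exact Subgroup.card_map_of_injective (MulAut.conj _).injective
      have e2 : φ.range = ⊤ := by
        rw [e, eq_top_iff, ← h.1]
        exact sup_le ((hz hp ha ha1).trans (Subgroup.zpowers_le.2 (Subgroup.subset_closure (by simp))))
          ((hz hB (H13.Root.Y_spec hs.1 ha ha1).1 (H13.Root.Y_ne_one hs.1 ha ha1)).trans
            (Subgroup.zpowers_le.2 (Subgroup.subset_closure (by simp))))
      have := H13.SL2.range_iso φ hk
      rw [e2] at this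
      exact this.imp (fun ⟨f⟩ => ⟨Subgroup.topEquiv.symm.trans f⟩) (fun ⟨f⟩ => ⟨Subgroup.topEquiv.symm.trans f⟩)
    by_cases h6 : Nat.card A = 2
    · left
      rcases key 2 h6 with h7 | ⟨⟨f⟩⟩
      · exact h7
      · have : Subgroup.center (Matrix.SpecialLinearGroup (Fin 2) (ZMod 2)) = ⊥ := eq_bot_iff.2 fun g hg => by
          rcases H13.SL2.eq_of_mem_center hg with rfl | rfl
          · exact one_mem _
          · rw [Subgroup.mem_bot]; decide
        exact ⟨f.trans ((QuotientGroup.quotientMulEquivOfEq this).trans QuotientGroup.quotientBot)⟩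
    · exact Or.inr (key 3 (by omega))

end Cfsg.Agent.S5020
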