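import Cfsg.Statements.S5023
import Cfsg.Agent.H13.Root1

set_option autoImplicit false
open Cfsg

namespace Cfsg.Agent.S5023

/-- Let X be a rank one group with unipotent subgroups A and B that acts faithfully on an abelian group V (written additively) with A acting quadratically: a' • (a • v − v) = a • v − v for all a, a' in A and v in V. Then A is either torsion-free or an elementary abelian p-group for some prime p. -/
theorem result {X : Type*} [Group X] {A B : Subgroup X} (h : Cfsg.IsRankOneGroup X A B)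
    {V : Type*} [AddCommGroup V] [DistribMulAction X V] (hf : ∀ x : X, (∀ v : V, x • v = v) → x = 1)
    (hq : ∀ a ∈ A, ∀ a' ∈ A, ∀ v : V, a' • (a • v - v) = a • v - v) :
    (∀ a ∈ A, a ≠ 1 → ¬ IsOfFinOrder a) ∨ ∃ p : ℕ, p.Prime ∧ Cfsg.IsElementaryAbelian p A := by
  open H13.Root in
  have hcomm : ∀ a a' : X, (∀ v : V, a' • (a • v - v) = a • v - v) → (∀ v : V, a • (a' • v - v) = a' • v - v) →
      a * a' = a' * a := by
    intro a a' h1 h2
    have := hf ((a' * a)⁻¹ * (a * a')) (fun v => by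
      rw [mul_smul, inv_smul_eq_iff, mul_smul, mul_smul]
      have e1 := h1 v
      have e2 := h2 v
      rw [smul_sub, sub_eq_iff_eq_add] at e1 e2
      rw [e1, e2]; abel)
    rw [← mul_inv_cancel_left (a' * a) (a * a'), this, mul_one]
  have hnt : ¬ ∀ v ∈ comm V B, ∀ a ∈ A, a • v = v := by
    intro hfix
    have := trivial_of_fix h.2 hq hfix
    exact comm_ne_bot h.2 (comm_bot_iff.2 fun a ha b hb => hcomm a b
      (this a (Subgroup.mem_sup_left ha) b (Subgroup.mem_sup_right hb))
      (this b (Subgroup.mem_sup_right hb) a (Subgroup.mem_sup_left ha)))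
  have hpow : ∀ a ∈ A, ∀ (n : ℕ) (v : V), a ^ n • v - v = a • (n • v) - n • v := by
    intro a ha n v
    induction n with
    | zero => simp
    | succ n ih =>
      have e := hq _ (pow_mem ha n) a ha v
      rw [smul_sub, sub_eq_iff_eq_add] at e
      rw [pow_succ', mul_smul, e, ih, succ_nsmul, smul_add]; abel
  by_cases ht : ∀ a ∈ A, a ≠ 1 → ¬ IsOfFinOrder a
  · exact Or.inl ht
  right
  push Not at ht
  obtain ⟨a, ha, ha1, hfin⟩ := ht
  have ho : orderOf a ≠ 1 := fun e => ha1 (orderOf_eq_one_iff.1 e)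
  obtain ⟨p, hp, k, hk⟩ := Nat.exists_prime_and_dvd ho
  have hpos := hfin.orderOf_pos
  have hk0 : 0 < k := Nat.pos_of_mul_pos_left (hk ▸ hpos)
  have h1 : a ^ k ≠ 1 := pow_ne_one_of_lt_orderOf hk0.ne' (by
    rw [hk]; exact lt_mul_left hk0 hp.one_lt)
  have h2 : (a ^ k) ^ p = 1 := by rw [← pow_mul, mul_comm, ← hk, pow_orderOf_eq_one]
  refine ⟨p, hp, ⟨⟨fun a a' => Subtype.ext (hcomm _ _ (hq a a.2 a' a'.2) (hq a' a'.2 a a.2))⟩⟩, fun a' ha' => ?_⟩
  by_contra hne
  refine hnt fun v hv => fix_of_fix h.2 hq (pow_mem ha' p) hne hv ?_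
  have h3 := hpow _ (pow_mem ha k) p v
  rw [h2, one_smul, sub_self, eq_comm, sub_eq_zero] at h3
  have h4 := fix_of_fix h.2 hq (pow_mem ha k) h1 (nsmul_mem hv p) h3 a' ha'
  rw [← sub_eq_zero, hpow a' ha' p v, h4, sub_self]

end Cfsg.Agent.S5023
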