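import Cfsg.Statements.S5024
import Cfsg.Agent.H13.Root2

set_option autoImplicit false
open Cfsg

namespace Cfsg.Agent.S5024

/-- Let S be a set of abstract root subgroups of G, A and C members of S, B a rank one partner of A in S and D a rank one partner of C in S. If the rank one group ⟨A, B⟩ is contained in ⟨C, D⟩ then the two coincide, and C and D are conjugates of A inside ⟨A, B⟩. -/
theorem result {G : Type*} [Group G] {S : Set (Subgroup G)} (hS : Cfsg.IsRootSubgroupSet S)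
    {A B C D : Subgroup G} (hA : A ∈ S) (hC : C ∈ S) (hB : B ∈ Cfsg.rankOnePartners S A) (hD : D ∈ Cfsg.rankOnePartners S C)
    (hle : A ⊔ B ≤ C ⊔ D) : A ⊔ B = C ⊔ D ∧ C ∈ Cfsg.unipotentSubgroups A B ∧ D ∈ Cfsg.unipotentSubgroups A B := by
  open H13.Root in
  have key : ∀ {A B : Subgroup G}, A ∈ S → Cfsg.IsRankOnePair A B → A ⊔ B ≤ C ⊔ D → A ∈ Cfsg.unipotentSubgroups C D := by
    intro A B hA h hle
    refine (mem_U_or_central hS hC hD.2 hA (le_sup_left.trans hle)).resolve_right fun hc => ?_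
    exact comm_ne_bot h (comm_bot_iff.2 fun a ha b hb => hc a ha b (hle (Subgroup.mem_sup_right hb)))
  have h1 := key hA hB.2 hle
  have h2 := key hB.1 (H13.Root.symm hB.2) (by rwa [sup_comm])
  obtain ⟨x, hx, rfl, rfl⟩ := H13.Root.exists_pair hD.2 h1 h2 hB.2.ne
  have e : Cfsg.conjBy C x ⊔ Cfsg.conjBy D x = C ⊔ D := by rw [← H13.Root.cj_sup, H13.Root.cj_of_mem hx]
  refine ⟨e, ⟨x⁻¹, e ▸ inv_mem hx, by simp⟩, ?_⟩
  have := H13.Root.cj_mem_U (H13.Root.right_mem_U hB.2) (x := x⁻¹) (e ▸ inv_mem hx)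
  simpa using this

end Cfsg.Agent.S5024
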