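import Cfsg.Statements.S5026
import Cfsg.Agent.H13.Root2

set_option autoImplicit false
open Cfsg

namespace Cfsg.Agent.S5026

/-- Let S be a degenerate set of abstract root subgroups of G (a set of abstract transvection groups) and let a, b be commuting non-identity elements of members of S with a b ≠ 1. Then the members of S centralizing a b are exactly those centralizing both a and b. -/
theorem result {G : Type*} [Group G] {S : Set (Subgroup G)} (hS : Cfsg.IsRootSubgroupSet S) (hdeg : Cfsg.IsDegenerateRootSet S)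
    {a b : G} (ha : a ∈ Cfsg.rootElements S) (hb : b ∈ Cfsg.rootElements S) (hab : a * b = b * a) (hab1 : a * b ≠ 1) :
    Cfsg.centralizingMembers S (Subgroup.zpowers (a * b)) =
      Cfsg.centralizingMembers S (Subgroup.zpowers a) ∩ Cfsg.centralizingMembers S (Subgroup.zpowers b) := by
  open H13.Root in
  have mem : ∀ {x : G} {C : Subgroup G}, C ∈ Cfsg.centralizingMembers S (Subgroup.zpowers x) ↔
      C ∈ S ∧ ∀ c ∈ C, x * c = c * x := by
    intro x C
    refine and_congr_right fun _ => ⟨fun h c hc => h hc x (Subgroup.mem_zpowers x), fun h c hc y hy => ?_⟩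
    obtain ⟨n, rfl⟩ := hy
    exact (Commute.zpow_left (h c hc) n)
  have key : ∀ {a b : G}, a ∈ Cfsg.rootElements S → b ∈ Cfsg.rootElements S → a * b = b * a → a * b ≠ 1 →
      ∀ C ∈ S, (∀ c ∈ C, a * b * c = c * (a * b)) → ∀ c ∈ C, a * c = c * a := by
    rintro a b ⟨ha1, A, hA, ha⟩ ⟨hb1, B, hB, hb⟩ hab hab1 C hC hc
    rcases hS.pair A hA C hC with h | h | h
    · exact H13.Root.comm_bot_iff.1 h a ha
    · exfalso
      have h1 : ∀ x ∈ A ⊔ C, a * b * x = x * (a * b) := by
        rw [← H13.Root.sup_cj h ha ha1]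
        refine H13.Root.commute_sup hc fun x hx => ?_
        obtain ⟨c, hc', rfl⟩ := H13.Root.exists_of_mem_cj hx
        calc a * b * (a * c * a⁻¹) = a * (b * a * c) * a⁻¹ := by group
          _ = a * (c * (b * a)) * a⁻¹ := by rw [← hab, hc c hc']
          _ = a * c * a⁻¹ * (a * b) := by
            rw [← hab]
            calc a * (c * (a * b)) * a⁻¹ = a * c * (a * b) * a⁻¹ := by group
              _ = a * c * (b * a) * a⁻¹ := by rw [hab]
              _ = _ := by group
      exact hab1 (H13.Root.eq_one_of_central_mul hS hA hC h h1 (inv_mem ha) (inv_ne_one.2 ha1) hB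
        (by rw [hab]; simpa using hb))
    · exact (hdeg A hA C hC h).elim
  ext C
  simp only [Set.mem_inter_iff, mem]
  constructor
  · rintro ⟨hC, hc⟩
    exact ⟨⟨hC, key ha hb hab hab1 C hC hc⟩, hC, key hb ha hab.symm (hab ▸ hab1) C hC (hab ▸ hc)⟩
  · rintro ⟨⟨hC, h1⟩, -, h2⟩
    exact ⟨hC, fun c hc => by rw [mul_assoc, h2 c hc, ← mul_assoc, h1 c hc, mul_assoc]⟩

end Cfsg.Agent.S5026
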