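import Cfsg.Statements.S5027
import Cfsg.Agent.H13.Root2

set_option autoImplicit false
open Cfsg

namespace Cfsg.Agent.S5027

/-- Let S be a set of abstract root subgroups of G such that every member of S has a rank one partner in S (the graph of rank one pairs on S has no isolated vertex). Then the second centre of G equals its centre. -/
theorem result {G : Type*} [Group G] {S : Set (Subgroup G)} (hS : Cfsg.IsRootSubgroupSet S)
    (hF : ∀ A ∈ S, ¬ Cfsg.IsIsolatedIn (Cfsg.FAdj S) S A) : Subgroup.upperCentralSeries G 2 = Subgroup.center G := by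
  open H13.Root in
  refine le_antisymm (fun z hz => ?_) (by rw [← Subgroup.upperCentralSeries_one]; exact Subgroup.upperCentralSeries_mono G (by omega))
  rw [Subgroup.mem_upperCentralSeries_succ_iff, Subgroup.upperCentralSeries_one] at hz
  have : (⨆ A ∈ S, A) ≤ Subgroup.centralizer {z} := by
    refine iSup₂_le fun A hA a ha => Subgroup.mem_centralizer_singleton_iff.2 ?_
    by_cases ha1 : a = 1
    · simp [ha1]
    obtain ⟨D, hD, h⟩ := (H13.Root.ni_iff hA).1 (hF A hA)
    have := H13.Root.eq_one_of_central_mul hS hA hD h (fun x _ => (Subgroup.mem_center_iff.1 (hz a) x).symm) ha ha1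
      (hS.conj_mem A hA z) (by
        rw [commutatorElement_def, inv_mul_cancel_right]; exact H13.Root.conj_mem_cj ha z)
    rw [commutatorElement_def, mul_inv_eq_one, mul_inv_eq_iff_eq_mul] at this
    exact this.symm
  rw [hS.generates] at this
  exact Subgroup.mem_center_iff.2 fun g => Subgroup.mem_centralizer_singleton_iff.1 (this (Subgroup.mem_top g))

end Cfsg.Agent.S5027
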