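import Cfsg.Statements.S5030
import Cfsg.Agent.H13.Root4

set_option autoImplicit false
open Cfsg

namespace Cfsg.Agent.S5030

/-- Let S be a set of abstract root subgroups of G and A, B, C ∈ S with ⁅A, B⁆ ∈ S and ⁅B, C⁆ ∈ S, where A and C are different and commute. For a non-identity b ∈ B put X = ⟨A, b⁻¹ C b⟩ and Y = ⟨b⁻¹ A b, C⟩ and R = ⟨A, B, C⟩. Then X and Y are either both abelian or both nilpotent of class exactly two; X and Y commute elementwise; XY is normal in R with R = (XY) B; and R is nilpotent. -/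
theorem result {G : Type*} [Group G] {S : Set (Subgroup G)} (hS : Cfsg.IsRootSubgroupSet S)
    {A B C : Subgroup G} (hA : A ∈ S) (hB : B ∈ S) (hC : C ∈ S) (hAB : ⁅A, B⁆ ∈ S) (hBC : ⁅B, C⁆ ∈ S)
    (hAC : C ∈ Cfsg.commutingPartners S A)
    {b : G} (hb : b ∈ B) (hb1 : b ≠ 1) :
    ((IsMulCommutative ↥(A ⊔ Cfsg.conjBy C b⁻¹) ∧ IsMulCommutative ↥(Cfsg.conjBy A b⁻¹ ⊔ C)) ∨
      ((¬ IsMulCommutative ↥(A ⊔ Cfsg.conjBy C b⁻¹) ∧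
          ⁅⁅A ⊔ Cfsg.conjBy C b⁻¹, A ⊔ Cfsg.conjBy C b⁻¹⁆, A ⊔ Cfsg.conjBy C b⁻¹⁆ = ⊥) ∧
        (¬ IsMulCommutative ↥(Cfsg.conjBy A b⁻¹ ⊔ C) ∧
          ⁅⁅Cfsg.conjBy A b⁻¹ ⊔ C, Cfsg.conjBy A b⁻¹ ⊔ C⁆, Cfsg.conjBy A b⁻¹ ⊔ C⁆ = ⊥))) ∧
    ⁅A ⊔ Cfsg.conjBy C b⁻¹, Cfsg.conjBy A b⁻¹ ⊔ C⁆ = ⊥ ∧
    (∀ r ∈ A ⊔ B ⊔ C, Cfsg.conjBy ((A ⊔ Cfsg.conjBy C b⁻¹) ⊔ (Cfsg.conjBy A b⁻¹ ⊔ C)) r =
      (A ⊔ Cfsg.conjBy C b⁻¹) ⊔ (Cfsg.conjBy A b⁻¹ ⊔ C)) ∧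
    ((A ⊔ Cfsg.conjBy C b⁻¹) ⊔ (Cfsg.conjBy A b⁻¹ ⊔ C)) ⊔ B = A ⊔ B ⊔ C ∧
    Group.IsNilpotent ↥(A ⊔ B ⊔ C) := by
  have r1 := H13.Root.rcc_of_comm_mem hS hA hB hAB
  have r2 := H13.Root.rcc_symm (H13.Root.rcc_of_comm_mem hS hB hC hBC)
  have hc := hAC.2.2
  have hc' := H13.Root.comm_bot_symm hc
  have hb' := inv_mem hb
  have hb1' := inv_ne_one.2 hb1
  have hW : (A ⊔ Cfsg.conjBy C b⁻¹) ⊔ (Cfsg.conjBy A b⁻¹ ⊔ C) = (A ⊔ ⁅A, B⁆) ⊔ (C ⊔ ⁅C, B⁆) := by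
    rw [← H13.Root.rcc_sup_cj r1 hb' hb1', ← H13.Root.rcc_sup_cj r2 hb' hb1']
    ac_rfl
  have hA' := hS.conj_mem A hA b⁻¹
  have hC' := hS.conj_mem C hC b⁻¹
  have ab : ∀ {P Q : Subgroup G}, P ∈ S → Q ∈ S → (IsMulCommutative ↥(P ⊔ Q) ↔ ⁅P, Q⁆ = ⊥) := fun hP hQ =>
    ⟨fun h => H13.Root.comm_bot_mono (H13.Root.comm_self_bot h) le_sup_left le_sup_right, fun h =>
      H13.Root.isMulCommutative_of_comm_bot (H13.Root.comm_bot_sup_left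
        (H13.Root.comm_bot_sup_right (H13.Root.self_comm hS hP) h)
        (H13.Root.comm_bot_sup_right (H13.Root.comm_bot_symm h) (H13.Root.self_comm hS hQ)))⟩
  refine ⟨?_, H13.Root.nil_comm hS hA hC r1 r2 hc hb', ?_, ?_, H13.Root.nil_nilpotent hS hA hC r1 r2 hc hB⟩
  · rw [ab hA hC', ab hA' hC]
    by_cases h : ⁅A, Cfsg.conjBy C b⁻¹⁆ = ⊥
    · exact Or.inl ⟨h, H13.Root.comm_bot_symm (H13.Root.nil_comm_imp hC r1 r2 hc hb' hb1' h)⟩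
    · refine Or.inr ⟨⟨h, H13.Root.nil_class_two hS hA hC r1 r2 hc hb'⟩, fun h' => h ?_, ?_⟩
      · exact H13.Root.nil_comm_imp hA r2 r1 hc' hb' hb1' (H13.Root.comm_bot_symm h')
      · rw [sup_comm]; exact H13.Root.nil_class_two hS hC hA r2 r1 hc' hb'
  · rw [hW, ← H13.Root.le_normalizer_iff_cj]
    refine sup_le (sup_le (H13.Root.le_normalizer_of_le (le_sup_left.trans le_sup_left)) ?_)
      (H13.Root.le_normalizer_of_le (le_sup_left.trans le_sup_right))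
    refine H13.Root.le_normalizer_iff_cj.2 fun x hx => ?_
    rw [H13.Root.cj_sup, H13.Root.cj_sup_comm A hx, H13.Root.cj_sup_comm C hx]
  · rw [hW]
    refine le_antisymm (sup_le (sup_le (sup_le (le_sup_left.trans le_sup_left)
      ((Subgroup.commutator_le_sup _ _).trans le_sup_left)) (sup_le le_sup_right
      ((Subgroup.commutator_le_sup _ _).trans (sup_le le_sup_right (le_sup_right.trans le_sup_left)))))
      (le_sup_right.trans le_sup_left)) (sup_le (sup_le ((le_sup_left.trans le_sup_left).trans le_sup_left)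
      le_sup_right) ((le_sup_left.trans le_sup_right).trans le_sup_left))

end Cfsg.Agent.S5030
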