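import Cfsg.Statements.S5032
import Cfsg.Agent.H13.Root4

set_option autoImplicit false
open Cfsg

namespace Cfsg.Agent.S5032

/-- Let S be a set of abstract root subgroups of G with more than one member. Then the graph of rank one pairs on S is connected if and only if S is a single conjugacy class of G and some member of S has a rank one partner in S. -/
theorem result {G : Type*} [Group G] {S : Set (Subgroup G)} (hS : Cfsg.IsRootSubgroupSet S) (h2 : ∃ A ∈ S, ∃ B ∈ S, A ≠ B) :
    Cfsg.IsConnectedFamily (Cfsg.FAdj S) S ↔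
      (Cfsg.IsConjClassOfSubgroups S ∧ ∃ A ∈ S, ¬ Cfsg.IsIsolatedIn (Cfsg.FAdj S) S A) := by
  obtain ⟨A, hA, B, hB, hne⟩ := h2
  constructor
  · intro h
    exact ⟨⟨⟨A, hA⟩, fun C hC D hD => H13.Root.conj_of_freach (h C hC D hD)⟩, A, hA,
      (H13.Root.ni_iff hA).2 (H13.Root.ni_of_reach (h A hA B hB) hne.symm)⟩
  · rintro ⟨hc, C, hC, h⟩
    obtain ⟨D, hD, h⟩ := (H13.Root.ni_iff hC).1 h
    exact H13.Root.fconn_of_class hS hc (H13.Root.ni_of_class hS hc ⟨C, hC, D, hD, h⟩)

end Cfsg.Agent.S5032
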