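import Cfsg.Statements.S5033
import Cfsg.Agent.H13.Special2
import Cfsg.Agent.H13.Root4
import Cfsg.Agent.H1.Layer

set_option autoImplicit false
open Cfsg

namespace Cfsg.Agent.S5033

/-- Quasisimplicity criterion for groups generated by abstract root subgroups. Let S be a set of abstract root subgroups of G with more than one member such that: the graph of rank one pairs on S is connected; no two different members of S have the same set of commuting members of S; if S is degenerate then every member of S has more than three elements; and every rank one pair in S is special. Then for every A ∈ S one has G = G' A with A ∩ G' ≠ 1, and the commutator subgroup G' is quasisimple. Moreover G is perfect if S is non-degenerate, or if some rank one pair A, B in S generates a perfect group. -/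
theorem result {G : Type*} [Group G] {S : Set (Subgroup G)} (hS : Cfsg.IsRootSubgroupSet S) (h2 : ∃ A ∈ S, ∃ B ∈ S, A ≠ B)
    (h1 : Cfsg.IsConnectedFamily (Cfsg.FAdj S) S)
    (h2' : ∀ A ∈ S, ∀ C ∈ S, A ≠ C → Cfsg.centralizingMembers S A ≠ Cfsg.centralizingMembers S C)
    (h3 : Cfsg.IsDegenerateRootSet S → ∀ A ∈ S, 3 < ENat.card A)
    (h4 : ∀ A ∈ S, ∀ B ∈ Cfsg.rankOnePartners S A, Cfsg.IsSpecialRankOnePair A B) :
    (∀ A ∈ S, commutator G ⊔ A = ⊤ ∧ A ⊓ commutator G ≠ ⊥) ∧ Cfsg.IsQuasisimple ↥(commutator G) ∧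
    (Cfsg.IsNondegenerateRootSet S → commutator G = ⊤) ∧
    ((∃ A ∈ S, ∃ B ∈ Cfsg.rankOnePartners S A, Group.IsPerfect ↥(A ⊔ B)) → commutator G = ⊤) := by
  obtain ⟨A₀, hA₀, B₀, hB₀, hne⟩ := h2
  have hc : Cfsg.IsConjClassOfSubgroups S := ⟨⟨A₀, hA₀⟩, fun C hC D hD => H13.Root.conj_of_freach (h1 C hC D hD)⟩
  have hni : ∀ A ∈ S, H13.Root.NI S A := by
    obtain ⟨D, hD, h⟩ := H13.Root.ni_of_reach (h1 A₀ hA₀ B₀ hB₀) hne.symm
    exact H13.Root.ni_of_class hS hc ⟨A₀, hA₀, D, hD, h⟩
  have k1 : ∀ N : Subgroup G, N.Normal → ∀ A ∈ S, A ≤ N → N = ⊤ := fun N hN A hA hle =>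
    H13.Root.eq_top_of_le hS fun B hB => by
      obtain ⟨g, rfl⟩ := hc.2 A hA B hB
      exact (H13.Root.cj_mono hle g).trans
        (H13.Root.cj_eq_self_iff.2 (by rw [Subgroup.normalizer_eq_top]; trivial)).le
  have k2 : ∀ N : Subgroup G, N.Normal → N ≠ ⊤ → ∀ C ∈ S, ∀ D ∈ S, ⁅C, D⁆ ≤ N → ⁅C, D⁆ = ⊥ := by
    intro N hN hNt C hC D hD hle
    rcases hS.pair C hC D hD with h | h | r
    · exact h
    · exfalso
      by_cases hd : Cfsg.IsDegenerateRootSet S
      · have hp := H13.Root.perfect_of_card (h4 C hC D ⟨hD, h⟩) (H13.Root.self_comm hS hC) (h3 hd C hC)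
        refine hNt (k1 N hN C hC (le_sup_left.trans (hp.ge.trans ?_)))
        refine H1.commutator_sup_le Subgroup.le_normalizer_of_normal Subgroup.le_normalizer_of_normal
          (H1.commutator_sup_le' Subgroup.le_normalizer_of_normal Subgroup.le_normalizer_of_normal
            (H13.Root.self_comm hS hC ▸ bot_le) hle)
          (H1.commutator_sup_le' Subgroup.le_normalizer_of_normal Subgroup.le_normalizer_of_normal
            (by rwa [Subgroup.commutator_comm]) (H13.Root.self_comm hS hD ▸ bot_le))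
      · simp only [Cfsg.IsDegenerateRootSet, not_forall, not_not] at hd
        obtain ⟨P, hP, Q, hQ, r⟩ := hd
        obtain ⟨g, rfl⟩ := hc.2 _ r.1 C hC
        obtain ⟨M, hM, -, -, r0, -, e⟩ := H13.Root.line_struct hS hni hC
          (H13.Root.line_cj hS r.1 (H13.Root.rcc_line hS r hP (hni P hP)) g) hD h
        refine hNt (k1 N hN M hM.1.1 ?_)
        rw [← e, Subgroup.commutator_comm]
        refine H1.three_subgroups ?_ ?_
        · exact (Subgroup.commutator_mono (by rwa [Subgroup.commutator_comm]) le_rfl).trans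
            (Subgroup.commutator_le_left _ _)
        · rw [hM.1.2.2]; simp
    · exact (hNt (k1 N hN _ r.1 hle)).elim
  have hp : commutator G = ⊤ := by
    by_contra hne'
    obtain ⟨D, hD, h⟩ := hni A₀ hA₀
    exact H13.Root.comm_ne_bot h (k2 _ inferInstance hne' _ hA₀ _ hD (Subgroup.commutator_mono le_top le_top))
  have hq : Cfsg.IsQuasisimple G := by
    refine H1.isQuasisimple_iff.2 ⟨⟨hp⟩, ?_, fun N hN => ?_⟩
    · obtain ⟨a, -, ha⟩ := H13.Root.exists_ne_one (hS.ne_bot _ hA₀)
      exact ⟨a, 1, ha⟩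
    by_cases hNt : N = ⊤
    · exact Or.inl hNt
    right
    have k3 : ∀ n ∈ N, ∀ A ∈ S, ∀ D ∈ S, ⁅D, A⁆ = ⊥ → ⁅D, Cfsg.conjBy A n⁆ = ⊥ := by
      intro n hn A hA D hD h
      refine k2 N hN hNt D hD _ (hS.conj_mem A hA n) ?_
      rw [← QuotientGroup.ker_mk' N, ← Subgroup.map_eq_bot_iff, Subgroup.map_commutator, H13.Root.cj_map,
        show QuotientGroup.mk' N n = 1 from (QuotientGroup.eq_one_iff n).2 hn, H13.Root.cj_one,
        ← Subgroup.map_commutator, h, Subgroup.map_bot]
    have k4 : ∀ n ∈ N, ∀ A ∈ S, Cfsg.conjBy A n = A := by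
      intro n hn A hA
      by_contra hne'
      refine h2' _ (hS.conj_mem A hA n) A hA hne' (Set.ext fun D => and_congr_right fun hD => ?_)
      rw [← Subgroup.commutator_eq_bot_iff_le_centralizer, ← Subgroup.commutator_eq_bot_iff_le_centralizer]
      exact ⟨fun h => by simpa using k3 _ (inv_mem hn) _ (hS.conj_mem A hA n) D hD h, k3 n hn A hA D hD⟩
    intro n hn
    have : Subgroup.centralizer {n} = ⊤ := H13.Root.eq_top_of_le hS fun A hA a ha => by
      obtain ⟨D, hD, h⟩ := hni A hA
      exact Subgroup.mem_centralizer_singleton_iff.2 (H13.Root.central_of_normalizes h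
        (fun C hC => k4 n hn C (H13.Root.mem_of_mem_U hS hA hC)) a (Subgroup.mem_sup_left ha)).symm
    exact Subgroup.mem_center_iff.2 fun g =>
      Subgroup.mem_centralizer_singleton_iff.1 (this ▸ Subgroup.mem_top g)
  refine ⟨fun A hA => ⟨by rw [hp, top_sup_eq], by rw [hp, inf_top_eq]; exact hS.ne_bot A hA⟩, ?_,
    fun _ => hp, fun _ => hp⟩
  rw [hp]
  exact H1.isQuasisimple_of_equiv hq Subgroup.topEquiv.symm

end Cfsg.Agent.S5033
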