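import Cfsg.Statements.S5035
import Cfsg.Agent.H13.Root4

set_option autoImplicit false
open Cfsg

namespace Cfsg.Agent.S5035

/-- Let S be a set of abstract root subgroups of G whose graph of rank one pairs is connected, and f a homomorphism from G onto a group H. Then either the images of the members of S form a set of abstract root subgroups of H whose graph of rank one pairs is again connected, or H equals the image of a member of S. -/
theorem result {G H : Type*} [Group G] [Group H] {S : Set (Subgroup G)} (hS : Cfsg.IsRootSubgroupSet S)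
    (hc : Cfsg.IsConnectedFamily (Cfsg.FAdj S) S) (f : G →* H) (hf : Function.Surjective f) :
    (Cfsg.IsRootSubgroupSet ((fun A : Subgroup G => A.map f) '' S) ∧
      Cfsg.IsConnectedFamily (Cfsg.FAdj ((fun A : Subgroup G => A.map f) '' S)) ((fun A : Subgroup G => A.map f) '' S)) ∨
    ∃ A ∈ S, A.map f = ⊤ := by
  by_cases hb : ∃ A ∈ S, A.map f = ⊥
  · obtain ⟨A, hA, e⟩ := hb
    refine Or.inr ⟨A, hA, ?_⟩
    have : f.ker = ⊤ := H13.Root.eq_top_of_le hS fun B hB => by
      obtain ⟨g, rfl⟩ := H13.Root.conj_of_freach (hc A hA B hB)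
      rw [← Subgroup.map_eq_bot_iff, H13.Root.cj_map, e, H13.Root.cj_bot]
    rw [eq_top_iff]
    intro y _
    obtain ⟨x, rfl⟩ := hf y
    rw [(MonoidHom.mem_ker.1 (this ▸ Subgroup.mem_top x) : f x = 1)]
    exact one_mem _
  push Not at hb
  have hcomm : ∀ A ∈ S, ⁅A.map f, A.map f⁆ = ⊥ := fun A hA => by
    rw [← Subgroup.map_commutator, H13.Root.self_comm hS hA, Subgroup.map_bot]
  refine Or.inl ⟨⟨?_, ?_, ?_, ?_, ?_⟩, ?_⟩
  · rintro _ ⟨A, hA, rfl⟩
    exact H13.Root.isMulCommutative_of_comm_bot (hcomm A hA)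
  · rintro _ ⟨A, hA, rfl⟩
    exact hb A hA
  · rw [iSup_image, eq_top_iff, ← Subgroup.map_top_of_surjective f hf, ← hS.generates, Subgroup.map_le_iff_le_comap]
    exact iSup₂_le fun A hA => Subgroup.map_le_iff_le_comap.1
      (le_iSup₂_of_le (f := fun A (_ : A ∈ S) => A.map f) A hA le_rfl)
  · rintro _ ⟨A, hA, rfl⟩ y
    obtain ⟨x, rfl⟩ := hf y
    exact ⟨_, hS.conj_mem A hA x, H13.Root.cj_map f A x⟩
  · rintro _ ⟨A, hA, rfl⟩ _ ⟨B, hB, rfl⟩
    rcases hS.pair A hA B hB with h | h | r
    · left; rw [← Subgroup.map_commutator, h, Subgroup.map_bot]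
    · by_cases e : A.map f = B.map f
      · left; simp only [e]; exact hcomm B hB
      · exact Or.inr (Or.inl (H13.Root.map_of_ne h f e))
    · refine Or.inr (Or.inr ⟨⟨_, r.1, Subgroup.map_commutator _ _ _⟩, ?_, ?_, ?_⟩)
      · rw [← Subgroup.map_commutator, ← Subgroup.map_sup]
        rintro _ ⟨c, hc, rfl⟩ _ ⟨x, hx, rfl⟩
        rw [← map_mul, r.2.1 c hc x hx, map_mul]
      · rintro _ ⟨a, ha, rfl⟩ ha1
        rw [← Subgroup.map_commutator, ← r.2.2.1 a ha (by rintro rfl; simp at ha1), MonoidHom.map_closure,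
          Subgroup.coe_map, Set.image_image, Set.image_image]
        simp
      · rintro _ ⟨a, ha, rfl⟩ ha1
        rw [← Subgroup.map_commutator, ← r.2.2.2 a ha (by rintro rfl; simp at ha1), MonoidHom.map_closure,
          Subgroup.coe_map, Set.image_image, Set.image_image]
        simp
  · rintro _ ⟨A, hA, rfl⟩ _ ⟨B, hB, rfl⟩
    have := hc A hA B hB
    clear hB
    induction this with
    | refl => exact .refl
    | @tail C D _ h ih =>
      by_cases e : C.map f = D.map f
      · simpa only [e] using ih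
      · exact ih.tail ⟨⟨C, h.1, rfl⟩, ⟨D, h.2.1, rfl⟩, H13.Root.map_of_ne h.2.2 f e⟩

end Cfsg.Agent.S5035
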