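import Cfsg.Statements.S5036
import Cfsg.Agent.H13.Root4

set_option autoImplicit false
open Cfsg

namespace Cfsg.Agent.S5036

/-- Let S be a set of abstract root subgroups of G, A, B ∈ S with C = ⁅A, B⁆ ∈ S, and D ∈ S with ⁅D, C⁆ = A. Put X = ⟨B, D⟩ and N = AC. Then B, D form a rank one pair; the conjugates of A under X are the conjugates of C under X, namely the conjugates of A by elements of B together with C, equally the conjugates of C by elements of D together with A, and they partition N; and the centralizer of N in X is central in X. -/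
theorem result {G : Type*} [Group G] {S : Set (Subgroup G)} (hS : Cfsg.IsRootSubgroupSet S)
    {A B D : Subgroup G} (hA : A ∈ S) (hB : B ∈ S) (hC : ⁅A, B⁆ ∈ S) (hD : D ∈ S) (hDC : ⁅D, ⁅A, B⁆⁆ = A) :
    Cfsg.IsRankOnePair B D ∧
    {E | ∃ x ∈ B ⊔ D, E = Cfsg.conjBy A x} = {E | ∃ x ∈ B ⊔ D, E = Cfsg.conjBy ⁅A, B⁆ x} ∧
    {E | ∃ x ∈ B ⊔ D, E = Cfsg.conjBy A x} = (fun b : G => Cfsg.conjBy A b) '' (B : Set G) ∪ {⁅A, B⁆} ∧
    {E | ∃ x ∈ B ⊔ D, E = Cfsg.conjBy A x} = (fun d : G => Cfsg.conjBy ⁅A, B⁆ d) '' (D : Set G) ∪ {A} ∧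
    Cfsg.IsSubgroupPartition (A ⊔ ⁅A, B⁆) {E | ∃ x ∈ B ⊔ D, E = Cfsg.conjBy A x} ∧
    ∀ x ∈ (B ⊔ D) ⊓ Subgroup.centralizer ((A ⊔ ⁅A, B⁆ : Subgroup G) : Set G), ∀ y ∈ B ⊔ D, x * y = y * x := by
  have r := H13.Root.rcc_of_comm_mem hS hA hB hC
  have r' := H13.Root.rcc_of_comm_mem hS hD hC (hDC.symm ▸ hA)
  have hp := H13.Root.pair_of_comm_comm hS r r' hB hD hDC
  set C := ⁅A, B⁆ with hCd
  have hAD : ⁅A, D⁆ = ⊥ := by have := H13.Root.rcc_comm_left r'; rwa [hDC] at this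
  have hCB : ⁅C, B⁆ = ⊥ := H13.Root.rcc_comm_right r
  have hAC : ⁅C, A⁆ = ⊥ := H13.Root.rcc_comm_left r
  have hCD : ⁅C, D⁆ = A := by rwa [Subgroup.commutator_comm]
  have nB : ∀ b ∈ B, Cfsg.conjBy (A ⊔ C) b = A ⊔ C := fun b hb => H13.Root.cj_sup_comm A hb
  have nD : ∀ d ∈ D, Cfsg.conjBy (A ⊔ C) d = A ⊔ C := fun d hd => by
    have := H13.Root.cj_sup_comm C hd
    rwa [hCD, sup_comm] at this
  have nX : ∀ x ∈ B ⊔ D, Cfsg.conjBy (A ⊔ C) x = A ⊔ C := H13.Root.le_normalizer_iff_cj.1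
    (sup_le (H13.Root.le_normalizer_iff_cj.2 nB) (H13.Root.le_normalizer_iff_cj.2 nD))
  have cB : ⁅A ⊔ C, B⁆ = C := le_antisymm (H1.commutator_sup_le (Subgroup.normalizer_commutator_ge_left A B)
    Subgroup.le_normalizer le_rfl (hCB ▸ bot_le)) (Subgroup.commutator_mono le_sup_left le_rfl)
  have cD : ⁅A ⊔ C, D⁆ = A := le_antisymm (H1.commutator_sup_le Subgroup.le_normalizer
    (H13.Root.le_normalizer_iff_cj.2 fun c hc => H13.Root.cj_eq_of_comm_bot (H13.Root.comm_bot_symm hAC) hc)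
    (hAD ▸ bot_le) hCD.le) (hCD.ge.trans (Subgroup.commutator_mono le_sup_right le_rfl))
  have key : ∀ x ∈ B ⊔ D, ∀ y ∈ B ⊔ D, Cfsg.conjBy B x = Cfsg.conjBy D y →
      Cfsg.conjBy C x = Cfsg.conjBy A y := by
    intro x hx y hy e
    have h1 := H13.Root.cj_commutator (A ⊔ C) B x
    have h2 := H13.Root.cj_commutator (A ⊔ C) D y
    rw [cB, nX x hx] at h1
    rw [cD, nX y hy] at h2
    rw [h1, h2, e]
  have orbA : ∀ E, (∃ x ∈ B ⊔ D, E = Cfsg.conjBy A x) ↔ (∃ b ∈ B, Cfsg.conjBy A b = E) ∨ E = C := by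
    intro E
    constructor
    · rintro ⟨x, hx, rfl⟩
      rcases (H13.Root.mem_U_iff hp).1 (H13.Root.cj_mem_U (H13.Root.right_mem_U hp) hx) with e | ⟨b, hb, e⟩
      · right
        have := key 1 (one_mem _) x hx (by rw [e, H13.Root.cj_one])
        rw [← this, H13.Root.cj_one]
      · left
        refine ⟨b, hb, ?_⟩
        obtain ⟨y, hy, e'⟩ := H13.Root.exists_cj_eq hp
        rw [← key (b * y) (mul_mem (Subgroup.mem_sup_left hb) hy) b (Subgroup.mem_sup_left hb)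
          (by rw [← H13.Root.cj_cj, e']),
          key (b * y) (mul_mem (Subgroup.mem_sup_left hb) hy) x hx (by rw [← H13.Root.cj_cj, e', e])]
    · rintro (⟨b, hb, rfl⟩ | rfl)
      · exact ⟨b, Subgroup.mem_sup_left hb, rfl⟩
      · obtain ⟨y, hy, e'⟩ := H13.Root.exists_cj_eq hp
        have := key 1 (one_mem _) y⁻¹ (inv_mem hy) (by rw [← e']; simp)
        exact ⟨y⁻¹, inv_mem hy, by simpa using this⟩
  have orbC : ∀ E, (∃ x ∈ B ⊔ D, E = Cfsg.conjBy C x) ↔ (∃ d ∈ D, Cfsg.conjBy C d = E) ∨ E = A := by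
    intro E
    constructor
    · rintro ⟨x, hx, rfl⟩
      rcases (H13.Root.mem_U_iff' hp).1 (H13.Root.cj_mem_U H13.Root.left_mem_U hx) with e | ⟨d, hd, e⟩
      · right
        have := key x hx 1 (one_mem _) (by rw [e, H13.Root.cj_one])
        rw [this, H13.Root.cj_one]
      · left
        refine ⟨d, hd, ?_⟩
        obtain ⟨y, hy, e'⟩ := H13.Root.exists_cj_eq (H13.Root.symm hp)
        rw [sup_comm] at hy
        rw [key d (Subgroup.mem_sup_right hd) (d * y) (mul_mem (Subgroup.mem_sup_right hd) hy)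
          (by rw [← H13.Root.cj_cj, e']),
          key x hx (d * y) (mul_mem (Subgroup.mem_sup_right hd) hy) (by rw [← H13.Root.cj_cj, e', e])]
    · rintro (⟨d, hd, rfl⟩ | rfl)
      · exact ⟨d, Subgroup.mem_sup_right hd, rfl⟩
      · obtain ⟨y, hy, e'⟩ := H13.Root.exists_cj_eq hp
        have := key y hy 1 (one_mem _) (by rw [e']; simp)
        exact ⟨y, hy, by simpa using this.symm⟩
  have e1 : {E | ∃ x ∈ B ⊔ D, E = Cfsg.conjBy A x} = {E | ∃ x ∈ B ⊔ D, E = Cfsg.conjBy C x} := by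
    obtain ⟨y, hy, e'⟩ := (orbC A).2 (Or.inr rfl)
    ext E
    constructor
    · rintro ⟨x, hx, rfl⟩
      exact ⟨x * y, mul_mem hx hy, by rw [← H13.Root.cj_cj, ← e']⟩
    · rintro ⟨x, hx, rfl⟩
      exact ⟨x * y⁻¹, mul_mem hx (inv_mem hy), by rw [← H13.Root.cj_cj, e', H13.Root.cj_inv_cj]⟩
  refine ⟨hp, e1, Set.ext fun E => orbA E, e1 ▸ Set.ext fun E => orbC E, ⟨?_, ?_, ?_⟩, ?_⟩
  · rintro _ ⟨x, hx, rfl⟩
    exact nX x hx ▸ H13.Root.cj_mono le_sup_left x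
  · intro x hx _
    rcases H13.Root.rcc_cover r hx with h | ⟨b, hb, h⟩
    · exact ⟨C, (orbA C).2 (Or.inr rfl), h⟩
    · exact ⟨_, ⟨b, Subgroup.mem_sup_left hb, rfl⟩, h⟩
  · rintro _ ⟨x, hx, rfl⟩ E hE hne
    have h1 : Cfsg.conjBy E x⁻¹ ∈ {E | ∃ x ∈ B ⊔ D, E = Cfsg.conjBy C x} := by
      rw [← e1]
      obtain ⟨y, hy, rfl⟩ := hE
      exact ⟨x⁻¹ * y, mul_mem (inv_mem hx) hy, H13.Root.cj_cj _ _ _⟩
    rcases (orbC _).1 h1 with ⟨d, hd, e⟩ | e
    · rw [eq_comm, H13.Root.cj_eq_iff, inv_inv] at e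
      rw [e, ← H13.Root.cj_inf, H13.Root.cj_eq_bot_iff, ← H13.Root.cj_eq_of_comm_bot hAD hd, ← H13.Root.cj_inf,
        H13.Root.cj_eq_bot_iff, eq_bot_iff]
      exact fun z hz => H13.Root.rcc_inf hS r hz.1 hz.2
    · rw [H13.Root.cj_eq_iff, inv_inv] at e
      exact (hne e.symm).elim
  · refine H13.Root.central_of_le_normalizer hp (fun x hx => ?_) (fun k hk => ?_)
    · rw [H13.Root.cj_inf, H13.Root.cj_of_mem hx, H13.Root.cj_eq_self_iff.2
        (H13.Root.normalizer_le_normalizer_centralizer _ (H13.Root.cj_eq_self_iff.1 (nX x hx)))]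
    · rcases (H13.Root.mem_U_iff hp).1 (H13.Root.cj_mem_U H13.Root.left_mem_U hk.1) with e | ⟨b, hb, e⟩
      · exact e
      · exfalso
        have h1 := key k hk.1 b (Subgroup.mem_sup_left hb) e
        rw [H13.Root.cj_eq_of_commute fun c hc => (hk.2 c (Subgroup.mem_sup_right hc)).symm, eq_comm,
          H13.Root.cj_eq_iff, H13.Root.cj_eq_of_comm_bot hCB (inv_mem hb)] at h1
        exact H13.Root.rcc_ne hS r h1.symm

end Cfsg.Agent.S5036
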