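import Cfsg.Statements.S5037
import Cfsg.Agent.H13.Root4

set_option autoImplicit false
open Cfsg

namespace Cfsg.Agent.S5037

/-- Let S be a class of abstract root subgroups of G that is either degenerate or non-degenerate (so either the commutator case never occurs, or all three cases occur), and A ≠ C members of S. If every member of S commuting with A commutes with C, then A and C have the same commuting members of S; and if every rank one partner of A is a rank one partner of C, then A and C commute and have the same rank one partners. -/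
theorem result {G : Type*} [Group G] {S : Set (Subgroup G)} (hS : Cfsg.IsRootSubgroupClass S)
    (hdn : Cfsg.IsDegenerateRootSet S ∨ Cfsg.IsNondegenerateRootSet S)
    {A C : Subgroup G} (hA : A ∈ S) (hC : C ∈ S) (hAC : A ≠ C) :
    (Cfsg.centralizingMembers S A ⊆ Cfsg.centralizingMembers S C →
      Cfsg.centralizingMembers S A = Cfsg.centralizingMembers S C) ∧
    (Cfsg.rankOnePartners S A ⊆ Cfsg.rankOnePartners S C →
      ⁅A, C⁆ = ⊥ ∧ Cfsg.rankOnePartners S A = Cfsg.rankOnePartners S C) := by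
  have mem : ∀ {X D : Subgroup G}, D ∈ Cfsg.centralizingMembers S X ↔ D ∈ S ∧ ⁅D, X⁆ = ⊥ := fun {X D} =>
    and_congr_right fun _ => Subgroup.commutator_eq_bot_iff_le_centralizer.symm
  by_cases hp : ∃ A ∈ S, ∃ B ∈ S, Cfsg.IsRankOnePair A B
  swap
  · have hd : Cfsg.IsDegenerateRootSet S := hdn.resolve_right fun h => hp h.2.1
    have hall : ∀ A ∈ S, ∀ B ∈ S, ⁅A, B⁆ = ⊥ := fun A hA B hB =>
      (hS.1.pair A hA B hB).resolve_right fun h => h.elim (fun h => hp ⟨A, hA, B, hB, h⟩) (hd A hA B hB)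
    refine ⟨fun h => h.antisymm fun D hD => mem.2 ⟨hD.1, hall _ hD.1 _ hA⟩, fun h => ⟨hall _ hA _ hC,
      h.antisymm fun D hD => (hp ⟨C, hC, D, hD.1, hD.2⟩).elim⟩⟩
  have hni := H13.Root.ni_of_class hS.1 hS.2 hp
  refine ⟨fun h => h.antisymm fun D hD => ?_, fun h => ?_⟩
  · have hc : ⁅A, C⁆ = ⊥ := (mem.1 (h (mem.2 ⟨hA, H13.Root.self_comm hS.1 hA⟩))).2
    have h1 : Cfsg.rankOnePartners S C ⊆ Cfsg.rankOnePartners S A := by
      intro B hB
      rcases hS.1.pair A hA B hB.1 with h2 | h2 | r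
      · exact (H13.Root.comm_ne_bot (H13.Root.symm hB.2)
          (mem.1 (h (mem.2 ⟨hB.1, H13.Root.comm_bot_symm h2⟩))).2).elim
      · exact ⟨hB.1, h2⟩
      · exfalso
        obtain ⟨e, he, he1⟩ := H13.Root.exists_ne_one (hS.1.ne_bot _ r.1)
        have := (mem.1 (h (mem.2 ⟨r.1, H13.Root.rcc_comm_left r⟩))).2
        exact he1 (H13.Root.rcc_not_commute hS.1 (H13.Root.rcc_symm r) hB.1 hC (H13.Root.symm hB.2)
          (by rwa [Subgroup.commutator_comm]) (H13.Root.comm_bot_iff.1 this e he))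
    have h2 := H13.Root.opp_le_of_comm hS.1 hC (hni C hC) (H13.Root.comm_bot_symm hc) h1
    have hDC := (mem.1 hD).2
    refine mem.2 ⟨hD.1, ?_⟩
    rcases hS.1.pair A hA D hD.1 with h3 | h3 | r
    · exact H13.Root.comm_bot_symm h3
    · exact (H13.Root.comm_ne_bot (h2 ⟨hD.1, h3⟩).2 (H13.Root.comm_bot_symm hDC)).elim
    · exfalso
      obtain ⟨d, hd, hd1⟩ := H13.Root.exists_ne_one (hS.1.ne_bot _ hD.1)
      obtain ⟨B, hB, p1, p2⟩ := H13.Root.line_opp_not hS.1 hni hA
        (H13.Root.rcc_line_cj hS.1 r hA (hni A hA) hd hd1)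
      have p3 := H13.Root.conj (h2 ⟨hB, p1⟩).2 d⁻¹
      rw [H13.Root.cj_eq_of_comm_bot (H13.Root.comm_bot_symm hDC) (inv_mem hd)] at p3
      exact p2 (by simpa using H13.Root.conj (h1 ⟨hS.1.conj_mem B hB _, p3⟩).2 d)
  · have hc := H13.Root.comm_of_opp_le hS.1 hni hA hC h
    exact ⟨hc, h.antisymm (H13.Root.opp_le_of_comm hS.1 hA (hni A hA) hc h)⟩

end Cfsg.Agent.S5037
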