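import Cfsg.Statements.S5039
import Cfsg.Agent.H13.Deg

set_option autoImplicit false
universe u
open Cfsg

namespace Cfsg.Agent.S5039

/-- Let S be a class of abstract root subgroups of G containing two different commuting members. Suppose that, in case S is degenerate and every element of every member of S has order at most 3, the following holds: for every A ∈ S and every rank one partner B of A there are subgroups A₀ ≤ A and B₀ ≤ B generating an image of SL₂(k) with central kernel, k a field with at least four elements, A₀ and B₀ being the images of the unitriangular subgroups. Then every rank one pair A, B in S is special. -/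
theorem result {G : Type u} [Group G] {S : Set (Subgroup G)} (hS : Cfsg.IsRootSubgroupClass S)
    (hcomm : ∃ A ∈ S, ∃ C ∈ S, A ≠ C ∧ ⁅A, C⁆ = ⊥)
    (hH : Cfsg.IsDegenerateRootSet S → (∀ A ∈ S, ∀ a ∈ A, 0 < orderOf a ∧ orderOf a ≤ 3) →
      ∀ A ∈ S, ∀ B ∈ Cfsg.rankOnePartners S A, ∃ A₀ B₀ : Subgroup G, A₀ ≤ A ∧ B₀ ≤ B ∧
        ∃ (k : Type u) (_ : Field k), 3 < ENat.card k ∧ Cfsg.IsPSL2PairOver k A₀ B₀)
    {A B : Subgroup G} (hA : A ∈ S) (hB : B ∈ Cfsg.rankOnePartners S A) : Cfsg.IsSpecialRankOnePair A B := by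
  open H13.Root in
  have hni := ni_of_class hS.1 hS.2 ⟨A, hA, B, hB⟩
  by_cases hd : Cfsg.IsDegenerateRootSet S
  swap
  · obtain ⟨P, hP⟩ := H13.Root.exists_line hS.1 hS.2 ⟨hcomm, ⟨A, hA, B, hB⟩, by
      simpa [Cfsg.IsDegenerateRootSet] using hd⟩ hA
    exact H13.Root.special_of_line hS.1 hni hA hP hB.1 hB.2
  by_contra hn
  have k : ∀ {A B : Subgroup G}, B ∈ S → Cfsg.IsRankOnePair A B → ¬ Cfsg.IsSpecialRankOnePair A B →
      H13.Root.Gam S A ⊆ H13.Root.Gam S B := fun {A B} hB h hn C hC =>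
    ⟨hC.1, fun e => H13.Root.comm_ne_bot h (e ▸ hC.2.2), H13.Root.comm_bot_symm
      ((hS.1.pair C hC.1 B hB).resolve_right fun e => e.elim
        (fun e => hn (H13.Root.tri_special h e hC.2.2 hC.2.1.symm)) (hd _ hC.1 _ hB))⟩
  have hG := (k hB.1 hB.2 hn).antisymm (k hA (H13.Root.symm hB.2) fun h => hn (H13.Root.special_symm h))
  have k1 : ∀ P ∈ S, ∃ C ∈ H13.Root.Gam S P, ∃ D ∈ S, Cfsg.IsRankOnePair P D ∧ Cfsg.IsRankOnePair C D := by
    intro P hP
    obtain ⟨Q, hQ, C, hC, h1, h2⟩ := hcomm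
    obtain ⟨g, rfl⟩ := hS.2.2 Q hQ P hP
    have := H13.Root.Gam_cj hS.1 (show C ∈ H13.Root.Gam S Q from ⟨hC, h1.symm, h2⟩) g
    exact ⟨_, this, H13.Root.exists_opp_both hS.1 hd hP (hni _ hP) (H13.Root.fconn_of_class hS.1 hS.2 hni _ hP _ this.1)⟩
  obtain ⟨A₀, B₀, h1, h2, k, _, hk, hφ⟩ := hH hd (fun P hP a ha => by
    obtain ⟨C, hC, D, hD, h1, h2⟩ := k1 P hP
    obtain ⟨g, rfl⟩ := hS.2.2 A hA D hD
    by_cases h : a ^ 2 = 1
    · exact ⟨(isOfFinOrder_iff_pow_eq_one.2 ⟨2, two_pos, h⟩).orderOf_pos, (orderOf_le_of_pow_eq_one two_pos h).trans (by norm_num)⟩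
    have := H13.Root.pow_three hS.1 hP hC hD h1 h2 (H13.Root.conj hB.2 g)
      (fun E hE => H13.Root.comm_bot_symm (H13.Root.Gam_congr hS.1 hG g ▸ hE).2.2) ha h
    exact ⟨(isOfFinOrder_iff_pow_eq_one.2 ⟨3, three_pos, this⟩).orderOf_pos, orderOf_le_of_pow_eq_one three_pos this⟩) A hA B hB
  obtain ⟨C, hC, D, hD, h3, h4⟩ := k1 A hA
  have h5 : Cfsg.IsRankOnePair B D := ((hS.1.pair B hB.1 D hD).resolve_left fun e => by
    by_cases e' : D = B
    · exact H13.Root.comm_ne_bot h4 (H13.Root.comm_bot_symm (e' ▸ (hG ▸ hC).2.2))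
    · exact H13.Root.comm_ne_bot h3 (hG.ge ⟨hD, e', e⟩).2.2).resolve_right (hd _ hB.1 _ hD)
  obtain ⟨a, ha, ha1⟩ := H13.Root.exists_ne_one (H13.Root.left_ne_bot (H13.pair_of_psl2 hφ))
  refine ha1 (H13.Root.eq_one_of_Gam hS.1 hC hG h3 h4 h5 (h1 ha) hA (Subgroup.commutator_mono (sup_le_sup h1 h2)
    (sup_le_sup h1 h2) ?_))
  obtain ⟨φ, e, -, rfl, rfl⟩ := hφ
  obtain ⟨t, ht⟩ : ∃ t : k, t ∉ ({0, 1, -1} : Set k) := by
    by_contra! h
    have := Set.encard_le_encard (fun t _ => h t : Set.univ ⊆ _)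
    rw [Set.encard_univ] at this
    exact (hk.trans_le (this.trans ((Set.encard_insert_le _ _).trans (add_le_add_left (Set.encard_insert_le _ _) _)))).ne
      (by simp; rfl)
  simp only [Set.mem_insert_iff, Set.mem_singleton_iff, not_or] at ht
  rw [← e, MonoidHom.range_eq_map, ← Subgroup.map_commutator, ← commutator_def,
    Matrix.SL2.commutator_eq_top ht.1 (by simp [ht.2])]
  exact Subgroup.map_mono le_top ha

end Cfsg.Agent.S5039
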