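import Cfsg.Statements.S5040
import Cfsg.Agent.H13.Root4

set_option autoImplicit false
open Cfsg

namespace Cfsg.Agent.S5040

/-- Let S be a non-degenerate class of abstract root subgroups of G and Δ a weak TI-subset of S. Then the members of Δ commute with one another elementwise. -/
theorem result {G : Type*} [Group G] {S : Set (Subgroup G)} (hS : Cfsg.IsRootSubgroupClass S) (hnd : Cfsg.IsNondegenerateRootSet S)
    {Δ : Set (Subgroup G)} (hΔ : Cfsg.IsWeakTISubset S Δ) : Cfsg.IsAbelianFamily Δ := by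
  have hni := H13.Root.ni_of_class hS.1 hS.2 hnd.2.1
  let H : Subgroup G :=
    { carrier := {g | ∀ A, A ∈ Δ ↔ Cfsg.conjBy A g ∈ Δ}
      one_mem' := fun A => by simp
      mul_mem' := fun {x y} hx hy A => by rw [← H13.Root.cj_cj, ← hx, ← hy]
      inv_mem' := fun {x} hx A => by rw [hx (Cfsg.conjBy A x⁻¹), H13.Root.cj_cj_inv] }
  have k1 : ∀ A ∈ Δ, ∀ C ∈ S, ⁅A, C⁆ = ⊥ → C ≤ H := by
    intro A hA C hC h c hc
    by_cases hc1 : c = 1
    · rw [hc1]; exact one_mem _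
    rcases hΔ.2.2.2 c ⟨hc1, C, hC, hc⟩ with e | e
    · intro B
      refine ⟨fun hB => e ▸ ⟨B, hB, rfl⟩, fun hB => ?_⟩
      rw [← e] at hB
      obtain ⟨B', hB', e'⟩ := hB
      rwa [← H13.Root.cj_inj.1 e']
    · exact (Set.disjoint_left.1 e ⟨A, hA, H13.Root.cj_eq_of_comm_bot h hc⟩ hA).elim
  have k2 : ∀ A ∈ Δ, ∀ B ∈ Δ, ¬ Cfsg.IsRankOnePair A B := by
    intro A hA B hB h
    have := H13.Root.eq_top_of_lines hS.1 hS.2 hnd (hΔ.1 hA) (hΔ.1 hB) h (H := H)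
      (fun C hC => k1 A hA C hC.1.1 hC.1.2.2) (k1 B hB B (hΔ.1 hB) (H13.Root.self_comm hS.1 (hΔ.1 hB)))
    refine hΔ.2.2.1 (hΔ.1.antisymm fun C hC => ?_)
    obtain ⟨g, rfl⟩ := hS.2.2 A (hΔ.1 hA) C hC
    exact ((this ▸ Subgroup.mem_top g : g ∈ H) A).1 hA
  intro A hA B hB
  rw [← H13.Root.comm_bot_iff]
  by_contra hne
  have hAS := hΔ.1 hA
  have r := H13.Root.rcc_of_not hS.1 hAS (hΔ.1 hB) hne (k2 A hA B hB)
  obtain ⟨F, hF, r', e⟩ := H13.Root.line_exists_rcc hS.1 hni hAS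
    (H13.Root.line_symm r.1 (H13.Root.rcc_line hS.1 r hAS (hni A hAS)))
  have hp := H13.Root.pair_of_comm_comm hS.1 r (H13.Root.rcc_symm r') (hΔ.1 hB) hF.1.1
    (by rwa [Subgroup.commutator_comm])
  obtain ⟨f, hf, hf1⟩ := H13.Root.exists_ne_one (hS.1.ne_bot _ hF.1.1)
  exact k2 B hB _ ((k1 A hA F hF.1.1 hF.1.2.2 hf B).1 hB) (H13.Root.pair_cj (H13.Root.symm hp) hf hf1)

end Cfsg.Agent.S5040
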