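import Cfsg.Statements.S5043
import Cfsg.Agent.H13.Fam2

set_option autoImplicit false
open Matrix
open Cfsg

namespace Cfsg.Agent.S5043

/-- Let k be a field and n a natural number. In SL_{n+3}(k) (so in every dimension at least 3) the conjugates of the root subgroup of elementary transvections 1 + c E₁₂ (c ∈ k) — that is, the groups of transvections attached to an incident point–hyperplane pair — form a non-degenerate class of abstract k-root subgroups of SL_{n+3}(k) whose graph of rank one pairs is connected. -/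
theorem result (k : Type*) [Field k] (n : ℕ) :
    Cfsg.IsRootSubgroupClass {A : Subgroup (Matrix.SpecialLinearGroup (Fin (n + 3)) k) |
        ∃ g : Matrix.SpecialLinearGroup (Fin (n + 3)) k,
          A = Cfsg.conjBy (Subgroup.closure {t : Matrix.SpecialLinearGroup (Fin (n + 3)) k |
            ∃ c : k, (t : Matrix (Fin (n + 3)) (Fin (n + 3)) k) = Matrix.transvection 0 1 c}) g} ∧
    Cfsg.IsNondegenerateRootSet {A : Subgroup (Matrix.SpecialLinearGroup (Fin (n + 3)) k) |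
        ∃ g : Matrix.SpecialLinearGroup (Fin (n + 3)) k,
          A = Cfsg.conjBy (Subgroup.closure {t : Matrix.SpecialLinearGroup (Fin (n + 3)) k |
            ∃ c : k, (t : Matrix (Fin (n + 3)) (Fin (n + 3)) k) = Matrix.transvection 0 1 c}) g} ∧
    Cfsg.IsKRootSubgroupSet k {A : Subgroup (Matrix.SpecialLinearGroup (Fin (n + 3)) k) |
        ∃ g : Matrix.SpecialLinearGroup (Fin (n + 3)) k,
          A = Cfsg.conjBy (Subgroup.closure {t : Matrix.SpecialLinearGroup (Fin (n + 3)) k |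
            ∃ c : k, (t : Matrix (Fin (n + 3)) (Fin (n + 3)) k) = Matrix.transvection 0 1 c}) g} ∧
    Cfsg.IsConnectedFamily (Cfsg.FAdj {A : Subgroup (Matrix.SpecialLinearGroup (Fin (n + 3)) k) |
        ∃ g : Matrix.SpecialLinearGroup (Fin (n + 3)) k,
          A = Cfsg.conjBy (Subgroup.closure {t : Matrix.SpecialLinearGroup (Fin (n + 3)) k |
            ∃ c : k, (t : Matrix (Fin (n + 3)) (Fin (n + 3)) k) = Matrix.transvection 0 1 c}) g})
      {A : Subgroup (Matrix.SpecialLinearGroup (Fin (n + 3)) k) |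
        ∃ g : Matrix.SpecialLinearGroup (Fin (n + 3)) k,
          A = Cfsg.conjBy (Subgroup.closure {t : Matrix.SpecialLinearGroup (Fin (n + 3)) k |
            ∃ c : k, (t : Matrix (Fin (n + 3)) (Fin (n + 3)) k) = Matrix.transvection 0 1 c}) g} := by
  have h0 : Matrix.single (0 : Fin (n + 3)) (1 : Fin (n + 3)) (1 : k) ∈ H13.slX _ k := H13.single_mem_slX (by simp)
  have h1 : Matrix.single (0 : Fin (n + 3)) (2 : Fin (n + 3)) (1 : k) ∈ H13.slX _ k :=
    H13.single_mem_slX (by simp [Fin.ext_iff, Nat.mod_eq_of_lt])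
  have h2 : Matrix.single (1 : Fin (n + 3)) (0 : Fin (n + 3)) (1 : k) ∈ H13.slX _ k := H13.single_mem_slX (by simp)
  have h3 : Matrix.single (1 : Fin (n + 3)) (2 : Fin (n + 3)) (1 : k) ∈ H13.slX _ k :=
    H13.single_mem_slX (by simp [Fin.ext_iff, Nat.mod_eq_of_lt])
  have hk := H13.slFam.kroot (H13.sl_gen (ι := Fin (n + 3)) (F := k))
  have hc := H13.class_of_conn hk.1 ⟨_, _, h0, rfl⟩ H13.sl_conn
  have e : Subgroup.closure {t : Matrix.SpecialLinearGroup (Fin (n + 3)) k |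
      ∃ c : k, (t : Matrix (Fin (n + 3)) (Fin (n + 3)) k) = Matrix.transvection 0 1 c} =
      H13.Fam.T k Matrix.SpecialLinearGroup.toGL (Matrix.single 0 1 1) := by
    simp [H13.Fam.T, Matrix.transvection]
  have e' : {A : Subgroup (Matrix.SpecialLinearGroup (Fin (n + 3)) k) | ∃ g, A = Cfsg.conjBy
      (H13.Fam.T k Matrix.SpecialLinearGroup.toGL (Matrix.single 0 1 1)) g} =
      H13.Fam.S k Matrix.SpecialLinearGroup.toGL (H13.slX _ k) :=
    Set.ext fun A => ⟨fun ⟨g, e⟩ => e ▸ hk.1.conj_mem _ ⟨_, h0, rfl⟩ g, fun h => hc.2.2 _ ⟨_, h0, rfl⟩ _ h⟩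
  rw [e, e']
  have e2 : (2 : Fin (n + 3)) ≠ 0 := by simp [Fin.ext_iff, Nat.mod_eq_of_lt]
  have e3 : (2 : Fin (n + 3)) ≠ 1 := by simp [Fin.ext_iff, Nat.mod_eq_of_lt]
  refine ⟨hc, ⟨⟨_, ⟨_, h0, rfl⟩, _, ⟨_, h1, rfl⟩, fun e => ?_, H13.slFam.comm_of h0 h1 (by simp [e2])⟩,
    ⟨_, ⟨_, h0, rfl⟩, _, ⟨_, h2, rfl⟩, (H13.slFam.fadj h0 h2 one_ne_zero (by simp) (by simp)).2.2⟩,
    _, ⟨_, h0, rfl⟩, _, ⟨_, h3, rfl⟩, H13.slFam.rcc h0 h3 (by simp [e2]) (by simp [e2]) (by simpa [e2] using h1)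
      (by simpa [e2] using H13.slX_smul h1 (neg_ne_zero.2 one_ne_zero))⟩, hk, H13.sl_conn⟩
  obtain ⟨g, hg⟩ := H13.slFam.mem _ h0 1
  obtain ⟨c, hc⟩ := (H13.Fam.mem_T (H13.slFam.sq _ h1)).1 (e.le (Subgroup.subset_closure ⟨1, hg⟩))
  simpa [e3] using congrFun (congrFun (hg.symm.trans hc) 0) 1

end Cfsg.Agent.S5043
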