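import Cfsg.Statements.S5045
import Cfsg.Agent.H13.RI2

set_option autoImplicit false
open Cfsg

namespace Cfsg.Agent.S5045

/-- Let G be a finite group generated by a set D of root involutions, and W the set of members of D whose product with every other member of D has even order or is trivial (the isolated vertices of the odd-order-product graph on D). Then W is conjugation-invariant and generates a normal 2-subgroup of G meeting D in exactly W; the commutator of two members of D lying in different connected components of that graph, each with more than one member, lies in the subgroup generated by W; and for a in such a component, every member of D commuting with a, different from a and with product with a in D, lies in that component or in W. -/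
theorem result {G : Type*} [Group G] [Finite G] {D : Set G} (hD : Cfsg.IsRootInvolutionSet D) :
    (∀ w ∈ {w | Cfsg.IsIsolatedElem (Cfsg.OddAdj D) D w}, ∀ g : G, g * w * g⁻¹ ∈ {w | Cfsg.IsIsolatedElem (Cfsg.OddAdj D) D w}) ∧
    (Subgroup.closure {w | Cfsg.IsIsolatedElem (Cfsg.OddAdj D) D w}).Normal ∧
    IsPGroup 2 ↥(Subgroup.closure {w | Cfsg.IsIsolatedElem (Cfsg.OddAdj D) D w}) ∧
    (Subgroup.closure {w | Cfsg.IsIsolatedElem (Cfsg.OddAdj D) D w} : Set G) ∩ D = {w | Cfsg.IsIsolatedElem (Cfsg.OddAdj D) D w} ∧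
    (∀ a ∈ D, ∀ b ∈ D, (∃ a' ∈ Cfsg.elemComponentOf (Cfsg.OddAdj D) D a, a' ≠ a) →
      (∃ b' ∈ Cfsg.elemComponentOf (Cfsg.OddAdj D) D b, b' ≠ b) →
      Cfsg.elemComponentOf (Cfsg.OddAdj D) D a ≠ Cfsg.elemComponentOf (Cfsg.OddAdj D) D b →
        a * b * a⁻¹ * b⁻¹ ∈ Subgroup.closure {w | Cfsg.IsIsolatedElem (Cfsg.OddAdj D) D w}) ∧
    (∀ a ∈ D, (∃ a' ∈ Cfsg.elemComponentOf (Cfsg.OddAdj D) D a, a' ≠ a) →
      Cfsg.productPartners D a ⊆ Cfsg.elemComponentOf (Cfsg.OddAdj D) D a ∪ {w | Cfsg.IsIsolatedElem (Cfsg.OddAdj D) D w}) := by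
  have h := H13.RInv.RI.of hD
  have hW : ∀ w ∈ {w | Cfsg.IsIsolatedElem (Cfsg.OddAdj D) D w}, ∀ g : G,
      g * w * g⁻¹ ∈ {w | Cfsg.IsIsolatedElem (Cfsg.OddAdj D) D w} := fun w hw g =>
    (H13.RInv.isolated_iff_mem_pCore hD).2 ⟨hD.conj_mem w hw.1 g,
      (inferInstance : (Cfsg.pCore 2 G).Normal).conj_mem _ ((H13.RInv.isolated_iff_mem_pCore hD).1 hw).2 g⟩
  have hle : Subgroup.closure {w | Cfsg.IsIsolatedElem (Cfsg.OddAdj D) D w} ≤ Cfsg.pCore 2 G :=
    (Subgroup.closure_le _).2 fun w hw => ((H13.RInv.isolated_iff_mem_pCore hD).1 hw).2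
  have key : ∀ a ∈ D, (∃ a' ∈ Cfsg.elemComponentOf (Cfsg.OddAdj D) D a, a' ≠ a) →
      Cfsg.productPartners D a ⊆ Cfsg.elemComponentOf (Cfsg.OddAdj D) D a ∪
        {w | Cfsg.IsIsolatedElem (Cfsg.OddAdj D) D w} := by
    rintro a ha ⟨a', h1, h2⟩ b hb
    obtain ⟨x, hx, -⟩ := (Relation.ReflTransGen.cases_head h1.2).resolve_left h2.symm
    by_cases h3 : Cfsg.IsIsolatedElem (Cfsg.OddAdj D) D b
    · exact Or.inr h3
    rw [H13.RInv.isolated_iff] at h3
    push Not at h3
    obtain ⟨y, hy, h3⟩ := h3 hb.1.1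
    exact Or.inl ⟨hb.1.1, h.reach_of_line ha hb.1.1 hb.1.2.1 hb.2 hx.2.1 hy hx.2.2 h3⟩
  refine ⟨hW, ⟨fun n hn g => ?_⟩, H1.pCore_isPGroup.to_le hle, Set.Subset.antisymm
    (fun w hw => (H13.RInv.isolated_iff_mem_pCore hD).2 ⟨hw.2, hle hw.1⟩)
    fun w hw => ⟨Subgroup.subset_closure hw, hw.1⟩, fun a ha b hb h1 h2 h3 => ?_, key⟩
  · exact Subgroup.le_normalizer_closure_iff.2 (fun g (_ : g ∈ ⊤) w hw => Subgroup.subset_closure (hW w hw g))
      (Subgroup.mem_top g) n |>.1 hn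
  have symm : ∀ {a b : G}, Relation.ReflTransGen (Cfsg.OddAdj D) a b → Relation.ReflTransGen (Cfsg.OddAdj D) b a :=
    H13.Root.reach_symm fun _ _ => H13.RInv.OddAdj.symm
  have h4 : ¬ Relation.ReflTransGen (Cfsg.OddAdj D) a b := fun hr =>
    h3 (Set.ext fun _ => and_congr_right fun _ => ⟨(symm hr).trans, hr.trans⟩)
  rw [H13.RInv.inv_eq (h.sq a ha), H13.RInv.inv_eq (h.sq b hb)]
  have h5 : ¬ H13.RInv.Op a b := fun ho => h4 (.single ⟨ha, hb, ho⟩)
  by_cases h6 : a * b = b * a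
  · rw [h6, mul_assoc b, h.sq a ha, mul_one, h.sq b hb]; exact one_mem _
  have h7 := h.comm_mem ha hb h6 h5
  have h8 := h.comm_left ha hb h5
  have h9 := h.comm_right ha hb h5
  rcases @key a ha h1 (a * b * a * b) ⟨⟨h7, h8.symm, fun e => h6 (by rw [← e, ← h9, e])⟩, by
    rw [← h8]; simpa [mul_assoc, H13.RInv.cancel (h.sq a ha)] using h.conj b hb a ha⟩ with h10 | h10
  swap
  · exact Subgroup.subset_closure h10
  rcases @key b hb h2 (a * b * a * b) ⟨⟨h7, h9.symm, fun e => h6 (by rw [← e, h8, e])⟩, by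
    simpa [mul_assoc, h.sq b hb] using h.conj a ha b hb⟩ with h11 | h11
  · exact (h4 (h10.2.trans (symm h11.2))).elim
  · exact Subgroup.subset_closure h11

end Cfsg.Agent.S5045
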