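import Cfsg.Statements.S5046
import Cfsg.Agent.H13.RI2

set_option autoImplicit false
open Cfsg

namespace Cfsg.Agent.S5046

/-- Let G be a finite group generated by a set D of root involutions whose odd-order-product graph is connected, and d ∈ D. Then the members e of D with the same commuting members as d are exactly those for which the union of the commuting members of d and the members whose product with d has order 4 equals the corresponding union for e. -/
theorem result {G : Type*} [Group G] [Finite G] {D : Set G} (hD : Cfsg.IsRootInvolutionSet D)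
    (hc : Cfsg.IsConnectedSet (Cfsg.OddAdj D) D) {d : G} (hd : d ∈ D) :
    Cfsg.sameCommutingClass D d =
      {e | e ∈ D ∧ Cfsg.commutingMembers D d ∪ Cfsg.fourPartners D d = Cfsg.commutingMembers D e ∪ Cfsg.fourPartners D e} := by
  have h := H13.RInv.Cl.of_conn hD hc
  have key : ∀ d ∈ D, ∀ x, x ∈ Cfsg.commutingMembers D d ∪ Cfsg.fourPartners D d ↔ x ∈ D ∧ ¬ H13.RInv.Op d x := by
    intro d hd x
    rw [Set.mem_union, h.mem_four hd]
    refine ⟨?_, fun hx => (em _).imp (fun e => ⟨hx.1, e⟩) fun e => ⟨hx.1, e, hx.2⟩⟩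
    rintro (hx | hx)
    · exact ⟨hx.1, h.not_op_of_comm hd hx.1 hx.2.symm⟩
    · exact ⟨hx.1, hx.2.2⟩
  have k2 : ∀ d ∈ D, ∀ e ∈ D, Cfsg.commutingMembers D d = Cfsg.commutingMembers D e →
      ∀ x ∈ D, ¬ H13.RInv.Op d x → ¬ H13.RInv.Op e x := by
    intro d hd e he h1 x hx h2
    by_cases h3 : x * d = d * x
    · exact h.not_op_of_comm he hx (h1.le ⟨hx, h3⟩).2.symm
    have h4 : ¬ H13.RInv.Op x d := fun ho => h2 ho.symm
    have h5 := h.comm_mem hx hd h3 h4
    exact fun ho => h.not_op_of_line hx h5 he (h.comm_left hx hd h4).symm (by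
      rw [← h.comm_left hx hd h4]; simpa [mul_assoc, H13.RInv.cancel (h.sq x hx)] using h.conj d hd x hx)
      (h1.le ⟨h5, (h.comm_right hx hd h4).symm⟩).2 ho.symm
  ext e
  refine and_congr_right fun he => ⟨fun h1 => Set.ext fun x => ?_, fun h1 => Set.ext fun x => ?_⟩
  · rw [key d hd, key e he]
    exact and_congr_right fun hx => ⟨k2 d hd e he h1 x hx, k2 e he d hd h1.symm x hx⟩
  · have h2 : ∀ y ∈ D, H13.RInv.Op d y ↔ H13.RInv.Op e y := fun y hy => by
      have := Set.ext_iff.1 h1 y
      rw [key d hd, key e he] at this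
      tauto
    exact and_congr_right fun hx => ⟨h.comm_of_op_iff hd he h2 hx,
      h.comm_of_op_iff he hd (fun y hy => (h2 y hy).symm) hx⟩

end Cfsg.Agent.S5046
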