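import Cfsg.Statements.S5047
import Cfsg.Agent.H13.RI2

set_option autoImplicit false
open Cfsg

namespace Cfsg.Agent.S5047

/-- Let G be a finite group generated by a set D of root involutions whose odd-order-product graph is connected, a ∈ D, and b a member of D different from a, commuting with a, with ab ∈ D, but not having the same commuting members as a. Then some member x of D with bx of order 4 has ax of order 3. -/
theorem result {G : Type*} [Group G] [Finite G] {D : Set G} (hD : Cfsg.IsRootInvolutionSet D)
    (hc : Cfsg.IsConnectedSet (Cfsg.OddAdj D) D) {a b : G} (ha : a ∈ D) (hb : b ∈ Cfsg.productPartners D a)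
    (hbE : b ∉ Cfsg.sameCommutingClass D a) : ∃ x ∈ Cfsg.fourPartners D b, orderOf (a * x) = 3 := by
  have h := H13.RInv.Cl.of_conn hD hc
  obtain ⟨x, hx, u, hu, -, h1, h2, h3⟩ := h.exists_three ha hb.1.1 hb.1.2.1 hb.2 (by
    by_contra! h1
    exact hbE ⟨hb.1.1, Set.ext fun x => and_congr_right fun hx => h1 x hx⟩)
  refine ⟨x, (h.mem_four hb.1.1).2 ⟨hx, fun e => h.ne u hu ?_, fun ho => h2 ho.symm⟩, h3⟩
  rw [← h1, e, mul_assoc b, h.sq x hx, mul_one, h.sq b hb.1.1]

end Cfsg.Agent.S5047
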