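import Cfsg.Statements.S5048
import Cfsg.Agent.H13.RI2

set_option autoImplicit false
open Cfsg

namespace Cfsg.Agent.S5048

/-- Let G be a finite group generated by a set D of root involutions whose odd-order-product graph is connected, with some product of two different commuting members of D again in D. Then the largest solvable normal subgroup of G is the preimage of the centre of G/O₂(G), and the quotient of G by it is a simple group. -/
theorem result {G : Type*} [Group G] [Finite G] {D : Set G} (hD : Cfsg.IsRootInvolutionSet D)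
    (hc : Cfsg.IsConnectedSet (Cfsg.OddAdj D) D) (hDD : (D ∩ Cfsg.commutingProducts D).Nonempty) :
    Cfsg.solvableRadical G = Cfsg.twoZCore G ∧ IsSimpleGroup (G ⧸ Cfsg.twoZCore G) := by
  have h := H13.RInv.Cl.of_conn hD hc
  have key := h.normal_dichotomy hD.generates hDD
  have := Fact.mk Nat.prime_two
  have hsol : Group.IsSolvable (Cfsg.twoZCore G) := by
    have h1 : Group.IsNilpotent (Cfsg.pCore 2 G) := H1.pCore_isPGroup.isNilpotent
    have h2 : Group.IsSolvable (Subgroup.center (G ⧸ Cfsg.pCore 2 G)) :=
      Group.isSolvable_of_comm fun a b => Subtype.ext (Subgroup.mem_center_iff.1 b.2 a)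
    refine Group.isSolvable_of_ker_le_range (Subgroup.inclusion (show Cfsg.pCore 2 G ≤ Cfsg.twoZCore G from fun x hx => ?_))
      ((QuotientGroup.mk' (Cfsg.pCore 2 G)).subgroupComap (Subgroup.center _)) fun x hx => ?_
    · rw [Cfsg.twoZCore, Subgroup.mem_comap, QuotientGroup.mk'_apply, (QuotientGroup.eq_one_iff x).2 hx]
      exact one_mem _
    · exact ⟨⟨x, (QuotientGroup.eq_one_iff _).1 (congrArg Subtype.val hx)⟩, rfl⟩
  have hns : ¬ Group.IsSolvable (⊤ : Subgroup G) := by
    intro hs
    obtain ⟨_, hm, a, ha, b, hb, -, -, rfl⟩ := hDD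
    have h1 : Group.IsSolvable G :=
      Group.isSolvable_of_surjective (f := (⊤ : Subgroup G).subtype) fun x => ⟨⟨x, trivial⟩, rfl⟩
    have h2 : Nontrivial G := ⟨a, 1, h.ne a ha⟩
    refine (Group.IsSolvable.commutator_lt_top_of_nontrivial G).ne (eq_top_iff.2 (hD.generates.ge.trans
      ((Subgroup.closure_le _).2 fun d hd => ?_)))
    obtain ⟨g, rfl⟩ := h.cl _ hm d hd
    obtain ⟨k, rfl⟩ := h.cl a ha b hb
    refine (inferInstance : (commutator G).Normal).conj_mem _ ?_ g
    have := Subgroup.commutator_mem_commutator (Subgroup.mem_top a) (Subgroup.mem_top k)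
    simpa only [commutator_def, commutatorElement_def, H13.RInv.inv_eq (h.sq a ha), mul_assoc] using this
  refine ⟨le_antisymm (sSup_le fun N hN => ?_) (le_sSup ⟨inferInstance, hsol⟩), ?_⟩
  · have := hN.1
    exact (key N).resolve_left fun e => hns (e ▸ hN.2)
  · have : Nontrivial (G ⧸ Cfsg.twoZCore G) := QuotientGroup.nontrivial_iff.2 fun e => hns (e ▸ hsol)
    refine ⟨fun N hN => ((key (N.comap (QuotientGroup.mk' _))).imp (fun e => ?_) fun e => ?_).symm⟩
    · exact Subgroup.comap_injective (QuotientGroup.mk'_surjective _) (e.trans (Subgroup.comap_top _).symm)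
    · refine eq_bot_iff.2 fun x hx => ?_
      obtain ⟨x, rfl⟩ := QuotientGroup.mk_surjective x
      exact (QuotientGroup.eq_one_iff x).2 (e hx)

end Cfsg.Agent.S5048
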