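import Cfsg.Statements.S5049
import Cfsg.Agent.H13.RI2

set_option autoImplicit false
open Cfsg

namespace Cfsg.Agent.S5049

/-- Let G be a finite group generated by a set D of odd transpositions (root involutions with no product of order 4), Q = O₂(G), and for a ∈ D let Q_a be the commutator subgroup of Q with a. Then every member of D commuting with a centralizes Q_a; and for b ∈ D with ab of odd order greater than 1, the centralizer of ab in Q is the intersection of the centralizers of a and b in Q. -/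
theorem result {G : Type*} [Group G] [Finite G] {D : Set G} (hD : Cfsg.IsOddTranspositionSet D) {a : G} (ha : a ∈ D) :
    (∀ e ∈ Cfsg.commutingMembers D a, ∀ q ∈ ⁅Cfsg.pCore 2 G, Subgroup.zpowers a⁆, e * q = q * e) ∧
    (∀ b ∈ Cfsg.oddPartners D a,
      Cfsg.pCore 2 G ⊓ Subgroup.centralizer {a * b} = Cfsg.pCore 2 G ⊓ Subgroup.centralizer {a} ⊓ Subgroup.centralizer {b}) := by
  have h := H13.RInv.RI.of hD.1
  have := Fact.mk Nat.prime_two
  have hQ : (Cfsg.pCore 2 G).Normal := inferInstance
  have key : ∀ e ∈ D, e * a = a * e → ∀ q ∈ Cfsg.pCore 2 G, e * (q * a * q⁻¹) = q * a * q⁻¹ * e := by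
    intro e he h1 q hq
    have h2 := hD.1.conj_mem a ha q
    by_contra h3
    refine hD.2 _ h2 e he ((h.mem_four h2).2 ⟨he, h3, ?_⟩).2
    refine h.not_op_of_isPGroup (H1.pCore_isPGroup.to_sup_of_normal_left (H13.RInv.isPGroup_pair (n := 2)
      (h.sq a ha) (h.sq e he) ((h.not_op_iff ha he).1 (h.not_op_of_comm ha he h1.symm)))) ?_
      (Subgroup.mem_sup_right (Subgroup.subset_closure (Or.inr rfl))) he
    exact mul_mem (mul_mem (Subgroup.mem_sup_left hq) (Subgroup.mem_sup_right (Subgroup.subset_closure (Or.inl rfl))))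
      (Subgroup.mem_sup_left (inv_mem hq))
  have a2 := h.sq a ha
  refine ⟨fun e he q hq => ?_, fun b hb => le_antisymm (fun q hq => ?_) fun q hq => ⟨hq.1.1, ?_⟩⟩
  · refine Subgroup.mem_centralizer_singleton_iff.1 (Subgroup.commutator_le.2 (fun q hq x hx => ?_) hq) |>.symm
    obtain ⟨i, rfl⟩ := hx
    have h1 : Commute (q * a * q⁻¹) e := (key e he.1 he.2 q hq).symm
    have h2 : Commute a e := he.2.symm
    refine Subgroup.mem_centralizer_singleton_iff.2 ?_
    rw [commutatorElement_def, ← conj_zpow]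
    exact (h1.zpow_left i).mul_left (h2.zpow_left i).inv_left
  · obtain ⟨hbD, ho⟩ := H13.RInv.mem_oddPartners.1 hb
    have b2 := h.sq b hbD
    have h1 : Commute q (a * b) := Subgroup.mem_centralizer_singleton_iff.1 hq.2
    have h2 : Commute (q * a * q⁻¹) a := (key a ha rfl q hq.1).symm
    have h3 : Commute (q * a * q⁻¹ * a) (a * b) := by
      have h4 : q * a * q⁻¹ * (a * b) = (a * b)⁻¹ * (q * a * q⁻¹) := by
        rw [mul_assoc, h1.inv_left.eq, ← mul_assoc _ (q * a), ← mul_assoc _ q, ← h1.inv_right.eq]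
        simp [mul_assoc, H13.RInv.cancel a2, H13.RInv.inv_eq a2, H13.RInv.inv_eq b2]
      refine Commute.inv_right_iff.1 ?_
      change _ * _ = _ * _
      rw [← mul_assoc, ← h4]
      simp [mul_assoc, H13.RInv.cancel a2, H13.RInv.inv_eq a2, H13.RInv.inv_eq b2]
    have h4 : Commute (q * a * q⁻¹ * a) a := h2.mul_left rfl
    have h5 := h.eq_one ha hbD ho (z := q * a * q⁻¹ * a) (by
      rw [h2.eq, mul_assoc, ← mul_assoc _ a, h2.eq]; simp [mul_assoc, H13.RInv.cancel a2, a2]) h4 (by
      simpa [H13.RInv.cancel a2] using (h4.mul_right h3).eq) (by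
      simpa [mul_assoc, a2] using hD.1.conj_mem a ha q)
    have h6 : Commute q a := by
      rw [mul_eq_one_iff_eq_inv, H13.RInv.inv_eq a2, mul_inv_eq_iff_eq_mul] at h5
      exact h5
    exact ⟨⟨hq.1, Subgroup.mem_centralizer_singleton_iff.2 h6⟩, Subgroup.mem_centralizer_singleton_iff.2 (by
      simpa [H13.RInv.cancel a2] using (h6.mul_right h1).eq)⟩
  · exact Subgroup.mem_centralizer_singleton_iff.2 (Commute.mul_right (Subgroup.mem_centralizer_singleton_iff.1 hq.1.2)
      (Subgroup.mem_centralizer_singleton_iff.1 hq.2))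

end Cfsg.Agent.S5049
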