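import Cfsg.Statements.S5051
import Cfsg.Agent.H3.RJ7

set_option autoImplicit false
open Cfsg

namespace Cfsg.Agent.S5051

/-- Let G be a finite group generated by a set D of odd transpositions, d ∈ D, x ∈ D with dx of odd order greater than 1, and X the subgroup generated by x together with the members of D having the same commuting members as d. Then X/O₂(X) is isomorphic to L₂(q) or Sz(q) for a power q > 2 of 2, or is a dihedral group. -/
theorem result {G : Type*} [Group G] [Finite G] {D : Set G} (hD : Cfsg.IsOddTranspositionSet D) {d x : G} (hd : d ∈ D)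
    (hx : x ∈ Cfsg.oddPartners D d) :
    (∃ (F : Type) (_ : Field F) (_ : Fintype F), CharP F 2 ∧ 4 ≤ Fintype.card F ∧
      Nonempty ((↥(Subgroup.closure (Cfsg.sameCommutingClass D d ∪ {x})) ⧸
        Cfsg.pCore 2 ↥(Subgroup.closure (Cfsg.sameCommutingClass D d ∪ {x}))) ≃* Matrix.ProjectiveSpecialLinearGroup (Fin 2) F)) ∨
    Cfsg.Lie.IsoSuzuki ((↥(Subgroup.closure (Cfsg.sameCommutingClass D d ∪ {x})) ⧸
        Cfsg.pCore 2 ↥(Subgroup.closure (Cfsg.sameCommutingClass D d ∪ {x})))) ∨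
    (∃ n : ℕ, Nonempty ((↥(Subgroup.closure (Cfsg.sameCommutingClass D d ∪ {x})) ⧸
        Cfsg.pCore 2 ↥(Subgroup.closure (Cfsg.sameCommutingClass D d ∪ {x}))) ≃* DihedralGroup n)) := by
  rw [H3.ZD.ec_eq]
  refine ((H3.ZD.OT.of hD).quot hd hx.1 (H13.RInv.mem_oddPartners.1 hx).2 rfl).imp_left ?_
  rintro ⟨F, _, _, ⟨n, h1, h3⟩, e⟩
  exact ⟨F, _, _, charP_of_card_eq_prime_pow h3, h3 ▸ Nat.pow_le_pow_right two_pos h1, e⟩

end Cfsg.Agent.S5051
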