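import Cfsg.Statements.S5052
import Cfsg.Agent.H3.RJ9

set_option autoImplicit false
open Cfsg

namespace Cfsg.Agent.S5052

/-- Let G be a finite group with O₂(G) = 1 and trivial centre, generated by a class D of odd transpositions whose commuting graph is connected, with some product of two different commuting members again in D. Then for each d ∈ D the members of D with the same commuting members as d, together with 1, form a subgroup E(d); and for every x ∈ D with dx of odd order greater than 1, the subgroup generated by E(d) and x is isomorphic to L₂(q) where q is the order of E(d). -/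
theorem result {G : Type*} [Group G] [Finite G] {D : Set G} (hD : Cfsg.IsOddTranspositionSet D) (hcl : Cfsg.IsRootInvolutionClass D)
    (hO : Cfsg.pCore 2 G = ⊥) (hZ : Subgroup.center G = ⊥) (hDD : (D ∩ Cfsg.commutingProducts D).Nonempty)
    (hc : Cfsg.IsConnectedSet (Cfsg.CommAdj D) D) {d : G} (hd : d ∈ D) :
    (Cfsg.sameCommutingSubgroup D d : Set G) = Cfsg.sameCommutingClass D d ∪ {1} ∧
    ∀ x ∈ Cfsg.oddPartners D d, ∃ (F : Type) (_ : Field F) (_ : Fintype F),
      Fintype.card F = Nat.card ↥(Cfsg.sameCommutingSubgroup D d) ∧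
      Nonempty (↥(Subgroup.closure (Cfsg.sameCommutingClass D d ∪ {x})) ≃* Matrix.ProjectiveSpecialLinearGroup (Fin 2) F) := by
  obtain ⟨_, m, a, ha, b, hb, c, -, rfl⟩ := hDD
  have h := H3.ZD.OC.of hD hcl
  have hp : H3.ZD.PuD D := ⟨a, ha, b, hb, c, m⟩
  have hg := hcl.1.generates
  obtain ⟨x, hx, o⟩ : ∃ x ∈ D, H13.RInv.Op d x := by
    by_contra! H
    have := ((H13.RInv.isolated_iff_mem_pCore hD.1).1 (H13.RInv.isolated_iff.2 ⟨hd, H⟩)).2
    rw [hO] at this
    exact h.ne d hd this
  unfold sameCommutingSubgroup
  rw [H3.ZD.ec_eq]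
  exact ⟨Set.ext fun w => h.mem_U hp hg hd hx o hO, fun x hx =>
    have := H13.RInv.mem_oddPartners.1 hx
    h.root_group hp hg hO hc hd this.1 this.2 rfl⟩

end Cfsg.Agent.S5052
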