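import Cfsg.Statements.S5058
import Cfsg.Agent.H13.Fam2

set_option autoImplicit false
open Matrix
open Cfsg

namespace Cfsg.Agent.S5058

/-- Let F be a finite field of characteristic 2 and n a natural number. Then the transvections of SL_{n+3}(F) (so in every dimension at least 3) (the conjugates of the elementary matrices 1 + c E₁₂, c ≠ 0) form a class of root involutions of SL_{n+3}(F); when F has two elements they form a class of {3,4}⁺-transpositions (every product of odd order has order 1 or 3). -/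
theorem result (F : Type*) [Field F] [Fintype F] [CharP F 2] (n : ℕ) :
    Cfsg.IsRootInvolutionClass {t : Matrix.SpecialLinearGroup (Fin (n + 3)) F | ∃ c : F, c ≠ 0 ∧
        ∃ g : Matrix.SpecialLinearGroup (Fin (n + 3)) F, ((g⁻¹ * t * g : Matrix.SpecialLinearGroup (Fin (n + 3)) F) :
          Matrix (Fin (n + 3)) (Fin (n + 3)) F) = Matrix.transvection 0 1 c} ∧
    (Fintype.card F = 2 → Cfsg.IsThreeFourPlusTranspositionSet {t : Matrix.SpecialLinearGroup (Fin (n + 3)) F | ∃ c : F, c ≠ 0 ∧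
        ∃ g : Matrix.SpecialLinearGroup (Fin (n + 3)) F, ((g⁻¹ * t * g : Matrix.SpecialLinearGroup (Fin (n + 3)) F) :
          Matrix (Fin (n + 3)) (Fin (n + 3)) F) = Matrix.transvection 0 1 c}) := by
  have h0 : Matrix.single (0 : Fin (n + 3)) (1 : Fin (n + 3)) (1 : F) ∈ H13.slX _ F := H13.single_mem_slX (by simp)
  have h := H13.slFam.rootInv (fun _ hx _ hc => H13.slX_smul hx hc) (H13.sl_gen (ι := Fin (n + 3)) (F := F))
  obtain ⟨u, hu⟩ := H13.slFam.mem _ h0 1
  have e : {t : Matrix.SpecialLinearGroup (Fin (n + 3)) F | ∃ c : F, c ≠ 0 ∧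
      ∃ g : Matrix.SpecialLinearGroup (Fin (n + 3)) F, ((g⁻¹ * t * g : Matrix.SpecialLinearGroup (Fin (n + 3)) F) :
        Matrix (Fin (n + 3)) (Fin (n + 3)) F) = Matrix.transvection 0 1 c} =
      {g | ∃ x ∈ H13.slX _ F, (Matrix.SpecialLinearGroup.toGL g).1 = 1 + x} := by
    ext t
    refine ⟨fun ⟨c, hc, g, e⟩ => ?_, fun ht => ?_⟩
    · simpa [mul_assoc] using h.1.conj_mem (g⁻¹ * t * g) ⟨_, H13.slX_smul h0 hc, e.trans (by simp [Matrix.transvection])⟩ g
    · obtain ⟨g, rfl⟩ := H13.sl_conj ⟨_, H13.slX_smul h0 one_ne_zero, hu⟩ ht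
      exact ⟨1, one_ne_zero, g, by simpa [mul_assoc, Matrix.transvection] using hu⟩
  rw [e]
  exact ⟨⟨h.1, ⟨u, _, H13.slX_smul h0 one_ne_zero, hu⟩, fun a ha b hb => H13.sl_conj ha hb⟩,
    fun hF => h.2 (by simpa using hF)⟩

end Cfsg.Agent.S5058
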