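import Cfsg.Statements.S5059
import Cfsg.Agent.H13.QP5

set_option autoImplicit false
universe u
open Cfsg

namespace Cfsg.Agent.S5059

/-- Let k be a field of characteristic not 2 with k not of order 3, M a finite-dimensional k-vector space and G ≤ GL(M) such that (G, M) is a quadratic pair (M irreducible for G, and G generated by its quadratically acting elements σ whose scalar family 1 + c(σ − 1), c ∈ k, lies in G). Write 𝒬_d for the quadratic elements of G of minimal commutator rank, E(σ) for the subgroup generated by the members of 𝒬_d with the same fixed space and commutator space as σ, and Σ for the set of these subgroups. Then for σ ∈ 𝒬_d the subgroup E(σ) consists exactly of those members together with the identity, it is abelian, and if k has prime characteristic p every element of E(σ) has order dividing p. -/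
theorem result {k : Type u} [Field k] (hk2 : ringChar k ≠ 2) (hk3 : Nat.card k ≠ 3)
    {M : Type u} [AddCommGroup M] [Module k M] [FiniteDimensional k M]
    {G : Subgroup (LinearMap.GeneralLinearGroup k M)} (hG : Cfsg.IsQuadraticPair G)
    {σ : LinearMap.GeneralLinearGroup k M} (hσ : σ ∈ Cfsg.minimalQuadraticElements G) :
    (Cfsg.sameActionSubgroup G σ : Set (LinearMap.GeneralLinearGroup k M)) = Cfsg.sameActionClass G σ ∪ {1} ∧
    IsMulCommutative ↥(Cfsg.sameActionSubgroup G σ) ∧
    (∀ p : ℕ, p.Prime → ringChar k = p → ∀ x ∈ Cfsg.sameActionSubgroup G σ, x ^ p = 1) := by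
  have hx := H13.QP.mem_minimal.1 hσ
  refine ⟨?_, ?_, fun p hp e g hg => ?_⟩
  · ext τ
    rw [H13.QP.sameAction_eq hσ, SetLike.mem_coe, H13.QP.mem_E hx.1.1]
    refine ⟨fun h => ?_, ?_⟩
    · by_cases h0 : (τ : Module.End k M) - 1 = 0
      · exact Or.inr (Units.ext (sub_eq_zero.1 h0))
      · obtain ⟨h1, h2, h3⟩ := h.qd hx h0
        exact Or.inl ⟨H13.QP.mem_minimal.2 h1, h3, h2⟩
    · rintro (h | rfl)
      · exact ⟨(H13.QP.mem_minimal.1 h.1).1, h.2.2.le, h.2.1.ge⟩
      · simpa using H13.QP.InE.zero
  · rw [H13.QP.sameAction_eq hσ]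
    exact H13.Root.isMulCommutative_of_comm_bot (H13.QP.E_comm hx.1.1)
  · rw [H13.QP.sameAction_eq hσ] at hg
    obtain ⟨u, hu, rfl⟩ := H13.QP.exists_of_mem_E hx.1.1 hg
    have key : ∀ n : ℕ, ((H13.QP.un u hu.1.1 ^ n : (Module.End k M)ˣ) : Module.End k M) = 1 + (n : k) • u := by
      intro n
      induction n with
      | zero => simp
      | succ n ih =>
        rw [pow_succ, Units.val_mul, ih]
        simp [mul_add, add_mul, hu.1.1, add_smul, add_assoc]
    refine Units.ext ?_
    rw [key, ← e, ringChar.Nat.cast_ringChar]; simp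

end Cfsg.Agent.S5059
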