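import Cfsg.Statements.S5060
import Cfsg.Agent.H13.QP2
import Cfsg.Agent.H13.SL2Pres

set_option autoImplicit false
open Cfsg

namespace Cfsg.Agent.S5060

/-- Let k ⊆ K be fields with the characteristic of k not 2 and k not of order 3, and let α ∈ K be a non-zero element algebraic over k. Then the subgroup of SL₂(K) generated by the upper unitriangular matrices with entry c and the lower unitriangular matrices with entry cα, c ranging over k, is exactly the group of matrices of SL₂(K) with all entries in k(α). -/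
theorem result {k K : Type*} [Field k] [Field K] [Algebra k K] (hk2 : ringChar k ≠ 2) (hk3 : Nat.card k ≠ 3)
    (α : K) (hα : IsAlgebraic k α) (hα0 : α ≠ 0) :
    (Subgroup.closure ({g : Matrix.SpecialLinearGroup (Fin 2) K | ∃ c : k, (g : Matrix (Fin 2) (Fin 2) K) = !![1, algebraMap k K c; 0, 1]} ∪
        {g : Matrix.SpecialLinearGroup (Fin 2) K | ∃ c : k, (g : Matrix (Fin 2) (Fin 2) K) = !![1, 0; algebraMap k K c * α, 1]}) :
      Set (Matrix.SpecialLinearGroup (Fin 2) K)) =
    {g : Matrix.SpecialLinearGroup (Fin 2) K | ∀ i j : Fin 2, (g : Matrix (Fin 2) (Fin 2) K) i j ∈ IntermediateField.adjoin k ({α} : Set K)} := by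
  classical
  set H := Subgroup.closure ({g : Matrix.SpecialLinearGroup (Fin 2) K | ∃ c : k, (g : Matrix (Fin 2) (Fin 2) K) = !![1, algebraMap k K c; 0, 1]} ∪
        {g : Matrix.SpecialLinearGroup (Fin 2) K | ∃ c : k, (g : Matrix (Fin 2) (Fin 2) K) = !![1, 0; algebraMap k K c * α, 1]}) with hH
  set F := IntermediateField.adjoin k ({α} : Set K) with hF
  have hαF : α ∈ F := IntermediateField.mem_adjoin_simple_self k α
  ext g
  constructor
  · intro hg
    induction hg using Subgroup.closure_induction with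
    | mem g hg =>
      rcases hg with ⟨c, e⟩ | ⟨c, e⟩ <;> intro i j <;> rw [e] <;> fin_cases i <;> fin_cases j <;>
        simp [F.algebraMap_mem, mul_mem (F.algebraMap_mem c) hαF]
    | one => intro i j; fin_cases i <;> fin_cases j <;> simp
    | mul g h _ _ hg hh =>
      intro i j
      rw [H13.SL2.mul_apply']
      exact add_mem (mul_mem (hg _ _) (hh _ _)) (mul_mem (hg _ _) (hh _ _))
    | inv g _ hg =>
      intro i j
      rw [Matrix.SpecialLinearGroup.SL2_inv_expl]
      fin_cases i <;> fin_cases j <;> simp [hg _ _]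
  · intro hg
    let x : Matrix (Fin 2) (Fin 2) K := !![0, 1; 0, 0]
    let y : Matrix (Fin 2) (Fin 2) K := !![0, 0; α, 0]
    have hx : x * x = 0 := by ext i j; fin_cases i <;> fin_cases j <;> simp [x]
    have hy : y * y = 0 := by ext i j; fin_cases i <;> fin_cases j <;> simp [y]
    have hev : ∀ f : Polynomial k, H13.QP.ev x y f = algebraMap K _ (Polynomial.aeval α f) := fun f => by
      rw [H13.QP.ev, ← Polynomial.aeval_algebraMap_apply]
      congr 2
      ext i j; fin_cases i <;> fin_cases j <;> simp [x, y, Matrix.algebraMap_matrix_apply]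
    have hle : ∀ {x' y' : Matrix (Fin 2) (Fin 2) K}, (x' = x ∧ y' = y ∨ x' = y ∧ y' = x) →
        H13.QP.H0 k x' y' ≤ H.map Matrix.SpecialLinearGroup.toGL := by
      intro x' y' h
      refine (Subgroup.closure_le _).2 fun u ⟨c, hu⟩ => ?_
      have : (u : Matrix (Fin 2) (Fin 2) K) = 1 + c • x ∨ (u : Matrix (Fin 2) (Fin 2) K) = 1 + c • y := by
        rcases h with ⟨rfl, rfl⟩ | ⟨rfl, rfl⟩
        · exact hu
        · exact hu.symm
      rcases this with e | e
      · refine ⟨H13.SL2.x (algebraMap k K c), Subgroup.subset_closure (Or.inl ⟨c, rfl⟩), Units.ext ?_⟩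
        rw [e]; ext i j; fin_cases i <;> fin_cases j <;> simp [x, Algebra.algebraMap_eq_smul_one]
      · refine ⟨H13.SL2.y (algebraMap k K c * α), Subgroup.subset_closure (Or.inr ⟨c, rfl⟩), Units.ext ?_⟩
        rw [e]; ext i j; fin_cases i <;> fin_cases j <;> simp [y, Algebra.algebraMap_eq_smul_one]
    have hm := minpoly.irreducible hα.isIntegral
    have hm0 := minpoly.coeff_zero_ne_zero hα.isIntegral hα0
    have hf : ∀ t ∈ F, ∃ f : Polynomial k, Polynomial.aeval α f = t := fun t ht => by
      have : t ∈ F.toSubalgebra := ht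
      rw [hF, IntermediateField.adjoin_simple_toSubalgebra_of_isAlgebraic hα, Algebra.adjoin_singleton_eq_range_aeval] at this
      exact this
    have h1 : ∀ t ∈ F, H13.SL2.x t ∈ H := fun t ht => by
      obtain ⟨f, rfl⟩ := hf t ht
      obtain ⟨u, hu, e⟩ := (H13.QP.field_case hx hy hk2 hk3 hm hm0 (by simp [hev]) f).2 1
      obtain ⟨v, hv, rfl⟩ := hle (Or.inl ⟨rfl, rfl⟩) hu
      suffices h : H13.SL2.x (Polynomial.aeval α f) = v from h ▸ hv
      ext i j
      rw [show v.1 = _ from e, hev]
      fin_cases i <;> fin_cases j <;> simp [x, ← Algebra.smul_def]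
    have h2 : ∀ t ∈ F, H13.SL2.y t ∈ H := fun t ht => by
      obtain ⟨f, e'⟩ := hf (t / α) (div_mem ht hαF)
      obtain ⟨u, hu, e⟩ := (H13.QP.field_case hy hx hk2 hk3 hm hm0 (by simp [H13.QP.ev_comm y x, hev]) f).2 1
      obtain ⟨v, hv, rfl⟩ := hle (Or.inr ⟨rfl, rfl⟩) hu
      suffices h : H13.SL2.y t = v from h ▸ hv
      ext i j
      rw [show v.1 = _ from e, H13.QP.ev_comm y x, hev, e']
      fin_cases i <;> fin_cases j <;> simp [y, ← Algebra.smul_def, hα0]
    have h3 : ∀ t ∈ F, H13.SL2.w t ∈ H := fun t ht =>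
      mul_mem (mul_mem (h1 t ht) (h2 _ (neg_mem (inv_mem ht)))) (h1 t ht)
    by_cases hc : g 1 0 = 0
    · rw [H13.SL2.bruhat_small g hc]
      exact mul_mem (h1 _ (mul_mem (hg _ _) (hg _ _))) (mul_mem (h3 _ (hg _ _)) (inv_mem (h3 _ (one_mem _))))
    · rw [H13.SL2.bruhat_big g hc]
      exact mul_mem (mul_mem (h1 _ (div_mem (hg _ _) (hg _ _))) (h3 _ (neg_mem (inv_mem (hg _ _)))))
        (h1 _ (div_mem (hg _ _) (hg _ _)))

end Cfsg.Agent.S5060
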