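import Cfsg.Statements.S5063
import Cfsg.Agent.H13.QP8

set_option autoImplicit false
universe u
open Cfsg

namespace Cfsg.Agent.S5063

/-- Let k be a field of characteristic not 2 with k not of order 3, M a finite-dimensional k-vector space and G ≤ GL(M) such that (G, M) is a quadratic pair (M irreducible for G, and G generated by its quadratically acting elements σ whose scalar family 1 + c(σ − 1), c ∈ k, lies in G). Write 𝒬_d for the quadratic elements of G of minimal commutator rank, E(σ) for the subgroup generated by the members of 𝒬_d with the same fixed space and commutator space as σ, and Σ for the set of these subgroups. Then G is a central product of finitely many quasisimple normal subgroups G₁, …, G_s (pairwise commuting and together generating G), each generated by the quadratic elements of G it contains, and every quadratic element of G lies in one of them. -/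
theorem result {k : Type u} [Field k] (hk2 : ringChar k ≠ 2) (hk3 : Nat.card k ≠ 3)
    {M : Type u} [AddCommGroup M] [Module k M] [FiniteDimensional k M]
    {G : Subgroup (LinearMap.GeneralLinearGroup k M)} (hG : Cfsg.IsQuadraticPair G) :
    ∃ (s : ℕ) (Gi : Fin s → Subgroup (LinearMap.GeneralLinearGroup k M)),
      (∀ i, Gi i ≤ G ∧ ∀ g ∈ G, Cfsg.conjBy (Gi i) g = Gi i) ∧ (∀ i j, i ≠ j → ⁅Gi i, Gi j⁆ = ⊥) ∧ (⨆ i, Gi i) = G ∧
      (∀ i, Cfsg.IsQuasisimple ↥(Gi i) ∧ Subgroup.closure (Cfsg.quadraticElements G ∩ (Gi i : Set (LinearMap.GeneralLinearGroup k M))) = Gi i) ∧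
      Cfsg.quadraticElements G ⊆ ⋃ i, (Gi i : Set (LinearMap.GeneralLinearGroup k M)) := by
  obtain ⟨𝒮, s1, s2, s3, s4, s5⟩ := H13.QP.exists_decomp hk2 hk3 (H13.QP.NoU.of_irreducible hG.1) hG.2
  obtain ⟨s6, s7⟩ := H13.QP.mem_factor hk2 hk3 hG.1 s2 s3 (fun S hS => (s4 S hS).1) s5
  obtain ⟨r, f, hf, rfl⟩ := s1.fin_param
  have hle : ∀ i, f i ≤ G := fun i => s3 ▸ H13.QP.le_iSup_mem (Set.mem_range_self i)
  refine ⟨r, f, fun i => ⟨hle i, s6 _ ⟨i, rfl⟩⟩, fun i j hne => s2 _ ⟨i, rfl⟩ _ ⟨j, rfl⟩ (hf.ne hne),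
    by rw [← s3, iSup_range], fun i => ⟨(s4 _ ⟨i, rfl⟩).1, le_antisymm
      ((Subgroup.closure_le _).2 Set.inter_subset_right) ((s4 _ ⟨i, rfl⟩).2.ge.trans
        (Subgroup.closure_mono fun g hg => ⟨H13.QP.mem_quadratic.2 ⟨(H13.QP.mem_quadratic.1 hg).1.mono (hle i),
          (H13.QP.mem_quadratic.1 hg).2⟩, hg.1⟩))⟩, fun g hg => ?_⟩
  obtain ⟨_, ⟨i, rfl⟩, h⟩ := s7 _ (H13.QP.mem_quadratic.1 hg).1 (H13.QP.mem_quadratic.1 hg).2
  exact Set.mem_iUnion.2 ⟨i, h.mem_one (add_sub_cancel _ _).symm⟩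

end Cfsg.Agent.S5063
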