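import Cfsg.Statements.S5067
import Cfsg.Agent.H13.Root1
import Cfsg.Agent.H1.Basic

set_option autoImplicit false
open Cfsg

namespace Cfsg.Agent.S5067

/-- Let P be a non-abelian nilpotent p-group (every element of p-power order; P possibly infinite) generated by two abelian subgroups E and F. Then the normal closure of E in P, and likewise that of F, has nilpotency class strictly smaller than that of P. -/
theorem result {P : Type*} [Group P] {p : ℕ} [Fact p.Prime] (hP : IsPGroup p P) [Group.IsNilpotent P]
    (hna : ¬ IsMulCommutative P) {E F : Subgroup P} (hE : IsMulCommutative ↥E) (hF : IsMulCommutative ↥F) (hgen : E ⊔ F = ⊤) :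
    Group.nilpotencyClass ↥(Subgroup.normalClosure (E : Set P)) < Group.nilpotencyClass P ∧
    Group.nilpotencyClass ↥(Subgroup.normalClosure (F : Set P)) < Group.nilpotencyClass P := by
  obtain ⟨n, hn⟩ : ∃ n, Group.nilpotencyClass P = n + 2 :=
    ⟨Group.nilpotencyClass P - 2, by
      have := mt Group.IsNilpotent.nilpotencyClass_le_one_iff.1 hna
      omega⟩
  suffices ∀ E : Subgroup P, IsMulCommutative E →
      Group.nilpotencyClass (Subgroup.normalClosure (E : Set P)) < Group.nilpotencyClass P from ⟨this E hE, this F hF⟩
  intro E hE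
  have h1 : Subgroup.normalClosure (E : Set P) ≤ E ⊔ ⁅(⊤ : Subgroup P), ⊤⁆ := by
    have : (E ⊔ ⁅(⊤ : Subgroup P), ⊤⁆).Normal := Subgroup.Normal.of_commutator_le P le_sup_right
    exact Subgroup.normalClosure_le_normal fun x hx => Subgroup.mem_sup_left hx
  have h2 : ∀ m, (Subgroup.normalClosure (E : Set P)).lowerCentralSeries (m + 1) ≤
      (⊤ : Subgroup P).lowerCentralSeries (m + 2) := by
    intro m
    induction m with
    | zero =>
      refine (Subgroup.commutator_mono h1 h1).trans (H1.commutator_sup_le Subgroup.le_normalizer_of_normal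
        Subgroup.le_normalizer_of_normal (H1.commutator_sup_le' Subgroup.le_normalizer_of_normal
        Subgroup.le_normalizer_of_normal ((H13.Root.comm_self_bot hE).le.trans bot_le) ?_)
        (Subgroup.commutator_mono le_rfl le_top))
      rw [Subgroup.commutator_comm]
      exact Subgroup.commutator_mono le_rfl le_top
    | succ m ih => exact Subgroup.commutator_mono ih le_top
  rw [hn, Nat.lt_succ_iff, ← Subgroup.lowerCentralSeries_eq_bot_iff_nilpotencyClass_le, ← Subgroup.map_subtype_inj,
    Subgroup.map_bot, Subgroup.top_subtype_lowerCentralSeries, eq_bot_iff,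
    ← Subgroup.lowerCentralSeries_eq_bot_iff_nilpotencyClass_le.2 hn.le]
  exact h2 n

end Cfsg.Agent.S5067
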