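import Cfsg.Statements.S5069
import Cfsg.Agent.H13.QP7

set_option autoImplicit false
universe u
open Cfsg

namespace Cfsg.Agent.S5069

/-- Let k be a field of characteristic not 2 with k not of order 3, M a finite-dimensional k-vector space and G ≤ GL(M) such that (G, M) is a quadratic pair (M irreducible for G, and G generated by its quadratically acting elements σ whose scalar family 1 + c(σ − 1), c ∈ k, lies in G). Write 𝒬_d for the quadratic elements of G of minimal commutator rank, E(σ) for the subgroup generated by the members of 𝒬_d with the same fixed space and commutator space as σ, and Σ for the set of these subgroups. Then Σ is a disjoint union of finitely many parts Σ₁, …, Σ_r such that the subgroups G_i generated by the Σ_i commute pairwise, each G_i is quasisimple, and inside G_i the members of Σ_i form a class of abstract root subgroups in which every rank one pair A, B contains subgroups A₀ ≤ A, B₀ ≤ B generating an image of SL₂(k₁) with central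 kernel on unitriangular subgroups for some field k₁ with at least four elements. -/
theorem result {k : Type u} [Field k] (hk2 : ringChar k ≠ 2) (hk3 : Nat.card k ≠ 3)
    {M : Type u} [AddCommGroup M] [Module k M] [FiniteDimensional k M]
    {G : Subgroup (LinearMap.GeneralLinearGroup k M)} (hG : Cfsg.IsQuadraticPair G) :
    ∃ (r : ℕ) (part : Fin r → Set (Subgroup (LinearMap.GeneralLinearGroup k M))),
      (⋃ i, part i) = Cfsg.quadraticRootSubgroups G ∧ (∀ i j, i ≠ j → Disjoint (part i) (part j)) ∧ (∀ i, (part i).Nonempty) ∧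
      (∀ i j, i ≠ j → ⁅(⨆ A ∈ part i, A), (⨆ A ∈ part j, A)⁆ = ⊥) ∧
      (∀ i, Cfsg.IsQuasisimple ↥(⨆ A ∈ part i, A) ∧
        Cfsg.IsRootSubgroupClass ((fun A : Subgroup (LinearMap.GeneralLinearGroup k M) => A.subgroupOf (⨆ B ∈ part i, B)) '' (part i)) ∧
        ∀ A ∈ part i, ∀ B ∈ Cfsg.rankOnePartners (part i) A, ∃ A₀ B₀ : Subgroup (LinearMap.GeneralLinearGroup k M), A₀ ≤ A ∧ B₀ ≤ B ∧
          ∃ (k₁ : Type u) (_ : Field k₁), 3 < ENat.card k₁ ∧ Cfsg.IsPSL2PairOver k₁ A₀ B₀) := by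
  have hN := H13.QP.NoU.of_irreducible hG.1
  obtain ⟨r, f, hf, e⟩ := (H13.QP.Comp.finite hk2 hk3 hN).fin_param
  have hp : ∀ i, f i ∈ H13.QP.Comp G := fun i => e ▸ Set.mem_range_self i
  refine ⟨r, f, Set.Subset.antisymm (Set.iUnion_subset fun i => H13.QP.Comp.subset (hp i)) fun A hA => ?_,
    fun i j hne => Set.disjoint_left.2 fun A h1 h2 => hne (hf (H13.QP.Comp.eq (hp i) (hp j) h1 h2)),
    fun i => H13.QP.Comp.nonempty (hp i), fun i j hne => ?_,
    fun i => ⟨H13.QP.Comp.quasisimple hk2 hk3 hN (hp i), ⟨?_, (H13.QP.Comp.nonempty (hp i)).image _, ?_⟩, ?_⟩⟩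
  · obtain ⟨p, h1, h2⟩ := H13.QP.Comp.exists hA
    obtain ⟨i, rfl⟩ := e.ge h1
    exact Set.mem_iUnion.2 ⟨i, h2⟩
  · exact H13.QP.comm_iSup_bot fun A hA B hB => H13.QP.Comp.comm hk2 hk3 hN (hp i) (hp j) (hf.ne hne) hA hB
  · refine H13.QP.rootSet_subgroupOf rfl (fun _ h => H13.QP.Sigma_comm (H13.QP.Comp.subset (hp i) h))
      (fun _ h => H13.QP.Sigma_ne_bot (H13.QP.Comp.subset (hp i) h)) (fun A hA g hg => ?_)
      (fun A hA B hB => H13.QP.Comp.pair hk2 hk3 hN (hp i) hA hB)
    have : (⨆ A ∈ f i, A) ≤ ⨆ A ∈ Cfsg.quadraticRootSubgroups G, A :=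
      iSup₂_le fun A hA => H13.QP.le_iSup_mem (H13.QP.Comp.subset (hp i) hA)
    exact H13.QP.Comp.cj_mem hk2 hk3 hN (hp i) hA (this hg)
  · rintro _ ⟨A, hA, rfl⟩ _ ⟨B, hB, rfl⟩
    obtain ⟨g, hg, rfl⟩ := H13.QP.Comp.exists_cj (hp i) hA hB
    exact ⟨⟨g, hg⟩, (H13.QP.cj_subgroupOf _ A ⟨g, hg⟩).symm⟩
  · exact fun A hA B hB => H13.QP.psl2_of_pair hk2 hk3 (H13.QP.Comp.subset (hp i) hA)
        (H13.QP.Comp.subset (hp i) hB.1) hB.2

end Cfsg.Agent.S5069
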