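import Cfsg.Statements.S5073
import Cfsg.Agent.H13.QP5

set_option autoImplicit false
universe u
open Cfsg

namespace Cfsg.Agent.S5073

/-- Let k be a field of characteristic not 2 with k not of order 3, M a finite-dimensional k-vector space and G ≤ GL(M) such that (G, M) is a quadratic pair (M irreducible for G, and G generated by its quadratically acting elements σ whose scalar family 1 + c(σ − 1), c ∈ k, lies in G). Write 𝒬_d for the quadratic elements of G of minimal commutator rank, E(σ) for the subgroup generated by the members of 𝒬_d with the same fixed space and commutator space as σ, and Σ for the set of these subgroups. Let E, F ∈ Σ. If some non-identity element of E commutes with some non-identity element of F, or some non-identity element of E normalizes F, then E and F commute elementwise. -/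
theorem result {k : Type u} [Field k] (hk2 : ringChar k ≠ 2) (hk3 : Nat.card k ≠ 3)
    {M : Type u} [AddCommGroup M] [Module k M] [FiniteDimensional k M]
    {G : Subgroup (LinearMap.GeneralLinearGroup k M)} (hG : Cfsg.IsQuadraticPair G)
    {E F : Subgroup (LinearMap.GeneralLinearGroup k M)} (hE : E ∈ Cfsg.quadraticRootSubgroups G) (hF : F ∈ Cfsg.quadraticRootSubgroups G)
    (h : (∃ e ∈ E, e ≠ 1 ∧ ∃ f ∈ F, f ≠ 1 ∧ e * f = f * e) ∨ E ⊓ Subgroup.normalizer (F : Set (LinearMap.GeneralLinearGroup k M)) ≠ ⊥) :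
    ⁅E, F⁆ = ⊥ := by
  obtain ⟨x, hx, rfl⟩ := H13.QP.mem_Sigma.1 hE
  obtain ⟨y, hy, rfl⟩ := H13.QP.mem_Sigma.1 hF
  rcases h with ⟨e, he, he1, f, hf, hf1, h⟩ | h
  · obtain ⟨u, hu, rfl⟩ := H13.QP.exists_of_mem_E hx.1.1 he
    obtain ⟨v, hv, rfl⟩ := H13.QP.exists_of_mem_E hy.1.1 hf
    have hu0 : u ≠ 0 := fun e => he1 (H13.QP.un_eq_one.2 e)
    have hv0 : v ≠ 0 := fun e => hf1 (H13.QP.un_eq_one.2 e)
    rw [← hu.E_eq hx hu0, ← hv.E_eq hy hv0]
    exact H13.QP.comm_of_comm hk2 hk3 (hu.qd hx hu0).1 (hv.qd hy hv0).1 (H13.QP.un_comm_iff.1 h)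
  · obtain ⟨a, ⟨ha, hn⟩, ha1⟩ := H13.Root.exists_ne_one h
    replace hn := H13.Root.cj_eq_self_iff.2 hn
    obtain ⟨u, hu, rfl⟩ := H13.QP.exists_of_mem_E hx.1.1 ha
    have hu0 : u ≠ 0 := fun e => ha1 (H13.QP.un_eq_one.2 e)
    have hq := (hu.qd hx hu0).1
    rw [← hu.E_eq hx hu0] at ha ⊢
    rcases H13.QP.trichotomy hk2 hk3 hq hy with h1 | h1 | h1
    · exact H13.QP.comm_of_comm hk2 hk3 hq hy h1
    · exact absurd (H13.Root.eq_one_of_cj_eq ((H13.QP.pair_iff_opp hk2 hk3 hq hy).2 h1) ha hn) ha1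
    · have h2 := H13.Root.conj_mem_cj (H13.QP.un_mem_E (H13.QP.InE.self hy.1)) (H13.QP.un u hu.1.1)
      rw [hn] at h2
      have h3 := (H13.QP.mem_E hy.1.1).1 (mul_mem h2 (inv_mem (H13.QP.un_mem_E (H13.QP.InE.self hy.1))))
      rw [H13.QP.comm_un _ _ h1.h1 h1.h2] at h3
      have h4 := h3.rev hy h1.h0 (H13.QP.InE.self hy.1)
      exact absurd (by rw [h4.left h1.mul_w, h4.right h1.w_mul, sub_zero]) h1.h0

end Cfsg.Agent.S5073
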