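import Cfsg.Statements.S5077
import Cfsg.Agent.H25.Trans2

set_option autoImplicit false
open Cfsg

namespace Cfsg.Agent.S5077
open H25 Subgroup

/-- A fusion system over a finite p-group S is saturated if and only if (Sylow axiom) every fully normalized subgroup is fully centralized and fully automized, and (extension axiom) every fully centralized subgroup is receptive. -/
theorem result {Ω : Type*} [Group Ω] {S : Subgroup Ω} [Finite S] (p : ℕ) [Fact p.Prime] (hS : IsPGroup p S) (F : Cfsg.FusionSystem S) : F.IsSaturated p ↔ ((∀ P : Subgroup Ω, F.IsFullyNormalized P → F.IsFullyCentralized P ∧ F.IsFullyAutomized p P) ∧ (∀ P : Subgroup Ω, F.IsFullyCentralized P → F.IsReceptive P)) := by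
  obtain ⟨N, θ, R⟩ := exists_rep F
  rw [R.sat_iff hS]
  refine ⟨fun h => ⟨fun P hP => ⟨(R.fc_iff hP.1).2 (h.fc (R.fn hP)),
    (R.fa_iff hS hP.1).2 (h.fa (R.fn hP))⟩, fun P hP => (R.rec_iff hP.1).2 (h.recp (R.fc hP))⟩,
    fun ⟨h1, h2⟩ => FS.sat_of_fn (R.pg_iff.2 hS) fun P' hP' => ?_⟩
  obtain ⟨P, hP, rfl⟩ := R.exists_im hP'.1
  have := h1 P ((R.fn_iff hP).2 hP')
  exact ⟨R.fa hS this.2, R.recp (h2 P this.1)⟩

end Cfsg.Agent.S5077
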