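import Cfsg.Statements.S5079
import Cfsg.Agent.H25.Trans2

set_option autoImplicit false
open Cfsg

namespace Cfsg.Agent.S5079
open H25 Subgroup

/-- In any fusion system over a finite p-group S: if P is fully automized and receptive and Q is conjugate to P in the system, then there is a map of the system with source N_S(Q) and values in N_S(P) carrying Q onto P. -/
theorem result {Ω : Type*} [Group Ω] {S : Subgroup Ω} [Finite S] (p : ℕ) [Fact p.Prime] (hS : IsPGroup p S) (F : Cfsg.FusionSystem S) (P Q : Subgroup Ω) (h₁ : F.IsFullyAutomized p P) (h₂ : F.IsReceptive P) (hQ : F.IsConj Q P) : ∃ φ ∈ F.Hom (Cfsg.FusionSystem.normalizerIn S Q), (∀ x, φ x ∈ Cfsg.FusionSystem.normalizerIn S P) ∧ (Q.subgroupOf (Cfsg.FusionSystem.normalizerIn S Q)).map φ = P := by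
  obtain ⟨N, θ, R⟩ := exists_rep F
  have hQS := (isConj_le hQ).1
  obtain ⟨g, H, e⟩ := (R.isConj_iff hQS h₁.1).1 hQ
  obtain ⟨h, H', e', -⟩ := FS.exists_N_map (R.pg_iff.2 hS) (R.fa hS h₁) (R.recp h₂) H e
  have h3 := H'.cj_N_le (P := im θ Q) inf_le_right
  rw [← R.im_N hQS] at H' h3
  obtain ⟨φ, hφ, e₁⟩ := R.exists_hom (R.N_le Q) H'
  refine ⟨φ, hφ, (e₁.cj_le_iff R.inj (R.N_le Q) (R.map_mem hφ)).1 ?_, ?_⟩
  · rwa [R.im_N h₁.1, ← e']
  · rw [← im_inj R.inj _ h₁.1, e₁.im_map (R.N_le Q) (R.map_mem hφ) (le_inf hQS le_normalizer), e']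
    rintro _ ⟨x, -, rfl⟩; exact R.map_mem hφ x

end Cfsg.Agent.S5079
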