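import Cfsg.Statements.S5081
import Cfsg.Agent.H25.Trans2

set_option autoImplicit false
open Cfsg

namespace Cfsg.Agent.S5081
open H25 Subgroup

/-- Let F be a saturated fusion system over a finite p-group S, P a proper subgroup of S that is fully normalized, and H the subgroup of Aut_F(P) generated by the automorphisms that extend to maps of the system defined on strictly larger subgroups of S. Then either P is not essential and H is all of Aut_F(P), or P is essential and the image of H in Out_F(P) = Aut_F(P)/Inn(P) is strongly p-embedded there. -/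
theorem result {Ω : Type*} [Group Ω] {S : Subgroup Ω} [Finite S] (p : ℕ) [Fact p.Prime] (hS : IsPGroup p S) (F : Cfsg.FusionSystem S) (hF : F.IsSaturated p) (P : Subgroup Ω) (hPS : P < S) (hPn : F.IsFullyNormalized P) (H : Subgroup (MulAut P)) (hH : H = Subgroup.closure {α : MulAut P | ∃ (Q : Subgroup Ω) (hPQ : P < Q) (φ : Q →* Ω), φ ∈ F.Hom Q ∧ ∀ x : P, φ (Subgroup.inclusion hPQ.le x) = α x}) : (¬ F.IsEssential p P ∧ H = F.autGroup P) ∨ (F.IsEssential p P ∧ ∃ _ : ((Cfsg.Inn P).subgroupOf (F.autGroup P)).Normal, Cfsg.IsStronglyPEmbedded p ((H.subgroupOf (F.autGroup P)).map (QuotientGroup.mk' ((Cfsg.Inn P).subgroupOf (F.autGroup P))))) := by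
  obtain ⟨N, θ, R⟩ := exists_rep F
  have h := R.sat hS hF
  have hn := R.fn hPn
  have hlt := (im_lt_im R.inj hPS.le le_rfl).2 hPS
  have e : lift θ P H = (fs θ F).Hx (im θ P) := by
    rw [hH, R.lift_Hx hPS.le, sup_eq_left.2 ((cz_le_ai _ _).trans (FS.ai_le_Hx hlt))]
  have hH' : H ≤ F.autGroup P := by
    rw [hH, closure_le]
    rintro α ⟨Q, hPQ, φ, hφ, e⟩
    refine (mem_autGroup hPS.le).2 ?_
    rw [show ah α = φ.comp (inclusion hPQ.le) from MonoidHom.ext fun x => (e x).symm]
    exact hom_restrict hφ _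
  rw [R.ess_iff h hPS.le]
  by_cases hE : (fs θ F).Ess (im θ P)
  · refine Or.inr ⟨hE, inferInstance, (R.spe_iff h hn hPS.le ?_ hH').2
      ⟨hE.centric.ai_ne h.pg hlt.ne, by rw [e]; exact hE.2.2.2, 1, one_mem _,
        fun b hb u hu hu' e' => ?_⟩⟩
    · rw [← pre_le_pre (Inn_le_range R.inj hPS.le)]
      exact (lift_Inn R.inj hPS.le).le.trans (((ai_mono hn.1 _).trans (FS.ai_le_Hx hlt)).trans e.ge)
    · rw [e]; simpa using h.mem_Hx_of_ai hn hb hu hu' e'
  · refine Or.inl ⟨hE, ?_⟩
    rw [h.ess_iff hn hlt.ne, not_not, ← e, ← R.lift_autGroup hPS.le] at hE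
    exact (pre_inj (hH'.trans (R.autGroup_le_range hPS.le)) (R.autGroup_le_range hPS.le)).1 hE

end Cfsg.Agent.S5081
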