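import Cfsg.Statements.S5082
import Cfsg.Agent.H25.Trans2

set_option autoImplicit false
open Cfsg

namespace Cfsg.Agent.S5082
open H25 Subgroup

/-- Alperin–Goldschmidt fusion Theorem for fusion systems: a saturated fusion system F over a finite p-group S is generated by the automorphism groups Aut_F(P) for P = S and for P essential — every fusion system over S whose automorphism groups of these subgroups contain those of F contains every map of F. -/
theorem result {Ω : Type*} [Group Ω] {S : Subgroup Ω} [Finite S] (p : ℕ) [Fact p.Prime] (hS : IsPGroup p S) (F : Cfsg.FusionSystem S) (hF : F.IsSaturated p) (E : Cfsg.FusionSystem S) (hE : ∀ P : Subgroup Ω, (P = S ∨ F.IsEssential p P) → F.autGroup P ≤ E.autGroup P) : F ≤ E := by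
  obtain ⟨N, θ, U⟩ := exists_urep S
  have R := U.rep le_rfl F
  have R' := U.rep le_rfl E
  have h := R.sat hS hF
  have := (R.forall_ess h (Y := fun P => (fs θ F).A P ≤ (fs θ E).A P)
    fun P hP => R.autGroup_le_iff R' hP hP).1 hE
  exact (R'.le_iff R).2 (h.le_of_ess fun Q hQ a ha =>
    FS.T_of_mem_A (h.cr_of_ess hQ).1.1 (this Q hQ ha))

end Cfsg.Agent.S5082
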