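import Cfsg.Statements.S5084
import Cfsg.Agent.H25.Trans2

set_option autoImplicit false
open Cfsg

namespace Cfsg.Agent.S5084
open H25 Subgroup

/-- In a saturated fusion system over a finite p-group S, a subgroup Q is central in the system if and only if Q ≤ S and no element of Q is conjugate in the system to any element other than itself. -/
theorem result {Ω : Type*} [Group Ω] {S : Subgroup Ω} [Finite S] (p : ℕ) [Fact p.Prime] (hS : IsPGroup p S) (F : Cfsg.FusionSystem S) (hF : F.IsSaturated p) (Q : Subgroup Ω) : F.IsCentral Q ↔ (Q ≤ S ∧ ∀ x ∈ Q, ∀ y : Ω, F.IsConjElt x y → y = x) := by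
  obtain ⟨N, θ, R⟩ := exists_rep F
  have h := R.sat hS hF
  refine ⟨fun hQ => ⟨hQ.1, fun x hx y hy => ?_⟩, fun ⟨h1, h2⟩ => (R.cen_iff h1).2
    (h.cen_iff.2 ⟨im_mono θ h1, fun x' hx' g H => ?_⟩)⟩
  · obtain ⟨g, H, e⟩ := (R.conjElt_iff (hQ.1 hx) (isConjElt_mem hy).2).1 hy
    rw [(R.cen hQ).conj_eq H (mem_zpowers _) (ex_mem_im θ hQ.1 hx)] at e
    exact (ex_inj R.inj (hQ.1 hx) (isConjElt_mem hy).2 e).symm
  · obtain ⟨x, hx, hx₀, rfl⟩ := mem_im.1 hx'
    obtain ⟨y, hy, e⟩ := R.exists_ex (H.conj_mem (mem_zpowers _))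
    rw [← e, h2 x hx y ((R.conjElt_iff hx₀ hy).2 ⟨g, H, e.symm⟩)]

end Cfsg.Agent.S5084
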