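import Cfsg.Statements.S5085
import Cfsg.Agent.H25.Trans

set_option autoImplicit false
open Cfsg

namespace Cfsg.Agent.S5085
open H25 Subgroup

/-- In any fusion system, a characteristic subgroup of a subgroup that is normal in the system is itself normal in the system. -/
theorem result {Ω : Type*} [Group Ω] {S : Subgroup Ω} (F : Cfsg.FusionSystem S) (Q U : Subgroup Ω) (hQ : F.IsNormal Q) (hUQ : U ≤ Q) (hU : (U.subgroupOf Q).Characteristic) : F.IsNormal U := by
  refine ⟨hUQ.trans hQ.1, fun P φ hφ => ?_⟩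
  obtain ⟨ψ, hψ, e₁, e₂⟩ := hQ.2 P φ hφ
  refine ⟨ψ.comp (inclusion (sup_le_sup_left hUQ P)), hom_restrict hψ _, fun x => e₁ x, ?_⟩
  have h1 : ∀ x : Q, ψ (inclusion le_sup_right x) ∈ Q := fun x => e₂.le ⟨_, x.2, rfl⟩
  let α : Q ≃* Q := MulEquiv.ofBijective ((ψ.comp (inclusion le_sup_right)).codRestrict Q h1)
    ⟨fun a b hab => inclusion_injective _ (F.injective_of_mem hψ (congrArg Subtype.val hab)),
      fun y => by
        obtain ⟨x, hx, e⟩ := e₂.ge y.2
        exact ⟨⟨x, hx⟩, Subtype.ext e⟩⟩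
  have h2 := characteristic_iff_map_eq.1 hU α
  ext y
  constructor
  · rintro ⟨x, hx, rfl⟩
    exact h2.le ⟨⟨x, hUQ hx⟩, hx, rfl⟩
  · intro hy
    obtain ⟨x, hx, e⟩ := h2.ge (show (⟨y, hUQ hy⟩ : Q) ∈ U.subgroupOf Q from hy)
    exact ⟨⟨x, mem_sup_right hx⟩, hx, congrArg Subtype.val e⟩

end Cfsg.Agent.S5085
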