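import Cfsg.Statements.S5086
import Cfsg.Agent.H25.Model0

set_option autoImplicit false
open Cfsg

namespace Cfsg.Agent.S5086
open H25 Subgroup

/-- In a saturated fusion system over a finite p-group, a subgroup Q is normal in the system if and only if Q is strongly closed in the system and is contained in every centric-radical subgroup. -/
theorem result {Ω : Type*} [Group Ω] {S : Subgroup Ω} [Finite S] (p : ℕ) [Fact p.Prime] (hS : IsPGroup p S) (F : Cfsg.FusionSystem S) (hF : F.IsSaturated p) (Q : Subgroup Ω) : F.IsNormal Q ↔ (F.StronglyClosed Q ∧ ∀ P : Subgroup Ω, F.IsCentric P → F.IsRadical p P → Q ≤ P) := by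
  obtain ⟨N, θ, R⟩ := exists_rep F
  have h := R.sat hS hF
  refine ⟨fun hQ => ⟨(R.sc_iff hQ.1).2 (R.nm hQ).sc, fun P h1 h2 => (im_le_im R.inj hQ.1).1
    ((R.nm hQ).le_of_cr h.pg (R.centric h1) (R.rad hS h2))⟩, fun ⟨h1, h2⟩ =>
    (R.nm_iff h1.1).2 (h.nm_of_wc_cr (R.sc h1).wc fun P' _ hc hr => ?_)⟩
  obtain ⟨P, hP, rfl⟩ := R.exists_im hc.1
  exact im_mono θ (h2 P ((R.centric_iff hP).2 hc) ((R.rad_iff hS hP).2 hr))

end Cfsg.Agent.S5086
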