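import Cfsg.Statements.S5087
import Cfsg.Agent.H25.Trans2

set_option autoImplicit false
open Cfsg

namespace Cfsg.Agent.S5087
open H25 Subgroup

/-- In a saturated fusion system over a finite p-group S, a subgroup Q is normal in the system if and only if every subgroup P that equals S or is essential contains Q and every element of Aut_F(P) maps Q onto itself. -/
theorem result {Ω : Type*} [Group Ω] {S : Subgroup Ω} [Finite S] (p : ℕ) [Fact p.Prime] (hS : IsPGroup p S) (F : Cfsg.FusionSystem S) (hF : F.IsSaturated p) (Q : Subgroup Ω) : F.IsNormal Q ↔ ∀ P : Subgroup Ω, (P = S ∨ F.IsEssential p P) → (Q ≤ P ∧ ∀ α ∈ F.autGroup P, (Q.subgroupOf P).map α.toMonoidHom = Q.subgroupOf P) := by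
  obtain ⟨N, θ, R⟩ := exists_rep F
  have h := R.sat hS hF
  by_cases hQ : Q ≤ S
  swap
  · exact ⟨fun h => (hQ h.1).elim, fun h => (hQ (h S (Or.inl rfl)).1).elim⟩
  rw [R.nm_iff hQ, h.nm_iff_ess]
  refine (R.forall_ess h fun P hP => ?_).symm
  rw [im_le_im R.inj hQ]
  refine and_congr_right fun hQP => ?_
  have key : ∀ α g, HC θ (ah α) g → (g ∈ nz (im θ Q) ↔
      (Q.subgroupOf P).map α.toMonoidHom = Q.subgroupOf P) := by
    intro α g e
    rw [e.mem_nz_iff R.inj hP (fun x => hP (Subtype.prop _)) hQP, ← Subgroup.map_map,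
      ← (map_injective P.subtype_injective).eq_iff, map_subgroupOf_eq_of_le hQP]
  constructor
  · intro H a ha
    obtain ⟨α, hα, e⟩ := R.exists_aut hP ha
    exact (key α a e).2 (H α hα)
  · intro H α hα
    obtain ⟨a, ha, e⟩ := R.exists_A hP hα
    exact (key α a e).1 (H ha)

end Cfsg.Agent.S5087
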