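import Cfsg.Statements.S5089
import Cfsg.Agent.H25.Model0

set_option autoImplicit false
open Cfsg

namespace Cfsg.Agent.S5089
open H25 Subgroup

/-- A saturated fusion system over a finite p-group has a nontrivial subgroup that is normal in the system (O_p(F) ≠ 1) if and only if some nontrivial abelian subgroup is strongly closed in the system. -/
theorem result {Ω : Type*} [Group Ω] {S : Subgroup Ω} [Finite S] (p : ℕ) [Fact p.Prime] (hS : IsPGroup p S) (F : Cfsg.FusionSystem S) (hF : F.IsSaturated p) : F.core ≠ ⊥ ↔ ∃ Q : Subgroup Ω, Q ≠ ⊥ ∧ IsMulCommutative Q ∧ F.StronglyClosed Q := by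
  obtain ⟨N, θ, R⟩ := exists_rep F
  rw [Ne, R.core_eq_bot, ← Ne, (R.sat hS hF).core_ne_bot_iff]
  constructor
  · rintro ⟨Q', h1, h2, h3⟩
    obtain ⟨Q, hQ, rfl⟩ := R.exists_im h3.1
    exact ⟨Q, fun e => h1 (by simp [e]), (isMulCommutative_im R.inj hQ).1 h2, (R.sc_iff hQ).2 h3⟩
  · rintro ⟨Q, h1, h2, h3⟩
    exact ⟨_, fun e => h1 ((im_eq_bot R.inj h3.1).1 e), (isMulCommutative_im R.inj h3.1).2 h2,
      R.sc h3⟩

end Cfsg.Agent.S5089
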