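import Cfsg.Statements.S5094
import Cfsg.Agent.H7.Iso

set_option autoImplicit false
open Cfsg

open H7 H28 Subgroup

namespace Cfsg.Agent.S5094

/-- Glauberman's Z*-Theorem in fusion language: for a finite group G with Sylow 2-subgroup S, the centre of the fusion system of G on S is the set of elements of S whose image in G/O(G) is central, O(G) being the largest normal subgroup of odd order. -/
theorem result {G : Type*} [Group G] [Finite G] (S : Sylow 2 G) : (Cfsg.groupFusionSystem (S : Subgroup G)).center = (S : Subgroup G) ⊓ (Subgroup.center (G ⧸ Cfsg.oddCore G)).comap (QuotientGroup.mk' (Cfsg.oddCore G)) := by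
  refine le_antisymm (sSup_le fun Q hQ x hx => ⟨hQ.1 hx, inZStar_iff_mem_center.1 (inZStar_two
    (isPElt_of_mem S.isPGroup' (hQ.1 hx)) (isolated_of_sylow S (hQ.1 hx) fun g hg => ?_))⟩)
    (le_sSup ⟨inf_le_left, ?_⟩)
  · obtain ⟨ψ, -, h1, h2⟩ := hQ.2 (zpowers x) ((MulAut.conj g).toMonoidHom.comp (zpowers x).subtype)
      ⟨zpowers_le.2 (hQ.1 hx), fun y => (show cj g (zpowers x) ≤ S by
        rwa [cj_zpowers, zpowers_le]) (conj_mem_cj y.2), g, fun _ => rfl⟩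
    exact (h1 ⟨x, mem_zpowers x⟩).symm.trans (h2 ⟨x, hx⟩)
  rintro P φ ⟨hP, hφ, g, hg⟩
  set Z := (center (G ⧸ oddCore G)).comap (QuotientGroup.mk' (oddCore G)) with hZ
  have h1 : IsSylowIn 2 ((S : Subgroup G) ⊓ Z) Z :=
    (isSylowIn_top S).inf_normal' le_top (normal_iff_top_le.1 inferInstance)
  have h2 : ∀ n ∈ 𝐍 ((S : Subgroup G) ⊓ Z), n ∈ 𝐂 ((S : Subgroup G) ⊓ Z) := fun n hn =>
    mem_centralizer'.2 fun q hq => by
      have h3 : n * q * n⁻¹ * q⁻¹ ∈ (S : Subgroup G) ⊓ pPrimeCore 2 G :=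
        ⟨(S : Subgroup G).mul_mem (conj_mem_of_mem_normalizer hn hq).1 ((S : Subgroup G).inv_mem hq.1),
          inZStar_iff_mem_center.2 hq.2 n⟩
      rw [H1.inf_eq_bot_of_isPGroup_of_coprime S.isPGroup' H1.pPrimeCore_coprime, mem_bot,
        mul_inv_eq_one, mul_inv_eq_iff_eq_mul] at h3
      exact h3.symm
  have h3 : (S : Subgroup G) ≤ 𝐂 ((S : Subgroup G) ⊓ Z) := fun s hs => h2 s
    (le_normalizer_inf le_normalizer (le_top.trans (normal_iff_top_le.1 inferInstance)) hs)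
  have h4 : cj g P ≤ S := by
    rintro _ ⟨y, hy, rfl⟩
    exact (hg ⟨y, hy⟩ ▸ hφ ⟨y, hy⟩ :)
  obtain ⟨k, hk, h5⟩ := ((h1.conj_of_mem_normalizer (mem_normalizer_of_normal Z g⁻¹)).mono
    (K := Z ⊓ 𝐂 P) (le_inf (cj_le_of_mem_normalizer inf_le_right (mem_normalizer_of_normal Z _))
      (by rw [cj_le_iff, inv_inv, cj_centralizer]; exact le_centralizer_comm.1 (h4.trans h3)))
    inf_le_left).exists_conj (h1.mono (le_inf inf_le_right (le_centralizer_comm.1 (hP.trans h3)))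
      inf_le_left)
  rw [cj_cj] at h5
  have h6 := inv_mem (h2 _ (mem_normalizer_iff_cj.2 h5))
  rw [mul_inv_rev, inv_inv] at h6
  have h7 : ∀ y ∈ P, g * k⁻¹ * y * (g * k⁻¹)⁻¹ = g * y * g⁻¹ := fun y hy => by
    rw [mul_assoc g, ← mem_centralizer'.1 (inv_mem hk.2) y hy]; group
  have h8 : ∀ y ∈ (S : Subgroup G) ⊓ Z, g * k⁻¹ * y * (g * k⁻¹)⁻¹ = y := fun y hy => by
    rw [← mem_centralizer'.1 h6 y hy, mul_inv_cancel_right]
  refine ⟨(MulAut.conj (g * k⁻¹)).toMonoidHom.comp (Subgroup.subtype _), ⟨sup_le hP inf_le_left,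
    fun y => (show cj (g * k⁻¹) (P ⊔ (S : Subgroup G) ⊓ Z) ≤ S from ?_) (conj_mem_cj y.2), _,
    fun _ => rfl⟩, fun y => (h7 y y.2).trans (hg y).symm, fun y => h8 y y.2⟩
  rw [cj_sup]
  refine sup_le ?_ ?_
  · rintro _ ⟨y, hy, rfl⟩
    exact (h7 y hy ▸ h4 (conj_mem_cj hy) :)
  · rintro _ ⟨y, hy, rfl⟩
    exact ((h8 y hy).symm ▸ hy.1 :)

end Cfsg.Agent.S5094
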