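import Cfsg.Statements.S5095
import Cfsg.Agent.H25.Trans2

set_option autoImplicit false
open Cfsg

namespace Cfsg.Agent.S5095
open H25 Subgroup

/-- In a saturated fusion system over a finite p-group S: if Q ≤ P ≤ S with Q centric, and two maps of the system with source P agree on Q, then they differ by an inner automorphism of P induced by an element of the centre of Q. -/
theorem result {Ω : Type*} [Group Ω] {S : Subgroup Ω} [Finite S] (p : ℕ) [Fact p.Prime] (hS : IsPGroup p S) (F : Cfsg.FusionSystem S) (hF : F.IsSaturated p) (P Q : Subgroup Ω) (hQP : Q ≤ P) (hQ : F.IsCentric Q) (φ φ' : P →* Ω) (hφ : φ ∈ F.Hom P) (hφ' : φ' ∈ F.Hom P) (h : ∀ x : P, (x : Ω) ∈ Q → φ x = φ' x) : ∃ z : P, (z : Ω) ∈ Q ∧ (z : Ω) ∈ Subgroup.centralizer (Q : Set Ω) ∧ ∀ y : P, φ' y = φ (z * y * z⁻¹) := by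
  obtain ⟨N, θ, R⟩ := exists_rep F
  obtain ⟨g, H, e⟩ := R.exists_T hφ
  obtain ⟨g', H', e'⟩ := R.exists_T hφ'
  obtain ⟨z', hz', e₁⟩ := (R.sat hS hF).agree_center' (R.centric hQ) (im_mono θ hQP) H H'
    ((e.agree_iff R.inj e' (R.map_mem hφ) (R.map_mem hφ') hQP hQP).2 fun x hx => h _ hx)
  rw [← im_inf_cz R.inj hQ.1] at hz'
  obtain ⟨z, hz, hz₀, rfl⟩ := mem_im.1 hz'
  refine ⟨⟨z, hQP hz.1⟩, hz.1, hz.2, fun y => ex_inj R.inj (R.map_mem hφ' _) (R.map_mem hφ _) ?_⟩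
  rw [e', e, e₁ _ (ex_mem_im θ (R.dom_le hφ) y.2)]
  show _ = g * ex θ (z * y * z⁻¹) * g⁻¹
  rw [ex_conj θ hz₀ (R.dom_le hφ y.2)]; group

end Cfsg.Agent.S5095
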