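import Cfsg.Statements.S5104
import Cfsg.Agent.H25.Trans2

set_option autoImplicit false
open Cfsg

namespace Cfsg.Agent.S5104
open H25 Subgroup

/-- In a saturated fusion system over a finite p-group S, a fully centralized subgroup U with C_S(U) ≤ U is centric. -/
theorem result {Ω : Type*} [Group Ω] {S : Subgroup Ω} [Finite S] (p : ℕ) [Fact p.Prime] (hS : IsPGroup p S) (F : Cfsg.FusionSystem S) (hF : F.IsSaturated p) (U : Subgroup Ω) (hU : F.IsFullyCentralized U) (hC : Cfsg.FusionSystem.centralizerIn S U ≤ U) : F.IsCentric U := by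
  obtain ⟨N, θ, R⟩ := exists_rep F
  refine (R.centric_iff hU.1).2 ((R.fc hU).centric ?_)
  rw [← R.im_C hU.1]; exact im_mono θ hC

end Cfsg.Agent.S5104
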