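import Cfsg.Statements.S5105
import Cfsg.Agent.H25.Model2
import Cfsg.Agent.H2.Gaschutz

set_option autoImplicit false
open Cfsg

namespace Cfsg.Agent.S5105
open H25 Subgroup

open scoped IsMulCommutative

/-- Model Theorem, rigidity: if G is a model of a constrained fusion system over a finite p-group S (through ι : S → G), then every automorphism of G fixing ι(S) elementwise is conjugation by ι(z) for some z in the centre of S. -/
theorem result {Ω : Type*} [Group Ω] {S : Subgroup Ω} [Finite S] (p : ℕ) [Fact p.Prime] (hS : IsPGroup p S) (F : Cfsg.FusionSystem S) (hF : F.IsConstrained p) {G : Type*} [Group G] (ι : S →* G) (hG : F.IsModel p G ι) (ψ : G ≃* G) (hψ : ∀ x : S, ψ (ι x) = ι x) : ∃ z : S, z ∈ Subgroup.center S ∧ ∀ g : G, ψ g = ι z * g * (ι z)⁻¹ := by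
  have := hG.1
  obtain ⟨R, -, h1, h2⟩ := (isModel_iff hS).1 hG
  set Q := Op p (⊤ : Subgroup G) ⊥
  have hQ : Q ≤ ι.range := h1.Op_bot_le
  have hn : Q.Normal := normal_iff_nz.2 (le_nz_Op_bot p ⊤)
  have hn' : (Q ⊓ cz Q).Normal := normal_iff_nz.2 fun g _ =>
    mem_nz_inf (mem_nz_of_normal Q g) (mem_nz_cz (mem_nz_of_normal Q g))
  have h3 : ∀ x ∈ ι.range, ψ x = x := by rintro _ ⟨x, rfl⟩; exact hψ x
  have h4 : ∀ g, ψ g * g⁻¹ ∈ Q ⊓ cz Q := fun g => by
    have : ψ g * g⁻¹ ∈ cz Q := mem_cz.2 fun x hx => by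
      have h5 := hn.conj_mem' x hx g
      have h6 := h3 _ (hQ hx)
      rw [show x = g * (g⁻¹ * x * g) * g⁻¹ by group, map_mul, map_mul, map_inv, h3 _ (hQ h5)] at h6
      calc ψ g * g⁻¹ * x * (ψ g * g⁻¹)⁻¹ = ψ g * (g⁻¹ * x * g) * (ψ g)⁻¹ := by group
        _ = x := by rw [h6]; group
    exact ⟨h2 ⟨mem_top _, this⟩, this⟩
  obtain ⟨k, hk⟩ := ((isPGroup_range hS ι).to_le (inf_le_left.trans hQ : Q ⊓ cz Q ≤ _)).exists_card_eq
  obtain ⟨m, hm⟩ := H2.cocycle_of_trivial_on (MulAut.conjNormal (H := Q ⊓ cz Q)) ι.range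
    (by rw [hk, ← relIndex_top_right]
        exact ((Nat.Prime.coprime_iff_not_dvd Fact.out).2 h1.2).pow_left k)
    (c := fun g => ⟨_, h4 g⟩) (fun a b => Subtype.ext (by simp [mul_assoc]))
    (fun u hu => Subtype.ext (by simp [h3 u hu]))
  have h5 : ∀ g, ψ g = m * g * (m : G)⁻¹ := fun g => by
    have := congrArg Subtype.val (hm g)
    simp only [Subgroup.coe_mul, Subgroup.coe_inv, MulAut.conjNormal_apply] at this
    rw [← mul_inv_cancel_right (ψ g) g⁻¹, this]; group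
  obtain ⟨z, hz⟩ := hQ m.2.1
  refine ⟨z, mem_center_iff.2 fun s => R.inj ?_, fun g => by rw [hz, h5]⟩
  rw [map_mul, map_mul, hz, ← hψ s, h5, ← h5, hψ, eq_comm, ← mul_inv_eq_iff_eq_mul, ← h5, hψ]

end Cfsg.Agent.S5105
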