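import Cfsg.Statements.S5106
import Cfsg.Agent.H25.Model0

set_option autoImplicit false
open Cfsg

namespace Cfsg.Agent.S5106
open H25 Subgroup

/-- In a saturated fusion system over a finite p-group S, a subgroup R ≤ S is normal in the system if and only if every map of the system whose source is a subgroup of R is the restriction of an element of Aut_F(R). -/
theorem result {Ω : Type*} [Group Ω] {S : Subgroup Ω} [Finite S] (p : ℕ) [Fact p.Prime] (hS : IsPGroup p S) (F : Cfsg.FusionSystem S) (hF : F.IsSaturated p) (R : Subgroup Ω) (hRS : R ≤ S) : F.IsNormal R ↔ ∀ (P : Subgroup Ω) (hPR : P ≤ R) (φ : P →* Ω), φ ∈ F.Hom P → ∃ α ∈ F.autGroup R, ∀ x : P, ((α (Subgroup.inclusion hPR x) : R) : Ω) = φ x := by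
  obtain ⟨N, θ, R'⟩ := exists_rep F
  rw [R'.nm_iff hRS, (R'.sat hS hF).nm_iff_ext (im_mono θ hRS)]
  constructor
  · intro h P hPR φ hφ
    obtain ⟨g, H, e⟩ := R'.exists_T hφ
    obtain ⟨a, ha, e₁⟩ := h _ g (im_mono θ hPR) H
    obtain ⟨α, hα, e₂⟩ := R'.exists_aut hRS ha
    exact ⟨α, hα, fun x => ((e.agree_iff R'.inj e₂ (R'.map_mem hφ)
      (fun x => hRS (Subtype.prop _)) le_rfl hPR).1 e₁ x x.2).symm⟩
  · intro h P' g hP' H
    obtain ⟨P, hP, rfl, φ, hφ, e⟩ := R'.exists_hom' H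
    have hPR := (im_le_im R'.inj hP).1 hP'
    obtain ⟨α, hα, e₁⟩ := h P hPR φ hφ
    obtain ⟨a, ha, e₂⟩ := R'.exists_A hRS hα
    exact ⟨a, ha, (e.agree_iff R'.inj e₂ (R'.map_mem hφ)
      (fun x => hRS (Subtype.prop _)) le_rfl hPR).2 fun x hx => (e₁ ⟨x, hx⟩).symm⟩

end Cfsg.Agent.S5106
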