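import Cfsg.Statements.S5107
import Cfsg.Agent.H25.Model0

set_option autoImplicit false
open Cfsg

namespace Cfsg.Agent.S5107
open H25 Subgroup

/-- If a Sylow p-subgroup S of a finite group G has nilpotency class at most two and its centre is strongly closed in S with respect to G, then every map of the fusion system of G on S is conjugation by an element of N_G(S), and S is the largest subgroup normal in that fusion system. -/
theorem result {G : Type*} [Group G] [Finite G] (p : ℕ) [Fact p.Prime] (S : Sylow p G) (hcl : ⁅(S : Subgroup G), (S : Subgroup G)⁆ ≤ (S : Subgroup G) ⊓ Subgroup.centralizer ((S : Subgroup G) : Set G)) (hZ : Cfsg.IsStronglyClosed ((S : Subgroup G) ⊓ Subgroup.centralizer ((S : Subgroup G) : Set G)) (S : Subgroup G)) : (∀ (P : Subgroup G) (φ : P →* G), φ ∈ (Cfsg.groupFusionSystem (S : Subgroup G)).Hom P → ∃ g ∈ Subgroup.normalizer ((S : Subgroup G) : Set G), ∀ x : P, φ x = g * (x : G) * g⁻¹) ∧ (Cfsg.groupFusionSystem (S : Subgroup G)).core = S := by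
  have h := FS.sat_ofSub S.isPGroup' (syl_sylow S)
  have h1 : (FS.ofSub ⊤ (S : Subgroup G)).SC ((S : Subgroup G) ⊓ cz S) :=
    (FS.sc_ofSub_iff le_top).2 ⟨hZ.1, fun x hx g _ => hZ.2 x hx g⟩
  have h2 : (FS.ofSub ⊤ (S : Subgroup G)).Nm S := by
    refine h.nm_of_chain (FS.sc_S _) (n := 2)
      (fun i => if i = 0 then ⊥ else if i = 1 then (S : Subgroup G) ⊓ cz S else S) rfl rfl
      (fun i hi => ?_) (fun i hi => ?_) fun i hi => ?_
    · interval_cases i <;> simp
    · interval_cases i
      · exact FS.wc_bot _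
      · exact h1.wc
      · exact FS.wc_S _
    · interval_cases i
      · exact commutator_le_iff'.2 fun x hx y hy => by simp [mem_cz.1 hx.2 y hy]
      · exact hcl
  refine ⟨fun P φ hφ => ?_, ?_⟩
  · obtain ⟨g, H, e⟩ := (rep_group _).exists_T hφ
    rw [fs_group, im_idE] at H
    obtain ⟨k, hk, -, e'⟩ := h2.ext H
    exact ⟨k, hk, fun x => by rw [hc_idE.1 e, e' x x.2]⟩
  · rw [← im_idE (FusionSystem.core _), (rep_group _).im_core, fs_group]
    exact le_antisymm (FS.core_le _) h2.le_core

end Cfsg.Agent.S5107
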