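import Cfsg.Statements.S5111
import Cfsg.Agent.H25.Trans2

set_option autoImplicit false
open Cfsg

namespace Cfsg.Agent.S5111
open H25 Subgroup

/-- A fusion system over a finite p-group S is saturated if and only if the inner automorphisms of S form a Sylow p-subgroup of Aut_F(S) and every fully normalized subgroup of S is receptive. -/
theorem result {Ω : Type*} [Group Ω] {S : Subgroup Ω} [Finite S] (p : ℕ) [Fact p.Prime] (hS : IsPGroup p S) (F : Cfsg.FusionSystem S) : F.IsSaturated p ↔ (F.IsFullyAutomized p S ∧ ∀ P : Subgroup Ω, F.IsFullyNormalized P → F.IsReceptive P) := by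
  obtain ⟨N, θ, R⟩ := exists_rep F
  rw [R.sat_iff hS]
  refine ⟨fun h => ⟨(R.fa_iff hS le_rfl).2 (h.fa (FS.FN_S _)),
    fun P hP => (R.rec_iff hP.1).2 (h.rec_fn (R.fn hP))⟩,
    fun ⟨h1, h2⟩ => FS.sat_of_fa_S (R.pg_iff.2 hS) (R.fa hS h1) fun P' hP' => ?_⟩
  obtain ⟨P, hP, rfl⟩ := R.exists_im hP'.1
  exact R.recp (h2 P ((R.fn_iff hP).2 hP'))

end Cfsg.Agent.S5111
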