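import Cfsg.Statements.S5119
import Cfsg.Agent.H25.Model0

set_option autoImplicit false
open Cfsg

namespace Cfsg.Agent.S5119
open H25 Subgroup

/-- Let F be a saturated fusion system over a finite p-group S and E a subsystem of F over a subgroup T that is strongly closed in F. Then E is invariant in F (invariance under Aut_F(T) plus the Frattini condition) if and only if the strong invariance condition holds: for P ≤ Q ≤ T, every map φ of E from P into Q and every map ψ of F with source Q, the transported map ψ φ ψ⁻¹ on ψ(P) is a map of E. -/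
theorem result {Ω : Type*} [Group Ω] {S : Subgroup Ω} [Finite S] (p : ℕ) [Fact p.Prime] (hS : IsPGroup p S) (F : Cfsg.FusionSystem S) (hF : F.IsSaturated p) {T : Subgroup Ω} (E : Cfsg.FusionSystem T) (hE : E.IsSubsystemOf F) (hT : F.StronglyClosed T) : E.IsInvariantIn F ↔ ∀ (P Q : Subgroup Ω) (hPQ : P ≤ Q) (_ : Q ≤ T) (φ : P →* Ω) (_ : φ ∈ E.Hom P) (hφQ : ∀ x : P, φ x ∈ Q) (ψ : Q →* Ω) (_ : ψ ∈ F.Hom Q), ∃ χ ∈ E.Hom ((P.subgroupOf Q).map ψ), ∀ (x : P) (hx : ψ (Subgroup.inclusion hPQ x) ∈ (P.subgroupOf Q).map ψ), χ ⟨ψ (Subgroup.inclusion hPQ x), hx⟩ = ψ ⟨φ x, hφQ x⟩ := by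
  obtain ⟨N, θ, R⟩ := exists_rep F
  have R' := R.of_sub hE
  rw [R.inv_iff R']
  constructor
  · intro h P Q hPQ hQ φ hφ hφQ ψ hψ
    obtain ⟨g, H, e⟩ := R'.exists_T hφ
    obtain ⟨k, H', e'⟩ := R.exists_T hψ
    exact (R'.conj_mem_iff (R.dom_le hψ) hPQ (R.map_mem hψ) e e' hφQ).2
      (h.conj' H H' (im_mono θ hQ) (im_mono θ hPQ)
        ((e.cj_le_iff R.inj (R'.dom_le hφ) (R'.map_mem hφ)).2 hφQ))
  · intro h
    refine (R.sat hS hF).inv_of_strong ((R.le_iff R').1 hE) (R.sc hT) fun P' Q' g k H H' hQ h1 h2 => ?_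
    obtain ⟨P, hP, rfl, φ, hφ, e⟩ := R'.exists_hom' H
    obtain ⟨Q, hQ', rfl, ψ, hψ, e'⟩ := R.exists_hom' H'
    have hPQ := (im_le_im R.inj (R'.dom_le hφ)).1 h1
    have hφQ := (e.cj_le_iff R.inj (R'.dom_le hφ) (R'.map_mem hφ)).1 h2
    exact (R'.conj_mem_iff (R.dom_le hψ) hPQ (R.map_mem hψ) e e' hφQ).1
      (h P Q hPQ ((R'.le_S_iff hQ').1 hQ) φ hφ hφQ ψ hψ)

end Cfsg.Agent.S5119
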