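import Cfsg.Statements.S5122
import Cfsg.Agent.H25.Model0

set_option autoImplicit false
open Cfsg

namespace Cfsg.Agent.S5122
open H25 Subgroup

/-- Let G be a finite group with Sylow p-subgroup S. Every subgroup P of S has a G-conjugate Q ≤ S such that N_S(Q) is a Sylow p-subgroup of N_G(Q); and for any Q ≤ S with that property, C_S(Q) is a Sylow p-subgroup of C_G(Q) and the automorphisms of Q induced by N_S(Q) form a Sylow p-subgroup of those induced by N_G(Q). -/
theorem result {G : Type*} [Group G] [Finite G] (p : ℕ) [Fact p.Prime] (S : Sylow p G) : (∀ P : Subgroup G, P ≤ S → ∃ g : G, P.map (MulAut.conj g).toMonoidHom ≤ S ∧ (∃ R : Sylow p ↥(Subgroup.normalizer ((P.map (MulAut.conj g).toMonoidHom : Subgroup G) : Set G)), (R : Subgroup ↥(Subgroup.normalizer ((P.map (MulAut.conj g).toMonoidHom : Subgroup G) : Set G))) = (Cfsg.FusionSystem.normalizerIn (S : Subgroup G) (P.map (MulAut.conj g).toMonoidHom)).subgroupOf (Subgroup.normalizer ((P.map (MulAut.conj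 g).toMonoidHom : Subgroup G) : Set G)))) ∧ ∀ Q : Subgroup G, Q ≤ S → (∃ R : Sylow p ↥(Subgroup.normalizer (Q : Set G)), (R : Subgroup ↥(Subgroup.normalizer (Q : Set G))) = (Cfsg.FusionSystem.normalizerIn (S : Subgroup G) Q).subgroupOf (Subgroup.normalizer (Q : Set G))) → (∃ R : Sylow p ↥(Subgroup.centralizer (Q : Set G)), (R : Subgroup ↥(Subgroup.centralizer (Q : Set G))) = (Cfsg.FusionSystem.centralizerIn (S : Subgroup G) Q).subgroupOf (Subgroup.centralizer (Q : Set G))) ∧ (∃ R : Sylow p ↥(Cfsg.autInducedBy ⊤ Q), (R : Subgroup ↥(Cfsg.autInducedBy ⊤ Q)) = (Cfsg.autInducedBy (S : Subgroup G) Q).subgroupOf (Cfsg.autInducedBy ⊤ Q)) := by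
  have h := FS.sat_ofSub S.isPGroup' (syl_sylow S)
  have h1 : ∀ Q : Subgroup G, Q ≤ S → ((FS.ofSub ⊤ (S : Subgroup G)).FN Q ↔
      ∃ R : Sylow p (nz Q), (R : Subgroup (nz Q)) = ((S : Subgroup G) ⊓ nz Q).subgroupOf (nz Q)) :=
    fun Q hQ => by
      rw [FS.ofSub_fn_iff S.isPGroup' (syl_sylow S) hQ, top_inf_eq]
      exact syl_iff_exists_sylow (S.isPGroup'.to_le inf_le_left) inf_le_right
  refine ⟨fun P hP => ?_, fun Q hQ hn => ⟨?_, ?_⟩⟩
  · obtain ⟨g, H, hg⟩ := FS.exists_FN (F := FS.ofSub ⊤ (S : Subgroup G)) hP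
    exact ⟨g, H.cj_le, (h1 _ H.cj_le).1 hg⟩
  · have := (FS.ofSub_fc_iff S.isPGroup' (syl_sylow S) hQ).1 (h.fc ((h1 Q hQ).2 hn))
    rw [top_inf_eq] at this
    exact (syl_iff_exists_sylow (S.isPGroup'.to_le inf_le_left) inf_le_right).1 this
  · have h2 := h.syl ((h1 Q hQ).2 hn)
    rw [FS.ofSub_A le_top hQ] at h2
    rw [← syl_iff_exists_sylow (isPGroup_autInducedBy S.isPGroup' Q) (autInducedBy_mono le_top Q),
      ← syl_pre (autInducedBy_le_range (idE_inj G) le_top le_top)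
        (autInducedBy_le_range (idE_inj G) le_top le_top)]
    change Syl p (lift _ _ _) (lift _ _ _)
    rw [lift_autInducedBy (idE_inj G) le_top le_top, lift_autInducedBy (idE_inj G) le_top le_top]
    simpa using h2

end Cfsg.Agent.S5122
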