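import Cfsg.Statements.S5123
import Cfsg.Agent.H25.Model0

set_option autoImplicit false
open Cfsg

namespace Cfsg.Agent.S5123
open H25 Subgroup

/-- Let G be a finite group with Sylow p-subgroup S, P, Q ≤ S and g ∈ G with gPg⁻¹ = Q, and suppose N_S(Q) is a Sylow p-subgroup of N_G(Q). Let N be the set of x ∈ N_S(P) with gxg⁻¹ ∈ N_S(Q)C_G(Q). Then some h ∈ C_G(Q) satisfies (hg)N(hg)⁻¹ ≤ S. -/
theorem result {G : Type*} [Group G] [Finite G] (p : ℕ) [Fact p.Prime] (S : Sylow p G) (P Q : Subgroup G) (hP : P ≤ S) (hQ : Q ≤ S) (g : G) (hg : P.map (MulAut.conj g).toMonoidHom = Q) (hN : (∃ R : Sylow p ↥(Subgroup.normalizer (Q : Set G)), (R : Subgroup ↥(Subgroup.normalizer (Q : Set G))) = (Cfsg.FusionSystem.normalizerIn (S : Subgroup G) Q).subgroupOf (Subgroup.normalizer (Q : Set G)))) : ∃ h ∈ Subgroup.centralizer (Q : Set G), ((Cfsg.FusionSystem.normalizerIn (S : Subgroup G) P) ⊓ (Cfsg.FusionSystem.normalizerIn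 (S : Subgroup G) Q ⊔ Subgroup.centralizer (Q : Set G)).comap (MulAut.conj g).toMonoidHom).map (MulAut.conj (h * g)).toMonoidHom ≤ S := by
  have h := FS.sat_ofSub S.isPGroup' (syl_sylow S)
  have h1 : (FS.ofSub ⊤ (S : Subgroup G)).FN Q := by
    rw [FS.ofSub_fn_iff S.isPGroup' (syl_sylow S) hQ, top_inf_eq]
    exact (syl_iff_exists_sylow (S.isPGroup'.to_le inf_le_left) inf_le_right).2 hN
  have hg' : cj g P = Q := hg
  obtain ⟨k, H, e⟩ := (h.rec_fn h1).2 P g (FS.ofSub_top_T.2 ⟨hP, hg'.le.trans hQ⟩) hg'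
  refine ⟨k * g⁻¹, hg' ▸ agree_iff'.1 e, ?_⟩
  rw [inv_mul_cancel_right]
  refine le_trans (cj_mono k ?_) H.cj_le
  intro x hx
  refine FS.mem_Nf.2 ⟨hx.1, ?_⟩
  rw [hg', ai_eq_sup]; exact hx.2

end Cfsg.Agent.S5123
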