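import Cfsg.Statements.S5160
import Cfsg.Agent.H25.Model0

set_option autoImplicit false
open Cfsg

namespace Cfsg.Agent.S5160
open H25 Subgroup

/-- Let G be a finite group with nontrivial Sylow p-subgroup S and F its fusion system on S. Suppose (a) no nontrivial proper subgroup of S is strongly closed in F, and (b) the automorphisms of S induced by G are generated by those induced, for R running over the fully normalized radical centric subgroups of F, by the subgroup of N_G(R) generated by its elements of p-power order. Then F is simple. -/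
theorem result {G : Type*} [Group G] [Finite G] (p : ℕ) [Fact p.Prime] (S : Sylow p G) (hS1 : (S : Subgroup G) ≠ ⊥) (ha : ∀ T : Subgroup G, (Cfsg.groupFusionSystem (S : Subgroup G)).StronglyClosed T → T = ⊥ ∨ T = (S : Subgroup G)) (hb : Cfsg.autInducedBy ⊤ (S : Subgroup G) = ⨆ (R : Subgroup G) (_ : (Cfsg.groupFusionSystem (S : Subgroup G)).IsFullyNormalized R ∧ (Cfsg.groupFusionSystem (S : Subgroup G)).IsRadical p R ∧ (Cfsg.groupFusionSystem (S : Subgroup G)).IsCentric R), Cfsg.autInducedBy (Subgroup.closure {g : G | g ∈ Subgroup.normalizer (R : Set G) ∧ ∃ k : ℕ, orderOf g = p ^ k}) (S : Subgroup G)) : (Cfsg.groupFusionSystem (S : Subgroup G)).IsSimple p := by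
  have h := FS.sat_ofSub S.isPGroup' (syl_sylow S)
  have R := rep_group (S : Subgroup G)
  rw [R.simple_iff S.isPGroup', fs_group]
  refine h.simple_of hS1 (fun T hT => ha T ?_) fun E hE e => ?_
  · rwa [R.sc_iff le_top, fs_group, im_idE]
  · have h1 := congrArg (im (idE G) ∘ lift (idE G) (S : Subgroup G)) hb
    rw [FS.ofSub_S, FS.ofSub_A le_top le_rfl]
    have h2 : autInducedBy ⊤ (S : Subgroup G) ≤ im (act (idE G) S) (E.A S) := by
      rw [hb]
      refine iSup₂_le fun P ⟨h1, h2, h3⟩ α hα => ?_
      obtain ⟨k, hk, e'⟩ := mem_autInducedBy.1 hα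
      have e₁ : HC (idE G) (ah α) k := hc_idE.2 e'
      have h4 := e₁.mem_nz le_top
      rw [← e₁.act_eq (idE_inj G) le_top]
      refine ex_mem_im' _ h4 ?_
      rw [im_idE] at h4
      have h5 := R.centric h3
      rw [fs_group, im_idE] at h5
      refine (h.T_of_centric hE.sat hE.le e h5 h1.1
        (FS.ofSub_top_T.2 ⟨le_rfl, (mem_nz.1 h4).le⟩) (FS.T_of_mem_A (e ▸ h1.1)
          (hE.wn.pgen_le e h1.1 ?_))).mem_A h4
      rw [FS.ofSub_A le_top h1.1]
      exact pgen_mono (fun x hx => mem_ai_of_mem (mem_top x) hx) hk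
    have h3 := pre_mono (act (idE G) S) h2
    rw [pre_im_of_le _ (by simpa using E.A_le_nz S) (by
      simpa using (lift_bot (idE_inj G) le_top).le.trans (by simpa using E.cz_le_A S))] at h3
    simpa using (lift_autInducedBy (idE_inj G) le_top le_top).ge.trans h3

end Cfsg.Agent.S5160
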