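import Cfsg.Statements.S5363
import Cfsg.Agent.H9.TT1

set_option autoImplicit false
open Cfsg

namespace Cfsg.Agent.S5363

/-- Let D be a conjugation-invariant set of involutions of a finite group G. Then every product of two members of D has odd order or order 2 if and only if, for every a in D and every b in D different from a and commuting with a, the members of D commuting with a b are exactly those commuting with both a and b. -/
theorem result {G : Type*} [Group G] [Finite G] {D : Set G} (hinv : ∀ d ∈ D, orderOf d = 2) (hconj : ∀ g : G, ∀ d ∈ D, g * d * g⁻¹ ∈ D) : (∀ a ∈ D, ∀ b ∈ D, Odd (orderOf (a * b)) ∨ orderOf (a * b) = 2) ↔ ∀ a ∈ D, ∀ b ∈ D, b ≠ a → Commute a b → {y : G | y ∈ D ∧ Commute (a * b) y} = {y : G | y ∈ D ∧ Commute a y} ∩ {y : G | y ∈ D ∧ Commute b y} := by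
  have sq : ∀ d ∈ D, d * d = 1 := fun d hd => H9.sq_of_orderOf (hinv d hd)
  have inv : ∀ d ∈ D, d⁻¹ = d := fun d hd => H9.inv_of_sq (sq d hd)
  constructor
  · intro h a ha b hb hba hc
    ext y
    refine ⟨fun hy => ?_, fun hy => ⟨hy.1.1, hy.1.2.mul_left hy.2.2⟩⟩
    obtain ⟨hy, h1⟩ := hy
    have key : Commute a y := by
      rcases h a ha y hy with ho | ho
      · obtain ⟨m, hm⟩ := ho
        have h2 : Commute (a * b) (a * y) := ((Commute.refl a).mul_left hc.symm).mul_right h1
        have h3 : b * y = (a * b) * (a * y) := by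
          rw [hc.eq, mul_assoc, ← mul_assoc a a, sq a ha, one_mul]
        have h4 : (a * b) ^ 2 = 1 := (H9.comm_of_sq (sq a ha) (sq b hb)).2 hc
        have h5 : a * b ≠ 1 := fun e => hba (by
          rw [mul_eq_one_iff_inv_eq, inv a ha] at e; exact e.symm)
        have h6 : (b * y) ^ (2 * m + 1) = a * b := by
          rw [h3, h2.mul_pow, ← hm, pow_orderOf_eq_one, hm, pow_succ, pow_mul, h4]; simp
        rcases h b hb y hy with ho' | ho'
        · have : (a * b) ^ orderOf (b * y) = 1 := by
            rw [← h6, ← pow_mul, mul_comm, pow_mul, pow_orderOf_eq_one, one_pow]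
          obtain ⟨k, hk⟩ := ho'
          rw [hk, pow_succ, pow_mul, h4] at this
          exact absurd (by simpa using this) h5
        · have h7 : (b * y) ^ 2 = 1 := by rw [← ho', pow_orderOf_eq_one]
          rw [pow_succ, pow_mul, h7, one_pow, one_mul, h3, mul_eq_left] at h6
          have h8 : a = y := by rw [mul_eq_one_iff_inv_eq, inv a ha] at h6; exact h6
          rw [h8]
      · exact (H9.comm_of_sq (sq a ha) (sq y hy)).1 (by rw [← ho, pow_orderOf_eq_one])
    refine ⟨⟨hy, key⟩, hy, ?_⟩
    have := key.inv_left.mul_left h1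
    rwa [inv_mul_cancel_left] at this
  · intro h a ha b hb
    rcases Nat.even_or_odd (orderOf (a * b)) with ⟨m, hm⟩ | ho
    swap
    · exact Or.inl ho
    right
    have hpos := orderOf_pos (a * b)
    have key : ∀ k : ℕ, (a * b) ^ k * a = a * ((a * b) ^ k)⁻¹ := by
      intro k
      have : a * (a * b) * a⁻¹ = (a * b)⁻¹ := by
        rw [mul_inv_rev, inv b hb, inv a ha, ← mul_assoc, sq a ha, one_mul]
      rw [← inv_pow, ← this, conj_pow, inv a ha, ← mul_assoc, ← mul_assoc, sq a ha, one_mul]
    have hz : ((a * b) ^ m)⁻¹ = (a * b) ^ m := by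
      rw [inv_eq_iff_mul_eq_one, ← pow_add, ← hm, pow_orderOf_eq_one]
    have hza : Commute ((a * b) ^ m) a := by have := key m; rwa [hz] at this
    have hzb : Commute ((a * b) ^ m) b := by
      have := hza.inv_right.mul_right (Commute.pow_self (a * b) m)
      rwa [inv_mul_cancel_left] at this
    have hc : a * (a * b) ^ m ∈ D := by
      rcases Nat.even_or_odd' m with ⟨k, rfl | rfl⟩
      · have := hconj ((a * b) ^ k) a ha
        rwa [key, mul_assoc, ← mul_inv_rev, ← pow_add, ← two_mul, hz] at this
      · have := hconj ((a * b) ^ k)⁻¹ b hb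
        have e : b = a * (a * b) := by rw [← mul_assoc, sq a ha, one_mul]
        have e2 : ((a * b) ^ k)⁻¹ * a = a * (a * b) ^ k := by
          rw [inv_mul_eq_iff_eq_mul, ← mul_assoc, key]; group
        rw [inv_inv] at this
        convert this using 1
        conv_rhs => rw [e]
        rw [← mul_assoc, ← e, e2, show 2 * k + 1 = k + 1 + k by ring, pow_add, pow_succ]
        simp only [mul_assoc]
    have h1 := h a ha _ hc (fun e => by
      rw [mul_eq_left] at e
      have := orderOf_le_of_pow_eq_one (by omega) e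
      omega) ((Commute.refl a).mul_right hza.symm)
    have h2 := (Set.ext_iff.1 h1 b).1 ⟨hb, by rwa [← mul_assoc, sq a ha, one_mul]⟩
    have := orderOf_le_of_pow_eq_one (by norm_num) ((H9.comm_of_sq (sq a ha) (sq b hb)).2 h2.1.2)
    omega

end Cfsg.Agent.S5363
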