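import Cfsg.Statements.S5364
import Cfsg.Agent.H9.TT1

set_option autoImplicit false
open Cfsg

namespace Cfsg.Agent.S5364

/-- Let D be a conjugation-invariant set of involutions of a finite group G and t an involution in the centre of G such that d t does not lie in D for any d in D. If the images of the members of D in G modulo the subgroup generated by t satisfy the 3-transposition order conditions (each has order 2 and any two have product of order at most 3), then so do the members of D. -/
theorem result {G : Type*} [Group G] [Finite G] {D : Set G} (hinv : ∀ d ∈ D, orderOf d = 2) (hconj : ∀ g : G, ∀ d ∈ D, g * d * g⁻¹ ∈ D) (t : G) (ht : orderOf t = 2) (htZ : t ∈ Subgroup.center G) (hDt : ∀ d ∈ D, d * t ∉ D) [(Subgroup.zpowers t).Normal] (himg : Cfsg.IsThreeTranspositionSet ((QuotientGroup.mk : G → G ⧸ Subgroup.zpowers t) '' D)) : Cfsg.IsThreeTranspositionSet D := by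
  classical
  have sq : ∀ d ∈ D, d * d = 1 := fun d hd => H9.sq_of_orderOf (hinv d hd)
  have inv : ∀ d ∈ D, d⁻¹ = d := fun d hd => H9.inv_of_sq (sq d hd)
  have hz : ∀ x ∈ Subgroup.zpowers t, x = 1 ∨ x = t := by
    intro x hx
    rw [mem_zpowers_iff_mem_range_orderOf, ht] at hx
    simp only [Finset.mem_image, Finset.mem_range] at hx
    obtain ⟨n, hn, rfl⟩ := hx
    interval_cases n <;> simp
  refine ⟨hinv, fun d hd e he => ?_⟩
  rcases himg.2 _ ⟨d, hd, rfl⟩ _ ⟨e, he, rfl⟩ with h | h
  · rw [← QuotientGroup.mk_mul, ← QuotientGroup.mk_pow, QuotientGroup.eq_one_iff] at h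
    refine Or.inl ((hz _ h).resolve_right fun h1 => hDt d hd ?_)
    have := hconj e d hd
    rwa [inv e he, show e * d * e = d * (d * e) ^ 2 by
      simp only [pow_succ, pow_zero, one_mul, ← mul_assoc, sq d hd], h1] at this
  · rw [← QuotientGroup.mk_mul, ← QuotientGroup.mk_pow, QuotientGroup.eq_one_iff] at h
    refine Or.inr ((hz _ h).resolve_right fun h1 => hDt d hd ?_)
    have := hconj (e * d) e he
    rwa [mul_inv_rev, inv e he, inv d hd, show e * d * e * (d * e) = d * (d * e) ^ 3 by
      simp only [pow_succ, pow_zero, one_mul, ← mul_assoc, sq d hd], h1] at this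

end Cfsg.Agent.S5364
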