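import Cfsg.Statements.S5387
import Cfsg.Agent.S2088
import Cfsg.Agent.H23.Schur

set_option autoImplicit false
open Cfsg

open Subgroup
open scoped commutatorElement

namespace Cfsg.Agent.S5387

/-- Up to isomorphism there is at most one quasisimple group whose centre is elementary abelian of order 4 and whose central quotient is isomorphic to the projective special linear group of dimension 3 over the field with four elements: any two such groups are isomorphic. -/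
theorem result {L₁ L₂ : Type*} [Group L₁] [Finite L₁] [Group L₂] [Finite L₂] (F : Type) [Field F] [Fintype F] (hF : Fintype.card F = 4) (h₁ : Cfsg.IsQuasisimple L₁) (h₂ : Cfsg.IsQuasisimple L₂) (hc₁ : Nat.card (Subgroup.center L₁) = 4) (hc₂ : Nat.card (Subgroup.center L₂) = 4) (he₁ : ∀ x ∈ Subgroup.center L₁, x * x = 1) (he₂ : ∀ x ∈ Subgroup.center L₂, x * x = 1) (e₁ : L₁ ⧸ Subgroup.center L₁ ≃* Matrix.ProjectiveSpecialLinearGroup (Fin 3) F) (e₂ : L₂ ⧸ Subgroup.center L₂ ≃* Matrix.ProjectiveSpecialLinearGroup (Fin 3) F) : Nonempty (L₁ ≃* L₂) := by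
  let P := Matrix.ProjectiveSpecialLinearGroup (Fin 3) F
  let f₁ : L₁ →* P := e₁.toMonoidHom.comp (QuotientGroup.mk' _)
  let f₂ : L₂ →* P := e₂.toMonoidHom.comp (QuotientGroup.mk' _)
  have k₁ : ∀ x, f₁ x = 1 ↔ x ∈ center L₁ := fun x => by simp [f₁]
  have k₂ : ∀ x, f₂ x = 1 ↔ x ∈ center L₂ := fun x => by simp [f₂]
  have s₁ : Function.Surjective f₁ := e₁.surjective.comp (QuotientGroup.mk'_surjective _)
  have s₂ : Function.Surjective f₂ := e₂.surjective.comp (QuotientGroup.mk'_surjective _)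
  let X := (f₁.comp (MonoidHom.fst L₁ L₂)).eqLocus (f₂.comp (MonoidHom.snd L₁ L₂))
  let Y := ⁅X, X⁆
  have YX : Y ≤ X := commutator_le.2 fun a ha b hb =>
    mul_mem (mul_mem (mul_mem ha hb) (inv_mem ha)) (inv_mem hb)
  have zc : ∀ x ∈ X, f₁ x.1 = 1 → x ∈ center (L₁ × L₂) := fun x hx h => mem_center_iff.2 fun y =>
    Prod.ext (mem_center_iff.1 ((k₁ _).1 h) _) (mem_center_iff.1 ((k₂ _).1 (hx.symm.trans h)) _)
  have y₁ : Y.map (MonoidHom.fst L₁ L₂) = ⊤ := by
    rw [map_commutator, show X.map _ = ⊤ from eq_top_iff.2 fun a _ =>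
      (s₂ (f₁ a)).elim fun b e => ⟨(a, b), e.symm, rfl⟩]; exact h₁.1.commutator_eq_top
  have y₂ : Y.map (MonoidHom.snd L₁ L₂) = ⊤ := by
    rw [map_commutator, show X.map _ = ⊤ from eq_top_iff.2 fun b _ =>
      (s₁ (f₂ b)).elim fun a e => ⟨(a, b), e, rfl⟩]; exact h₂.1.commutator_eq_top
  let p₁ := (MonoidHom.fst L₁ L₂).comp Y.subtype
  let p₂ := (MonoidHom.snd L₁ L₂).comp Y.subtype
  have t₁ : Function.Surjective p₁ := fun a => (y₁.ge (mem_top a)).elim fun y h => ⟨⟨y, h.1⟩, h.2⟩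
  have t₂ : Function.Surjective p₂ := fun a => (y₂.ge (mem_top a)).elim fun y h => ⟨⟨y, h.1⟩, h.2⟩
  have YY : Y ≤ ⁅Y, Y⁆ := commutator_le.2 fun a ha b hb => by
    obtain ⟨a', e1⟩ := t₁ a.1
    obtain ⟨b', e2⟩ := t₁ b.1
    have z1 := zc _ (mul_mem (inv_mem (YX a'.2)) ha) (by simp [← e1, p₁])
    have z2 := zc _ (mul_mem (inv_mem (YX b'.2)) hb) (by simp [← e2, p₁])
    convert commutator_mem_commutator a'.2 b'.2 using 1
    rw [← mul_inv_cancel_left (a' : L₁ × L₂) a, ← mul_inv_cancel_left (b' : L₁ × L₂) b]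
    generalize (a' : L₁ × L₂)⁻¹ * a = u at z1
    generalize (b' : L₁ × L₂)⁻¹ * b = v at z2
    have c1 := mem_center_iff.1 z1
    have c2 := mem_center_iff.1 z2
    rw [commutatorElement_def, commutatorElement_def, mul_assoc _ u, ← c1, ← mul_assoc, mul_inv_rev,
      ← mul_assoc, mul_inv_cancel_right, mul_inv_rev, ← mul_assoc, ← mul_assoc, mul_assoc _ v, ← c2, ← mul_assoc,
      mul_inv_cancel_right]
  obtain ⟨π, hπ⟩ := H23.schur_surj (S2088.result hF) (τ := f₁.comp p₁) ⟨s₁.comp t₁,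
    fun x hx => mem_center_iff.2 fun y => Subtype.ext (mem_center_iff.1 (zc _ (YX x.2) hx) y),
    fun x _ => by
      obtain ⟨y, hy, e⟩ := (map_subtype_commutator Y).ge (YY x.2)
      exact Subtype.ext e ▸ hy⟩
  have h2 : ∀ a, π a ^ 2 = 1 := fun a => by
    have h := (π a).2
    exact Subtype.ext (Subtype.ext (Prod.ext ((pow_two _).trans (he₁ _ ((k₁ _).1 h)))
      ((pow_two _).trans (he₂ _ ((k₂ _).1 ((YX (π a).1.2).symm.trans h))))))
  have h4 : Nat.card (f₁.comp p₁).ker ≤ 4 := by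
    refine (Nat.card_le_card_of_surjective (fun i : Fin 2 × Fin 2 =>
      π (.ofAdd (0, (i.1 : ℕ), (i.2 : ℕ)))) fun y => ?_).trans (by simp)
    obtain ⟨a, rfl⟩ := hπ y
    obtain ⟨i, b, e⟩ := (by decide : ∀ a : Multiplicative (ZMod 3 × ZMod 4 × ZMod 4), ∃ (i : Fin 2 × Fin 2)
      (b : Multiplicative (ZMod 3 × ZMod 4 × ZMod 4)), a = .ofAdd (0, (i.1 : ℕ), (i.2 : ℕ)) * b ^ 2) a
    exact ⟨i, by rw [e, map_mul, map_pow, h2, mul_one]⟩
  have hc := card_eq_card_quotient_mul_card_subgroup (f₁.comp p₁).ker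
  rw [Nat.card_congr (QuotientGroup.quotientKerEquivOfSurjective (f₁.comp p₁) (s₁.comp t₁)).toEquiv] at hc
  have b₁ := (Nat.bijective_iff_surjective_and_card p₁).2 ⟨t₁, le_antisymm (by
    rw [hc, card_eq_card_quotient_mul_card_subgroup (center L₁), hc₁, Nat.card_congr e₁.toEquiv]
    exact Nat.mul_le_mul_left _ h4) (Nat.card_le_card_of_surjective _ t₁)⟩
  have b₂ := (Nat.bijective_iff_surjective_and_card p₂).2 ⟨t₂, le_antisymm (by
    rw [hc, card_eq_card_quotient_mul_card_subgroup (center L₂), hc₂, Nat.card_congr e₂.toEquiv]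
    exact Nat.mul_le_mul_left _ h4) (Nat.card_le_card_of_surjective _ t₂)⟩
  exact ⟨(MulEquiv.ofBijective p₁ b₁).symm.trans (MulEquiv.ofBijective p₂ b₂)⟩

end Cfsg.Agent.S5387
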