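import Cfsg.Statements.S5393
import Cfsg.Agent.H15.Mod

set_option autoImplicit false
open Cfsg

namespace Cfsg.Agent.S5393

open H15 Finset
open scoped Pointwise

/-- The length-24 code built from the squares modulo 23 contains the all-ones word, and the code modulo the all-ones word is an irreducible module over the field with two elements for the code's automorphism group: a subspace of the code that contains the all-ones word and is invariant under every coordinate permutation preserving the code is either the span of the all-ones word or the whole code. -/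
theorem result : (fun _ : Cfsg.GolayPt => (1 : ZMod 2)) ∈ Cfsg.golayCode ∧ ∀ W : Submodule (ZMod 2) (Cfsg.GolayPt → ZMod 2), (fun _ => (1 : ZMod 2)) ∈ W → W ≤ Cfsg.golayCode → (∀ σ ∈ Cfsg.M24, ∀ w ∈ W, (fun p => w (σ.symm p)) ∈ W) → W = Submodule.span (ZMod 2) {fun _ => (1 : ZMod 2)} ∨ W = Cfsg.golayCode := by
  refine ⟨support_mem_cw.1 (support_one (α := Cfsg.GolayPt) ▸ cw_univ), fun W h0 hle hW => ?_⟩
  have hB := invF_of hW
  have hm : ∀ w, Cfsg.support₂ w ∈ Cfsg.supports (W : Set (Cfsg.GolayPt → ZMod 2)) ↔ w ∈ W :=
    fun w => mem_supports_iff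
  have h1 : W ≤ Cfsg.golayCode → W ≤ Submodule.span (ZMod 2) {fun _ => (1 : ZMod 2)} ∨
      W = Cfsg.golayCode := fun hle => by
    refine or_iff_not_imp_left.2 fun h => le_antisymm hle fun w hw => ?_
    obtain ⟨v, h2, h3⟩ := SetLike.not_le_iff_exists.1 h
    refine (hm w).1 (hB.cw_le ((hm v).2 h2) (support_mem_cw.2 (hle h2)) (fun e => h3 ?_)
      (fun e => h3 ?_) (support_mem_cw.2 hw))
    · rw [support₂_inj (e.trans support_zero.symm)]; exact zero_mem _
    · rw [support₂_inj (e.trans support_one.symm)]; exact Submodule.mem_span_singleton_self _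
  exact (h1 hle).imp_left fun h => le_antisymm h ((Submodule.span_singleton_le_iff_mem _ _).2 h0)

end Cfsg.Agent.S5393
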