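import Cfsg.Statements.S5396
import Cfsg.Agent.H0.ES2

set_option autoImplicit false
open Cfsg

open Subgroup H19 H0
open scoped commutatorElement

namespace Cfsg.Agent.S5396

/-- For every n ≥ 1 there exist finite extraspecial 2-groups of order 2^(2n+1) whose 2-rank (the largest rank of an elementary abelian subgroup) is n, and ones whose 2-rank is n + 1 (so for each such order there are two non-isomorphic extraspecial 2-groups, told apart by their 2-rank). -/
theorem result (n : ℕ) (hn : 1 ≤ n) : ∀ r ∈ ({n, n + 1} : Set ℕ), ∃ (E : Type) (_ : Group E) (_ : Finite E), Cfsg.IsExtraspecial 2 E ∧ Nat.card E = 2 ^ (2 * n + 1) ∧ sSup {k : ℕ | ∃ A : Subgroup E, Cfsg.IsElementaryAbelian 2 A ∧ Nat.card A = 2 ^ k} = r := by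
  intro r hr
  obtain ⟨X, _, _, z, h, hc, ht⟩ := exists_ES_type hn (r = n + 1)
  refine ⟨X, inferInstance, inferInstance, h.extraspecial_top, hc, ?_⟩
  have hc' := card_top.trans hc
  simp only [← hasEA_top]
  have key : ∀ k, HasEA (⊤ : Subgroup X) k → ¬ HasEA (⊤ : Subgroup X) (k + 1) →
      sSup {k | HasEA (⊤ : Subgroup X) k} = k := fun k a b =>
    IsGreatest.csSup_eq ⟨a, fun l hl => by
      by_contra hlt
      exact b (h.hasEA_mono hl (by omega))⟩
  rcases hr with rfl | rfl
  · exact key _ (h.hasEA_width hc') fun a => by have := ht.1 a; omega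
  · exact key _ (ht.2 rfl) (h.not_hasEA hc')

end Cfsg.Agent.S5396
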