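import Cfsg.Statements.S5408
import Cfsg.Agent.H0.Mo.B

set_option autoImplicit false
open Cfsg

open Subgroup H19 H15 H0 H0.Mo
open scoped commutatorElement

namespace Cfsg.Agent.S5408

/-- Let G be a finite group of Monster type at the involution z with Q the extraspecial normal subgroup of order 2^25 of C = C_G(z) (so C/Q is identified with the first Conway group with Q modulo its centre the Leech lattice modulo 2, and z is not weakly closed in Q). Then Q is of plus type: it contains an elementary abelian subgroup of order 2^13. -/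
theorem result {G : Type*} [Group G] [Finite G] (z : G) (Q : Subgroup (Subgroup.centralizer ({z} : Set G))) [Q.Normal] (hM : Cfsg.IsOfMonsterType z Q) : ∃ E : Subgroup Q, Cfsg.IsElementaryAbelian 2 E ∧ Nat.card E = 2 ^ 13 := by
  obtain ⟨h, e, ψ, hψ⟩ := hM
  have M := mo_of h hψ
  obtain ⟨k, ⟨_, k1⟩, k2⟩ := h.2.2.2.2
  have L := M.le.lp ⟨_, k1, rfl⟩ k2
  let i := C[z].subtype.comp Q.subtype
  have hi : Function.Injective i := C[z].subtype_injective.comp Q.subtype_injective
  refine ⟨(Q.map C[z].subtype ⊓ cj k (Q.map C[z].subtype)).comap i,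
    abelem2_iff.2 fun x hx => hi (by rw [map_mul, map_one]; exact abelem2_iff.1 L.abelem_E _ hx), ?_⟩
  rw [← card_map_of_injective hi, map_comap_eq_self, M.card_E L]
  rintro _ ⟨⟨x, hx, rfl⟩, -⟩
  exact ⟨⟨x, hx⟩, rfl⟩

end Cfsg.Agent.S5408
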