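import Cfsg.Statements.S5410
import Cfsg.Agent.H0.Mo.B

set_option autoImplicit false
open Cfsg

open Subgroup H19 H15 H0 H0.Mo
open scoped commutatorElement

namespace Cfsg.Agent.S5410

/-- Let G be a finite group of Monster type at the involution z with Q the extraspecial normal subgroup of order 2^25 of C = C_G(z) (so C/Q is identified with the first Conway group with Q modulo its centre the Leech lattice modulo 2, and z is not weakly closed in Q). Let g in G with s = g z g⁻¹ a member of Q other than z, let X be the image in C/Q of the centralizer of s in C, and let E be the image in C/Q of the intersection of g Q g⁻¹ with C. Then E is a normal subgroup of X, elementary abelian of order 2^11, and it has a complement in X isomorphic to the Mathieu group of degree 24 (the automorphism group of the length-24 binary Golay code). -/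
theorem result {G : Type*} [Group G] [Finite G] (z : G) (Q : Subgroup (Subgroup.centralizer ({z} : Set G))) [Q.Normal] (hM : Cfsg.IsOfMonsterType z Q) (s : G) (hsQ : ∃ hsc : s ∈ Subgroup.centralizer ({z} : Set G), (⟨s, hsc⟩ : Subgroup.centralizer ({z} : Set G)) ∈ Q) (hs : IsConj z s) (hs1 : s ≠ z) (g : G) (hg : g * z * g⁻¹ = s) (X E : Subgroup ((Subgroup.centralizer ({z} : Set G)) ⧸ Q)) (hX : X = ((Subgroup.centralizer ({z} : Set G) ⊓ Subgroup.centralizer ({s} : Set G)).subgroupOf (Subgroup.centralizer ({z} : Set G))).map (QuotientGroup.mk' Q)) (hE : E = (((Q.map (Subgroup.centralizer ({z} : Set G)).subtype).map (MulAut.conj g).toMonoidHom ⊓ Subgroup.centralizer ({z} : Set G)).subgroupOf (Subgroup.centralizer ({z} : Set G))).map (QuotientGroup.mk' Q)) : E ≤ X ∧ (∀ x ∈ X, ∀ y ∈ E, x * y * x⁻¹ ∈ E) ∧ Cfsg.IsElementaryAbelian 2 E ∧ Nat.card E = 2 ^ 11 ∧ ∃ K : Subgroup ((Subgroup.centralizer ({z} : Set G)) ⧸ Q), K ≤ X ∧ E ⊓ K = ⊥ ∧ E ⊔ K = X ∧ Nonempty (K ≃* Cfsg.M24)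 := by
  obtain ⟨h, e, ψ, hψ⟩ := hM
  have M := mo_of h hψ
  subst hg
  have L := M.le.lp ⟨_, hsQ.2, rfl⟩ hs1
  obtain ⟨k, a⟩ := M.typ4 L
  let e' := e.trans (MulAut.conj (QuotientGroup.mk k : Spor.Co1)⁻¹)
  let p := e'.symm.toMonoidHom.comp (QuotientGroup.mk' (center Co0))
  have im : ∀ Y : Subgroup G, (img (e'.toMonoidHom.comp (QuotientGroup.mk' Q)) Y).map p =
      (Y.subgroupOf C[z]).map (QuotientGroup.mk' Q) := fun Y => by
    rw [← map_map, img, map_comap_eq_self_of_surjective (QuotientGroup.mk'_surjective _), map_map]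
    congr 1
    ext x
    exact e'.symm_apply_apply _
  have kp : ∀ x, p x = 1 ↔ x ∈ center Co0 := fun x =>
    (map_eq_one_iff _ e'.symm.injective).trans (QuotientGroup.eq_one_iff x)
  obtain rfl : X = NN.map p := by
    rw [hX, ← (M.twist k).img_NN L a, inf_subgroupOf_left]; exact (im _).symm
  obtain rfl : E = EE.map p := by rw [hE, ← (M.twist k).img_EE L a]; exact (im _).symm
  have hj : ∀ σ, p (prmH σ) ∈ EE.map p → σ = 1 := fun σ ⟨x, h1, h2⟩ => eq_one_of_prmH (by
    have := center_le_EE ((kp (x⁻¹ * prmH σ)).1 (by rw [map_mul, map_inv, h2, inv_mul_cancel]))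
    exact (mul_mem_cancel_left (inv_mem h1)).1 this)
  refine ⟨map_mono EE_le, ?_, abelem2_iff.2 ?_, ?_, (p.comp prmH).range, ?_, eq_bot_iff.2 ?_, ?_,
    ⟨(MonoidHom.ofInjective ((injective_iff_map_eq_one _).2 fun σ hσ =>
      hj σ (by rw [show p (prmH σ) = 1 from hσ]; exact one_mem _))).symm⟩⟩
  · rintro _ ⟨x, hx, rfl⟩ _ ⟨y, hy, rfl⟩
    exact ⟨_, conj_EE hx hy, by simp⟩
  · rintro _ ⟨x, hx, rfl⟩
    rw [← map_mul, EE_sq hx, map_one]
  · have := H1.card_map_mul_card_inf_ker p EE
    rw [show p.ker = center Co0 from Subgroup.ext kp, inf_of_le_left center_le_EE, H15.card_center,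
      card_EE] at this
    omega
  · rintro _ ⟨σ, rfl⟩; exact ⟨_, prmH_mem σ, rfl⟩
  · rintro _ ⟨h1, σ, rfl⟩
    rw [hj σ h1, map_one]; exact one_mem _
  · refine le_antisymm (sup_le (map_mono EE_le) ?_) ?_
    · rintro _ ⟨σ, rfl⟩; exact ⟨_, prmH_mem σ, rfl⟩
    · rintro _ ⟨x, hx, rfl⟩
      obtain ⟨y, hy, σ, rfl⟩ := exists_NN hx
      rw [map_mul]
      exact mul_mem_sup ⟨y, hy, rfl⟩ ⟨σ, rfl⟩

end Cfsg.Agent.S5410
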