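import Cfsg.Statements.S5413
import Cfsg.Agent.H0.Mo.J

set_option autoImplicit false
open Cfsg

open Subgroup H19 H15 H0 H0.Mo
open scoped commutatorElement

namespace Cfsg.Agent.S5413

/-- Let G be a finite group of Monster type at the involution z with Q the extraspecial normal subgroup of order 2^25 of C = C_G(z) (so C/Q is identified with the first Conway group with Q modulo its centre the Leech lattice modulo 2, and z is not weakly closed in Q). Let s be a conjugate of z in Q other than z and let B be a Sylow 5-subgroup of the joint centralizer of z and s. Then the centralizer of B modulo B is a group of Harada–Norton type (an involution whose centralizer D has generalized Fitting subgroup R extraspecial of order 2^9 with D/R the wreath product of the alternating group of degree 5 by a group of order 2, the involution not weakly closed in R). -/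
theorem result {G : Type*} [Group G] [Finite G] (z : G) (Q : Subgroup (Subgroup.centralizer ({z} : Set G))) [Q.Normal] (hM : Cfsg.IsOfMonsterType z Q) (s : G) (hsQ : ∃ hsc : s ∈ Subgroup.centralizer ({z} : Set G), (⟨s, hsc⟩ : Subgroup.centralizer ({z} : Set G)) ∈ Q) (hs : IsConj z s) (hs1 : s ≠ z) (B : Subgroup G) (hB : B ≤ Subgroup.centralizer ({z, s} : Set G)) (hBp : Nat.card B = 5 ^ (Nat.card ↥(Subgroup.centralizer ({z, s} : Set G))).factorization 5) [hn : (B.subgroupOf (Subgroup.centralizer (B : Set G))).Normal] : Cfsg.IsOfHaradaNortonType (↥(Subgroup.centralizer (B : Set G)) ⧸ B.subgroupOf (Subgroup.centralizer (B : Set G))) := by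
  obtain ⟨π, h1, h2, h3⟩ := final hM hsQ hs hs1 hB
  obtain ⟨r, h4, -⟩ := X24.main
  obtain ⟨β, a, b, c⟩ := syl_cyc h1 h2 (by decide) (by decide) (fact24 (by decide) (by decide))
    ((card_subgroupOf' hB).trans hBp) (ord2 (h4 2 (by decide)))
  obtain ⟨d, ⟨e⟩⟩ := cz2 (h4 2 (by decide))
  obtain ⟨y, Q₁, _, h5, ⟨e'⟩, -⟩ := h3 β a (by decide) b c d
  exact ⟨y, Q₁, _, h5, ⟨e'.trans e⟩⟩

end Cfsg.Agent.S5413
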