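import Cfsg.Statements.S5420
import Cfsg.Agent.H0.ES3

set_option autoImplicit false
open Cfsg

open Subgroup H19 H0
open scoped commutatorElement

namespace Cfsg.Agent.S5420

/-- Let Q be an extraspecial 2-subgroup of the finite group G whose centralizer in G is its centre Z and which is normal in the centralizer of Z. If Z lies in the largest normal 2-subgroup of G, then Q is a large extraspecial 2-subgroup of G: it normalizes no non-trivial subgroup of G of odd order. -/
theorem result {G : Type*} [Group G] [Finite G] (Q : Subgroup G) (hL1 : Cfsg.IsExtraspecial 2 ↥Q) (hL2 : Subgroup.centralizer (Q : Set G) = ((Subgroup.center ↥Q).map Q.subtype)) (hL3 : Subgroup.centralizer (((Subgroup.center ↥Q).map Q.subtype) : Set G) ≤ Subgroup.normalizer (Q : Set G)) (hZ : ((Subgroup.center ↥Q).map Q.subtype) ≤ Cfsg.pCore 2 G) : Cfsg.IsLargeExtraspecial Q := by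
  obtain ⟨z, h, e⟩ := exists_LE hL1 hL2 hL3
  refine h.isLarge fun K hK hn => ?_
  have : Fact (Nat.Prime 2) := ⟨Nat.prime_two⟩
  have hz : z ∈ pCore 2 G := hZ (e ▸ mem_zpowers z)
  have hp : PG 2 (pCore 2 G) := PiN.of_isPGroup Nat.prime_two H1.pCore_isPGroup
  rw [eq_bot_iff, ← h.cent_odd hK hn]
  refine fun k hk => ⟨hk, mem_cent1.2 (comm_eq_one.1 (mem_bot.1 ?_))⟩
  rw [← hp.inf_eq_bot (piG_odd hK)]
  exact ⟨comm_mem_right (by rw [normalizer_eq_top]; trivial) hz, comm_mem_left (hn h.es.zQ) hk⟩

end Cfsg.Agent.S5420
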