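import Cfsg.Statements.S5425
import Cfsg.Agent.H0.AG.B
import Cfsg.Agent.H15.Trio
import Cfsg.Agent.S1554

set_option autoImplicit false
open Cfsg

open Subgroup H19 H0 H15 MulAction
open scoped Pointwise
open scoped commutatorElement

namespace Cfsg.Agent.S5425

/-- In the Mathieu group of degree 24 (the automorphism group of the length-24 binary Golay code, acting on the 24 coordinates), let z be an involution whose fixed points form an octad (the support of a code word of weight 8), and let Q be the largest normal 2-subgroup of the centralizer C of z. Then Q is extraspecial of order 2^7 with an elementary abelian subgroup of order 16 (plus type), Q is a large extraspecial 2-subgroup, and C is the split extension of Q by the special linear group of degree 3 over the field with two elements. -/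
theorem result (z : ↥Cfsg.M24) (hz : orderOf z = 2) (hfix : (Finset.univ.filter fun p : Cfsg.GolayPt => (z : Equiv.Perm Cfsg.GolayPt) p = p) ∈ Cfsg.octads) (Q : Subgroup ↥Cfsg.M24) (hQ : Q = (Cfsg.pCore 2 ↥(Subgroup.centralizer ({z} : Set ↥Cfsg.M24))).map (Subgroup.centralizer ({z} : Set ↥Cfsg.M24)).subtype) : Cfsg.IsExtraspecial 2 ↥Q ∧ Nat.card ↥Q = 2 ^ 7 ∧ (∃ E : Subgroup ↥Cfsg.M24, E ≤ Q ∧ Cfsg.IsElementaryAbelian 2 E ∧ Nat.card ↥E = 2 ^ 4) ∧ Cfsg.IsLargeExtraspecial Q ∧ ∃ K : Subgroup ↥Cfsg.M24, K ≤ Subgroup.centralizer ({z} : Set ↥Cfsg.M24) ∧ Q ⊓ K = ⊥ ∧ Q ⊔ K = Subgroup.centralizer ({z} : Set ↥Cfsg.M24) ∧ Nonempty (↥K ≃* Matrix.SpecialLinearGroup (Fin 3) (ZMod 2)) := by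
  set o := Finset.univ.filter fun p : GolayPt => (z : Equiv.Perm GolayPt) p = p with ho
  have mo : ∀ q, q ∈ o ↔ (z : Equiv.Perm GolayPt) q = q := fun q => by simp [ho]
  obtain ⟨p, hp⟩ := exists_not_mem_octad hfix
  obtain ⟨-, h2, ⟨e⟩⟩ := S1554.result o hfix p hp
  set U := M24 ⊓ fixingSubgroup (Equiv.Perm GolayPt) (o : Set GolayPt)
  set M := M24 ⊓ stabilizer (Equiv.Perm GolayPt) o ⊓ stabilizer (Equiv.Perm GolayPt) p
  have sq : ∀ u ∈ U.subgroupOf M24, u * u = 1 := fun u hu =>
    Subtype.ext (sq_of_fix_octad hfix u.2 (mem_fixing.1 hu.2))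
  refine AG.Concl.sl (n := 3) (AG.core_sub (U := U.subgroupOf M24) (M := M.subgroupOf M24) (by decide)
    ⟨⟨⟨fun a b => Subtype.ext ?_⟩⟩, fun a ha => (pow_two a).trans (sq a ha)⟩ ?_ (fun m hm => ?_)
    (fun m hm h => ?_) (.inr ?_) ⟨z.2, mem_fixing.2 fun q => (mo q).1⟩ (by rintro rfl; simp at hz)
    fun g hg => ?_) hQ
  · have := sq _ (mul_mem a.2 b.2)
    calc (a : M24) * b = a * ((a * b) * (a * b)) * b := by rw [this]; simp
      _ = _ := by rw [show (a : M24) * ((a * b) * (a * b)) * b = (a * a) * (b * a) * (b * b) by group,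
        sq _ a.2, sq _ b.2]; simp
  · exact (Nat.card_congr (subgroupOfEquivOfLe inf_le_left).toEquiv).trans (card_fix_octad hfix)
  · refine mem_normalizer_fintype fun u hu => ⟨(m * u * m⁻¹).2, mem_fixing.2 fun q hq => ?_⟩
    have : (m : Equiv.Perm GolayPt)⁻¹ q ∈ o := (apply_mem_of_smul_eq hm.1.2 _).1 (by simpa using hq)
    exact (congrArg (m : Equiv.Perm GolayPt) (mem_fixing.1 hu.2 _ this)).trans (by simp)
  · have k : ∀ q ∉ o, (m : Equiv.Perm GolayPt) q = q := fun q hq => by
      obtain ⟨E, h0, hE⟩ := Finset.exists_subset_card_eq (show 6 ≤ o.card by rw [hfix.2]; norm_num)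
      have i := Subtype.val_injective.comp (E.equivFinOfCardEq hE).symm.injective
      obtain ⟨τ, h1, -, h3, rfl⟩ := oct_frame le_rfl hfix hfix _ _ i i
        (fun i => h0 (Finset.coe_mem _)) (fun i => h0 (Finset.coe_mem _)) hp hq
      have := h ⟨τ, h1⟩ ⟨h1, mem_fixing.2 (fix_octad_of_six hfix hE.ge h0 h1 fun x hx => by
        simpa using h3 (E.equivFinOfCardEq hE ⟨x, hx⟩))⟩
      rw [mul_inv_eq_iff_eq_mul] at this
      have := DFunLike.congr_fun (congrArg Subtype.val this) p
      simpa [show (m : Equiv.Perm GolayPt) p = p from hm.2] using this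
    obtain ⟨⟨a, b⟩, ⟨c, -⟩, -⟩ := tr_spec (j := 0) (by decide)
    obtain ⟨σ, h1, h3, -⟩ := oct_frame' (n := 0) (by decide) (S_mem_octads a) hfix ![] ![]
      (Function.injective_of_subsingleton _) (Function.injective_of_subsingleton _) (by simp) (by simp)
    have b' := (smul_mem_octads_iff h1).2 (S_mem_octads b)
    have d : Disjoint o (σ • S (part (tr 0) 1)) := by
      rw [← h3]; exact (Finset.disjoint_image (MulAction.injective σ)).2 (S_disjoint_of_and c)
    obtain ⟨q, hq⟩ := Finset.card_pos.1 (show 0 < _ by rw [(third_octad hfix b' d).2]; norm_num)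
    rw [Finset.mem_compl, Finset.mem_union, not_or] at hq
    exact Subtype.ext (eq_one_of_frame b' (by rw [b'.2]; norm_num) le_rfl m.2
      (fun x hx => k x (Finset.disjoint_right.1 d hx)) hq.2 (k q hq.1))
  · rw [Nat.card_congr (subgroupOfEquivOfLe (inf_le_left.trans inf_le_left)).toEquiv,
      Nat.card_congr e.toEquiv, Matrix.card_GL_field, nat_card_alternatingGroup]
    simp [Fin.prod_univ_succ, Nat.factorial]
  · rw [← subgroupOf_sup inf_le_left (inf_le_left.trans inf_le_left), h2]
    have := congrArg Subtype.val (mem_cent1.1 hg)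
    refine ⟨g.2, Finset.eq_of_subset_of_card_le (fun q hq => ?_) (by simp)⟩
    obtain ⟨r, hr, rfl⟩ := Finset.mem_smul_finset.1 hq
    simpa [mo, (mo r).1 hr] using (DFunLike.congr_fun this r).symm

end Cfsg.Agent.S5425
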