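import Cfsg.Statements.S5426
import Cfsg.Agent.H0.ES5

set_option autoImplicit false
open Cfsg

open Subgroup H19 H0
open scoped commutatorElement

namespace Cfsg.Agent.S5426

/-- Let Q be a large extraspecial 2-subgroup of the finite group G (extraspecial; centralizer equal to its centre; normal in the centralizer of its centre; normalizing no non-trivial subgroup of odd order) with centre generated by z, and let M be the normal closure of z in G. Then one of the following holds: Q is normal in G; or M is abelian and the generalized Fitting subgroup of G is its largest normal 2-subgroup; or M is the generalized Fitting subgroup of G and is a non-abelian simple group; or M is the generalized Fitting subgroup of G and is the direct product of a non-abelian simple subgroup L and its conjugate u L u⁻¹ by some u in Q (the two meet trivially and commute elementwise), with z = z₁ (u z₁ u⁻¹) for some z₁ in L whose centralizer in L is a Sylow 2-subgroup of L with Frattini subgroup inside the subgroup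 generated by z₁, and Q is not the largest normal 2-subgroup of the centralizer of z. -/
theorem result {G : Type*} [Group G] [Finite G] (Q : Subgroup G) (hQ : Cfsg.IsLargeExtraspecial Q) (z : G) (hz : ((Subgroup.center ↥Q).map Q.subtype) = Subgroup.zpowers z) (M : Subgroup G) (hM : M = Subgroup.normalClosure ({z} : Set G)) : Q.Normal ∨ (IsMulCommutative ↥M ∧ Cfsg.generalizedFittingSubgroup G = Cfsg.pCore 2 G) ∨ (M = Cfsg.generalizedFittingSubgroup G ∧ IsSimpleGroup ↥M ∧ ¬ IsMulCommutative ↥M) ∨ (M = Cfsg.generalizedFittingSubgroup G ∧ ∃ (L : Subgroup G) (u : G), u ∈ Q ∧ IsSimpleGroup ↥L ∧ ¬ IsMulCommutative ↥L ∧ L ⊓ (L).map (MulAut.conj u).toMonoidHom = ⊥ ∧ (∀ x ∈ L, ∀ y ∈ (L).map (MulAut.conj u).toMonoidHom, x * y = y * x) ∧ L ⊔ (L).map (MulAut.conj u).toMonoidHom = M ∧ ∃ z₁ ∈ L, z = z₁ * (u * z₁ * u⁻¹) ∧ (∃ R : Sylow 2 ↥L, (R : Subgroup ↥L) = (Subgroup.centralizer ({z₁} : Set G)).subgroupOf L ∧ (frattini ↥(R : Subgroup ↥L)).map ((L.subtype).comp (R : Subgroup ↥L).subtype) ≤ Subgroup.zpowers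 z₁) ∧ Q ≠ (Cfsg.pCore 2 ↥(Subgroup.centralizer ({z} : Set G))).map (Subgroup.centralizer ({z} : Set G)).subtype) := by
  have : Fact (Nat.Prime 2) := ⟨Nat.prime_two⟩
  have h := LE_of_large hQ hz
  have hO := hQ.2.2.2
  subst hM
  by_cases h2 : pCore 2 G = ⊥
  swap
  · exact Or.inr (Or.inl (h.case_two hO h2))
  have e1 := h.closure_eq hO h2
  have e2 : normalClosure {z} = generalizedFittingSubgroup G := by
    rw [H1.gf_def, h.fit_eq hO h2, sup_bot_eq, e1]
  by_cases hs : IsSimpleGroup (layer G)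
  · refine Or.inr (Or.inr (Or.inl ⟨e2, e1 ▸ hs, fun hab => h.es.z1 (mem_bot.1 ?_)⟩))
    rw [← H1.fitting_eq_bot_iff.1 (h.fit_eq hO h2) _ inferInstance (nil_of_ab hab)]
    exact subset_normalClosure rfl
  obtain ⟨L, u, hu, k1, k2, k3, k4, k5, z₁, hz₁, k6, k7, k8, k9⟩ := h.case_four hO h2 hs
  refine Or.inr (Or.inr (Or.inr ⟨e2, L, u, hu, k1, k2, k3, fun x hx y hy => mem_cent.1 (k4 hy) x hx,
    k5.trans e1.symm, z₁, hz₁, k6, ?_, by rwa [pCore_map_eq Nat.prime_two]⟩))
  obtain ⟨S, hS⟩ := k7.exists_sylow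
  have sq : ∀ x : S, x ^ 2 ∈ (zpowers z₁).comap (L.subtype.comp (S : Subgroup L).subtype) :=
    fun x => by
    rw [pow_two]; exact k8 _ (hS ▸ ⟨x.1, x.2, rfl⟩)
  refine ⟨S, ?_, map_le_iff_le_comap.2 (H4.frattini_le (p := 2) (commutator_le.2 fun x _ y _ => ?_) sq)⟩
  · rw [← inf_subgroupOf_left, ← hS]
    exact (comap_map_eq_self_of_injective L.subtype_injective _).symm
  · rw [show ⁅x, y⁆ = (x * y) ^ 2 * (y⁻¹ * x⁻¹ * y) ^ 2 * (y⁻¹) ^ 2 by
      rw [commutatorElement_def, pow_two, pow_two, pow_two]; group]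
    exact mul_mem (mul_mem (sq _) (sq _)) (sq _)

end Cfsg.Agent.S5426
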