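import Cfsg.Statements.S5428
import Cfsg.Agent.H0.ES5

set_option autoImplicit false
open Cfsg

open Subgroup H19 H0
open scoped commutatorElement

namespace Cfsg.Agent.S5428

/-- Let z be an involution of the finite group G whose centralizer C has generalized Fitting subgroup Q extraspecial (as a 2-group), let A be a subgroup of C of odd order, and let R be the centralizer of A in Q; suppose R has order at least 32, the largest normal subgroup of odd order of the centralizer of the subgroup generated by A and R lies in A, the order of that centralizer is not divisible by 4, and g is an element of G with g z g⁻¹ in R but outside the centre Z of Q. Let M be the subgroup generated by A and the centralizer of A (A is normal in it). Then: the centralizer in M of the subgroup generated by R and A, joined with A, equals the subgroup generated by A and Z; the image of R in M/A is a large extraspecial 2-subgroup of M/A;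 and g z g⁻¹ is conjugate to z inside the subgroup generated by R and the centralizer of A in g Q g⁻¹. -/
theorem result {G : Type*} [Group G] [Finite G] (z : G) (hz : orderOf z = 2) (Q : Subgroup G) (hQC : Q ≤ Subgroup.centralizer ({z} : Set G)) (hF : (Cfsg.generalizedFittingSubgroup ↥(Subgroup.centralizer ({z} : Set G))).map (Subgroup.centralizer ({z} : Set G)).subtype = Q) (hQ : Cfsg.IsExtraspecial 2 ↥Q) (A : Subgroup G) (hA : A ≤ Subgroup.centralizer ({z} : Set G)) (hAodd : Odd (Nat.card ↥A)) (R : Subgroup G) (hR : R = Q ⊓ Subgroup.centralizer (A : Set G)) (hR32 : 32 ≤ Nat.card ↥R) (hO : (Cfsg.oddCore ↥(Subgroup.centralizer ((A ⊔ R : Subgroup G) : Set G))).map (Subgroup.centralizer ((A ⊔ R : Subgroup G) : Set G)).subtype ≤ A) (h4 : ¬ 4 ∣ Nat.card ↥(Subgroup.centralizer ((A ⊔ R : Subgroup G) : Set G))) (g : G) (hgR : g * z * g⁻¹ ∈ R) (hgZ : g * z * g⁻¹ ∉ ((Subgroup.center ↥Q).map Q.subtype)) (M : Subgroup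 G) (hM : M = Subgroup.centralizer (A : Set G) ⊔ A) [hn : (A.subgroupOf M).Normal] : (M ⊓ Subgroup.centralizer ((R ⊔ A : Subgroup G) : Set G)) ⊔ A = A ⊔ ((Subgroup.center ↥Q).map Q.subtype) ∧ Cfsg.IsLargeExtraspecial ((R.subgroupOf M).map (QuotientGroup.mk' (A.subgroupOf M))) ∧ ∃ x ∈ R ⊔ ((Q).map (MulAut.conj g).toMonoidHom ⊓ Subgroup.centralizer (A : Set G)), x * (g * z * g⁻¹) * x⁻¹ = z := by
  have : Fact (Nat.Prime 2) := ⟨Nat.prime_two⟩
  have h := LE_of_gf hz hQ hF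
  have eZ : (center Q).map Q.subtype = zpowers z := by rw [center_map_eq, h.es.center_eq]
  rw [eZ] at hgZ ⊢
  have hne : g * z * g⁻¹ ≠ z := fun e => hgZ (by rw [e]; exact mem_zpowers z)
  have lp := h.lp (hR ▸ hgR).1 hne
  set t := g * z * g⁻¹
  have pA := piG_odd hAodd
  have key : ∀ {Q : Subgroup G} {z : G}, LE Q z → A ≤ C[z] → ∀ x ∈ Q ⊓ C(A),
      (∀ y ∈ Q ⊓ C(A), x * y = y * x) → x ∈ zpowers z := fun {Q z} h hA x hx H => by
    have hN := hA.trans h.norm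
    have h1 : ⁅Q, A⁆ ⊔ (Q ⊓ C(A)) = Q := commg_sup_cent hN (h.es.pg.coprime pA) (Or.inr h.es.pg.sol)
    have h2 : ⁅Q, A⁆ ≤ C(Q ⊓ C(A)) := commg_eq_bot.1 (three_subgroup
      (by rw [commg_eq_bot.2 (cents_symm inf_le_right : A ≤ C(Q ⊓ C(A)))]; simp)
      (commg_eq_bot.2 (((commutator_mono inf_le_left le_rfl).trans h.es.der_le).trans
        (cents_symm (cent_zpowers z ▸ hA)))))
    have : x ∈ C(⁅Q, A⁆ ⊔ (Q ⊓ C(A))) := by
      rw [cent_sup]; exact ⟨cents_symm h2 hx, mem_cent.2 fun y hy => (H y hy).symm⟩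
    rwa [h1, h.cent_eq] at this
  have hzA : z ∈ C(A) := le_cent1_iff.1 hA
  have htA : t ∈ C(A) := (hR ▸ hgR).2
  have hzR : z ∈ R := hR ▸ ⟨h.es.zQ, hzA⟩
  have hRQ : R ≤ Q := hR ▸ inf_le_left
  have hRA : R ≤ C(A) := hR ▸ inf_le_right
  obtain ⟨a, ha, e1⟩ : ∃ a ∈ R, a * t * a⁻¹ = t * z := by
    by_contra hn
    push Not at hn
    exact hgZ (key h hA t (hR ▸ hgR) fun y hy => by_contra fun e =>
      hn y (hR ▸ hy) (h.es.conj_eq hy.1 lp.tQ fun e' => e e'.symm))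
  obtain ⟨b, hb, e2⟩ : ∃ b ∈ cj g Q ⊓ C(A), b * z * b⁻¹ = z * t := by
    by_contra hn
    push Not at hn
    exact lp.symm.notMem (key lp.r (le_cent1_iff.2 htA) z ⟨lp.zQ, hzA⟩ fun y hy => by_contra fun e =>
      hn y hy (lp.r.es.conj_eq hy.1 lp.zQ fun e' => e e'.symm))
  have e3 : b * a * t * (b * a)⁻¹ = z := by
    calc _ = b * (a * t * a⁻¹) * b⁻¹ := by group
      _ = (b * t * b⁻¹) * (b * z * b⁻¹) := by rw [e1, conj_mul]
      _ = z := by rw [e2, lp.r.es.cent b hb.1, mul_inv_cancel_right, lp.comm, ← mul_assoc,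
        lp.r.es.zz, one_mul]
  have hD : C(A ⊔ R) ≤ A ⊔ zpowers z := by
    have hzD : z ∈ C(A ⊔ R) := by rw [cent_sup]; exact ⟨hzA, le_cent1_iff.1 (hRQ.trans h.es.le_cent)⟩
    have hs : Syl 2 (zpowers z) C(A ⊔ R) := syl_mk (zpowers_le_of_mem hzD) (pg_zpowers h.es.zz)
      fun e => h4 (by
        rw [← card_mul_relIndex (zpowers_le_of_mem hzD), h.es.card_zp]; exact mul_dvd_mul_left 2 e)
    obtain ⟨S, hS⟩ := hs.exists_sylow
    obtain ⟨K, hK, hc⟩ := H10.exists_normal_complement_of_cyclic S ((MulEquiv.isCyclic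
      (equivMapOfInjective _ _ (subtype_injective _))).2 (hS ▸ inferInstance))
    intro x hx
    obtain ⟨⟨k, s⟩, e⟩ := hc.2 ⟨x, hx⟩
    rw [show x = k.1 * s.1 from (congrArg Subtype.val e).symm]
    refine mul_mem_sup (hO ⟨k, H1.le_oddCore hK ?_ k.2, rfl⟩) (hS ▸ ⟨s, s.2, rfl⟩)
    rw [← hc.index_eq_card]
    exact Nat.not_even_iff_odd.1 fun e => S.not_dvd_index e.two_dvd
  have hCM : C(A) ≤ M := hM ▸ le_sup_left
  refine ⟨?_, ?_, b * a, mul_mem (mem_sup_right hb) (mem_sup_left ha), e3⟩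
  · refine le_antisymm (sup_le (inf_le_right.trans (sup_comm R A ▸ hD)) le_sup_left)
      (sup_le le_sup_right (le_sup_of_le_left (zpowers_le_of_mem ⟨hCM hzA, ?_⟩)))
    rw [SetLike.mem_coe, cent_sup]; exact ⟨le_cent1_iff.1 (hRQ.trans h.es.le_cent), hzA⟩
  set f := QuotientGroup.mk' (A.subgroupOf M)
  have hf : ∀ x : M, f x = 1 ↔ x.1 ∈ A := fun x => QuotientGroup.eq_one_iff x
  have hfs : ∀ y, ∃ c : M, c.1 ∈ C(A) ∧ f c = y := fun y => by
    obtain ⟨x, rfl⟩ := QuotientGroup.mk'_surjective _ y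
    obtain ⟨c, hc, d, hd, e⟩ := (mem_sup_of_norm' (cent_le_norm A)).1 (hM.le x.2)
    exact ⟨⟨c, hCM hc⟩, hc, by
      rw [show x = ⟨c, hCM hc⟩ * ⟨d, hM ▸ mem_sup_right hd⟩ from Subtype.ext e, map_mul,
        (hf ⟨d, _⟩).2 hd, mul_one]⟩
  have cm : ∀ c r : M, c.1 ∈ C(A) → r.1 ∈ R → f c * f r = f r * f c → c.1 * r = r * c :=
    fun c r hc hr e => by
    have h1 : ⁅c.1, r.1⁆ ∈ A := (hf ⁅c, r⁆).1 (by rw [map_commutatorElement, comm_eq_one.2 e])
    have h2 : Commute ⁅c.1, r.1⁆ r := mem_cent.1 (hRA hr) _ h1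
    have h3 := h2.mul_pow 4
    rw [h.es.pow4 (hRQ hr), mul_one, commutatorElement_def c.1, inv_mul_cancel_right, conj_pow,
      h.es.pow4 (hRQ hr), mul_one, mul_inv_cancel] at h3
    exact comm_eq_one.1 (PiN.e_eq_one (PiN.dvd (n := 2 ^ 2) (PiN.pow (π := {2})
      ((piN_prime Nat.prime_two).2 rfl) 2) (orderOf_dvd_of_pow_eq_one h3.symm)) (pA.elt h1))
  have hes : ES R z := h.es.sub hzR hRQ (fun x hx => key h hA x (hR ▸ hx.1) fun y hy =>
    (mem_cent.1 hx.2 y (hR ▸ hy)).symm) fun e => hgZ (e hgR)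
  have inj : ∀ x ∈ R.subgroupOf M, f x = 1 → x = 1 := fun x hx e => Subtype.ext (mem_bot.1
    ((h.es.pg.inf_eq_bot pA) ▸ ⟨hRQ hx, (hf x).1 e⟩))
  have hes' : ES (R.subgroupOf M) ⟨z, hCM hzA⟩ := by
    refine ⟨hzR, fun e => hes.z1 (congrArg Subtype.val e), Subtype.ext hes.zz,
      fun x hx y hy => (hes.comm _ hx _ hy).imp Subtype.ext Subtype.ext,
      fun x hx => (hes.sq _ hx).imp Subtype.ext Subtype.ext, fun x hx => Subtype.ext (hes.cent _ hx),
      fun x hx H => (hes.ctr _ hx fun y hy => congrArg Subtype.val (H ⟨y, hCM (hRA hy)⟩ hy)).imp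
        Subtype.ext Subtype.ext, ?_⟩
    obtain ⟨x, hx, y, hy, e⟩ := hes.nonab
    exact ⟨⟨x, hCM (hRA hx)⟩, hx, ⟨y, hCM (hRA hy)⟩, hy, fun e' => e (congrArg Subtype.val e')⟩
  have hl : LE ((R.subgroupOf M).map f) (f ⟨z, hCM hzA⟩) := by
    refine ⟨hes'.map f inj, fun y hy => ?_, fun y hy => ?_⟩ <;> obtain ⟨c, hc, rfl⟩ := hfs y
    · have : c.1 ∈ C(A ⊔ R) := by
        rw [cent_sup]
        exact ⟨hc, mem_cent.2 fun r hr => (cm c ⟨r, hCM (hRA hr)⟩ hc hr
          (mem_cent.1 hy _ ⟨⟨r, _⟩, hr, rfl⟩).symm).symm⟩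
      obtain ⟨d, hd, w, hw, e⟩ := (mem_sup_of_norm (zpowers_le_of_mem (cent_le_norm A hzA))).1 (hD this)
      have hw' := zpowers_le_of_mem hzR hw
      exact ⟨⟨w, hCM (hRA hw')⟩, hw', by
        rw [show c = ⟨d, hM ▸ mem_sup_right hd⟩ * ⟨w, hCM (hRA hw')⟩ from Subtype.ext e, map_mul,
          (hf ⟨d, _⟩).2 hd, one_mul]⟩
    · have h1 : c.1 ∈ N(R) := hR ▸ norms_inf (inf_le_left.trans h.norm) (norms_of_le inf_le_right)
        (⟨mem_cent1.2 (cm c ⟨z, _⟩ hc hzR (mem_cent1.1 hy)), hc⟩ : c.1 ∈ C[z] ⊓ C(A))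
      refine mem_norm_of_cj_le fun x hx => ?_
      obtain ⟨_, ⟨r, hr, rfl⟩, rfl⟩ := mem_cj'.1 hx
      exact ⟨c * r * c⁻¹, conj_mem_of_norm (G := G) h1 hr, by simp⟩
  let x : M := ⟨b * a, hCM (mul_mem hb.2 (hRA ha))⟩
  have e4 : f x⁻¹ * f ⟨z, hCM hzA⟩ * (f x⁻¹)⁻¹ = f ⟨t, hCM htA⟩ := by
    rw [← map_inv, ← map_mul, ← map_mul]
    congr 1
    exact Subtype.ext (by simp only [x, ← e3, coe_mul, coe_inv]; group)
  refine hl.large_of_conj (g := f x⁻¹) (e4 ▸ ⟨_, hgR, rfl⟩) fun e => hne ?_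
  rw [e4, ← mul_inv_eq_one, ← map_inv, ← map_mul] at e
  exact mul_inv_eq_one.1 (congrArg Subtype.val (inj _ (mul_mem hgR (inv_mem hzR)) e))

end Cfsg.Agent.S5428
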