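import Cfsg.Statements.S5431
import Cfsg.Agent.H0.ES4

set_option autoImplicit false
open Cfsg

open Subgroup H19 H0
open scoped commutatorElement

namespace Cfsg.Agent.S5431

/-- Let Q be a large extraspecial 2-subgroup of the finite group G (extraspecial; centralizer equal to its centre; normal in the centralizer of its centre; normalizing no non-trivial subgroup of odd order) with centre generated by z, an involution, of width w ≥ 2 (order 2^(2w+1)); let g be an element outside the centralizer H of z with g z g⁻¹ in Q; write V for the subgroup generated by z and g z g⁻¹, X for the subgroup generated by Q and g Q g⁻¹, R for the subgroup generated by the centralizer of z in g Q g⁻¹ and the centralizer of g z g⁻¹ in Q, and E for the intersection of Q and g Q g⁻¹. Then V is the centre of R, E lies in the second centre of R, R is nilpotent of class at most 3, E and R/E are elementary abelian, R/E is the direct product of the images of the centralizer of g z g⁻¹ in Q and of the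 centralizer of z in g Q g⁻¹ (R is their product and they meet in E), and the commutator subgroup of X and E lies in V. -/
theorem result {G : Type*} [Group G] [Finite G] (Q : Subgroup G) (hQ : Cfsg.IsLargeExtraspecial Q) (z : G) (hz : ((Subgroup.center ↥Q).map Q.subtype) = Subgroup.zpowers z) (hz2 : orderOf z = 2) (w : ℕ) (hw : 2 ≤ w) (hcard : Nat.card ↥Q = 2 ^ (2 * w + 1)) (g : G) (hgH : g ∉ Subgroup.centralizer ({z} : Set G)) (hgQ : g * z * g⁻¹ ∈ Q) (V X R E : Subgroup G) (hV : V = Subgroup.closure ({z, g * z * g⁻¹} : Set G)) (hX : X = Q ⊔ (Q).map (MulAut.conj g).toMonoidHom) (hR : R = ((Q).map (MulAut.conj g).toMonoidHom ⊓ Subgroup.centralizer ({z} : Set G)) ⊔ (Q ⊓ Subgroup.centralizer ({g * z * g⁻¹} : Set G))) (hE : E = Q ⊓ (Q).map (MulAut.conj g).toMonoidHom) : (Subgroup.center ↥R).map R.subtype = V ∧ E ≤ (Subgroup.upperCentralSeries ↥R 2).map R.subtype ∧ Subgroup.upperCentralSeries ↥R 3 = ⊤ ∧ Cfsg.IsElementaryAbelian 2 E ∧ (∀ x ∈ R, ∀ y ∈ R, x * y * x⁻¹ * y⁻¹ ∈ E ∧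 x ^ 2 ∈ E) ∧ ((Q).map (MulAut.conj g).toMonoidHom ⊓ Subgroup.centralizer ({z} : Set G)) ⊓ (Q ⊓ Subgroup.centralizer ({g * z * g⁻¹} : Set G)) = E ∧ ⁅X, E⁆ ≤ V := by
  have h := (LE_of_large hQ hz).lp hgQ fun e => hgH (mem_cent1.2 (mul_inv_eq_iff_eq_mul.1 e))
  rw [closure_pair_eq] at hV
  have e1 : (center R).map R.subtype = V := by rw [center_map_eq, hR, hV]; exact h.center_R
  have e2 : E ≤ R := hE ▸ hR ▸ le_sup_of_le_right h.inf_le_P
  have e3 : ⁅X, E⁆ ≤ V := hX ▸ hE ▸ hV ▸ h.comm_E
  have e4 : R ≤ X := hR ▸ hX ▸ h.R_le_X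
  have e5 : ⁅R, R⁆ ≤ E := hR ▸ hE ▸ h.der_R
  have e6 : ∀ x : R, x.1 ∈ E → x ∈ Subgroup.upperCentralSeries R 2 := fun x hx => by
    refine Subgroup.mem_upperCentralSeries_succ_iff.2 fun y => ?_
    rw [Subgroup.upperCentralSeries_one]
    obtain ⟨c, hc, e⟩ : ⁅x.1, y.1⁆ ∈ (center R).map R.subtype := by
      rw [e1]
      exact e3 (commutator_comm E X ▸ commutator_mem_commutator hx (e4 y.2))
    rwa [show c = ⁅x, y⁆ from Subtype.ext e] at hc
  refine ⟨e1, fun x hx => ⟨⟨x, e2 hx⟩, e6 _ hx, rfl⟩, eq_top_iff.2 fun x _ =>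
    Subgroup.mem_upperCentralSeries_succ_iff.2 fun y => e6 _ (e5 (commutator_mem_commutator x.2 y.2)),
    hE ▸ h.abelem_E, fun x hx y hy => ⟨e5 (commutator_mem_commutator hx hy),
      hE ▸ h.sq_R (hR ▸ hx)⟩, ?_, e3⟩
  rw [hE]
  exact le_antisymm (le_inf (inf_le_right.trans inf_le_left) (inf_le_left.trans inf_le_left))
    (le_inf (inf_comm Q _ ▸ h.symm.inf_le_P) h.inf_le_P)

end Cfsg.Agent.S5431
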