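import Cfsg.Statements.S5434
import Cfsg.Agent.H0.ES3

set_option autoImplicit false
open Cfsg

open Subgroup H19 H0
open scoped commutatorElement

namespace Cfsg.Agent.S5434

/-- Let Q be a large extraspecial 2-subgroup of the finite group G (extraspecial; centralizer equal to its centre; normal in the centralizer of its centre; normalizing no non-trivial subgroup of odd order), and A a non-trivial subgroup of odd order of the normalizer of Q. Then Q is the central product of the centralizer of A in Q and the commutator subgroup [Q, A] (they generate Q and commute elementwise), [Q, A] is extraspecial, and the centralizer of A in Q is either the centre of Q or extraspecial. -/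
theorem result {G : Type*} [Group G] [Finite G] (Q : Subgroup G) (hQ : Cfsg.IsLargeExtraspecial Q) (A : Subgroup G) (hA : A ≤ Subgroup.normalizer (Q : Set G)) (hAodd : Odd (Nat.card ↥A)) (hA1 : A ≠ ⊥) : (Q ⊓ Subgroup.centralizer (A : Set G)) ⊔ ⁅Q, A⁆ = Q ∧ (∀ x ∈ Q ⊓ Subgroup.centralizer (A : Set G), ∀ y ∈ ⁅Q, A⁆, x * y = y * x) ∧ Cfsg.IsExtraspecial 2 ↥⁅Q, A⁆ ∧ (Q ⊓ Subgroup.centralizer (A : Set G) = ((Subgroup.center ↥Q).map Q.subtype) ∨ Cfsg.IsExtraspecial 2 ↥(Q ⊓ Subgroup.centralizer (A : Set G))) := by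
  obtain ⟨z, h, e⟩ := exists_LE hQ.1 hQ.2.1 hQ.2.2.1
  have hc : (#Q).Coprime #A := h.es.pg.coprime (piG_odd hAodd)
  have h1 : ⁅Q, A⁆ ⊔ (Q ⊓ C(A)) = Q := commg_sup_cent hA hc (Or.inr h.es.pg.sol)
  have hz : zpowers z ≤ C(A) := cents_symm (cent_zpowers z ▸ hA.trans h.es.norm_le)
  have h2 : ⁅Q, A⁆ ≤ C(Q ⊓ C(A)) := commg_eq_bot.1 (three_subgroup
    (by rw [commg_eq_bot.2 (cents_symm inf_le_right : A ≤ C(Q ⊓ C(A)))]; simp)
    (commg_eq_bot.2 (((commutator_mono inf_le_left le_rfl).trans h.es.der_le).trans hz)))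
  have h3 : ⁅Q, A⁆ ≤ Q := commg_le_left hA
  have h4 : ¬ ⁅Q, A⁆ ≤ zpowers z := fun H => hA1 ((h.es.pg.of_le
    ((cents_of_commg_le_cent hA hc (H.trans hz)).trans h.cent)).eq_bot (piG_odd hAodd))
  have h5 : z ∈ ⁅Q, A⁆ := h.mem_of_pg (h.es.pg.of_le h3) (commg_norml _ _)
    fun e => h4 (e ▸ bot_le)
  refine ⟨by rw [sup_comm, h1], fun x hx y hy => mem_cent.1 (h2 hy) x hx,
    (h.es.sub h5 h3 (fun x hx => ?_) h4).extraspecial, ?_⟩
  · rw [← h.cent_eq, ← h1, cent_sup]; exact ⟨hx.2, h2 hx.1⟩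
  · have h6 : zpowers z ≤ Q ⊓ C(A) := le_inf h.es.zp_le hz
    by_cases h7 : Q ⊓ C(A) ≤ zpowers z
    · exact Or.inl (e ▸ le_antisymm h7 h6)
    · refine Or.inr (h.es.sub (h6 (mem_zpowers z)) inf_le_left (fun x hx => ?_) h7).extraspecial
      rw [← h.cent_eq]
      have : x ∈ C(⁅Q, A⁆ ⊔ (Q ⊓ C(A))) := by rw [cent_sup]; exact ⟨cents_symm h2 hx.1, hx.2⟩
      rwa [h1] at this

end Cfsg.Agent.S5434
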