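import Cfsg.Statements.S5435
import Cfsg.Agent.H0.ES5
import Cfsg.Agent.H28.ExtTr
import Cfsg.Agent.H7.ZStar

set_option autoImplicit false
open Cfsg

open Subgroup H19 H0 Module
open scoped commutatorElement

namespace Cfsg.Agent.S5435

/-- Let L be a finite non-abelian simple group with an involution z whose centralizer R is a Sylow 2-subgroup of L whose Frattini subgroup is the subgroup generated by z. Then R is dihedral of order 8. -/
theorem result {L : Type*} [Group L] [Finite L] [IsSimpleGroup L] (hL : ¬ IsMulCommutative L) (z : L) (hz : orderOf z = 2) (R : Sylow 2 L) (hR : (R : Subgroup L) = Subgroup.centralizer ({z} : Set L)) (hΦ : (frattini ↥(R : Subgroup L)).map (R : Subgroup L).subtype = Subgroup.zpowers z) : Nonempty (↥(R : Subgroup L) ≃* DihedralGroup 4) := by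
  have hp : IsPGroup 2 (R : Subgroup L) := R.isPGroup'
  have zz := mul_self_of_order hz
  have z1 := ne_one_of_order hz
  have hc : ∀ x ∈ (R : Subgroup L), ∀ y ∈ (R : Subgroup L), ⁅x, y⁆ ∈ zpowers z := fun x hx y hy =>
    hΦ ▸ H4.commutator_mem_map_frattini hp hx hy
  have hs : ∀ x ∈ (R : Subgroup L), x ^ 2 ∈ zpowers z := fun x hx =>
    hΦ ▸ H4.pow_mem_map_frattini hp hx
  have hzR : z ∈ (R : Subgroup L) := hR ▸ mem_cent1_self z
  have hper : commutator L = ⊤ := (IsSimpleGroup.eq_bot_or_eq_top_of_normal _ inferInstance).resolve_left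
    fun e => hL ⟨⟨fun a b => comm_eq_one.1 (mem_bot.1
      (e ▸ commutator_mem_commutator (mem_top a) (mem_top b)))⟩⟩
  have hZ : center L = ⊥ := (IsSimpleGroup.eq_bot_or_eq_top_of_normal _ inferInstance).resolve_right
    fun e => hL (center_eq_top_iff.1 e)
  have s1 : ∀ u ∈ Z((R : Subgroup L)), u * u = 1 → u ∈ zpowers z := fun u hu uu => by
    by_contra hn
    obtain ⟨E, _, _, π, ρ, hs⟩ := exists_sec (p := 2) (D := ⊥) (zpowers_le_of_mem hzR) bot_le bot_le
      (commutator_le.2 hc) hs
    obtain ⟨f, hf⟩ := Projective.exists_dual_eq_one (ZMod 2) fun e => hn ((hs.ker u hu.1).1 e)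
    obtain ⟨g, h1, h2, h3⟩ := H28.extremal_transfer (Nat.not_even_iff_odd.1 fun e =>
      R.not_dvd_index e.two_dvd) (f.toAddMonoidHom.toMultiplicative.comp hs.hom) (by decide)
      (by rw [pow_two, uu]) (H3.map_eq_one_of_mem_commutator _ (hper ▸ mem_top u)) hp
      (le_cent1_iff.2 hu.2) hu.1
    have h4 : g ∈ N((R : Subgroup L)) := mem_norm_of_cj_le h1
    have h5 : g ∈ (R : Subgroup L) := by
      have : g * z * g⁻¹ ∈ zpowers z := by
        have := hΦ ▸ H1.normalizer_le_normalizer_map_subtype (frattini _) h4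
        exact conj_mem_of_norm this (mem_zpowers z)
      rcases (mem_zpowers_inv zz).1 this with e | e
      · exact absurd (by simpa using e) z1
      · exact hR ▸ mem_cent1.2 (mul_inv_eq_iff_eq_mul.1 e)
    have h6 : f (π (g * u * g⁻¹)) = 0 := h3
    rw [mem_cent.1 hu.2 g h5, mul_inv_cancel_right, hf] at h6
    exact one_ne_zero h6
  obtain ⟨g, ht, hne⟩ := H7.exists_conj_mem_ne ((IsSimpleGroup.eq_bot_or_eq_top_of_normal _
    inferInstance).resolve_right fun e => H1.not_dvd_card_pPrimeCore (p := 2) (G := L) (by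
      rw [e, card_top, ← hz]; exact orderOf_dvd_natCard z)) R hz hzR (by rw [hZ]; exact z1)
  set t := g * z * g⁻¹ with htd
  have tt : t * t = 1 := by rw [htd, conj_mul, zz]; simp
  have t1 : t ≠ 1 := by simpa [htd] using z1
  have htz : t ∉ zpowers z := fun e => ((mem_zpowers_inv zz).1 e).elim t1 hne
  have hA : ∀ a ∈ (R : Subgroup L) ⊓ C[t], a * a = 1 := fun a ha => by
    have h1 : a ∈ cj g R := by rw [hR, cj_cent1]; exact ha.2
    have h2 := conj_mem_cj (g := g).2 (hs _ (mem_cj.1 h1))
    rw [cj_zpowers, ← conj_pow, show g * (g⁻¹ * a * g) * g⁻¹ = a by group, pow_two] at h2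
    have h3 := hs a ha.1
    rw [pow_two] at h3
    exact ((mem_zpowers_inv tt).1 h2).resolve_right fun e => htz (e ▸ h3)
  have h : ES (R : Subgroup L) z := ⟨hzR, z1, zz, fun x hx y hy => (mem_zpowers_inv zz).1 (hc x hx y hy),
    fun x hx => (mem_zpowers_inv zz).1 (pow_two x ▸ hs x hx), fun x hx => mem_cent1.1 (hR ▸ hx),
    fun x hx H => (mem_zpowers_inv zz).1 (s1 x ⟨hx, mem_cent.2 fun y hy => (H y hy).symm⟩
      (hA x ⟨hx, mem_cent1.2 (H t ht)⟩)), by
      by_contra hn
      push Not at hn
      exact htz (s1 t ⟨ht, mem_cent.2 fun y hy => hn y hy t ht⟩ tt)⟩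
  obtain ⟨n, hn, e⟩ := h.exists_width
  have hzt : z * t = t * z := (h.cent t ht).symm
  have hV : zpowers z ⊔ zpowers t ≤ R := sup_le h.zp_le (zpowers_le_of_mem ht)
  have e1 := h.card_cent (mem_sup_left (mem_zpowers z)) hV
  rw [card_four zz tt hzt z1 t1 hne.symm, cent_pair, ← inf_assoc, inf_eq_left.2 h.le_cent, e] at e1
  have e2 := h.card_le_of_not (h.not_hasEA e) inf_le_left (abelem2_iff.2 hA)
  obtain rfl : n = 1 := by
    have : 2 ^ (2 * n) ≤ 2 ^ (n + 1) := by rw [pow_succ] at e1; omega
    have := (Nat.pow_le_pow_iff_right (by norm_num)).1 this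
    omega
  have hD : ES (⊤ : Subgroup (DihedralGroup 4)) (DihedralGroup.r 2) :=
    ⟨trivial, by decide, by decide, by simp only [mem_top, forall_true_left]; decide,
      by simp only [mem_top, forall_true_left]; decide, by simp only [mem_top, forall_true_left]; decide,
      by simp only [mem_top, forall_true_left]; decide,
      ⟨.r 1, trivial, .sr 0, trivial, by decide⟩⟩
  obtain ⟨φ⟩ := h.iso hD e (by rw [card_top, DihedralGroup.nat_card]; rfl) (iff_of_true
    ⟨_, hV, abelem_four zz tt hzt, card_four zz tt hzt z1 t1 hne.symm⟩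
    ⟨zpowers (.r 2) ⊔ zpowers (.sr 0), le_top, abelem_four (by decide) (by decide) (by decide),
      card_four (by decide) (by decide) (by decide) (by decide) (by decide) (by decide)⟩)
  exact ⟨φ.trans topEquiv⟩

end Cfsg.Agent.S5435
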