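import Cfsg.Statements.S5436
import Cfsg.Agent.H0.ES5

set_option autoImplicit false
open Cfsg

open Subgroup H19 H0
open scoped commutatorElement

namespace Cfsg.Agent.S5436

/-- Let z be an involution of the finite group G with centralizer H whose generalized Fitting subgroup Q is extraspecial of width at least 2 (order 2^(2w+1), w ≥ 2); suppose some conjugate of z other than z lies in Q, H/Q is a non-abelian simple group, H acts irreducibly by conjugation on Q modulo the subgroup generated by z (the only H-invariant subgroups of Q containing z are that subgroup and Q), and Q is not the subgroup generated by the conjugates of z lying in H. Then G is simple. -/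
theorem result {G : Type*} [Group G] [Finite G] (z : G) (hz : orderOf z = 2) (Q : Subgroup (Subgroup.centralizer ({z} : Set G))) [Q.Normal] (hF : Cfsg.generalizedFittingSubgroup ↥(Subgroup.centralizer ({z} : Set G)) = Q) (hQ : Cfsg.IsExtraspecial 2 ↥Q) (w : ℕ) (hw : 2 ≤ w) (hcard : Nat.card ↥Q = 2 ^ (2 * w + 1)) (hnwc : ∃ g : G, (∃ hq : g * z * g⁻¹ ∈ Subgroup.centralizer ({z} : Set G), (⟨g * z * g⁻¹, hq⟩ : Subgroup.centralizer ({z} : Set G)) ∈ Q) ∧ g * z * g⁻¹ ≠ z) (hsimp : IsSimpleGroup (↥(Subgroup.centralizer ({z} : Set G)) ⧸ Q)) (hna : ¬ IsMulCommutative (↥(Subgroup.centralizer ({z} : Set G)) ⧸ Q)) (hirr : ∀ W : Subgroup (Subgroup.centralizer ({z} : Set G)), W.Normal → W ≤ Q → (W = Q ∨ ∀ x ∈ W, (x : G) ∈ Subgroup.zpowers z)) (hwcl : Subgroup.closure {x : Subgroup.centralizer ({z} : Set G) | IsConj z (x : G)} ≠ Q) : IsSimpleGroup G := by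
  have hE : IsExtraspecial 2 (Q.map C[z].subtype) := by
    obtain ⟨w, hw⟩ := exists_ES hQ
    exact (hw.map C[z].subtype fun x _ e => Subtype.ext e).extraspecial
  have hF' : (generalizedFittingSubgroup C[z]).map C[z].subtype = Q.map C[z].subtype := by rw [hF]
  have h := LE_of_gf hz hE hF'
  obtain ⟨g, ⟨hq, h1⟩, h2⟩ := hnwc
  have hL := h.large_of_conj (g := g) ⟨_, h1, rfl⟩ h2
  set W := closure {x : C[z] | IsConj z (x : G)}
  have hW : W.Normal := ⟨fun x hx c => by
    have : cj c W ≤ W := by
      rw [cj_closure]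
      refine closure_mono ?_
      rintro _ ⟨y, hy, rfl⟩
      exact IsConj.trans hy (isConj_iff.2 ⟨c, rfl⟩)
    exact this (conj_mem_cj.2 hx)⟩
  have h3 : Q ≤ W := inf_eq_right.1 ((hirr (W ⊓ Q) inferInstance inf_le_right).resolve_right fun H =>
    (h.es.mem_zp.1 (H ⟨_, hq⟩ ⟨subset_closure (isConj_iff.2 ⟨g, rfl⟩), h1⟩)).elim (h.J g).es.z1 h2)
  have h4 : W = ⊤ := by
    rcases hsimp.eq_bot_or_eq_top_of_normal (W.map (QuotientGroup.mk' Q))
      (hW.map _ (QuotientGroup.mk'_surjective Q)) with e | e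
    · rw [Subgroup.map_eq_bot_iff, QuotientGroup.ker_mk'] at e
      exact absurd (le_antisymm e h3) hwcl
    · have := congrArg (comap (QuotientGroup.mk' Q)) e
      rwa [comap_map_eq, QuotientGroup.ker_mk', sup_eq_left.2 h3, comap_top] at this
  refine h.simple_of hL.2.2.2 (gf_eq_Oc hE hF') fun x hx => ?_
  have : W ≤ (normalClosure {z}).comap C[z].subtype := (closure_le _).2 fun y hy => by
    obtain ⟨c, hc⟩ := isConj_iff.1 (show IsConj z (y : G) from hy)
    show (y : G) ∈ normalClosure {z}
    rw [← hc]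
    exact normalClosure_normal.conj_mem z (subset_normalClosure (Set.mem_singleton z)) c
  exact this (h4 ▸ mem_top (⟨x, hx⟩ : C[z]))

end Cfsg.Agent.S5436
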