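import Cfsg.Statements.S5438
import Cfsg.Agent.H0.ES3

set_option autoImplicit false
open Cfsg

open Subgroup H19 H0
open scoped commutatorElement

namespace Cfsg.Agent.S5438

/-- Let z be a 2-central involution of the finite group G (an involution central in some Sylow 2-subgroup) and H a subgroup containing z such that the coset H is the only coset of H fixed by z (in the action of G on the cosets of H). Then H has odd index in G, and for every 2-element x of H the conjugates of x lying in H form a single H-class. -/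
theorem result {G : Type*} [Group G] [Finite G] (z : G) (hz : Cfsg.IsTwoCentralInvolution z) (H : Subgroup G) (hzH : z ∈ H) (hfix : ∀ g : G, g⁻¹ * z * g ∈ H → g ∈ H) : Odd H.index ∧ ∀ x ∈ H, (∃ k : ℕ, orderOf x = 2 ^ k) → ∀ g : G, g * x * g⁻¹ ∈ H → ∃ h ∈ H, h * x * h⁻¹ = g * x * g⁻¹ := by
  have : Fact (Nat.Prime 2) := ⟨Nat.prime_two⟩
  obtain ⟨hz2, T, hzT, hT⟩ := hz
  have hTH : (T : Subgroup G) ≤ H := fun x hx => hfix x (by rwa [mul_assoc, ← hT x hx, inv_mul_cancel_left])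
  have hs := syl_sylow_top T
  have key : ∀ S : Subgroup G, PG 2 S → z ∈ S → S ≤ H := fun S hS hzS => by
    obtain ⟨m, -, hm⟩ := hs.sle_cj le_top hS
    have : m ∈ H := hfix m (hTH (mem_cj.1 (hm hzS)))
    exact hm.trans ((cj_mono m hTH).trans (cj_of_mem this).le)
  refine ⟨Nat.not_even_iff_odd.1 fun e => T.not_dvd_index (e.two_dvd.trans (index_dvd_of_le hTH)),
    fun x hx ⟨k, hk⟩ g hg => ?_⟩
  have hsH : Syl 2 T H := hs.of_le hTH le_top
  have px : PG 2 (zpowers x) := PiN.of_card_pow Nat.prime_two (by rw [Nat.card_zpowers, hk])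
  obtain ⟨a, ha, h1⟩ := hsH.scj_le (zpowers_le_of_mem hx) px
  obtain ⟨b, hb, h2⟩ := hsH.scj_le (zpowers_le_of_mem hg) (cj_zpowers g x ▸ px.J g)
  have e1 : a⁻¹ * z * a ∈ C[x] := mem_cent1.2 (by
    have := hT _ (h1 (conj_mem_cj.2 (mem_zpowers x)))
    calc a⁻¹ * z * a * x = a⁻¹ * (z * (a * x * a⁻¹)) * a := by group
      _ = _ := by rw [← this]; group)
  have e2 : (b * g)⁻¹ * z * (b * g) ∈ C[x] := mem_cent1.2 (by
    have := hT _ (h2 (conj_mem_cj.2 (mem_zpowers _)))
    calc (b * g)⁻¹ * z * (b * g) * x = (b * g)⁻¹ * (z * (b * (g * x * g⁻¹) * b⁻¹)) * (b * g) := by group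
      _ = _ := by rw [← this]; group)
  have pz : ∀ c : G, PG 2 (zpowers (c⁻¹ * z * c)) := fun c => pg_zpowers (by
    calc c⁻¹ * z * c * (c⁻¹ * z * c) = c⁻¹ * (z * z) * c := by group
      _ = 1 := by rw [mul_self_of_order hz2]; group)
  obtain ⟨S, hS, hle⟩ := (pz a).exists_syl (zpowers_le_of_mem e1)
  obtain ⟨d, hd, h3⟩ := hS.scj_le (zpowers_le_of_mem e2) (pz _)
  have h4 : cj a S ≤ H := key _ (hS.pi.J a) (mem_cj.2 (hle (mem_zpowers _)))
  have h5 : b * g * d⁻¹ * a⁻¹ ∈ H := hfix _ (h4 (mem_cj.2 (by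
    have := h3 (conj_mem_cj.2 (mem_zpowers _))
    convert this using 1; group)))
  refine ⟨g * d⁻¹, (mul_mem_cancel_left hb).1 ((mul_mem_cancel_right (inv_mem ha)).1
    (by simpa [mul_assoc] using h5)), ?_⟩
  calc g * d⁻¹ * x * (g * d⁻¹)⁻¹ = g * d⁻¹ * (x * d) * g⁻¹ := by group
    _ = _ := by rw [← mem_cent1.1 hd]; group

end Cfsg.Agent.S5438
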