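import Cfsg.Statements.S5439
import Cfsg.Agent.H0.ES3
import Cfsg.Agent.H10.Dihedral

set_option autoImplicit false
open Cfsg

open Subgroup H19 H0
open scoped commutatorElement

namespace Cfsg.Agent.S5439

/-- Let I and J be two different conjugacy classes of involutions of the finite group G and H a subgroup such that every member of I ∪ J fixes exactly one coset in the action on the cosets of H, and such that for every a in I ∩ H and every b in (I ∪ J) ∩ H different from a and commuting with it, the centralizer of a b lies in H. Then H = G. -/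
theorem result {G : Type*} [Group G] [Finite G] (I J : Set G) (a₀ b₀ : G) (ha₀ : orderOf a₀ = 2) (hb₀ : orderOf b₀ = 2) (hI : I = {x | IsConj a₀ x}) (hJ : J = {x | IsConj b₀ x}) (hIJ : I ≠ J) (H : Subgroup G) (hfix : ∀ x ∈ I ∪ J, ∃! c : G ⧸ H, x • c = c) (hcent : ∀ a ∈ I, a ∈ H → ∀ b ∈ I ∪ J, b ∈ H → a ≠ b → a * b = b * a → Subgroup.centralizer ({a * b} : Set G) ≤ H) : H = ⊤ := by
  have hf : ∀ x g : G, x • (g : G ⧸ H) = g ↔ g⁻¹ * x * g ∈ H := fun x g => by
    rw [MulAction.Quotient.smul_mk, eq_comm, QuotientGroup.eq, smul_eq_mul, mul_assoc]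
  have key : ∀ x ∈ I ∪ J, x ∈ H → ∀ g, g⁻¹ * x * g ∈ H → g ∈ H := fun x hx h1 g hg => by
    have := (hfix x hx).unique ((hf x g).2 hg) ((hf x 1).2 (by simpa using h1))
    simpa using QuotientGroup.eq.1 this
  have ex : ∀ x ∈ I ∪ J, ∃ g, g⁻¹ * x * g ∈ H := fun x hx => by
    obtain ⟨c, hc, -⟩ := hfix x hx
    obtain ⟨g, rfl⟩ := QuotientGroup.mk_surjective c
    exact ⟨g, (hf x g).1 hc⟩
  have cI : ∀ x ∈ I, ∀ y, IsConj x y → y ∈ I := fun x hx y h => by
    rw [hI] at hx ⊢; exact IsConj.trans hx h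
  have cJ : ∀ x ∈ J, ∀ y, IsConj x y → y ∈ J := fun x hx y h => by
    rw [hJ] at hx ⊢; exact IsConj.trans hx h
  have cj1 : ∀ x g : G, IsConj x (g⁻¹ * x * g) := fun x g => isConj_iff.2 ⟨g⁻¹, by simp⟩
  obtain ⟨g, hg⟩ := ex a₀ (Or.inl (hI ▸ IsConj.refl a₀))
  set a := g⁻¹ * a₀ * g
  have ha : a ∈ I := hI ▸ cj1 a₀ g
  have hJH : ∀ b ∈ J, b ∈ H := fun b hb => by
    have aa : a * a = 1 := mul_self_of_order ((H10.orderOf_conj' g a₀).trans ha₀)
    have bb : b * b = 1 := mul_self_of_order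
      ((H10.orderOf_eq_of_isConj (show IsConj b₀ b by rwa [hJ] at hb)).symm.trans hb₀)
    have hn : ¬ IsConj a b := fun e => hIJ (by
      have e1 : IsConj a₀ b₀ := ((cj1 a₀ g).trans e).trans (show IsConj b₀ b by rwa [hJ] at hb).symm
      rw [hI, hJ]; ext x; exact ⟨e1.symm.trans, e1.trans⟩)
    obtain ⟨h1, h2, h3⟩ := H10.exists_central_invol_of_even aa bb (orderOf_pos _).ne'
      (Nat.not_odd_iff_even.1 fun e => hn (H10.isConj_of_odd aa bb e))
    generalize orderOf (a * b) / 2 = n at h1 h2 h3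
    have hw : (a * b) ^ n ∈ H := key a (Or.inl ha) hg _ (by
      rwa [mul_assoc, ← h2.eq, inv_mul_cancel_left])
    have hinv := H10.inverts_left aa bb
    have hm : a * (a * b) ^ n ∈ I ∪ J := by
      rcases Nat.even_or_odd' n with ⟨k, rfl | rfl⟩
      · refine Or.inl (cI a ha _ (isConj_iff.2 ⟨(a * b) ^ (-k : ℤ), ?_⟩))
        rw [H10.zpow_conj_of_inverts hinv, ← zpow_natCast]; simp
      · refine Or.inr (cJ b hb _ (isConj_iff.2 ⟨(a * b) ^ (-k : ℤ), ?_⟩))
        rw [H10.zpow_conj_of_inverts (H10.inverts_right aa bb), pow_succ', ← mul_assoc, ← mul_assoc,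
          aa, one_mul, ← zpow_natCast]; simp
    have := hcent a ha hg _ hm (mul_mem hg hw) (fun e => ne_one_of_order h1 (left_eq_mul.1 e))
      (by rw [mul_assoc a _ a, h2.eq])
    rw [← mul_assoc, aa, one_mul] at this
    exact this (mem_cent1.2 h3.eq.symm)
  have hb : b₀ ∈ J := hJ ▸ IsConj.refl b₀
  exact eq_top_iff.2 fun g _ => key b₀ (Or.inr hb) (hJH _ hb) g (hJH _ (cJ _ hb _ (cj1 b₀ g)))

end Cfsg.Agent.S5439
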