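import Cfsg.Statements.S5459
import Cfsg.Agent.H0.ES3
import Cfsg.Agent.H10.Dihedral
import Cfsg.Agent.H1.Layer

set_option autoImplicit false
open Cfsg

open Subgroup H19 H0
open scoped commutatorElement

namespace Cfsg.Agent.S5459

/-- Let G be a finite group with a quasisimple normal subgroup L and an involution d such that G is generated by L and d, the centre of L has odd order, and d inverts every element of the centre of L. If the commuting graph on the conjugacy class of the image of d in G modulo the centre of L is connected, then the commuting graph on the conjugacy class of d is connected. -/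
theorem result {G : Type*} [Group G] [Finite G] (L : Subgroup G) [L.Normal] (hL : Cfsg.IsQuasisimple ↥L) (d : G) (hd : orderOf d = 2) (hgen : L ⊔ Subgroup.zpowers d = ⊤) (hodd : Odd (Nat.card ↥(Subgroup.center ↥L))) (hinv : ∀ c ∈ (Subgroup.center ↥L).map L.subtype, d * c * d⁻¹ = c⁻¹) [hn : ((Subgroup.center ↥L).map L.subtype).Normal] (hconn : (Cfsg.commutingGraph (conjugatesOf (QuotientGroup.mk d : G ⧸ (Subgroup.center ↥L).map L.subtype))).Connected) : (Cfsg.commutingGraph (conjugatesOf d)).Connected := by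
  set Z := (center L).map L.subtype with hZ
  have dd := mul_self_of_order hd
  have hZo : Odd (#Z) := by rwa [hZ, card_map_of_injective L.subtype_injective]
  let Γ := commutingGraph (conjugatesOf d)
  have mk : ∀ g : G, g * d * g⁻¹ ∈ conjugatesOf d := fun g => isConj_iff.2 ⟨g, rfl⟩
  have inv : ∀ x ∈ conjugatesOf d, x * x = 1 ∧ ∀ c ∈ Z, x * c * x⁻¹ = c⁻¹ := fun x hx => by
    obtain ⟨g, rfl⟩ := isConj_iff.1 hx
    refine ⟨by rw [conj_mul, dd]; simp, fun c hc => ?_⟩
    have := hinv _ (hn.conj_mem' c hc g)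
    calc _ = g * (d * (g⁻¹ * c * g) * d⁻¹) * g⁻¹ := by group
      _ = _ := by rw [this]; group
  have cos : ∀ x ∈ conjugatesOf d, ∀ c ∈ Z, ∃ e ∈ Z, e * x * e⁻¹ = c * x := fun x hx c hc => by
    obtain ⟨y, hy, -, -, e⟩ := H10.exists_sqrt_inverted (H10.odd_orderOf_of_mem hZo hc)
      ((inv x hx).2 c hc)
    exact ⟨y, zpowers_le_of_mem hc hy, mul_inv_eq_iff_eq_mul.1 e⟩
  have reach : ∀ x y : conjugatesOf d, Commute (x : G) y → Γ.Reachable x y := fun x y h => by
    by_cases e : x = y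
    exacts [e ▸ .refl _, SimpleGraph.Adj.reachable ((SimpleGraph.fromRel_adj _ _ _).2 ⟨e, Or.inl h⟩)]
  have lift : ∀ x ∈ conjugatesOf d, ∀ y ∈ conjugatesOf d, ⁅x, y⁆ ∈ Z →
      ∃ y' ∈ conjugatesOf d, Commute x y' ∧ (y' : G ⧸ Z) = y := fun x hx y hy h => by
    obtain ⟨e, he, e1⟩ := cos y hy _ h
    obtain ⟨f, hf, h5, h2, -⟩ := H10.exists_sqrt_inverted (H10.odd_orderOf_of_mem hZo he)
      ((inv x hx).2 e he)
    have hf' : f ∈ Z := zpowers_le_of_mem he hf
    refine ⟨f * y * f⁻¹, (IsConj.trans hy (isConj_iff.2 ⟨f, rfl⟩) : IsConj d _), ?_, ?_⟩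
    · have h3 : x * f⁻¹ = f * x := by rw [← mul_inv_eq_iff_eq_mul, (inv x hx).2 _ (inv_mem hf'), inv_inv]
      have h4 : x * f = f⁻¹ * x := by rw [← mul_inv_eq_iff_eq_mul, h2]
      have h6 : e * y * e⁻¹ * x = x * y := by rw [e1, commutatorElement_def]; group
      calc x * (f * y * f⁻¹) = (x * f) * y * f⁻¹ := by group
        _ = f⁻¹ * (e * y * e⁻¹ * x) * f⁻¹ := by rw [h4, h6]; group
        _ = f * y * f⁻¹ * (f⁻¹ * (x * f⁻¹)) := by rw [← h5]; group
        _ = _ := by rw [h3]; group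
    · rw [QuotientGroup.mk_mul, QuotientGroup.mk_mul, QuotientGroup.mk_inv,
        (QuotientGroup.eq_one_iff f).2 hf']; simp
  let d0 : conjugatesOf d := ⟨d, IsConj.refl d⟩
  have key : ∀ v : conjugatesOf (QuotientGroup.mk d : G ⧸ Z), ∃ x : conjugatesOf d,
      Γ.Reachable d0 x ∧ (x.1 : G ⧸ Z) = v := fun v => by
    obtain ⟨w⟩ := hconn.preconnected v ⟨_, IsConj.refl _⟩
    generalize hu : (⟨_, IsConj.refl _⟩ : conjugatesOf (QuotientGroup.mk d : G ⧸ Z)) = u at w
    induction w with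
    | nil => exact ⟨d0, .refl _, by rw [← hu]⟩
    | @cons a b c h w ih =>
      obtain ⟨x, h1, h2⟩ := ih hu
      obtain ⟨g, hg⟩ := isConj_iff.1 a.2
      obtain ⟨g, rfl⟩ := QuotientGroup.mk_surjective g
      have h3 : Commute (b : G ⧸ Z) a := ((SimpleGraph.fromRel_adj _ _ _).1 h).2.elim .symm id
      obtain ⟨y, hy, h4, h5⟩ := lift x x.2 _ (mk g) ((QuotientGroup.eq_one_iff _).1 (by
        rw [← hg, ← h2] at h3
        exact comm_eq_one.2 h3))
      exact ⟨⟨y, hy⟩, h1.trans (reach x ⟨y, hy⟩ h4), h5.trans hg⟩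
  let φ : G → Γ →g Γ := fun g =>
    ⟨fun x => ⟨g * x * g⁻¹, (IsConj.trans x.2 (isConj_iff.2 ⟨g, rfl⟩) : IsConj d _)⟩, fun {a b} h => by
      obtain ⟨h1, h2⟩ := (SimpleGraph.fromRel_adj _ _ _).1 h
      refine (SimpleGraph.fromRel_adj _ _ _).2 ⟨fun e => h1 (Subtype.ext (by simpa using congrArg Subtype.val e)), ?_⟩
      exact h2.imp (fun h => h.conj g) fun h => h.conj g⟩
  let S : Subgroup G :=
    { carrier := {g | Γ.Reachable d0 (φ g d0)}
      one_mem' := reach _ _ (by simp [φ])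
      mul_mem' := fun {a b} ha hb => ha.trans (by
        convert SimpleGraph.Reachable.map (φ a) hb using 1
        exact Subtype.ext (by simp [φ, mul_assoc]))
      inv_mem' := fun {a} ha => (by
        have := (SimpleGraph.Reachable.map (φ a⁻¹) ha).symm
        rwa [show φ a⁻¹ (φ a d0) = d0 from Subtype.ext (by simp [φ, mul_assoc])] at this) }
  have hSZ : ∀ g : G, ∃ e ∈ Z, e * g ∈ S := fun g => by
    obtain ⟨x, h1, h2⟩ := key ⟨(g * d * g⁻¹ : G), isConj_iff.2 ⟨g, rfl⟩⟩
    obtain ⟨e, he, e1⟩ := cos _ (mk g) (x * (g * d * g⁻¹)⁻¹)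
      (by rw [← div_eq_mul_inv]; exact QuotientGroup.eq_iff_div_mem.1 h2)
    refine ⟨e, he, ?_⟩
    show Γ.Reachable _ _
    convert h1 using 1
    refine Subtype.ext ?_
    rw [inv_mul_cancel_right] at e1
    rw [← e1]; simp [φ, d0, mul_assoc]
  have hZC : Z ≤ C(L) := by rw [hZ, center_map_eq]; exact inf_le_right
  have hLS : L ≤ S := by
    rw [← H1.Quasisimple.perfect hL]
    refine commutator_le.2 fun a ha b hb => ?_
    obtain ⟨e, he, h1⟩ := hSZ a
    obtain ⟨f, hf, h2⟩ := hSZ b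
    have hZL : Z ≤ L := map_subtype_le _
    have c1 := mem_cent.1 (hZC he)
    have c2 := mem_cent.1 (hZC hf)
    have : ⁅e * a, f * b⁆ = ⁅a, b⁆ := by
      simp only [commutatorElement_def, mul_inv_rev]
      calc _ = e * (a * f) * b * a⁻¹ * e⁻¹ * (b⁻¹ * f⁻¹) := by group
        _ = e * f * (a * b * a⁻¹) * e⁻¹ * (b⁻¹ * f⁻¹) := by rw [c2 a ha]; group
        _ = f * (a * b * a⁻¹ * b⁻¹) * f⁻¹ := by
          rw [mul_assoc e, ← c1 _ (mul_mem (hZL hf) (mul_mem (mul_mem ha hb) (inv_mem ha)))]; group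
        _ = _ := by
          rw [← c2 _ (mul_mem (mul_mem (mul_mem ha hb) (inv_mem ha)) (inv_mem hb))]; group
    rw [← this]
    exact mul_mem (mul_mem (mul_mem h1 h2) (inv_mem h1)) (inv_mem h2)
  have hS : ⊤ ≤ S := hgen ▸ sup_le hLS (zpowers_le_of_mem (reach _ _ (by simp [φ, d0])))
  have : Nonempty (conjugatesOf d) := ⟨d0⟩
  have all : ∀ x, Γ.Reachable d0 x := fun x => by
    obtain ⟨g, hg⟩ := isConj_iff.1 x.2
    rw [show x = φ g d0 from Subtype.ext hg.symm]
    exact hS (mem_top g)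
  exact ⟨fun x y => (all x).symm.trans (all y)⟩

end Cfsg.Agent.S5459
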