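import Cfsg.Agent.H16.P.U62J
import Cfsg.Agent.H16.L.U62
import Cfsg.Agent.H16.L.U43
import Cfsg.Agent.H11.Congr
import Cfsg.Agent.H16.Tab2
import Cfsg.Statements.S5520
-- import your own Cfsg.Agent.* helpers here

set_option autoImplicit false
open Cfsg

namespace Cfsg.Agent.S5520

/-- In the special unitary group of dimension 6 over the field with four elements (determinant-one matrices preserving the standard Hermitian form), the subgroups K whose centre has order 3 with K modulo its centre isomorphic to the projective special unitary group of dimension 4 over the field with nine elements fall into exactly three conjugacy classes. -/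
theorem result (F : Type) [Field F] [Fintype F] (hF : Fintype.card F = 4) (F9 : Type) [Field F9] [Fintype F9] (hF9 : Fintype.card F9 = 9) : ∃ K₁ K₂ K₃ : Subgroup ↥(Cfsg.SU 6 F 2), (∀ K ∈ [K₁, K₂, K₃], Nat.card ↥(Subgroup.center ↥K) = 3 ∧ Nonempty (↥K ⧸ Subgroup.center ↥K ≃* Cfsg.PSU 4 F9 3)) ∧ (¬ ∃ g : ↥(Cfsg.SU 6 F 2), K₁.map (MulAut.conj g).toMonoidHom = K₂) ∧ (¬ ∃ g : ↥(Cfsg.SU 6 F 2), K₁.map (MulAut.conj g).toMonoidHom = K₃) ∧ (¬ ∃ g : ↥(Cfsg.SU 6 F 2), K₂.map (MulAut.conj g).toMonoidHom = K₃) ∧ ∀ K : Subgroup ↥(Cfsg.SU 6 F 2), Nat.card ↥(Subgroup.center ↥K) = 3 → Nonempty (↥K ⧸ Subgroup.center ↥K ≃* Cfsg.PSU 4 F9 3) → ∃ g : ↥(Cfsg.SU 6 F 2), K.map (MulAut.conj g).toMonoidHom = K₁ ∨ K.map (MulAut.conj g).toMonoidHom = K₂ ∨ K.map (MulAut.conj g).toMonoidHom = K₃ := by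
  obtain ⟨_, g, M, -⟩ := H16.U62J.md (H16.LU62.equiv.some.trans
    (H11.psuCongr 6 2 (H11.nonempty_ringEquiv_of_card (F := H11.F4) (K := F) (by rw [hF]; rfl)).some))
  have e := H16.LU43.equiv.some.trans
    (H11.psuCongr 4 3 (H11.nonempty_ringEquiv_of_card (F := H16.F9c) (K := F9) (by rw [hF9]; rfl)).some)
  have := H16.U43.simple
  obtain ⟨K₁, K₂, K₃, h1, h2, h3, h4, h5⟩ := (H16.U62J.ld M).main (H11.card_center_SU (q := 2) hF (by norm_num))
    (by rw [H16.U43.card]; norm_num) ((Subgroup.Normal.eq_bot_or_eq_top inferInstance).resolve_right fun q => by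
      let _ : CommGroup (H16.gen H16.U43.g 9) := { (inferInstance : Group (H16.gen H16.U43.g 9)) with
        mul_comm := fun a b => Subgroup.mem_center_iff.1 (q.ge (Subgroup.mem_top b)) a }
      have : (Nat.card (H16.gen H16.U43.g 9)).Prime := IsSimpleGroup.prime_card
      rw [H16.U43.card] at this
      norm_num at this) fun _ => H16.U43J.syl
  exact ⟨K₁, K₂, K₃, fun K hK => ⟨(h1 K hK).1, ⟨(h1 K hK).2.some.trans e⟩⟩, h2, h3, h4,
    fun K a ⟨b⟩ => h5 K a ⟨b.trans e.symm⟩⟩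

end Cfsg.Agent.S5520
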