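import Cfsg.Statements.S5541
import Mathlib.LinearAlgebra.BilinearForm.Properties

set_option autoImplicit false
open Cfsg

namespace Cfsg.Agent.S5541

/-- Let ρ be a representation of a group H on a finite-dimensional real vector space U whose only ρ-invariant subspaces are the zero subspace and U, and suppose U carries a non-zero ρ-invariant symmetric bilinear form. Then the following are equivalent: (1) there is a non-zero ρ-equivariant commutative bilinear product on U of which every ρ-equivariant bilinear product is a scalar multiple; (2) there is a non-zero ρ-invariant trilinear form on U that is symmetric under all permutations of its arguments and of which every ρ-invariant trilinear form is a scalar multiple. -/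
theorem result {H : Type*} [Group H] {U : Type*} [AddCommGroup U] [Module ℝ U] [FiniteDimensional ℝ U] (ρ : Representation ℝ H U) (hirr : ∀ W : Submodule ℝ U, (∀ g : H, W.map (ρ g) ≤ W) → W = ⊥ ∨ W = ⊤) (B : LinearMap.BilinForm ℝ U) (hB0 : B ≠ 0) (hBs : ∀ u v, B u v = B v u) (hBi : ∀ (g : H) (u v : U), B (ρ g u) (ρ g v) = B u v) : (∃ m : U →ₗ[ℝ] U →ₗ[ℝ] U, m ≠ 0 ∧ (∀ u v, m u v = m v u) ∧ (∀ (g : H) (u v : U), m (ρ g u) (ρ g v) = ρ g (m u v)) ∧ ∀ m' : U →ₗ[ℝ] U →ₗ[ℝ] U, (∀ (g : H) (u v : U), m' (ρ g u) (ρ g v) = ρ g (m' u v)) → ∃ c : ℝ, m' = c • m) ↔ (∃ t : U →ₗ[ℝ] U →ₗ[ℝ] U →ₗ[ℝ] ℝ, t ≠ 0 ∧ (∀ u v w, t u v w = t v u w ∧ t u v w = t u w v) ∧ (∀ (g : H) (u v w : U), t (ρ g u) (ρ g v) (ρ g w) = t u v w) ∧ ∀ t' : U →ₗ[ℝ] U →ₗ[ℝ] U →ₗ[ℝ] ℝ, (∀ (g : H) (u v w : U), t' (ρ g u) (ρ g v) (ρ g w) = t' u v w) → ∃ c : ℝ, t' = c • t) := by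
  have hg : ∀ g w, ρ g (ρ g⁻¹ w) = w := fun g w => by
    rw [← Module.End.mul_apply, ← map_mul, mul_inv_cancel, map_one, Module.End.one_apply]
  have hl : ∀ u, (∀ v, B u v = 0) → u = 0 := fun u hu => by
    rcases hirr (LinearMap.ker B) (fun g => by
      rintro _ ⟨x, hx, rfl⟩
      ext w
      rw [← hg g w, hBi, LinearMap.mem_ker.1 hx]; rfl) with h | h
    · exact h.le (LinearMap.mem_ker.2 (LinearMap.ext hu))
    · exact absurd (LinearMap.ker_eq_top.1 h) hB0
  have hB : B.Nondegenerate := ⟨hl, fun u hu => hl u fun v => (hBs u v).trans (hu v)⟩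
  let e := B.toDual hB
  have he : ∀ u v, e u v = B u v := fun _ _ => rfl
  have h1 : ∀ m : U →ₗ[ℝ] U →ₗ[ℝ] U, (∀ g u v, m (ρ g u) (ρ g v) = ρ g (m u v)) →
      ∀ g u v w, m.compr₂ e.toLinearMap (ρ g u) (ρ g v) (ρ g w) = m.compr₂ e.toLinearMap u v w :=
    fun m hm g u v w => by simp [he, hm, hBi]
  have h2 : ∀ t : U →ₗ[ℝ] U →ₗ[ℝ] U →ₗ[ℝ] ℝ, (∀ g u v w, t (ρ g u) (ρ g v) (ρ g w) = t u v w) →
      ∀ g u v, t.compr₂ e.symm.toLinearMap (ρ g u) (ρ g v) = ρ g (t.compr₂ e.symm.toLinearMap u v) :=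
    fun t ht g u v => e.injective (LinearMap.ext fun w => by
      rw [← hg g w, he (ρ g _), hBi, ← he]; simp [-Representation.self_inv_apply, ht])
  constructor
  · rintro ⟨m, h0, hc, hi, hu⟩
    have hu' : ∀ t' : U →ₗ[ℝ] U →ₗ[ℝ] U →ₗ[ℝ] ℝ, (∀ g u v w, t' (ρ g u) (ρ g v) (ρ g w) = t' u v w) →
        ∃ c : ℝ, t' = c • m.compr₂ e.toLinearMap := fun t ht => (hu _ (h2 t ht)).imp fun c hc => by
      ext u v w
      simpa using congrArg (fun x => e (x u v) w) hc
    have h0' : m.compr₂ e.toLinearMap ≠ 0 := fun h => h0 (by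
      ext u v
      simpa using congrArg (fun x => x u v) h)
    refine ⟨_, h0', fun u v w => ⟨by simp [hc u v], ?_⟩, h1 m hi, hu'⟩
    set t := m.compr₂ e.toLinearMap
    have hs : ∀ u v, t u v = t v u := fun u v => by simp [t, hc u v]
    obtain ⟨c, hc'⟩ := hu' (LinearMap.lflip.toLinearMap ∘ₗ t) fun g u v w => h1 m hi g u w v
    have h3 : ∀ u v w, t u w v = c * t u v w := fun u v w => congrArg (fun x => x u v w) hc'
    obtain ⟨x, y, z, h4⟩ : ∃ x y z, t x y z ≠ 0 := by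
      by_contra! h
      exact h0' (by ext; simp [h])
    have a1 : c * c = 1 := mul_right_cancel₀ h4 (by rw [mul_assoc, ← h3, ← h3, one_mul])
    have a2 : c * c * c = 1 := mul_right_cancel₀ h4 (by
      rw [mul_assoc, mul_assoc, ← h3, hs x z, ← h3, hs z y, ← h3, hs y x, one_mul])
    rw [a1, one_mul] at a2
    rw [h3 u v w, a2, one_mul]
  · rintro ⟨t, h0, hc, hi, hu⟩
    refine ⟨t.compr₂ e.symm.toLinearMap, fun h => h0 ?_, fun u v => ?_, h2 t hi,
      fun m hm => (hu _ (h1 m hm)).imp fun c hc => ?_⟩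
    · ext u v : 2
      simpa using congrArg (fun x => e (x u v) _) h
    · simpa using LinearMap.ext fun w => (hc u v w).1
    · ext u v
      simpa using congrArg (fun x => e.symm (x u v)) hc

end Cfsg.Agent.S5541
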