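import Cfsg.Statements.S5543
import Cfsg.Agent.H10.Maj

set_option autoImplicit false
open Cfsg

namespace Cfsg.Agent.S5543

/-- Let V be a finite-dimensional real vector space with a commutative bilinear product and a positive-definite symmetric bilinear form that associates with the product and satisfies the Norton inequality (the Majorana setting of the definitions). Let X be a group of linear automorphisms of V in which every element squares to the identity, and suppose every non-identity element x of X is a Majorana involution with an axial vector a(x) of squared length 1, such that for any two distinct non-identity x, y the product a(x) ∘ a(y) equals (1/8)(a(x) + a(y) − a(xy)) (the dihedral subalgebra of type 2A whose third axis belongs to the involution xy). Then X has order at most 4. -/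
theorem result {V : Type*} [AddCommGroup V] [Module ℝ V] [FiniteDimensional ℝ V] (mul : V →ₗ[ℝ] V →ₗ[ℝ] V) (B : LinearMap.BilinForm ℝ V) (hV : Cfsg.Axial.IsMajoranaAmbient mul B) (X : Subgroup (V ≃ₗ[ℝ] V)) (hX : ∀ x ∈ X, x * x = 1) (ax : (V ≃ₗ[ℝ] V) → V) (hax : ∀ x ∈ X, x ≠ 1 → Cfsg.Axial.IsMajoranaPair mul B x (ax x)) (h1 : ∀ x ∈ X, x ≠ 1 → B (ax x) (ax x) = 1) (h2A : ∀ x ∈ X, ∀ y ∈ X, x ≠ 1 → y ≠ 1 → x ≠ y → mul (ax x) (ax y) = (1 / 8 : ℝ) • (ax x + ax y - ax (x * y))) : Nat.card ↥X ≤ 4 := by
  classical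
  by_contra! h
  haveI : Finite X := Nat.finite_of_card_ne_zero (by omega)
  haveI := Fintype.ofFinite X
  have hex : ∀ s : Finset X, s.card ≤ 4 → ∃ x, x ∉ s := fun s hs => by
    by_contra! h1
    rw [Finset.eq_univ_iff_forall.2 h1, Finset.card_univ, ← Nat.card_eq_fintype_card] at hs
    omega
  obtain ⟨x, hx⟩ := hex {1} (by simp)
  obtain ⟨y, hy⟩ := hex {1, x} (Finset.card_le_two.trans (by omega))
  obtain ⟨z, hz⟩ := hex {1, x, y, x * y} Finset.card_le_four
  simp only [Finset.mem_insert, Finset.mem_singleton, not_or] at hx hy hz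
  have sq : ∀ a : X, a * a = 1 := fun a => Subtype.ext (hX a a.2)
  have sq' : ∀ a b : X, a * (a * b) = b := fun a b => by rw [← mul_assoc, sq, one_mul]
  have cm : ∀ a b : X, a * b = b * a := fun a b => by
    rw [← inv_eq_of_mul_eq_one_right (sq (a * b)), mul_inv_rev, inv_eq_of_mul_eq_one_right (sq a),
      inv_eq_of_mul_eq_one_right (sq b)]
  letI : CommGroup X := { mul_comm := cm }
  have m : ∀ a b : X, a ≠ 1 → b ≠ 1 → a ≠ b →
      mul (ax a) (ax b) = (1 / 8 : ℝ) • (ax a + ax b - ax (a * b : X)) := fun a b h1 h2 h3 =>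
    h2A a a.2 b b.2 (by simpa using h1) (by simpa using h2) (Subtype.coe_ne_coe.2 h3)
  have n1 : ∀ a b : X, a ≠ b → a * b ≠ 1 := fun a b h e => h (by rw [← sq' a b, e, mul_one])
  have w : ∀ a : X, a ≠ 1 → a ≠ x → mul (ax x) (ax a - ax (x * a : X)) =
      (1 / 4 : ℝ) • (ax a - ax (x * a : X)) := fun a h1 h2 => by
    rw [map_sub, m _ _ hx h1 h2.symm, m _ _ hx (n1 _ _ h2.symm) (by simpa using h1), sq']
    module
  have a1 := n1 _ _ (Ne.symm hy.2)
  have a2 := n1 _ _ (Ne.symm hz.2.1)
  have a3 := n1 _ _ (Ne.symm hz.2.2.1)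
  have a4 : y * z ≠ x := fun e => hz.2.2.2 (by rw [← e, mul_right_comm, sq, one_mul])
  have f := (H10.Maj.fus (hax x x.2 (by simpa using hx))).1 (w y hy.1 hy.2) (w z hz.1 hz.2.1)
  have p : mul (ax y - ax (x * y : X)) (ax z - ax (x * z : X)) =
      (-1 / 4 : ℝ) • (ax (y * z : X) - ax (x * (y * z) : X)) := by
    simp only [map_sub, LinearMap.sub_apply]
    rw [m _ _ hy.1 hz.1 (Ne.symm hz.2.2.1), m _ _ a1 hz.1 (Ne.symm hz.2.2.2),
      m _ _ hy.1 a2 fun e => hz.2.2.2 (by rw [e, sq']),
      m _ _ a1 a2 (by simpa using Ne.symm hz.2.2.1), mul_assoc x y z, mul_left_comm y x z,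
      mul_mul_mul_comm, sq, one_mul]
    module
  rw [p, map_smul, w _ a3 a4, map_smul, map_smul, w _ a3 a4] at f
  have g : ax (x * (y * z) : X) = ax (y * z : X) := by
    linear_combination (norm := module) (-64 / 3 : ℝ) • f
  have g2 := m _ _ a3 (n1 _ _ a4.symm) (by simpa using hx)
  rw [mul_left_comm (y * z), sq, mul_one, g, (hax _ (y * z).2 (fun e => a3 (Subtype.ext e))).2.2.1.1.2.1] at g2
  have g3 : ax x = (-6 : ℝ) • ax (y * z : X) := by
    linear_combination (norm := module) (8 : ℝ) • g2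
  have := h1 x x.2 (by simpa using hx)
  rw [g3] at this
  simp only [map_smul, LinearMap.smul_apply, h1 _ (y * z).2 (fun e => a3 (Subtype.ext e))] at this
  norm_num at this

end Cfsg.Agent.S5543
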