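import Cfsg.Statements.S5545
import Cfsg.Agent.H10.Maj

set_option autoImplicit false
open Cfsg

namespace Cfsg.Agent.S5545

/-- Let V be a finite-dimensional real vector space with a commutative bilinear product and a positive-definite symmetric bilinear form that associates with the product and satisfies the Norton inequality (the Majorana setting of the definitions). Let μ₀, μ₁ be commuting Majorana involutions with distinct axial vectors a₀ ≠ a₁ of squared length 1, each involution having no other axial vector. Then either a₀ and a₁ are orthogonal with a₀ ∘ a₁ = 0 (type 2B), or their inner product is 1/8 and, with a₂ = a₀ + a₁ − 8 a₀ ∘ a₁, the vector a₂ is an idempotent and a₀ ∘ a₂ = (1/8)(a₀ + a₂ − a₁), a₁ ∘ a₂ = (1/8)(a₁ + a₂ − a₀) (type 2A: the three idempotents span a subalgebra with aᵢ ∘ aⱼ = (1/8)(aᵢ + aⱼ − aₖ)). -/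
theorem result {V : Type*} [AddCommGroup V] [Module ℝ V] [FiniteDimensional ℝ V] (mul : V →ₗ[ℝ] V →ₗ[ℝ] V) (B : LinearMap.BilinForm ℝ V) (hV : Cfsg.Axial.IsMajoranaAmbient mul B) (μ₀ μ₁ : V ≃ₗ[ℝ] V) (a₀ a₁ : V) (h₀ : Cfsg.Axial.IsMajoranaPair mul B μ₀ a₀) (h₁ : Cfsg.Axial.IsMajoranaPair mul B μ₁ a₁) (hu₀ : ∀ a : V, Cfsg.Axial.IsMajoranaPair mul B μ₀ a → a = a₀) (hu₁ : ∀ a : V, Cfsg.Axial.IsMajoranaPair mul B μ₁ a → a = a₁) (hn₀ : B a₀ a₀ = 1) (hn₁ : B a₁ a₁ = 1) (hc : μ₀ * μ₁ = μ₁ * μ₀) (hne : a₀ ≠ a₁) : (B a₀ a₁ = 0 ∧ mul a₀ a₁ = 0) ∨ (B a₀ a₁ = 1 / 8 ∧ mul (a₀ + a₁ - (8 : ℝ) • mul a₀ a₁) (a₀ + a₁ - (8 : ℝ) • mul a₀ a₁) = a₀ + a₁ - (8 : ℝ) • mul a₀ a₁ ∧ mul a₀ (a₀ + a₁ - (8 : ℝ) • mul a₀ a₁) = (1 / 8 : ℝ) • (a₀ + (a₀ + a₁ - (8 : ℝ) • mul a₀ a₁) - a₁) ∧ mul a₁ (a₀ + a₁ - (8 : ℝ) • mul a₀ a₁) = (1 / 8 : ℝ) • (a₁ + (a₀ + a₁ - (8 : ℝ) • mul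 a₀ a₁) - a₀)) := by
  have e₀ : μ₁ a₀ = a₀ := hu₀ _ (H10.Maj.conj h₀ h₁.1 hc.symm)
  have e₁ : μ₀ a₁ = a₁ := hu₁ _ (H10.Maj.conj h₁ h₀.1 hc)
  have i₀ := h₀.2.2.1.1.2.1
  have i₁ := h₁.2.2.1.1.2.1
  obtain ⟨k1, k2⟩ := H10.Maj.key hV h₀ hn₀ e₁ i₁
  obtain ⟨k3, k4⟩ := H10.Maj.key hV h₁ hn₁ e₀ i₀
  rw [hV.1 a₁ a₀, hV.2.1 a₁ a₀] at k3 k4
  replace k2 := k2 k3
  replace k4 := k4 k1
  have h5 : (B a₀ a₁ * (8 * B a₀ a₁ - 1)) • (a₀ - a₁) = 0 := by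
    linear_combination (norm := module) k4 - k2
  rcases mul_eq_zero.1 ((smul_eq_zero.1 h5).resolve_right (sub_ne_zero.2 hne)) with h | h
  · refine .inl ⟨h, by_contra fun h6 => (hV.2.2.1 _ h6).ne' ?_⟩
    rw [← hV.2.2.2.1, k3, h]
    simp [hV.2.2.2.1, i₀, h]
  · have h7 : B a₀ a₁ = 1 / 8 := by linarith
    have hc := hV.1
    rw [h7] at k1 k2 k3
    generalize hs : mul a₀ a₁ = s at *
    refine .inr ⟨h7, ?_, ?_, ?_⟩ <;> simp only [map_add, map_sub, map_smul, LinearMap.add_apply,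
      LinearMap.sub_apply, LinearMap.smul_apply, i₀, i₁, hc a₁ a₀, hc s a₀, hc s a₁, hs, k1, k3]
    · linear_combination (norm := module) (4 : ℝ) • k2
    · module
    · module

end Cfsg.Agent.S5545
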