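import Cfsg.Statements.S5546
import Cfsg.Agent.H15.Conway2

set_option autoImplicit false
open Cfsg

namespace Cfsg.Agent.S5546

open H15 Finset MulAction
open scoped Pointwise

abbrev V : Type := GolayPt → ZMod 13

def red : Lam →+ V where
  toFun v i := (cf v i : ZMod 13)
  map_zero' := by ext i; simp
  map_add' v w := by ext i; simp

theorem red_e8 (i : GolayPt) : (5 : ZMod 13) • red (e8 i 1) = Pi.single i 1 := by
  ext j
  show (5 : ZMod 13) * ((Pi.single i (8 * 1 : ℤ) : GolayPt → ℤ) j : ZMod 13) = _
  by_cases h : j = i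
  · subst h; simp only [Pi.single_eq_same]; rfl
  · simp [Pi.single_eq_of_ne h]

theorem red_surj (x : V) : ∃ v, red v = x := by
  refine ⟨∑ i, (5 * x i).val • e8 i 1, ?_⟩
  rw [map_sum]
  conv_rhs => rw [← univ_sum_single x]
  refine sum_congr rfl fun i _ => ?_
  rw [map_nsmul, ← Nat.cast_smul_eq_nsmul (ZMod 13), ZMod.natCast_zmod_val, mul_comm, mul_smul, red_e8,
    ← Pi.single_smul, smul_eq_mul, mul_one]

noncomputable def rho (g : Co0) : V →ₗ[ZMod 13] V :=
  Fintype.linearCombination (ZMod 13) fun i => (5 : ZMod 13) • red (g • e8 i 1)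

theorem rho_red (g : Co0) (v : Lam) : rho g (red v) = red (g • v) := by
  have h := congrArg (fun x => (5 : ZMod 13) • red (g • x)) (eight_smul_eq v)
  simp only [co_zsmul, co_sum, map_zsmul, map_sum, smul_sum] at h
  rw [← Int.cast_smul_eq_zsmul (ZMod 13), smul_smul, show (5 : ZMod 13) * ((8 : ℤ) : ZMod 13) = 1 from rfl,
    one_smul] at h
  rw [h, rho, Fintype.linearCombination_apply]
  refine sum_congr rfl fun i _ => ?_
  rw [← Int.cast_smul_eq_zsmul (ZMod 13), smul_comm]; rfl

def fU : V →ₗ[ZMod 13] ZMod 13 where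
  toFun x := x (pt 23) + x (pt 0)
  map_add' x y := by simp only [Pi.add_apply]; ring
  map_smul' a x := by simp only [Pi.smul_apply, smul_eq_mul, RingHom.id_apply]; ring

theorem fU_red (v : Lam) : 4 * fU (red v) = (Cfsg.dotInt (cf lU) (cf v) : ZMod 13) := by
  have : cf lU = pr (pt 23) (pt 0) 4 4 := vecU_eq
  rw [this, pr, dotInt_add_left, dotInt_single_left, dotInt_single_left]
  push_cast
  rw [← mul_add]; rfl

theorem fU_rho (g : sCo2) (x : V) : fU (rho g x) = fU x := by
  obtain ⟨v, rfl⟩ := red_surj x
  have : (4 : ZMod 13) * fU (rho g (red v)) = 4 * fU (red v) := by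
    rw [rho_red, fU_red, fU_red, co_dot_fix g.2]
  have h := congrArg (10 * ·) this
  simp only [← mul_assoc, show (10 : ZMod 13) * 4 = 1 from rfl, one_mul] at h
  exact h

noncomputable def rho2 : sCo2 →* Module.End (ZMod 13) (LinearMap.ker fU) where
  toFun g := (rho g).restrict fun x hx => by rw [LinearMap.mem_ker, fU_rho]; exact hx
  map_one' := by
    ext1 ⟨x, hx⟩
    obtain ⟨v, rfl⟩ := red_surj x
    exact Subtype.ext ((rho_red _ v).trans (congrArg red (one_smul _ v)))
  map_mul' g h := by
    ext1 ⟨x, hx⟩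
    obtain ⟨v, rfl⟩ := red_surj x
    refine Subtype.ext ((rho_red _ v).trans ?_)
    show _ = rho g (rho h (red v))
    rw [rho_red, rho_red, ← mul_smul]; rfl

theorem rho2_inj {g : sCo2} (h : rho2 g = 1) : g = 1 := by
  refine Subtype.ext (co_ext fun i => Subtype.ext ?_)
  have h1 : ∀ x, rho g x = x := fun x => by
    have e : fU (x - (5 * fU x) • red lU) = 0 := by
      rw [map_sub, map_smul, show fU (red lU) = 8 by decide +kernel, smul_eq_mul, mul_right_comm,
        show (5 : ZMod 13) * 8 = 1 from rfl, one_mul, sub_self]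
    have := congrArg Subtype.val (LinearMap.congr_fun h ⟨_, e⟩)
    change rho g (x - (5 * fU x) • red lU) = x - (5 * fU x) • red lU at this
    rwa [map_sub, map_smul, rho_red, g.2, sub_left_inj] at this
  have h2 := (rho_red g (e8 i 1)).symm.trans (h1 _)
  have h3 : ∀ j, (13 : ℤ) ∣ cf (g.1 • e8 i 1) j - cf (e8 i 1) j := fun j =>
    (ZMod.intCast_eq_intCast_iff_dvd_sub _ _ 13).1 (congrFun h2 j).symm
  choose z hz using h3
  have e : cf (g.1 • e8 i 1) - cf (e8 i 1) = (13 : ℤ) • z := funext hz
  rw [OneMemClass.coe_one, one_smul]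
  exact eq_of_cong (mem_leech_of_odd_smul (p := 13) rfl (e ▸ sub_mem (g.1 • e8 i 1).2 (e8 i 1).2))
    (by norm_num) ((co_norm _ _).trans (norm_e8 i)).le (norm_e8 i).le e

/-- The second Conway group (the stabilizer in the Leech lattice automorphism group of the short vector fixed in the definitions) is isomorphic to a subgroup of the general linear group of degree 23 over the field with 13 elements: there is an injective homomorphism into it. -/
theorem result : ∃ f : ↥Cfsg.Spor.Co2 →* GL (Fin 23) (ZMod 13), Function.Injective f := by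

  haveI : Fact (Nat.Prime 13) := ⟨by norm_num⟩
  have hr : Module.finrank (ZMod 13) (LinearMap.ker fU) = 23 := by
    have h1 := fU.finrank_range_add_finrank_ker
    have h2 : LinearMap.range fU = ⊤ := LinearMap.range_eq_top.2 fun a =>
      ⟨Pi.single (pt 23) a, by
        show (Pi.single (pt 23) a : V) (pt 23) + (Pi.single (pt 23) a : V) (pt 0) = a
        rw [Pi.single_eq_same, Pi.single_eq_of_ne (by decide), add_zero]⟩
    rw [h2, finrank_top, Module.finrank_self, Module.finrank_fintype_fun_eq_card,
      show Fintype.card GolayPt = 24 from rfl] at h1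
    omega
  let b := Module.finBasisOfFinrankEq _ _ hr
  let φ := (LinearMap.toMatrixAlgEquiv b).toMulEquiv.toMonoidHom.comp rho2
  refine ⟨φ.toHomUnits.comp co2Equiv.symm.toMonoidHom, fun x y e => co2Equiv.symm.injective ?_⟩
  refine (injective_iff_map_eq_one φ.toHomUnits).2 (fun g hg => rho2_inj ?_) e
  exact (LinearMap.toMatrixAlgEquiv b).injective ((congrArg Units.val hg).trans (map_one _).symm)

end Cfsg.Agent.S5546
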