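import Cfsg.Statements.S5548
import Cfsg.Agent.H15.Mod

set_option autoImplicit false
open Cfsg

namespace Cfsg.Agent.S5548

open H15 Finset
open scoped Pointwise

/-- For the automorphism group of the length-24 binary Golay code of the definitions (the Mathieu group of degree 24) acting on binary words of length 24 by permuting coordinates, the only invariant subspaces of the space of all words are: zero, the span of the all-ones word, the code itself, the even-weight words, and the whole space. (So the permutation module has a unique composition series.) -/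
theorem result (W : Submodule (ZMod 2) (Cfsg.GolayPt → ZMod 2)) (hW : ∀ σ ∈ Cfsg.M24, ∀ w ∈ W, (fun p => w (σ.symm p)) ∈ W) : W = ⊥ ∨ W = Submodule.span (ZMod 2) {fun _ => (1 : ZMod 2)} ∨ W = Cfsg.golayCode ∨ (W : Set (Cfsg.GolayPt → ZMod 2)) = {w | ∑ p, w p = 0} ∨ W = ⊤ := by
  have hB := invF_of hW
  have hm : ∀ w, Cfsg.support₂ w ∈ Cfsg.supports (W : Set (Cfsg.GolayPt → ZMod 2)) ↔ w ∈ W :=
    fun w => mem_supports_iff
  have h1 : W ≤ Cfsg.golayCode → W ≤ Submodule.span (ZMod 2) {fun _ => (1 : ZMod 2)} ∨
      W = Cfsg.golayCode := fun hle => by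
    refine or_iff_not_imp_left.2 fun h => le_antisymm hle fun w hw => ?_
    obtain ⟨v, h2, h3⟩ := SetLike.not_le_iff_exists.1 h
    refine (hm w).1 (hB.cw_le ((hm v).2 h2) (support_mem_cw.2 (hle h2)) (fun e => h3 ?_)
      (fun e => h3 ?_) (support_mem_cw.2 hw))
    · rw [support₂_inj (e.trans support_zero.symm)]; exact zero_mem _
    · rw [support₂_inj (e.trans support_one.symm)]; exact Submodule.mem_span_singleton_self _
  by_cases hle : W ≤ Cfsg.golayCode
  · rcases h1 hle with h | h
    · by_cases h0 : (fun _ => (1 : ZMod 2)) ∈ W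
      · exact Or.inr (Or.inl (le_antisymm h ((Submodule.span_singleton_le_iff_mem _ _).2 h0)))
      · refine Or.inl (eq_bot_iff.2 fun w hw => ?_)
        obtain ⟨a, rfl⟩ := Submodule.mem_span_singleton.1 (h hw)
        rcases zmod2_cases a with rfl | rfl
        · simp
        · exact absurd (by simpa using hw) h0
    · exact Or.inr (Or.inr (Or.inl h))
  obtain ⟨v, h2, h3⟩ := SetLike.not_le_iff_exists.1 hle
  have h4 := hB.even_of_not_le ((hm v).2 h2) (fun h => h3 (support_mem_cw.1 h))
  by_cases h5 : ∀ w ∈ W, Even (Cfsg.support₂ w).card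
  · exact Or.inr (Or.inr (Or.inr (Or.inl (Set.ext fun w => ⟨fun h =>
      (sum_eq_zero_iff_even w).2 (h5 w h), fun h => (hm w).1 (h4 _ ((sum_eq_zero_iff_even w).1 h))⟩))))
  push Not at h5
  obtain ⟨u, h6, h7⟩ := h5
  refine Or.inr (Or.inr (Or.inr (Or.inr (eq_top_iff.2 fun w _ => ?_))))
  by_cases h8 : Even (Cfsg.support₂ w).card
  · exact (hm w).1 (h4 _ h8)
  · have := (hm (w - u)).1 (h4 _ (by
      have := card_symmDiff_add (Cfsg.support₂ w) (Cfsg.support₂ u)
      rw [support₂_sub, Nat.even_iff]
      rw [Nat.not_even_iff] at h7 h8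
      omega))
    simpa using W.add_mem this h6

end Cfsg.Agent.S5548
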