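import Cfsg.Statements.S5549
import Cfsg.Agent.H15.Cocode

set_option autoImplicit false
open Cfsg

namespace Cfsg.Agent.S5549


open H15 Finset
open scoped symmDiff Pointwise

theorem star {ι α : Type*} [DecidableEq ι] [DecidableEq α] (I : Finset ι) (hI : 3 < I.card)
    (D : ι → Finset α) (h2 : ∀ i ∈ I, (D i).card = 2)
    (h1 : ∀ i ∈ I, ∀ j ∈ I, i ≠ j → (D i ∩ D j).card = 1) : ∃ q, ∀ i ∈ I, q ∈ D i := by
  have k : ∀ i ∈ I, ∀ j ∈ I, i ≠ j → ∀ x y, x ≠ y → x ∈ D j → y ∈ D j → (x ∈ D i ↔ y ∉ D i) := by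
    intro i hi j hj h x y hxy hx hy
    have e : D j = {x, y} := (eq_of_subset_of_card_le (by simp [insert_subset_iff, hx, hy])
      (by rw [h2 j hj, card_pair hxy])).symm
    have := h1 i hi j hj h
    rw [e] at this
    by_cases a : x ∈ D i <;> by_cases b : y ∈ D i <;> simp_all [inter_insert_of_mem]
  by_contra! h
  obtain ⟨a, ha⟩ := card_pos.1 (show 0 < I.card by omega)
  obtain ⟨u, v, uv, e⟩ := card_eq_two.1 (h2 a ha)
  have hu : u ∈ D a := by simp [e]
  have hv : v ∈ D a := by simp [e]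
  obtain ⟨i, hi, ui⟩ := h u
  obtain ⟨j, hj, vj⟩ := h v
  have vi : v ∈ D i := by simpa [ui] using k i hi a ha (fun e => ui (e ▸ hu)) u v uv hu hv
  have uj : u ∈ D j := (k j hj a ha (fun e => vj (e ▸ hv)) u v uv hu hv).2 vj
  obtain ⟨w, hw⟩ := card_pos.1 ((h1 i hi j hj fun e => ui (e ▸ uj)).ge)
  obtain ⟨l, hl, hn⟩ := exists_mem_notMem_of_card_lt_card (card_le_three.trans_lt hI :
    ({a, i, j} : Finset ι).card < _)
  simp only [mem_insert, mem_singleton, not_or, mem_inter] at hn hw
  have := k l hl a ha hn.1 u v uv hu hv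
  have := k l hl i hi hn.2.1 v w (fun e => vj (e ▸ hw.2)) vi hw.1
  have := k l hl j hj hn.2.2 u w (fun e => ui (e ▸ hw.1)) uj hw.2
  tauto

/-- words of weight 8 or 16 -/
def Oc (c : golayCode) : Prop := (support₂ c.1).card = 8 ∨ (support₂ c.1).card = 16
/-- how many of them lie outside the kernel -/
noncomputable def N (φ : golayCode → ZMod 2) : ℕ := {c | Oc c ∧ φ c = 1}.ncard
/-- sum of coordinates -/
def ev (s : Finset GolayPt) (c : golayCode) : ZMod 2 := ∑ p ∈ s, c.1 p

theorem ev_eq (s : Finset GolayPt) (c : golayCode) : ev s c = ((support₂ c.1 ∩ s).card : ℕ) := by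
  rw [ev, inter_comm, ← filter_mem_eq_inter, card_filter, Nat.cast_sum]
  exact sum_congr rfl fun p _ => by rcases zmod2_cases (c.1 p) with h | h <;> simp [support₂, h]

theorem ev_add (s t : Finset GolayPt) (c : golayCode) : ev (s ∆ t) c = ev s c + ev t c := by
  have k : ∀ s, ev s c = ∑ p, if p ∈ s then c.1 p else 0 := fun s => by simp [ev]
  rw [k, k, k, ← sum_add_distrib]
  exact sum_congr rfl fun p _ => by
    by_cases a : p ∈ s <;> by_cases b : p ∈ t <;> simp [mem_symmDiff, a, b, CharTwo.add_self_eq_zero]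

theorem ev_cw {s t : Finset GolayPt} (h : s ∆ t ∈ cw) : ev s = ev t := funext fun c => by
  have := ev_add s t c
  rw [ev_eq, (ZMod.natCast_eq_zero_iff _ _).2 (Nat.dvd_of_mod_eq_zero
    (cw_inter_even (support_mem_cw.2 c.2) h))] at this
  exact CharTwo.add_eq_zero.1 this.symm

theorem rep (u : Finset GolayPt) : ∃ s : Finset GolayPt, s.card ≤ 4 ∧ u ∆ s ∈ cw := by
  obtain ⟨m, hm, rfl⟩ := exists_S u
  exact ⟨_, card_dec_le (syn_lt hm), symmDiff_dec hm⟩

theorem N_S (m : ℕ) : N (ev (S m)) = cntTo2 (fun a => band (Nat.beq (pc (enc a)) 8 ||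
    Nat.beq (pc (enc a)) 16) (Nat.beq (pc (enc a &&& m) % 2) 1)) 64 64 := by
  rw [N, ← Set.ncard_image_of_injective _ (f := fun c : golayCode => support₂ c.1)
    fun _ _ h => Subtype.ext (support₂_inj h)]
  refine ncard_cw (fun n => band (Nat.beq (pc n) 8 || Nat.beq (pc n) 16) (Nat.beq (pc (n &&& m) % 2) 1))
    (by rintro _ ⟨c, -, rfl⟩; exact support_mem_cw.2 c.2) fun n hn => ?_
  have e : support₂ (⟨W n, W_mem_of_isC hn⟩ : golayCode).1 = S n := support_W n
  rw [← e, (Function.Injective.mem_set_image fun _ _ h => Subtype.ext (support₂_inj h)), Set.mem_setOf,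
    ev_eq, Oc, e, card_S (isC_lt hn), card_S_and (isC_lt hn), ZMod.natCast_eq_one_iff_odd, Nat.odd_iff]
  simp only [band_iff, Bool.or_eq_true, Nat.beq_eq]

theorem supp_comp (σ : Equiv.Perm GolayPt) (w : GolayPt → ZMod 2) :
    support₂ (fun p => w (σ.symm p)) = σ • support₂ w := by
  ext p
  rw [← inv_smul_mem_iff]
  simp [support₂]

theorem supp_add (w : GolayPt → ZMod 2) : support₂ (w + fun _ => 1) = (support₂ w)ᶜ := by
  ext p
  rcases zmod2_cases (w p) with h | h <;> simp [support₂, h, CharTwo.add_self_eq_zero]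

/-- Let X be a group of linear automorphisms of the length-24 binary Golay code of the definitions that fix the all-ones word, containing the coordinate-permutation action of every element of the code's automorphism group (the Mathieu group of degree 24), and such that every element of X sends each codeword into its orbit under that Mathieu group up to adding the all-ones word (X has the same orbits as the Mathieu group on the code modulo the all-ones word). Then every element of X agrees, modulo the all-ones word, with the action of a single element of the Mathieu group: X induces exactly the Mathieu group on the code modulo the all-ones word. -/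
theorem result (X : Subgroup (↥Cfsg.golayCode ≃ₗ[ZMod 2] ↥Cfsg.golayCode)) (h1 : ∀ x ∈ X, ∀ e : ↥Cfsg.golayCode, (e : (Cfsg.GolayPt → ZMod 2)) = (fun _ => (1 : ZMod 2)) → x e = e) (hM : ∀ σ ∈ Cfsg.M24, ∃ x ∈ X, ∀ c : ↥Cfsg.golayCode, ((x c : ↥Cfsg.golayCode) : (Cfsg.GolayPt → ZMod 2)) = fun p => (c : (Cfsg.GolayPt → ZMod 2)) (σ.symm p)) (horb : ∀ x ∈ X, ∀ c : ↥Cfsg.golayCode, ∃ σ ∈ Cfsg.M24, ((x c : ↥Cfsg.golayCode) : (Cfsg.GolayPt → ZMod 2)) = (fun p => (c : (Cfsg.GolayPt → ZMod 2)) (σ.symm p)) ∨ ((x c : ↥Cfsg.golayCode) : (Cfsg.GolayPt → ZMod 2)) = (fun p => (c : (Cfsg.GolayPt → ZMod 2)) (σ.symm p)) + fun _ => (1 : ZMod 2)) (x : ↥Cfsg.golayCode ≃ₗ[ZMod 2] ↥Cfsg.golayCode) (hx : x ∈ X) : ∃ σ ∈ Cfsg.M24, ∀ c : ↥Cfsg.golayCode, ((x c : ↥Cfsg.golayCode) : (Cfsg.GolayPt → ZMod 2)) = (fun p => (c : (Cfsg.GolayPt → ZMod 2)) (σ.symm p)) ∨ ((x c : ↥Cfsg.golayCode) : (Cfsg.GolayPt → ZMod 2)) = (fun p => (c : (Cfsg.GolayPt → ZMod 2)) (σ.symm p)) + fun _ => (1 : ZMod 2) := by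

  have oc : ∀ y ∈ X, ∀ c, Oc c → Oc (y c) := fun y hy c h => by
    obtain ⟨σ, -, e | e⟩ := horb y hy c <;>
      simp only [Oc, e, supp_add, supp_comp, card_compl, card_pt, card_smul_finset] at h ⊢ <;> omega
  have inv : ∀ y ∈ X, ∀ φ, N (fun c => φ (y c)) = N φ := fun y hy φ =>
    Set.ncard_congr (fun c _ => y c) (fun c h => ⟨oc y hy c h.1, h.2⟩) (fun _ _ _ _ h => y.injective h)
      fun c h => ⟨y.symm c, ⟨oc y⁻¹ (inv_mem hy) c h.1, by simpa using h.2⟩, by simp⟩
  have tr : ∀ s t : Finset GolayPt, s.card ≤ 5 → s.card = t.card → N (ev s) = N (ev t) := by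
    intro s t h1 h2
    obtain ⟨σ, hσ, rfl⟩ := m24_trans_sets h1 h2
    obtain ⟨y, hy, e⟩ := hM σ hσ
    rw [← inv y hy (ev (σ • s))]
    refine congrArg N (funext fun c => ?_)
    rw [ev_eq, ev_eq, e, supp_comp, ← smul_finset_inter, card_smul_finset]
  have n0 : N (ev ∅) = 0 := by simp [N, ev]
  have n2 : ∀ s : Finset GolayPt, s.card = 2 → N (ev s) = 704 := fun s h =>
    (tr s (S 3) (by omega) (h.trans (by decide))).trans ((N_S 3).trans (by decide +kernel))
  have n4 : ∀ s : Finset GolayPt, s.card = 4 → N (ev s) = 768 := fun s h =>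
    (tr s (S 15) (by omega) (h.trans (by decide))).trans ((N_S 15).trans (by decide +kernel))
  let o : golayCode := ⟨fun _ => 1, Submodule.subset_span (.inr rfl)⟩
  have cl : ∀ s : Finset GolayPt, s.card ≤ 4 → ev s o = 0 → s = ∅ ∨ s.card = 2 ∨ s.card = 4 := by
    intro s h e
    simp only [ev, o, sum_const, nsmul_eq_mul, mul_one, ZMod.natCast_eq_zero_iff] at e
    rw [← card_eq_zero]
    omega
  have orth : ∀ u : Finset GolayPt, (∀ c, ev u c = 0) → u ∈ cw := fun u h => by
    obtain ⟨s, h1, h2⟩ := rep u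
    have e : N (ev s) = 0 := by simp [N, ← ev_cw h2, h]
    rcases cl s h1 (ev_cw h2 ▸ h o) with rfl | h3 | h3
    exacts [(symmDiff_bot u ▸ h2 :), by simp [n2 s h3] at e, by simp [n4 s h3] at e]
  have du : ∀ i j, i ≠ j → ∃ s : Finset GolayPt, s.card = 2 ∧ ∀ c, ev s c = (x c).1 i + (x c).1 j := by
    intro i j h
    obtain ⟨ψ, e⟩ := LinearMap.exists_extend (((LinearMap.proj (R := ZMod 2) (φ := fun _ => ZMod 2) i +
      LinearMap.proj (φ := fun _ => ZMod 2) j).comp golayCode.subtype).comp x.toLinearMap)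
    obtain ⟨s, h3, h2⟩ := rep (support₂ fun p => ψ (Pi.single p 1))
    have e1 : ∀ c, ev s c = (x c).1 i + (x c).1 j := fun c => by
      rw [← ev_cw h2, ← show ψ c.1 = (x c).1 i + (x c).1 j from congr($e c), LinearMap.pi_apply_eq_sum_univ, ev, support₂,
        sum_filter]
      refine sum_congr rfl fun p _ => ?_
      rw [show (fun j => if p = j then (1 : ZMod 2) else 0) = Pi.single p 1 from
        funext fun j => by simp [Pi.single_apply, eq_comm]]
      rcases zmod2_cases (ψ (Pi.single p 1)) with h | h <;> simp [h]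
    have e2 : N (ev s) = 704 := by
      rw [← n2 {i, j} (card_pair h), ← inv x hx (ev {i, j})]
      exact congrArg N (funext fun c => by rw [e1, ev, sum_pair h])
    refine ⟨s, ?_, e1⟩
    rcases cl s h3 (by rw [e1, h1 x hx o rfl]; rfl) with rfl | h4 | h4
    exacts [by omega, h4, by have := n4 s h4; omega]
  choose! D d2 de using du none
  obtain ⟨q, hq⟩ := star (univ.erase none) (by decide) D (fun i hi => d2 i (ne_of_mem_erase hi).symm)
    fun i hi j hj h => by
      obtain ⟨s, s2, se⟩ := du i j h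
      have a := d2 i (ne_of_mem_erase hi).symm
      have b := d2 j (ne_of_mem_erase hj).symm
      have c := card_symmDiff_add (D i) (D j)
      rw [eq_of_symmDiff_cw (s := D i ∆ D j) (t := s) (orth _ fun c => ?_) (by omega)] at c
      · omega
      · rw [ev_add, ev_add, se, de i (ne_of_mem_erase hi).symm, de j (ne_of_mem_erase hj).symm]
        generalize (x c).1 i = a, (x c).1 j = b, (x c).1 none = d
        revert a b d
        decide
  have ex : ∀ i, ∃ t, ∀ c : golayCode, (x c).1 i = c.1 t + ((x c).1 none + c.1 q) := fun i => by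
    have z : ∀ a b c d : ZMod 2, a + b = c + d → d = b + (c + a) := by decide
    rcases eq_or_ne none i with rfl | h
    · exact ⟨q, fun c => z _ _ _ _ (by simp [CharTwo.add_self_eq_zero])⟩
    obtain ⟨t, e⟩ := card_eq_one.1 (show ((D i).erase q).card = 1 by
      rw [card_erase_of_mem (hq i (by simp [h.symm])), d2 i h])
    refine ⟨t, fun c => z _ _ _ _ ?_⟩
    rw [← de i h, ev, ← add_sum_erase _ _ (hq i (by simp [h.symm])), e, sum_singleton]
  choose τ e using ex
  have hτ : Function.Injective τ := fun i j h => by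
    by_contra k
    have := n2 {i, j} (card_pair k)
    rw [← inv x hx] at this
    simp [N, ev, sum_pair k, e i, e j, h, CharTwo.add_self_eq_zero] at this
  have f : ∀ c : golayCode, (x c).1 = (fun p => c.1 (τ p)) ∨ (x c).1 = (fun p => c.1 (τ p)) + fun _ => 1 :=
    fun c => (zmod2_cases ((x c).1 none + c.1 q)).imp (fun h => funext fun p => by rw [e, h, add_zero])
      fun h => funext fun p => by rw [e, h]; rfl
  refine ⟨(Equiv.ofBijective τ hτ.bijective_of_finite).symm, mem_M24_of_mapsTo ?_, f⟩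
  rintro _ ⟨w, hw, rfl⟩
  have := support_mem_cw.2 (x ⟨w, hw⟩).2
  rw [← supp_comp]
  rcases f ⟨w, hw⟩ with h | h <;> rw [h] at this
  exacts [this, by simpa [supp_add] using cw_compl this]

end Cfsg.Agent.S5549
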