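import Cfsg.Statements.S5550
import Cfsg.Agent.H15.Mod

set_option autoImplicit false
open Cfsg

namespace Cfsg.Agent.S5550

open H15 Finset
open scoped Pointwise

/-- Let u be a word of the length-24 binary Golay code of the definitions (possibly zero or all-ones) and w any binary word of length 24 outside the code. Then some automorphism of the code (a coordinate permutation preserving it) fixes u but moves w to a word not congruent to w modulo the code: the stabilizer of a codeword fixes no non-zero element of the quotient of the space of all words by the code. -/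
theorem result (u : (Cfsg.GolayPt → ZMod 2)) (hu : u ∈ Cfsg.golayCode) (w : (Cfsg.GolayPt → ZMod 2)) (hw : w ∉ Cfsg.golayCode) : ∃ σ ∈ Cfsg.M24, (fun p => u (σ.symm p)) = u ∧ (fun p => w (σ.symm p)) - w ∉ Cfsg.golayCode := by
  have h1 := support_mem_cw.2 hu
  obtain ⟨v, h2, h3⟩ : ∃ v, (v ∈ Cfsg.octads ∨ v ∈ Cfsg.dodecads) ∧
      ∀ σ : Equiv.Perm Cfsg.GolayPt, σ • v = v → σ • Cfsg.support₂ u = Cfsg.support₂ u := by
    rcases cw_card h1 with e | e | e | e | e
    · exact ⟨_, Or.inl O0_mem, fun σ _ => by rw [card_eq_zero.1 e, smul_finset_empty]⟩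
    · exact ⟨_, Or.inl ⟨h1, e⟩, fun _ h => h⟩
    · exact ⟨_, Or.inr ⟨h1, e⟩, fun _ h => h⟩
    · exact ⟨(Cfsg.support₂ u)ᶜ, Or.inl ⟨cw_compl h1, by rw [card_compl, e, card_pt]⟩,
        fun _ h => by rwa [smul_finset_compl', compl_inj_iff] at h⟩
    · exact ⟨_, Or.inl O0_mem, fun σ _ => by
        rw [eq_univ_of_card _ (e.trans card_pt.symm), smul_finset_univ]⟩
  have h4 : 1 < v.card := by rcases h2 with h | h <;> rw [h.2] <;> norm_num
  obtain ⟨x, hx⟩ := card_pos.1 (lt_trans one_pos h4)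
  obtain ⟨t, h5, h6, h7⟩ := exists_small_rep (fun h => hw (support_mem_cw.1 h)) x
  obtain ⟨σ, h8, h9, h10⟩ : ∃ σ ∈ Cfsg.M24, σ • v = v ∧ symmDiff (σ • t) t ∉ cw := by
    rcases h7 with h | h
    · obtain ⟨y, hy⟩ := h6
      obtain ⟨z, h7, h8⟩ := exists_mem_ne h4 y
      obtain ⟨σ, h9, h10, -, h11⟩ := exists_move h2 h7 h8 (t := t) (by omega)
      refine ⟨σ, h9, h10, fun e => h11 ?_⟩
      rwa [← eq_of_symmDiff_cw e (by rw [card_smul_finset]; omega), apply_mem_smul_iff]
    · obtain ⟨y, hy, h8⟩ := exists_mem_ne (s := t) (by omega) x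
      obtain ⟨σ, h9, h10, h12, h11⟩ := exists_move h2 hx h8.symm h.1.le
      refine ⟨σ, h9, h10, fun e => h11 ?_⟩
      have := card_pos.2 ⟨x, mem_inter.2 ⟨h12 ▸ (apply_mem_smul_iff σ _ _).2 h.2, h.2⟩⟩
      rwa [← eq_of_symmDiff_cw e (by rw [card_smul_finset]; omega), apply_mem_smul_iff]
  refine ⟨σ, h8, support₂_inj ((support_act σ u).trans (h3 σ h9)), fun h => h10 ?_⟩
  rw [← support_mem_cw, support₂_sub, support_act] at h
  have := cw_symmDiff h (cw_symmDiff (smul_mem_cw h8 h5) h5)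
  rw [smul_finset_symmDiff] at this
  rwa [symmDiff_symmDiff_symmDiff_comm, symmDiff_symmDiff_cancel_left,
    symmDiff_symmDiff_cancel_left] at this

end Cfsg.Agent.S5550
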