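import Cfsg.Statements.S5552
import Cfsg.Agent.H15.Conway2

set_option autoImplicit false
open Cfsg

namespace Cfsg.Agent.S5552

open H15 Finset MulAction
open scoped Pointwise

def a1 : Lam := ⟨pr (pt 0) (pt 1) 4 4, pr_mem _ _ (by simp) (by simp)⟩
def a2 : Lam := ⟨pr (pt 0) (pt 2) (-4) 4, pr_mem _ _ (by simp) (by simp)⟩
def a3 : Lam := ⟨pr (pt 2) (pt 3) (-4) 4, pr_mem _ _ (by simp) (by simp)⟩
def a4 : Lam := ⟨pr (pt 0) (pt 2) (-4) (-4), pr_mem _ _ (by simp) (by simp)⟩
def a5 : Lam := ⟨od ∅ (pt 1), od_mem cw_empty _⟩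

/-- On the Leech lattice of the definitions, let Q be a function to the field with two elements that is constant on cosets of twice the lattice, is a quadratic form there (Q(u+v+w) + Q(u) + Q(v) + Q(w) = Q(u+v) + Q(u+w) + Q(v+w) for all u, v, w), is invariant under every lattice automorphism, and is not identically zero. Then Q(v) is the squared length of v divided by 16, reduced modulo 2, for every lattice vector v (squared lengths of lattice vectors are multiples of 16). -/
theorem result (Q : ↥Cfsg.leechLattice → ZMod 2) (hcoset : ∀ v w : ↥Cfsg.leechLattice, Q (v + (w + w)) = Q v) (hquad : ∀ u v w : ↥Cfsg.leechLattice, Q (u + v + w) + Q u + Q v + Q w = Q (u + v) + Q (u + w) + Q (v + w)) (hinv : ∀ (g : ↥Cfsg.Co0) (v : ↥Cfsg.leechLattice), Q (g • v) = Q v) (hne : ∃ v : ↥Cfsg.leechLattice, Q v ≠ 0) (v : ↥Cfsg.leechLattice) : Q v = ((Cfsg.sqNorm (v : Cfsg.GolayPt → ℤ) / 16 : ℤ) : ZMod 2) := by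

  have h0 : Q 0 = 0 := by
    have := hquad 0 0 0
    simp only [add_zero] at this
    revert this; generalize Q 0 = a; revert a; decide
  have t2 : ∀ x : Lam, Cfsg.sqNorm (cf x) = 32 → Q x = Q lU := fun x hx => by
    obtain ⟨g, rfl⟩ := trans_min hx; exact hinv g _
  have t3 : ∀ x : Lam, Cfsg.sqNorm (cf x) = 48 → Q x = Q lV := fun x hx => by
    obtain ⟨g, rfl⟩ := trans48 hx; exact hinv g _
  have t4 : ∀ x : Lam, Cfsg.sqNorm (cf x) = 64 → Q x = Q (e8 (pt 23) 1) := fun x hx => by
    obtain ⟨g, rfl⟩ := trans64 hx; exact hinv g _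
  have h4 : Q (e8 (pt 23) 1) = 0 := by
    have := hquad a1 a2 a3
    rw [t2 (a1 + a2 + a3) (by decide +kernel), t2 a1 (by decide +kernel), t2 a2 (by decide +kernel),
      t2 a3 (by decide +kernel), t2 (a1 + a2) (by decide +kernel), t4 (a1 + a3) (by decide +kernel),
      t2 (a2 + a3) (by decide +kernel)] at this
    revert this; generalize Q lU = a; generalize Q (e8 (pt 23) 1) = b; revert a b; decide
  have h2 : Q lU = 0 := by
    have := hquad a1 a4 a5
    rw [t2 (a1 + a4 + a5) (by decide +kernel), t2 a1 (by decide +kernel), t2 a4 (by decide +kernel),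
      t2 a5 (by decide +kernel), t2 (a1 + a4) (by decide +kernel), t3 (a1 + a5) (by decide +kernel),
      t3 (a4 + a5) (by decide +kernel)] at this
    revert this; generalize Q lU = a; generalize Q lV = b; revert a b; decide
  have key : ∀ x : Lam, Q x = ((Cfsg.sqNorm (cf x) / 16 : ℤ) : ZMod 2) * Q lV := fun x => by
    obtain ⟨y, z, hy, e⟩ := leech_main.2 x
    obtain rfl : x = y + (z + z) := by rw [← two_nsmul, ← e, add_sub_cancel]
    obtain ⟨a, ha⟩ := leech_dot y.2 z.2
    obtain ⟨b, hb⟩ := leech_even z.2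
    obtain ⟨c, hc⟩ := leech_even y.2
    have : Cfsg.sqNorm (cf (y + (z + z))) / 16 = c + 2 * (a + 2 * b) := by
      show Cfsg.sqNorm (cf y + (cf z + cf z)) / 16 = _
      rw [sqNorm_add, sqNorm_add, dotInt_add_right, dotInt_self, ha, hb, hc]; omega
    rw [hcoset, this]
    push_cast
    rw [show (2 : ZMod 2) = 0 from rfl, zero_mul, add_zero]
    rcases lb_RL.vals (x := y) (by rw [lb_self]; exact hy) with h | h | h | h
    · subst h
      obtain rfl : c = 0 := by have := hc.symm.trans sqNorm_zero; omega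
      rw [h0]; simp
    · rw [lb_self] at h
      obtain rfl : c = 2 := by omega
      rw [t2 y h, h2]; exact (zero_mul _).symm
    · rw [lb_self] at h
      obtain rfl : c = 3 := by omega
      rw [t3 y h]; exact (one_mul _).symm
    · rw [lb_self] at h
      obtain rfl : c = 4 := by omega
      rw [t4 y h, h4]; exact (zero_mul _).symm
  obtain ⟨w, hw⟩ := hne
  have h3 : Q lV = 1 := by
    have : Q lV ≠ 0 := fun h => hw (by rw [key w, h, mul_zero])
    revert this; generalize Q lV = a; revert a; decide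
  rw [key v, h3, mul_one]

end Cfsg.Agent.S5552
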