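import Cfsg.Statements.S5553
import Cfsg.Agent.H15.Leech

set_option autoImplicit false
open Cfsg

namespace Cfsg.Agent.S5553

open H15 Finset

def A : AddSubgroup (Cfsg.GolayPt → ℤ) where
  carrier := {x | x ∈ Cfsg.leechLattice ∧ x none % 2 = 0 ∧ ∀ i, x i % 4 = x none % 4}
  zero_mem' := ⟨zero_mem _, rfl, fun _ => rfl⟩
  add_mem' := by
    rintro x y ⟨h1, h2, h3⟩ ⟨h4, h5, h6⟩
    refine ⟨add_mem h1 h4, ?_, fun i => ?_⟩
    · simp only [Pi.add_apply]; omega
    · have := h3 i; have := h6 i; simp only [Pi.add_apply]; omega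
  neg_mem' := by
    rintro x ⟨h1, h2, h3⟩
    refine ⟨neg_mem h1, ?_, fun i => ?_⟩
    · simp only [Pi.neg_apply]; omega
    · have := h3 i; simp only [Pi.neg_apply]; omega

theorem mem_A {x : Cfsg.GolayPt → ℤ} : x ∈ A ↔ LC x 0 ∅ ∨ LC x 0 univ := by
  constructor
  · rintro ⟨h1, h2, h3⟩
    obtain ⟨m, c, h⟩ := mem_leech.1 h1
    have a := h.res none
    have hp := h.par
    have hm : m = 0 := by split_ifs at a <;> omega
    subst hm
    by_cases hn : none ∈ c
    · right
      have : c = univ := eq_univ_of_forall fun i => by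
        have b := h.res i; have := h3 i
        by_contra hi
        simp only [hi, hn, if_true, if_false] at a b; omega
      exact this ▸ h
    · left
      have : c = ∅ := eq_empty_of_forall_notMem fun i hi => by
        have b := h.res i; have := h3 i
        simp only [hi, hn, if_true, if_false] at a b; omega
      exact this ▸ h
  · rintro (h | h)
    · refine ⟨h.mem, ?_, fun i => ?_⟩
      · have := h.res none; simp at this; omega
      · have := h.res none; have := h.res i; simp at *; omega
    · refine ⟨h.mem, ?_, fun i => ?_⟩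
      · have := h.res none; simp at this; omega
      · have := h.res none; have := h.res i; simp at *; omega

/-- The Leech lattice of the definitions has an additive subgroup A containing twice the lattice, of index 2^12 in the lattice, all of whose vectors have squared length divisible by 32: the invariant quadratic form 'squared length over 16 modulo 2' on the lattice modulo twice the lattice (a 24-dimensional space over the field with two elements) vanishes on a 12-dimensional subspace, so it is of plus type. -/
theorem result : ∃ A : AddSubgroup (Cfsg.GolayPt → ℤ), A ≤ Cfsg.leechLattice ∧ (∀ v ∈ Cfsg.leechLattice, (2 : ℤ) • v ∈ A) ∧ (A.addSubgroupOf Cfsg.leechLattice).index = 2 ^ 12 ∧ ∀ v ∈ A, (32 : ℤ) ∣ Cfsg.sqNorm v := by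
  have hle : A ≤ Cfsg.leechLattice := fun x hx => hx.1
  refine ⟨A, hle, fun v hv => ⟨zsmul_mem hv 2, ?_, fun i => ?_⟩, ?_, fun v hv => ?_⟩
  · simp
  · obtain ⟨m, c, h⟩ := mem_leech.1 hv
    have a := h.res none
    have b := h.res i
    have := h.par
    simp only [Pi.smul_apply, smul_eq_mul]
    split_ifs at a b <;> omega
  · have h1 : red4.ker.relIndex A = 2 := by
      rw [AddSubgroup.relIndex_ker, card_map_red4 _ {(0, ∅), (0, univ)}, Set.ncard_pair (by decide)]
      · intro x hx
        rcases mem_A.1 hx with h | h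
        · exact ⟨_, Or.inl rfl, h⟩
        · exact ⟨_, Or.inr rfl, h⟩
      · rintro t (rfl | rfl)
        · exact ⟨_, mem_A.2 (Or.inl (LC_stdV (Or.inl rfl) cw_empty)), LC_stdV (Or.inl rfl) cw_empty⟩
        · exact ⟨_, mem_A.2 (Or.inr (LC_stdV (Or.inl rfl) cw_univ)), LC_stdV (Or.inl rfl) cw_univ⟩
    have h2 : red4.ker ⊓ Cfsg.leechLattice = red4.ker ⊓ A := by
      refine le_antisymm (fun x hx => ⟨hx.1, hx.2, ?_, fun i => ?_⟩) (inf_le_inf_left _ hle)
      · have := mem_ker_red4.1 hx.1 none; omega
      · rw [mem_ker_red4.1 hx.1 none, mem_ker_red4.1 hx.1 i]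
    have h3 := AddSubgroup.relIndex_mul_relIndex (red4.ker ⊓ A) A Cfsg.leechLattice inf_le_right hle
    rw [AddSubgroup.inf_relIndex_right, h1, ← h2, AddSubgroup.inf_relIndex_right, relIndex_red4] at h3
    change A.relIndex Cfsg.leechLattice = _
    omega
  · rcases mem_A.1 hv with h | h
    · exact sqNorm_four (by simpa using h.res) (by simpa using h.sum)
    · have := dvd_sum_sub univ (fun i => v i ^ 2) (fun _ => 4) 32 fun i _ => by
        obtain ⟨k, hk⟩ : ∃ k, v i = 4 * k + 2 := ⟨v i / 4, by have := h.res i; simp at this; omega⟩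
        obtain ⟨l, hl⟩ := Int.even_mul_succ_self k
        exact ⟨l, by rw [hk]; linear_combination 16 * hl⟩
      rw [sum_pt] at this
      unfold Cfsg.sqNorm
      omega

end Cfsg.Agent.S5553
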