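import Cfsg.Statements.S5563
import Cfsg.Agent.H20.J4.TB

set_option autoImplicit false
open Cfsg H19 H20.J4 Subgroup

namespace Cfsg.Agent.S5563

/-- Let G be a finite non-abelian simple group of Janko-four type (an involution z whose centralizer H has an extraspecial largest normal 2-subgroup E of order 2^13 containing its centralizer in H, a normal subgroup N ≥ E of H with N/E of order 3 and H/N the automorphism group of M₂₂, and a subgroup P ≤ N of order 3 with C_E(P) = ⟨z⟩, N_H(P) ≠ C_H(P) and P ≤ C_H(P)′). Then the centralizer of P in H is the perfect sixfold cover of M₂₂ — it is perfect, its centre is cyclic of order 6 and its central quotient is isomorphic to M₂₂ — and the normalizer of P in G lies in H. -/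
theorem result {G : Type*} [Group G] [Finite G] [IsSimpleGroup G] (hG : ¬ IsMulCommutative G) (z : G) (P : Subgroup G) (hJ : Cfsg.IsOfJankoFourTypeWith z P) :
    ⁅(Subgroup.centralizer ({z} : Set G) ⊓ Subgroup.centralizer (P : Set G)), (Subgroup.centralizer ({z} : Set G) ⊓ Subgroup.centralizer (P : Set G))⁆ = (Subgroup.centralizer ({z} : Set G) ⊓ Subgroup.centralizer (P : Set G)) ∧
    IsCyclic ↥(Subgroup.center ↥(Subgroup.centralizer ({z} : Set G) ⊓ Subgroup.centralizer (P : Set G))) ∧ Nat.card ↥(Subgroup.center ↥(Subgroup.centralizer ({z} : Set G) ⊓ Subgroup.centralizer (P : Set G))) = 6 ∧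
    Cfsg.Spor.IsoM22 (↥(Subgroup.centralizer ({z} : Set G) ⊓ Subgroup.centralizer (P : Set G)) ⧸ Subgroup.center ↥(Subgroup.centralizer ({z} : Set G) ⊓ Subgroup.centralizer (P : Set G))) ∧ Subgroup.normalizer (P : Set G) ≤ Subgroup.centralizer ({z} : Set G) := by
  obtain ⟨p, Q, N, π, g, cq, Q', q, μ, rfl, h⟩ := s4_of_jt hJ
  rw [cent_zpowers, h.K_eq]
  have e := (subgroupOfEquivOfLe (zpowers_le.2 h.zpK)).symm.trans (MulEquiv.subgroupCongr (h.center_K.trans h.xi_ker).symm)
  exact ⟨h.perf_K, isCyclic_of_surjective e e.surjective, by rw [← Nat.card_congr e.toEquiv, Nat.card_zpowers, h.o6],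
    ⟨(QuotientGroup.quotientMulEquivOfEq h.center_K).trans
      ((QuotientGroup.quotientKerEquivOfSurjective _ h.xi_surj).trans (MulEquiv.subgroupCongr M22_eq))⟩, h.NP⟩

end Cfsg.Agent.S5563
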