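import Cfsg.Statements.S5565
import Cfsg.Agent.H20.J4.TB

set_option autoImplicit false
open Cfsg H19 H20.J4 Subgroup

namespace Cfsg.Agent.S5565

/-- Let G be a finite non-abelian simple group of Janko-four type (an involution z whose centralizer H has an extraspecial largest normal 2-subgroup E of order 2^13 containing its centralizer in H, a normal subgroup N ≥ E of H with N/E of order 3 and H/N the automorphism group of M₂₂, and a subgroup P ≤ N of order 3 with C_E(P) = ⟨z⟩, N_H(P) ≠ C_H(P) and P ≤ C_H(P)′). Then a Sylow 3-subgroup R of G contained in H is extraspecial of order 27 and exponent 3, its normalizer in G lies in H, and that normalizer has order 864. -/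
theorem result {G : Type*} [Group G] [Finite G] [IsSimpleGroup G] (hG : ¬ IsMulCommutative G) (z : G) (hJ : Cfsg.IsOfJankoFourTypeAt z) (R : Sylow 3 G) (hR : (R : Subgroup G) ≤ Subgroup.centralizer ({z} : Set G)) :
    Cfsg.IsExtraspecial 3 ↥(R : Subgroup G) ∧ Nat.card ↥(R : Subgroup G) = 27 ∧ Monoid.exponent ↥(R : Subgroup G) = 3 ∧
    Subgroup.normalizer ((R : Subgroup G) : Set G) ≤ Subgroup.centralizer ({z} : Set G) ∧ Nat.card ↥(Subgroup.normalizer ((R : Subgroup G) : Set G)) = 864 := by
  obtain ⟨P, hJ⟩ := hJ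
  obtain ⟨p, Q, N, π, g, cq, Q', q, μ, -, h⟩ := s4_of_jt hJ
  have : Fact (Nat.Prime 3) := ⟨Nat.prime_three⟩
  obtain ⟨a, ha, e⟩ := (h.sylR.of_le h.RH le_top).sconj ((syl_sylow_top R).of_le hR le_top)
  have c := (card_cj a _).trans h.card_R
  rw [← e, ← cj_norm]
  refine ⟨H9.isExtraspecial_of_card_cube c fun e => h.R_nc (comm_iff_le_cent.2 (cj_le_cj.1
    ((comm_iff_le_cent.1 e).trans (cj_cent a _).ge))), c, ?_, cj_le_of_mem ha h.NRH, (card_cj a _).trans h.card_NR⟩
  have : Nontrivial (cj a (R3 g cq)) := Finite.one_lt_card_iff_nontrivial.1 (by omega)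
  refine (Monoid.exponent_eq_prime_iff Nat.prime_three).2 fun x hx => orderOf_eq_prime (Subtype.ext ?_) hx
  obtain ⟨x, hx0⟩ := x
  obtain ⟨y, hy, rfl⟩ := mem_cj'.1 hx0
  simp [conj_pow, h.R_3 hy]

end Cfsg.Agent.S5565
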