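import Cfsg.Statements.S5566
import Cfsg.Agent.H20.J4.EA

set_option autoImplicit false
open Cfsg

namespace Cfsg.Agent.S5566

/-- Let G be a finite non-abelian simple group of Janko-four type (an involution z whose centralizer H has an extraspecial largest normal 2-subgroup E of order 2^13 containing its centralizer in H, a normal subgroup N ≥ E of H with N/E of order 3 and H/N the automorphism group of M₂₂, and a subgroup P ≤ N of order 3 with C_E(P) = ⟨z⟩, N_H(P) ≠ C_H(P) and P ≤ C_H(P)′). Then a Sylow 2-subgroup of G has exactly one elementary abelian subgroup of order 2^11. -/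
theorem result {G : Type*} [Group G] [Finite G] [IsSimpleGroup G] (hG : ¬ IsMulCommutative G) (hJ : Cfsg.IsOfJankoFourType G) (T : Sylow 2 G) :
    ∃! V : Subgroup G, V ≤ (T : Subgroup G) ∧ Cfsg.IsElementaryAbelian 2 V ∧ Nat.card ↥V = 2 ^ 11 := by
  obtain ⟨z, P, hJ⟩ := hJ
  obtain ⟨p, Q, N, π, g, cq, Q', q, μ, -, h⟩ := H20.J4.s4_of_jt hJ
  have hT := H19.syl_sylow_top T
  obtain ⟨a, -, e⟩ := hT.scj_le le_top h.pgV
  have h1 := H20.J4.sq_cj (fun _ => h.sqV) a
  have h2 := (H19.card_cj a _).trans h.cardV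
  exact ⟨_, ⟨e, H20.J4.ea_iff.2 h1, h2⟩, fun V hV => h.uq2 hT.pi hV.1 e (H20.J4.ea_iff.1 hV.2.1) h1 hV.2.2.ge h2.ge⟩

end Cfsg.Agent.S5566
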