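import Cfsg.Statements.S5569
import Cfsg.Agent.H20.J4.FB

set_option autoImplicit false
open Cfsg H19 H20.J4 Subgroup

namespace Cfsg.Agent.S5569

/-- Let G be a finite non-abelian simple group of Janko-four type (an involution z whose centralizer H has an extraspecial largest normal 2-subgroup E of order 2^13 containing its centralizer in H, a normal subgroup N ≥ E of H with N/E of order 3 and H/N the automorphism group of M₂₂, and a subgroup P ≤ N of order 3 with C_E(P) = ⟨z⟩, N_H(P) ≠ C_H(P) and P ≤ C_H(P)′). Then the centralizer of an involution t of G that is not conjugate to z is a split extension of an elementary abelian normal subgroup of order 2^11 by a complement isomorphic to the automorphism group of M₂₂. -/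
theorem result {G : Type*} [Group G] [Finite G] [IsSimpleGroup G] (hG : ¬ IsMulCommutative G) (z : G) (hJ : Cfsg.IsOfJankoFourTypeAt z) (t : G) (ht : orderOf t = 2) (hnc : ¬ IsConj z t) :
    ∃ V K : Subgroup G, V ≤ Subgroup.centralizer ({t} : Set G) ∧ K ≤ Subgroup.centralizer ({t} : Set G) ∧
    Subgroup.centralizer ({t} : Set G) ≤ Subgroup.normalizer (V : Set G) ∧ Cfsg.IsElementaryAbelian 2 V ∧ Nat.card ↥V = 2 ^ 11 ∧
    K ⊓ V = ⊥ ∧ K ⊔ V = Subgroup.centralizer ({t} : Set G) ∧ Nonempty (↥K ≃* MulAut ↥Cfsg.Spor.M22) := by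
  obtain ⟨P, hJ⟩ := hJ
  obtain ⟨p, Q, N, π, g, cq, Q', q, μ, -, h⟩ := s4_of_jt hJ
  obtain ⟨a, rfl⟩ := isConj_iff.1 (h.c1250.symm.trans
    ((h.cls2 (H0.mul_self_of_order ht) (H0.ne_one_of_order ht)).resolve_left hnc))
  obtain ⟨K, h1, h2, h3, h4⟩ := h.exists_KY
  have h5 := (h.ctV (h.vmem 1250) h.c1250).1
  rw [← cj_cent1]
  refine ⟨cj a (VV g cq), cj a K, cj_mono _ (h.VC (h.vmem _)), cj_mono _ h1, cj_norm a _ ▸ cj_mono _ h5,
    ea_iff.2 (sq_cj (fun _ => h.sqV) a), by rw [card_cj, h.cardV], by rw [← cj_inf, h2, cj_bot],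
    by rw [← cj_sup, h3], ⟨(cj_iso _ K).some.trans (MulEquiv.trans ?_ aut_M22.some)⟩⟩
  exact h4 ▸ (h.iso_mimg (h1.trans h5) h2).some

end Cfsg.Agent.S5569
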