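import Cfsg.Statements.S5570
import Cfsg.Agent.H20.J4.MC

set_option autoImplicit false
open Cfsg H19 H20.J4 Subgroup

namespace Cfsg.Agent.S5570

/-- Let G be a finite non-abelian simple group of Janko-four type (an involution z whose centralizer H has an extraspecial largest normal 2-subgroup E of order 2^13 containing its centralizer in H, a normal subgroup N ≥ E of H with N/E of order 3 and H/N the automorphism group of M₂₂, and a subgroup P ≤ N of order 3 with C_E(P) = ⟨z⟩, N_H(P) ≠ C_H(P) and P ≤ C_H(P)′). Then G has self-centralizing elementary abelian subgroups of order 2^10, any two of them are conjugate, and for such a subgroup A the normalizer of A is a split extension of A by a complement isomorphic to L₅(2) under which A has no proper non-trivial invariant subgroup. -/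
theorem result {G : Type*} [Group G] [Finite G] [IsSimpleGroup G] (hG : ¬ IsMulCommutative G) (hJ : Cfsg.IsOfJankoFourType G) :
    (∃ A : Subgroup G, Cfsg.IsElementaryAbelian 2 A ∧ Nat.card ↥A = 2 ^ 10 ∧ Subgroup.centralizer (A : Set G) = A) ∧
    (∀ A A' : Subgroup G, Cfsg.IsElementaryAbelian 2 A → Nat.card ↥A = 2 ^ 10 → Subgroup.centralizer (A : Set G) = A → Cfsg.IsElementaryAbelian 2 A' → Nat.card ↥A' = 2 ^ 10 → Subgroup.centralizer (A' : Set G) = A' → ∃ g : G, A' = A.map (MulAut.conj g).toMonoidHom) ∧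
    ∀ A : Subgroup G, Cfsg.IsElementaryAbelian 2 A → Nat.card ↥A = 2 ^ 10 → Subgroup.centralizer (A : Set G) = A →
      (∃ B : Subgroup G, B ≤ Subgroup.normalizer (A : Set G) ∧ B ⊓ A = ⊥ ∧ B ⊔ A = Subgroup.normalizer (A : Set G) ∧
        Nonempty (↥B ≃* Matrix.SpecialLinearGroup (Fin 5) (ZMod 2))) ∧
      ∀ W : Subgroup G, W ≤ A → Subgroup.normalizer (A : Set G) ≤ Subgroup.normalizer (W : Set G) → W = ⊥ ∨ W = A := by
  obtain ⟨z, P, hJ⟩ := hJ
  obtain ⟨p, Q, N, π, g, cq, Q', q, μ, -, h⟩ := s4_of_jt hJ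
  obtain ⟨κ, e, φ, h⟩ := h.exists_s6
  refine ⟨⟨_, ea_iff.2 fun _ => h.sqA, h.cAT, h.CA⟩, fun A B h1 h2 h3 h4 h5 h6 => ?_, fun A h1 h2 h3 => ?_⟩
  · obtain ⟨a, e⟩ := h.uq10 (ea_iff.1 h1) h2 h3
    obtain ⟨b, e'⟩ := h.uq10 (ea_iff.1 h4) h5 h6
    exact ⟨b⁻¹ * a, (cj_eq_iff.1 (e'.trans e.symm)).trans (cj_cj ..)⟩
  obtain ⟨a, e⟩ := h.uq10 (ea_iff.1 h1) h2 h3
  obtain rfl := cj_eq_iff.1 e
  rw [← cj_norm]
  refine ⟨⟨_, cj_mono _ h.BN, by rw [← cj_inf, cj_eq_bot, ← h.BC.1, h.CA], by rw [← cj_sup, h.NA],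
    ⟨(cj_iso _ _).some.trans h.BC.2.some⟩⟩, fun W h1 h2 => ?_⟩
  simpa [cj_eq_iff] using h.irr (W := H19.cj a W) (by simpa using cj_mono a h1) (by simpa [cj_norm] using cj_mono a h2)

end Cfsg.Agent.S5570
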