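import Cfsg.Statements.S5573
import Cfsg.Agent.H20.J4.LC

set_option autoImplicit false
open Cfsg H19 H20.J4 Subgroup

namespace Cfsg.Agent.S5573

/-- Let G be a finite non-abelian simple group of Janko-four type (an involution z whose centralizer H has an extraspecial largest normal 2-subgroup E of order 2^13 containing its centralizer in H, a normal subgroup N ≥ E of H with N/E of order 3 and H/N the automorphism group of M₂₂, and a subgroup P ≤ N of order 3 with C_E(P) = ⟨z⟩, N_H(P) ≠ C_H(P) and P ≤ C_H(P)′). Let S ≤ H have order 7. Then S is a Sylow 7-subgroup of G, its centralizer is S × I with I isomorphic to the symmetric group of degree 5, and its normalizer has order three times that of its centralizer, namely 2^3·3^2·5·7. -/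
theorem result {G : Type*} [Group G] [Finite G] [IsSimpleGroup G] (hG : ¬ IsMulCommutative G) (z : G) (hJ : Cfsg.IsOfJankoFourTypeAt z) (S : Subgroup G) (hS : Nat.card ↥S = 7) (hSz : S ≤ Subgroup.centralizer ({z} : Set G)) :
    ¬ (49 ∣ Nat.card G) ∧
    (∃ I : Subgroup G, Cfsg.IsInternalDirectProduct S I (Subgroup.centralizer (S : Set G)) ∧ Nonempty (↥I ≃* Equiv.Perm (Fin 5))) ∧
    Nat.card ↥(Subgroup.normalizer (S : Set G)) = 3 * Nat.card ↥(Subgroup.centralizer (S : Set G)) ∧
    Nat.card ↥(Subgroup.normalizer (S : Set G)) = 2 ^ 3 * 3 ^ 2 * 5 * 7 := by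
  obtain ⟨P, hJ⟩ := hJ
  obtain ⟨p, Q, N, π, g, cq, Q', q, μ, -, h⟩ := s4_of_jt hJ
  obtain ⟨κ, e, φ, h⟩ := h.exists_s6
  have h1 : ¬ 7 * 7 ∣ Nat.card G := by rw [h.card]; decide
  obtain ⟨a, rfl⟩ := prime_cj (by norm_num) h1 hS h.o_tau
  rw [← cj_cent, ← cj_norm, card_cj, card_cj, h.n7, cent_zpowers, ← h.c7, h.card7]
  exact ⟨h1, ⟨_, idp_cj (h.I_tau.trans (cent_zpowers _).ge) h.d_tau a,
    ⟨(cj_iso a _).some.trans (MonoidHom.ofInjective h.finj).symm⟩⟩, rfl, rfl⟩

end Cfsg.Agent.S5573
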