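import Cfsg.Statements.S5574
import Cfsg.Agent.H20.J4.LE

set_option autoImplicit false
open Cfsg H19 H20.J4 Subgroup

namespace Cfsg.Agent.S5574

/-- Let G be a finite non-abelian simple group of Janko-four type (an involution z whose centralizer H has an extraspecial largest normal 2-subgroup E of order 2^13 containing its centralizer in H, a normal subgroup N ≥ E of H with N/E of order 3 and H/N the automorphism group of M₂₂, and a subgroup P ≤ N of order 3 with C_E(P) = ⟨z⟩, N_H(P) ≠ C_H(P) and P ≤ C_H(P)′). Then G has a special 2-subgroup L of order 2^15 with centre of order 8 whose normalizer M satisfies: M/L is isomorphic to the direct product of the symmetric group of degree 5 and L₃(2); L has no complement in M; M nevertheless contains subgroups isomorphic to the symmetric group of degree 5 and to L₃(2); and M contains the normalizer of some Sylow 5-subgroup and of some Sylow 7-subgroup of G. -/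
theorem result {G : Type*} [Group G] [Finite G] [IsSimpleGroup G] (hG : ¬ IsMulCommutative G) (hJ : Cfsg.IsOfJankoFourType G) :
    ∃ L : Subgroup G, Cfsg.IsSpecial 2 ↥L ∧ Nat.card ↥L = 2 ^ 15 ∧ Nat.card ↥(Subgroup.center ↥L) = 8 ∧
    Nonempty (↥(Subgroup.normalizer (L : Set G)) ⧸ L.subgroupOf (Subgroup.normalizer (L : Set G)) ≃* Equiv.Perm (Fin 5) × Matrix.SpecialLinearGroup (Fin 3) (ZMod 2)) ∧
    (∀ K : Subgroup ↥(Subgroup.normalizer (L : Set G)), ¬ (L.subgroupOf (Subgroup.normalizer (L : Set G))).IsComplement' K) ∧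
    (∃ K₁ : Subgroup G, K₁ ≤ Subgroup.normalizer (L : Set G) ∧ Nonempty (↥K₁ ≃* Equiv.Perm (Fin 5))) ∧
    (∃ K₂ : Subgroup G, K₂ ≤ Subgroup.normalizer (L : Set G) ∧ Nonempty (↥K₂ ≃* Matrix.SpecialLinearGroup (Fin 3) (ZMod 2))) ∧
    (∃ Q : Sylow 5 G, Subgroup.normalizer ((Q : Subgroup G) : Set G) ≤ Subgroup.normalizer (L : Set G)) ∧
    (∃ S : Sylow 7 G, Subgroup.normalizer ((S : Subgroup G) : Set G) ≤ Subgroup.normalizer (L : Set G)) := by
  obtain ⟨z, P, hJ⟩ := hJ
  obtain ⟨p, Q0, N, π, g, cq, Q', q, μ, -, h⟩ := s4_of_jt hJ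
  obtain ⟨κ, e, φ, h⟩ := h.exists_s6
  have : Fact (Nat.Prime 5) := ⟨by norm_num⟩
  have : Fact (Nat.Prime 7) := ⟨by norm_num⟩
  obtain ⟨S5, e5⟩ := syl_zp h.o_f (by rw [h.card]; decide)
  obtain ⟨S7, e7⟩ := syl_zp h.o_tau (by rw [h.card]; decide)
  exact ⟨LL Q0 g cq, h.special, h.cL, by rw [← card_map_of_injective (subtype_injective _), H0.center_map_eq, h.ZL, h.cU],
    h.quot, h.nonsplit, ⟨_, h.IL, ⟨(MonoidHom.ofInjective h.finj).symm⟩⟩, ⟨_, h.K2N.trans h.NL.ge, h.isoK2⟩,
    ⟨S5, e5 ▸ h.n5_le.trans h.NL.ge⟩, S7, e7 ▸ h.n7_le.trans h.NL.ge⟩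

end Cfsg.Agent.S5574
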