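import Cfsg.Statements.S5575
import Cfsg.Agent.H20.J4.LH

set_option autoImplicit false
open Cfsg H19 H20.J4 Subgroup

namespace Cfsg.Agent.S5575

/-- Let G be a finite non-abelian simple group of Janko-four type (an involution z whose centralizer H has an extraspecial largest normal 2-subgroup E of order 2^13 containing its centralizer in H, a normal subgroup N ≥ E of H with N/E of order 3 and H/N the automorphism group of M₂₂, and a subgroup P ≤ N of order 3 with C_E(P) = ⟨z⟩, N_H(P) ≠ C_H(P) and P ≤ C_H(P)′). Then a Sylow 11-subgroup of G is extraspecial of order 11^3 and exponent 11, and its normalizer has order 2^4·3·5·11^3 and contains a subgroup isomorphic to GL₂(3). -/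
theorem result {G : Type*} [Group G] [Finite G] [IsSimpleGroup G] (hG : ¬ IsMulCommutative G) (hJ : Cfsg.IsOfJankoFourType G) (U : Sylow 11 G) :
    Cfsg.IsExtraspecial 11 ↥(U : Subgroup G) ∧ Nat.card ↥(U : Subgroup G) = 11 ^ 3 ∧ Monoid.exponent ↥(U : Subgroup G) = 11 ∧
    Nat.card ↥(Subgroup.normalizer ((U : Subgroup G) : Set G)) = 2 ^ 4 * 3 * 5 * 11 ^ 3 ∧
    ∃ K : Subgroup G, K ≤ Subgroup.normalizer ((U : Subgroup G) : Set G) ∧ Nonempty (↥K ≃* GL (Fin 2) (ZMod 3)) := by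
  obtain ⟨z, P, hJ⟩ := hJ
  obtain ⟨p, Q, N, π, g, cq, Q', q, μ, -, h⟩ := s4_of_jt hJ
  obtain ⟨κ, e, φ, h⟩ := h.exists_s6
  obtain ⟨U0, x, sU, cU, nU, -, c, hx, ox, cx, k⟩ := h.syl11
  obtain ⟨K, hK, ⟨f⟩⟩ := h.gl23
  have := Fact.mk (by norm_num : Nat.Prime 11)
  obtain ⟨a, -, e⟩ := sU.sconj (syl_sylow_top U)
  have o : ∀ {x y : G}, IsConj x y → orderOf x = 11 → y ^ 11 = 1 := fun e o => by
    obtain ⟨b, rfl⟩ := isConj_iff.1 e; rw [conj_pow, ← o, pow_orderOf_eq_one]; simp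
  rw [← e, ← cj_norm, card_cj, card_cj, nU]
  refine ⟨H9.isExtraspecial_of_card_cube ((card_cj _ _).trans cU) fun e => ?_, cU, ?_, c, _, cj_mono a hK,
    ⟨(cj_iso a K).some.trans f⟩⟩
  · have := card_le ((comm_iff_le_cent.1 (comm_cj.1 e)).trans (cent_le_cent1 hx))
    omega
  rw [Monoid.exponent_eq_of_mulEquiv (cj_iso a U0).some]
  refine Nat.dvd_antisymm (Monoid.exponent_dvd_of_forall_pow_eq_one fun u => Subtype.ext ?_)
    (ox ▸ orderOf_mk x hx ▸ Monoid.order_dvd_exponent _)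
  rcases k u u.2 with e | e | e
  exacts [by simp [e], o e h.oy, o e ox]

end Cfsg.Agent.S5575
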