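import Cfsg.Agent.H16.JM6
import Cfsg.Statements.S5581
-- import your own Cfsg.Agent.* helpers here

set_option autoImplicit false
open Cfsg

namespace Cfsg.Agent.S5581

/-- Let G be a finite non-abelian simple group of Janko-four type (Janko's involution-centralizer conditions; such a group is the fourth Janko group). Then G has maximal subgroups of each of the following kinds: one with a normal subgroup of index 2 isomorphic to U₃(11); one isomorphic to the automorphism group of M₂₂; one with a normal subgroup of index 5 isomorphic to L₂(32); one isomorphic to PGL₂(23); and one isomorphic to U₃(3). -/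
theorem result {G : Type*} [Group G] [Finite G] [IsSimpleGroup G] (hG : ¬ IsMulCommutative G) (hJ : Cfsg.IsOfJankoFourType G) :
    (∃ M : Subgroup G, IsCoatom M ∧ ∃ (K : Subgroup ↥M) (F : Type) (_ : Field F) (_ : Fintype F),
        Fintype.card F = 121 ∧ K.Normal ∧ K.index = 2 ∧ Nonempty (↥K ≃* Cfsg.PSU 3 F 11)) ∧
    (∃ M : Subgroup G, IsCoatom M ∧ Nonempty (↥M ≃* MulAut ↥Cfsg.Spor.M22)) ∧
    (∃ M : Subgroup G, IsCoatom M ∧ ∃ (K : Subgroup ↥M) (F : Type) (_ : Field F) (_ : Fintype F),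
        Fintype.card F = 32 ∧ K.Normal ∧ K.index = 5 ∧ Nonempty (↥K ≃* Matrix.ProjectiveSpecialLinearGroup (Fin 2) F)) ∧
    (∃ M : Subgroup G, IsCoatom M ∧ Nonempty (↥M ≃* GL (Fin 2) (ZMod 23) ⧸ Subgroup.center (GL (Fin 2) (ZMod 23)))) ∧
    (∃ M : Subgroup G, IsCoatom M ∧ ∃ (F : Type) (_ : Field F) (_ : Fintype F), Fintype.card F = 9 ∧ Nonempty (↥M ≃* Cfsg.PSU 3 F 3)) := by
  obtain ⟨z, P, hJ⟩ := hJ
  obtain ⟨p, Q, N, π, g, cq, Q', q, μ, -, h⟩ := H20.J4.s4_of_jt hJ
  obtain ⟨κ, e, φ, h⟩ := h.exists_s6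
  obtain ⟨f, γ, he⟩ := H16.JM.S.em h
  have j := H16.JM.S.jg h
  exact ⟨j.mU he, j.mM he, j.mL he, j.mP he, j.mT he⟩

end Cfsg.Agent.S5581
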