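import Cfsg.Statements.S5629
import Cfsg.Agent.H20.J4.LF

set_option autoImplicit false
open Cfsg H19 H20.J4 Subgroup

namespace Cfsg.Agent.S5629

/-- Let G be a finite non-abelian simple group of Janko-four type (an involution z whose centralizer H has an extraspecial largest normal 2-subgroup E of order 2^13 containing its centralizer in H, a normal subgroup N ≥ E of H with N/E of order 3 and H/N the automorphism group of M₂₂, and a subgroup P ≤ N of order 3 with C_E(P) = ⟨z⟩, N_H(P) ≠ C_H(P) and P ≤ C_H(P)′), and let V be an elementary abelian subgroup of G of order 2^11. Then the normalizer of V has index 173067389 in G, and in the action of G on the cosets of this normalizer the normalizer itself has exactly seven orbits, of sizes 1, 15180, 28336, 3400320, 32643072, 54405120 and 82575360 (a rank-7 permutation representation). -/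
theorem result {G : Type*} [Group G] [Finite G] [IsSimpleGroup G] (hG : ¬ IsMulCommutative G) (z : G) (hJ : Cfsg.IsOfJankoFourTypeAt z) (V : Subgroup G) (hV : Cfsg.IsElementaryAbelian 2 V) (hcard : Nat.card ↥V = 2 ^ 11) : (Subgroup.normalizer (V : Set G)).index = 173067389 ∧ ∃ c : Fin 7 → G ⧸ Subgroup.normalizer (V : Set G), (∀ i j : Fin 7, i ≠ j → MulAction.orbit ↥(Subgroup.normalizer (V : Set G)) (c i) ≠ MulAction.orbit ↥(Subgroup.normalizer (V : Set G)) (c j)) ∧ (∀ q : G ⧸ Subgroup.normalizer (V : Set G), ∃ i : Fin 7, q ∈ MulAction.orbit ↥(Subgroup.normalizer (V : Set G)) (c i)) ∧ (List.ofFn fun i => (MulAction.orbit ↥(Subgroup.normalizer (V : Set G)) (c i)).ncard) = [1, 15180, 28336, 3400320, 32643072, 54405120, 82575360] := by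
  obtain ⟨P, hJ⟩ := hJ
  obtain ⟨p, Q, N, π, g, cq, Q', q, μ, -, h⟩ := s4_of_jt hJ
  obtain ⟨κ, e, h⟩ := h.exists_s5
  obtain ⟨a, ha⟩ := h.uqG (ea_iff.1 hV) hcard.ge
  obtain ⟨c1, w, D, -⟩ := h.dco a⁻¹
  rw [← ha, cj_inv_cj] at c1 D
  have k := fun i : Fin 7 => D.siz i i.2
  refine ⟨c1, fun i => w i, fun i j n e => n ((by decide : ∀ i j : Fin 7, H16.nth 0 H16.J4d.sL i =
    H16.nth 0 H16.J4d.sL j → i = j) i j (by rw [← k, ← k, e])), fun x => ?_, by simp only [k]; rfl⟩
  obtain ⟨x, rfl⟩ := QuotientGroup.mk_surjective x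
  obtain ⟨j, hj, a, ha, b, hb, rfl⟩ := D.cov x
  exact ⟨⟨j, hj⟩, ⟨a, ha⟩, QuotientGroup.eq.2 (by simpa [mul_assoc] using hb)⟩

end Cfsg.Agent.S5629
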