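import Cfsg.Agent.H16.JM3
import Cfsg.Agent.S5570
import Cfsg.Agent.S5574
import Cfsg.Agent.S5629
import Cfsg.Statements.S5582
-- import your own Cfsg.Agent.* helpers here

set_option autoImplicit false
open Cfsg H19 H16.JM Subgroup

namespace Cfsg.Agent.S5582

/-- Let G be a finite non-abelian simple group of Janko-four type (Janko's involution-centralizer conditions; such a group is the fourth Janko group). Then the following subgroups are maximal: the centralizer of the involution z of the hypothesis; the normalizer of every elementary abelian subgroup of order 2^11; the normalizer of every self-centralizing elementary abelian subgroup of order 2^10; the normalizer of some special 2-subgroup of order 2^15 with centre of order 8; and the normalizer of every Sylow p-subgroup for p = 11, 29, 37 and 43. -/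
theorem result {G : Type*} [Group G] [Finite G] [IsSimpleGroup G] (hG : ¬ IsMulCommutative G) (z : G) (hJ : Cfsg.IsOfJankoFourTypeAt z) :
    IsCoatom (Subgroup.centralizer ({z} : Set G)) ∧
    (∀ V : Subgroup G, Cfsg.IsElementaryAbelian 2 V → Nat.card ↥V = 2 ^ 11 → IsCoatom (Subgroup.normalizer (V : Set G))) ∧
    (∀ A : Subgroup G, Cfsg.IsElementaryAbelian 2 A → Nat.card ↥A = 2 ^ 10 → Subgroup.centralizer (A : Set G) = A → IsCoatom (Subgroup.normalizer (A : Set G))) ∧
    (∃ L : Subgroup G, Cfsg.IsSpecial 2 ↥L ∧ Nat.card ↥L = 2 ^ 15 ∧ Nat.card ↥(Subgroup.center ↥L) = 8 ∧ IsCoatom (Subgroup.normalizer (L : Set G))) ∧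
    (∀ U : Sylow 11 G, IsCoatom (Subgroup.normalizer ((U : Subgroup G) : Set G))) ∧ (∀ U : Sylow 29 G, IsCoatom (Subgroup.normalizer ((U : Subgroup G) : Set G))) ∧
    (∀ U : Sylow 37 G, IsCoatom (Subgroup.normalizer ((U : Subgroup G) : Set G))) ∧ (∀ U : Sylow 43 G, IsCoatom (Subgroup.normalizer ((U : Subgroup G) : Set G))) := by
  obtain ⟨L, l1, l2, l3, ⟨l4⟩, -, -, -, -, T, l5⟩ := S5574.result hG ⟨z, hJ⟩
  have a := (S5570.result hG ⟨z, hJ⟩).2.2
  have v := S5629.result hG z hJ
  obtain ⟨P, hJ⟩ := hJ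
  obtain ⟨p, Q, N, π, g, cq, Q', q, μ, -, h⟩ := H20.J4.s4_of_jt hJ
  obtain ⟨κ, e, φ, h⟩ := h.exists_s6
  obtain ⟨f, γ, he⟩ := S.em h
  have j := S.jf h
  have := Fact.mk (by norm_num : Nat.Prime 29)
  have := Fact.mk (by norm_num : Nat.Prime 37)
  have := Fact.mk (by norm_num : Nat.Prime 43)
  have c : #N(L) = 660602880 := by
    rw [card_eq_card_quotient_mul_card_subgroup (L.subgroupOf N(L)), Nat.card_congr l4.toEquiv, card_subgroupOf' le_normalizer, l2,
      Nat.card_prod, H20.J4.card_SL3, Nat.card_perm, Nat.card_fin]; rfl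
  refine ⟨j.cz hJ.1 h.cH h.sylR h.NRH, fun V h1 h2 => j.coatom (n := 501397585920) ?_ (P := fun _ => True) (fun _ _ => trivial)
    [(11, 2), (29, 1), (31, 1), (37, 1), (43, 1)] (by decide +kernel), fun A h1 h2 h3 => j.cA h2 h3 ?_ (a A h1 h2 h3).2 (S.h6 h),
    ⟨L, l1, l2, l3, j.coatom c (P := fun m => m / 660602880 % 7 = 1) (fun M hM => c ▸ idx_mod (by norm_num) (syl_sylow_top T)
      (le_normalizer.trans l5) hM (inf_le_right.trans l5)) [(3, 1), (11, 3), (23, 1), (29, 1), (31, 1), (37, 1), (43, 1)]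
      (by decide +kernel)⟩, j.c11 he (S.h5 h), j.syl (by decide) (j.c29 he), j.syl (by decide) (j.c37 he (S.h3 h) h.no9),
    j.syl (by decide) (j.c43 he)⟩
  · have := N(V).card_mul_index
    rw [(v V h1 h2).1, j.card] at this
    exact Nat.eq_of_mul_eq_mul_right (by decide) this
  obtain ⟨⟨B, b1, b2, b3, ⟨i⟩⟩, -⟩ := a A h1 h2 h3
  have s := H11.card_units_mul_card_sl (F := ZMod 2) (ι := Fin 5)
  rw [Matrix.card_GL_field, ← Nat.card_congr i.toEquiv] at s
  rw [← b3, sup_comm, card_sup_of_disjoint b1 (inf_comm A B ▸ b2), h2, show #B = 9999360 by simpa [Fin.prod_univ_succ] using s]; rfl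

end Cfsg.Agent.S5582
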