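import Cfsg.Statements.S5594
import Cfsg.Agent.H15.Co0b

set_option autoImplicit false
open Cfsg

namespace Cfsg.Agent.S5594

open H15 Finset MulAction
open scoped Pointwise

/-- The automorphism group of the Leech lattice contains the negation map, and the subgroup of order 2 it generates has no complement: the automorphism group is a non-split extension of its quotient by that subgroup (it is not the direct product of a group of order 2 with the first Conway group). -/
theorem result :
    ∃ n : ↥Cfsg.Co0, (∀ v : ↥Cfsg.leechLattice, ((n • v : ↥Cfsg.leechLattice) : Cfsg.GolayPt → ℤ) = -(v : Cfsg.GolayPt → ℤ)) ∧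
    ∀ K : Subgroup ↥Cfsg.Co0, ¬ (Subgroup.zpowers n).IsComplement' K := by
  refine ⟨coN, fun v => congrArg Subtype.val (coN_smul v), fun K hK => ?_⟩
  have h2 : K.index = 2 := by
    rw [hK.index_eq_card, Nat.card_zpowers,
      orderOf_eq_prime (by rw [sq, coN_mul_self]) coN_ne_one]
  obtain ⟨σ, h1, h3⟩ := m24_trans_dodecads D0_mem (compl_mem_dodecads D0_mem)
  have hd : S 340831 ∈ cw := D0_mem.1
  have e : prm h1 * sgn hd = coN * (sgn hd * prm h1) := co_ext fun i => by
    have : σ i ∈ (S 340831)ᶜ ↔ i ∈ S 340831 := by rw [← h3, apply_mem_smul_iff]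
    rw [mem_compl] at this
    simp only [mul_smul, coN_smul, prm, sgn, mono_e8, Equiv.Perm.one_apply, notMem_empty, if_false]
    have hn : ∀ j a, -e8 j a = e8 j (-a) := fun j a => by rw [e8_eq j a, e8_eq j (-a), neg_smul]
    rw [hn]
    congr 1
    split_ifs <;> simp_all
  have hm : coN ∈ K := by
    have : prm h1 * sgn hd ∈ K ↔ coN * (sgn hd * prm h1) ∈ K := by rw [e]
    simp only [K.mul_mem_iff_of_index_two h2] at this
    tauto
  exact coN_ne_one (Subgroup.disjoint_def.1 hK.disjoint (Subgroup.mem_zpowers _) hm)

end Cfsg.Agent.S5594
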