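import Cfsg.Statements.S5599
import Cfsg.Agent.H15.Dod

set_option autoImplicit false
open scoped Pointwise
open Cfsg

namespace Cfsg.Agent.S5599

open H15 Finset
open scoped Pointwise

/-- In the automorphism group of the length-24 code, the two-point Mathieu group (permutations of the code's group fixing the extra point and the residue 0) has index 2 in the setwise stabiliser of that pair of points, and an element of the code's group interchanging the two points normalises the two-point group and induces on it, by conjugation, an automorphism that is not inner. -/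
theorem result (g : Equiv.Perm Cfsg.GolayPt) (hg : g ∈ Cfsg.M24) (h₁ : g none = some 0) (h₂ : g (some 0) = none) : Cfsg.Spor.M22.relIndex (Cfsg.M24 ⊓ MulAction.stabilizer (Equiv.Perm Cfsg.GolayPt) ({none, some 0} : Finset Cfsg.GolayPt)) = 2 ∧ (∀ x ∈ Cfsg.Spor.M22, g * x * g⁻¹ ∈ Cfsg.Spor.M22) ∧ ¬ ∃ h ∈ Cfsg.Spor.M22, ∀ x ∈ Cfsg.Spor.M22, g * x * g⁻¹ = h * x * h⁻¹ := by
  rw [← pt_0, ← pt_23] at *
  refine ⟨by rw [← S_pair]; exact index_M22_K22, fun x hx => ?_, ?_⟩
  · obtain ⟨⟨h3, h4⟩, h5⟩ := mem_M22.1 hx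
    refine mem_M22.2 ⟨⟨mul_mem (mul_mem hg h3) (inv_mem hg), ?_⟩, ?_⟩
    · rw [Equiv.Perm.mul_apply, Equiv.Perm.mul_apply, Equiv.Perm.inv_eq_iff_eq.2 h₂.symm, h5, h₂]
    · rw [Equiv.Perm.mul_apply, Equiv.Perm.mul_apply, Equiv.Perm.inv_eq_iff_eq.2 h₁.symm, h4, h₁]
  rintro ⟨h, hh, H⟩
  obtain ⟨⟨h3, h4⟩, h5⟩ := mem_M22.1 hh
  have k1 : (h⁻¹ * g) (pt 23) = pt 0 := by
    rw [Equiv.Perm.mul_apply, h₁, Equiv.Perm.inv_eq_iff_eq, h5]
  have k2 : (h⁻¹ * g) (pt 0) = pt 23 := by
    rw [Equiv.Perm.mul_apply, h₂, Equiv.Perm.inv_eq_iff_eq, h4]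
  have k3 : ∀ x ∈ Cfsg.Spor.M22, h⁻¹ * g * x = x * (h⁻¹ * g) := fun x hx => by
    rw [mul_assoc, mul_inv_eq_iff_eq_mul.1 (H x hx)]; group
  generalize h⁻¹ * g = k, (mul_mem (inv_mem h3) hg : h⁻¹ * g ∈ Cfsg.M24) = hk at k1 k2 k3
  have := few_moved hk (s := S 8388609) (by decide +kernel) fun p hp => by
    by_contra hne
    have hp' : k p ∉ S 8388609 := by
      rw [S_pair, mem_insert, mem_singleton, not_or] at hp ⊢
      exact ⟨fun e => hp.2 (k.injective (e.trans k2.symm)),
        fun e => hp.1 (k.injective (e.trans k1.symm))⟩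
    obtain ⟨z, h6, h7⟩ := exists_mem_notMem (s := (S 8388609)ᶜ) (t := {p, k p})
      (card_le_two.trans_lt (by decide +kernel))
    rw [mem_insert, mem_singleton, not_or] at h7
    rw [mem_compl] at h6
    obtain ⟨x, h8, h9⟩ := m22_three ![p, k p, z] ![p, z, k p] (inj_vec3 (Ne.symm hne)
      (Ne.symm h7.1) (Ne.symm h7.2)) (fun i => by fin_cases i <;> simpa using by first | assumption)
      (inj_vec3 (Ne.symm h7.1) (Ne.symm hne) h7.2)
      (fun i => by fin_cases i <;> simpa using by first | assumption)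
    have := congrArg (· p) (k3 x h8)
    simp only [Equiv.Perm.mul_apply, show x p = p from h9 0, show x (k p) = z from h9 1] at this
    exact h7.2 this.symm
  rw [this] at k1
  exact absurd k1 (by decide)

end Cfsg.Agent.S5599
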