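import Cfsg.Statements.S5600
import Cfsg.Agent.H15.Dod

set_option autoImplicit false
open scoped Pointwise
open Cfsg

namespace Cfsg.Agent.S5600

open H15 Finset
open scoped Pointwise

/-- Although the group of the length-24 code is only 5-transitive on the 24 points, it induces the full symmetric group on every 6-element subset: every permutation of a 6-set E is the restriction of an element of the group mapping E to itself. The pointwise stabiliser of E has order 16 when E lies in an octad and order 3 otherwise; in the latter case the setwise stabiliser of E has order 2160. -/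
theorem result (E : Finset Cfsg.GolayPt) (hE : E.card = 6) : (∀ σ : Equiv.Perm ↥E, ∃ g ∈ Cfsg.M24, ∀ p : ↥E, g p = σ p) ∧ ((∃ o ∈ Cfsg.octads, E ⊆ o) → Nat.card {g : Equiv.Perm Cfsg.GolayPt // g ∈ Cfsg.M24 ∧ ∀ p ∈ E, g p = p} = 16) ∧ ((¬ ∃ o ∈ Cfsg.octads, E ⊆ o) → Nat.card {g : Equiv.Perm Cfsg.GolayPt // g ∈ Cfsg.M24 ∧ ∀ p ∈ E, g p = p} = 3 ∧ Nat.card ↥(MulAction.stabilizer Cfsg.M24 E) = 2160) := by
  have h0 := inO_iff (msk_lt E)
  rw [S_msk] at h0
  have h1 : Nat.card {g : Equiv.Perm Cfsg.GolayPt // g ∈ Cfsg.M24 ∧ ∀ p ∈ E, g p = p} =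
      if inO (msk E) then 16 else 3 := by
    rw [← card_fix_six hE]
    exact Nat.card_congr (Equiv.subtypeEquivRight fun g => by rw [Subgroup.mem_inf, mem_fixing])
  refine ⟨six_sym hE, fun h => by rw [h1, if_pos (h0.1 h)], fun h => ?_⟩
  rw [if_neg (fun e => h (h0.2 e))] at h1
  refine ⟨h1, ?_⟩
  let φ := resHom (G := Cfsg.M24) (MulAction.stabilizer Cfsg.M24 E) E fun g hg => hg
  have h2 : Function.Surjective φ := fun e => by
    obtain ⟨g, h3, h4⟩ := six_sym hE e
    refine ⟨⟨⟨g, h3⟩, eq_of_subset_of_card_le (fun p hp => ?_) (card_smul_finset _ _).ge⟩,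
      Equiv.ext fun p => Subtype.ext (h4 p)⟩
    obtain ⟨q, hq, rfl⟩ := mem_smul_finset.1 hp
    show g (⟨q, hq⟩ : E) ∈ E
    rw [h4]; exact coe_mem _
  have h3 : Nat.card φ.ker = 3 := h1 ▸ Nat.card_congr
    { toFun := fun g => ⟨g.1.1.1, g.1.1.2, (mem_ker_resHom _ _ _ _).1 g.2⟩
      invFun := fun g => ⟨⟨⟨g.1, g.2.1⟩, smul_eq_of_fix g.2.2⟩, (mem_ker_resHom _ _ _ _).2 g.2.2⟩
      left_inv := fun _ => rfl
      right_inv := fun _ => rfl }
  rw [card_eq_range_mul_ker φ, h3, MonoidHom.range_eq_top.2 h2, Subgroup.card_top, Nat.card_perm,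
    Nat.card_eq_fintype_card, Fintype.card_coe, hE]
  rfl

end Cfsg.Agent.S5600
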