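import Cfsg.Statements.S5601
import Cfsg.Agent.H15.MK

set_option autoImplicit false
open scoped Pointwise
open Cfsg

namespace Cfsg.Agent.S5601

open H15 Finset
open scoped Pointwise

theorem gen3 {X : Subgroup ↥Cfsg.M24} (h : Nat.card X = 3) :
    ∃ x : ↥Cfsg.M24, orderOf (x : Equiv.Perm Cfsg.GolayPt) = 3 ∧ X = Subgroup.zpowers x := by
  haveI : Fact (Nat.Prime 3) := ⟨by norm_num⟩
  obtain ⟨x, hx⟩ := exists_prime_orderOf_dvd_card' (G := X) 3 (by rw [h])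
  have e : orderOf (x : ↥Cfsg.M24) = 3 := by rw [Subgroup.orderOf_coe, hx]
  refine ⟨x, by rw [Subgroup.orderOf_coe, e], (Subgroup.eq_of_le_of_card_ge ?_ ?_).symm⟩
  · exact (Subgroup.zpowers_le_of_mem x.2)
  · rw [h, Nat.card_zpowers, e]

theorem fix_zp (x : ↥Cfsg.M24) : {p : Cfsg.GolayPt | ∀ y ∈ Subgroup.zpowers x,
    ((y : ↥Cfsg.M24) : Equiv.Perm Cfsg.GolayPt) p = p}.ncard = (fixS x.1).card := by
  rw [← Set.ncard_coe_finset]
  congr 1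
  ext p
  simp only [Set.mem_setOf_eq, coe_filter, mem_univ, true_and]
  refine ⟨fun h => h x (Subgroup.mem_zpowers x), ?_⟩
  rintro h _ ⟨n, rfl⟩
  exact Equiv.Perm.zpow_apply_eq_self_of_apply_eq_self h n

theorem card_zp {g : ℕ} (h : isM g = true) (h3 : orderOf (P g) = 3) :
    Nat.card (Subgroup.zpowers (⟨P g, isM_mem h⟩ : ↥Cfsg.M24)) = 3 := by
  rw [Nat.card_zpowers, ← Subgroup.orderOf_coe, h3]

/-- The group of the length-24 code has exactly two conjugacy classes of subgroups of order 3: a subgroup of order 3 fixes either exactly 6 of the 24 points or none of them, both cases occur, and two subgroups of order 3 with the same number of fixed points are conjugate. -/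
theorem result : (∀ X : Subgroup ↥Cfsg.M24, Nat.card X = 3 → {p : Cfsg.GolayPt | ∀ x ∈ X, ((x : ↥Cfsg.M24) : Equiv.Perm Cfsg.GolayPt) p = p}.ncard = 6 ∨ {p : Cfsg.GolayPt | ∀ x ∈ X, ((x : ↥Cfsg.M24) : Equiv.Perm Cfsg.GolayPt) p = p}.ncard = 0) ∧ (∃ X : Subgroup ↥Cfsg.M24, Nat.card X = 3 ∧ {p : Cfsg.GolayPt | ∀ x ∈ X, ((x : ↥Cfsg.M24) : Equiv.Perm Cfsg.GolayPt) p = p}.ncard = 6) ∧ (∃ X : Subgroup ↥Cfsg.M24, Nat.card X = 3 ∧ {p : Cfsg.GolayPt | ∀ x ∈ X, ((x : ↥Cfsg.M24) : Equiv.Perm Cfsg.GolayPt) p = p}.ncard = 0) ∧ ∀ X Y : Subgroup ↥Cfsg.M24, Nat.card X = 3 → Nat.card Y = 3 → {p : Cfsg.GolayPt | ∀ x ∈ X, ((x : ↥Cfsg.M24) : Equiv.Perm Cfsg.GolayPt) p = p}.ncard = {p : Cfsg.GolayPt | ∀ x ∈ Y, ((x : ↥Cfsg.M24) : Equiv.Perm Cfsg.GolayPt) p = p}.ncard → ∃ k : ↥Cfsg.M24, MulAut.conj k • X = Y := by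
  refine ⟨fun X hX => ?_, ⟨_, card_zp isM_X1 orderOf_X1, ?_⟩, ⟨_, card_zp isM_X2 orderOf_X2, ?_⟩,
    fun X Y hX hY e => ?_⟩
  · obtain ⟨x, h, rfl⟩ := gen3 hX
    rw [fix_zp]
    exact (three_cases x.2 h).imp And.left And.left
  · rw [fix_zp, fixS_X1]; decide +kernel
  · rw [fix_zp, fixS_X2]; decide +kernel
  · obtain ⟨x, h, rfl⟩ := gen3 hX
    obtain ⟨y, h', rfl⟩ := gen3 hY
    rw [fix_zp, fix_zp] at e
    have key : ∀ {r τ τ' : Equiv.Perm Cfsg.GolayPt}, τ ∈ Cfsg.M24 → τ' ∈ Cfsg.M24 → τ * x = r * τ →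
        τ' * y = r * τ' → ∃ k : ↥Cfsg.M24, MulAut.conj k • Subgroup.zpowers x = Subgroup.zpowers y := by
      intro r τ τ' a b c d
      refine ⟨⟨τ'⁻¹ * τ, mul_mem (inv_mem b) a⟩, ?_⟩
      refine (MonoidHom.map_zpowers _ _).trans (congrArg _ (Subtype.ext ?_))
      show τ'⁻¹ * τ * x * (τ'⁻¹ * τ)⁻¹ = y
      rw [mul_assoc τ'⁻¹, c, mul_inv_rev, inv_inv]
      calc τ'⁻¹ * (r * τ) * (τ⁻¹ * τ') = τ'⁻¹ * (r * τ') := by group
        _ = y := by rw [← d]; group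
    rcases three_cases x.2 h with ⟨a1, τ, a2, a3⟩ | ⟨a1, τ, a2, a3⟩ <;>
    rcases three_cases y.2 h' with ⟨b1, τ', b2, b3⟩ | ⟨b1, τ', b2, b3⟩
    · exact key a2 b2 a3 b3
    · omega
    · omega
    · exact key a2 b2 a3 b3

end Cfsg.Agent.S5601
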