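import Cfsg.Statements.S5603
import Cfsg.Agent.H15.MK

set_option autoImplicit false
open scoped Pointwise
open Cfsg

namespace Cfsg.Agent.S5603

open H15 Finset
open scoped Pointwise

/-- A fixed-point-free element of order 3 of the group of the length-24 code maps to themselves exactly 7 sextets and exactly 15 trios. -/
theorem result (g : Equiv.Perm Cfsg.GolayPt) (hg : g ∈ Cfsg.M24) (h₃ : orderOf g = 3) (h₀ : ∀ p, g p ≠ p) : {S : Finset (Finset Cfsg.GolayPt) | S ∈ Cfsg.sextets ∧ g • S = S}.ncard = 7 ∧ {T : Finset (Finset Cfsg.GolayPt) | T ∈ Cfsg.trios ∧ g • T = T}.ncard = 15 := by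
  rcases three_cases hg h₃ with ⟨h, -⟩ | ⟨-, τ, h1, h2⟩
  · exact absurd (h.symm.trans (fpf_iff.1 h₀)) (by norm_num)
  · exact ⟨(fix_ncard_conj sxE_inv h1 h2).trans ((fix_sx (isM_rep isM_X2)).trans (by decide +kernel)),
      (fix_ncard_conj trE_inv h1 h2).trans ((fix_tr (isM_rep isM_X2)).trans (by decide +kernel))⟩

end Cfsg.Agent.S5603
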