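import Cfsg.Statements.S5606
import Cfsg.Agent.H15.MK

set_option autoImplicit false
open scoped Pointwise
open Cfsg

namespace Cfsg.Agent.S5606

open H15 Finset
open scoped Pointwise

/-- A fixed-point-free involution of the group of the length-24 code maps to themselves exactly 15 octads, exactly 75 trios and exactly 51 sextets. -/
theorem result (g : Equiv.Perm Cfsg.GolayPt) (hg : g ∈ Cfsg.M24) (h₂ : orderOf g = 2) (h₀ : ∀ p, g p ≠ p) : {o : Finset Cfsg.GolayPt | o ∈ Cfsg.octads ∧ g • o = o}.ncard = 15 ∧ {T : Finset (Finset Cfsg.GolayPt) | T ∈ Cfsg.trios ∧ g • T = T}.ncard = 75 ∧ {S : Finset (Finset Cfsg.GolayPt) | S ∈ Cfsg.sextets ∧ g • S = S}.ncard = 51 := by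
  rcases inv_cases hg h₂ with ⟨h, -⟩ | ⟨-, τ, h1, h2⟩
  · exact absurd (h.symm.trans (fpf_iff.1 h₀)) (by norm_num)
  · refine ⟨?_, ?_, ?_⟩
    · exact (fix_ncard_conj (cw_inv 8) h1 h2).trans
        ((fix_cw (isM_rep isM_T2) 8).trans (by decide +kernel))
    · exact (fix_ncard_conj trE_inv h1 h2).trans ((fix_tr (isM_rep isM_T2)).trans (by decide +kernel))
    · exact (fix_ncard_conj sxE_inv h1 h2).trans ((fix_sx (isM_rep isM_T2)).trans (by decide +kernel))

end Cfsg.Agent.S5606
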