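import Cfsg.Statements.S5608
import Cfsg.Agent.H15.MK

set_option autoImplicit false
open scoped Pointwise
open Cfsg

namespace Cfsg.Agent.S5608

open H15 Finset
open scoped Pointwise

theorem aux : ∀ σ ∈ CT ⊓ Fx 0, ∃ g, Rep σ g ∧
    bimp (cb1 g) (bor (is1 g) (allTo (fun i => bnot (Nat.beq (ap g i) i)) 24)) = true :=
  ct_chain.forall (by decide +kernel)

/-- If an element of order 3 and an involution of the group of the length-24 code commute, then either the element of order 3 has exactly 6 fixed points and the involution exactly 8, or both are fixed-point-free. -/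
theorem result (x s : Equiv.Perm Cfsg.GolayPt) (hx : x ∈ Cfsg.M24) (hs : s ∈ Cfsg.M24) (h₃ : orderOf x = 3) (h₂ : orderOf s = 2) (hc : Commute x s) : ((Finset.univ.filter fun p => x p = p).card = 6 ∧ (Finset.univ.filter fun p => s p = p).card = 8) ∨ ((Finset.univ.filter fun p => x p = p).card = 0 ∧ (Finset.univ.filter fun p => s p = p).card = 0) := by
  rcases inv_cases hs h₂ with ⟨h, -⟩ | ⟨h, τ, h1, h2⟩
  · rcases three_cases hx h₃ with ⟨h', -⟩ | ⟨h', -⟩
    · exact Or.inl ⟨h', h⟩
    · exfalso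
      have e : x • fixS s = fixS s := (fixS_conj (σ := s) (ρ := s) (τ := x) hc.eq).symm
      haveI : Fact (Nat.Prime 3) := ⟨by norm_num⟩
      have hr := Equiv.Perm.card_fixedPoints_modEq (p := 3) (n := 1)
        (f := fun p : ↥(fixS s) => (⟨x p, (apply_mem_of_smul_eq e _).2 p.2⟩ : ↥(fixS s))) (by
          funext p
          apply Subtype.ext
          have := congrArg (fun f : Equiv.Perm Cfsg.GolayPt => f p) (cb_of_orderOf h₃).1
          exact this)
      rw [Fintype.card_coe, h, Fintype.card_eq_zero_iff.2 ⟨fun p =>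
        fpf_iff.2 h' _ (congrArg Subtype.val p.2)⟩] at hr
      exact absurd hr (by decide)
  · refine Or.inr ⟨?_, h⟩
    have e : P cT2 = τ * s * τ⁻¹ := by rw [h2]; group
    obtain ⟨g, h3, h4⟩ := aux (τ * x * τ⁻¹) ⟨mem_CT.2 ⟨mul_mem (mul_mem h1 hx) (inv_mem h1), by
      rw [e]
      calc τ * x * τ⁻¹ * (τ * s * τ⁻¹) = τ * (x * s) * τ⁻¹ := by group
        _ = _ := by rw [hc.eq]; group⟩, by rw [Fx_zero]; trivial⟩
    rw [bimp_iff, bor_iff, ← cb1_iff h3, ← is1_iff h3] at h4
    rcases h4 (by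
      calc τ * x * τ⁻¹ * (τ * x * τ⁻¹) * (τ * x * τ⁻¹) = τ * (x * x * x) * τ⁻¹ := by group
        _ = 1 := by rw [(cb_of_orderOf h₃).1]; group) with h5 | h5
    · exact absurd (by simpa using h5) (cb_of_orderOf h₃).2
    · rw [card_fixS_conj (σ := x) (ρ := τ * x * τ⁻¹) (τ := τ) (by group), ← fpf_iff]
      intro p
      obtain ⟨i, hi, rfl⟩ := exists_pt p
      have := (allTo_iff _ _).1 h5 i hi
      rw [bnot_iff, Nat.beq_eq] at this
      rw [h3.app hi, Ne, pt_eq_iff (h3.lt hi) hi]
      exact this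

end Cfsg.Agent.S5608
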