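import Cfsg.Statements.S5609
import Cfsg.Agent.H15.Dod

set_option autoImplicit false
open scoped Pointwise
open Cfsg

namespace Cfsg.Agent.S5609

open H15 Finset
open scoped Pointwise

theorem adj {a b : Cfsg.octads} : (Cfsg.blockGraph Cfsg.octads).Adj a b ↔ Disjoint a.1 b.1 := by
  rw [Cfsg.blockGraph, SimpleGraph.fromRel_adj]
  refine ⟨fun h => h.2.elim id fun h => h.symm, fun h => ⟨?_, Or.inl h⟩⟩
  rintro rfl
  have := a.2.2
  rw [disjoint_self, bot_eq_empty] at h
  simp [h] at this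

theorem step {σ : Equiv.Perm Cfsg.GolayPt} (h : σ ∈ Cfsg.M24) {a b : ℕ} (ha : isO a = true)
    (hb : isO b = true) (e : a &&& b = 0) : (Cfsg.blockGraph Cfsg.octads).Adj
      ⟨_, smul_mem_octads h (S_mem_octads ha)⟩ ⟨_, smul_mem_octads h (S_mem_octads hb)⟩ :=
  adj.2 ((disjoint_smul_iff _ _ _).2 (S_disjoint_of_and e))

theorem walks (a b : Cfsg.octads) : ∃ w : (Cfsg.blockGraph Cfsg.octads).Walk a b,
    ((a.1 ∩ b.1).card = 4 → w.length = 2) ∧ w.length ≤ 3 := by
  by_cases h : a = b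
  · subst h; exact ⟨.nil, fun h => by simp [a.2.2] at h, by simp⟩
  obtain ⟨a, ha⟩ := a
  obtain ⟨b, hb⟩ := b
  rcases octad_inter ha hb (fun e => h (Subtype.ext e)) with e | e | e
  · exact ⟨(adj.2 (disjoint_iff_inter_eq_empty.2 (card_eq_zero.1 e))).toWalk,
      fun h => by simp [e] at h, by simp⟩
  · obtain ⟨σ, h1, rfl, rfl⟩ := oct_pair O0_mem (S_mem_octads (m := 4845570) (by decide +kernel)) ha hb
      (by rw [e]; decide +kernel)
    exact ⟨.cons (step h1 isO_O0 (b := 6889680) (by decide +kernel) (by decide)) (.cons (step h1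
      (by decide +kernel) (b := 8783649) (by decide +kernel) (by decide)) (step h1 (by decide +kernel)
      (b := 4845570) (by decide +kernel) (by decide)).toWalk), fun h => by simp [e] at h, by simp⟩
  · obtain ⟨σ, h1, rfl, rfl⟩ := oct_pair O0_mem (S_mem_octads (m := 13062145) (by decide +kernel)) ha hb
      (by rw [e]; decide +kernel)
    exact ⟨.cons (step h1 isO_O0 (b := 3704512) (by decide +kernel) (by decide)) (step h1
      (by decide +kernel) (b := 13062145) (by decide +kernel) (by decide)).toWalk, by simp, by simp⟩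

/-- In the graph on the 759 octads of the length-24 code in which two octads are adjacent when they are disjoint, the graph is connected (of diameter 3) and two distinct octads are at distance 1, 2 or 3 exactly when they meet in 0, 4 or 2 points respectively. -/
theorem result (o o' : Finset Cfsg.GolayPt) (ho : o ∈ Cfsg.octads) (ho' : o' ∈ Cfsg.octads) (hne : o ≠ o') : (Cfsg.blockGraph Cfsg.octads).Connected ∧ ((Cfsg.blockGraph Cfsg.octads).dist ⟨o, ho⟩ ⟨o', ho'⟩ = 1 ↔ (o ∩ o').card = 0) ∧ ((Cfsg.blockGraph Cfsg.octads).dist ⟨o, ho⟩ ⟨o', ho'⟩ = 2 ↔ (o ∩ o').card = 4) ∧ ((Cfsg.blockGraph Cfsg.octads).dist ⟨o, ho⟩ ⟨o', ho'⟩ = 3 ↔ (o ∩ o').card = 2) := by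
  have hc : (Cfsg.blockGraph Cfsg.octads).Connected :=
    have : Nonempty Cfsg.octads := ⟨⟨o, ho⟩⟩
    ⟨fun a b => ⟨(walks a b).choose⟩⟩
  have h0 := hc.pos_dist_of_ne (u := ⟨o, ho⟩) (v := ⟨o', ho'⟩) fun e => hne (congrArg Subtype.val e)
  have h1 : (Cfsg.blockGraph Cfsg.octads).dist ⟨o, ho⟩ ⟨o', ho'⟩ = 1 ↔ (o ∩ o').card = 0 := by
    rw [SimpleGraph.dist_eq_one_iff_adj, adj, card_eq_zero, disjoint_iff_inter_eq_empty]
  obtain ⟨w, h2, h3⟩ := walks ⟨o, ho⟩ ⟨o', ho'⟩
  have h4 := SimpleGraph.dist_le w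
  have h5 : (Cfsg.blockGraph Cfsg.octads).dist ⟨o, ho⟩ ⟨o', ho'⟩ = 2 → (o ∩ o').card ≠ 2 := by
    intro e e'
    rw [SimpleGraph.dist, ENat.toNat_eq_iff (by norm_num)] at e
    obtain ⟨x, h5, h6⟩ := (SimpleGraph.edist_eq_two_iff.1 e).2.2
    have h7 := card_symmDiff_add o o'
    have h8 := octad_dodecad_inter x.2 (d := symmDiff o o')
      ⟨cw_symmDiff ho.1 ho'.1, by rw [ho.2, ho'.2] at h7; omega⟩
    have h9 : Disjoint x.1 (symmDiff o o') := ((disjoint_union_left.2 ⟨adj.1 h5, adj.1 h6⟩).symm).mono_right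
      symmDiff_le_sup
    rw [disjoint_iff_inter_eq_empty.1 h9, card_empty] at h8
    omega
  have h6 := octad_inter ho ho' hne
  simp only at h2
  exact ⟨hc, h1, by omega, by omega⟩

end Cfsg.Agent.S5609
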