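import Cfsg.Statements.S5613
import Cfsg.Agent.H15.Octad
import Cfsg.Agent.S1565

set_option autoImplicit false
open scoped Pointwise
open Cfsg

namespace Cfsg.Agent.S5613

open scoped Pointwise
open H15 Finset MulAction
theorem aux {o o' : Finset GolayPt} (ho : o ∈ octads) (ho' : o' ∈ octads) :
    322560 = {x | x ∈ octads ∧ (o ∩ x).card = (o ∩ o').card}.ncard *
      Nat.card ↥(stabilizer M24 o ⊓ stabilizer M24 o') := by
  rw [← card_stab_octad ho]
  refine card_eq_of_orbit _ o' _ (fun g hg => ⟨smul_mem_octads g.2 ho', ?_⟩) fun y hy => ?_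
  · have : (g : Equiv.Perm GolayPt) • o = o := hg
    conv_lhs => rw [← this]
    exact card_smul_inter _ _ _
  · obtain ⟨g, h1, h2, h3⟩ := oct_oct ho ho' hy.1 hy.2.symm
    exact ⟨⟨g, h1⟩, h2, h3⟩

/-- In the group of the length-24 code, the joint stabiliser of two octads has order 10752, 1152 or 720 according as the octads meet in 0, 4 or 2 points. -/
theorem result (o o' : Finset Cfsg.GolayPt) (ho : o ∈ Cfsg.octads) (ho' : o' ∈ Cfsg.octads) : ((o ∩ o').card = 0 → Nat.card ↥(MulAction.stabilizer Cfsg.M24 o ⊓ MulAction.stabilizer Cfsg.M24 o') = 10752) ∧ ((o ∩ o').card = 4 → Nat.card ↥(MulAction.stabilizer Cfsg.M24 o ⊓ MulAction.stabilizer Cfsg.M24 o') = 1152) ∧ ((o ∩ o').card = 2 → Nat.card ↥(MulAction.stabilizer Cfsg.M24 o ⊓ MulAction.stabilizer Cfsg.M24 o') = 720) := by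
  have h := aux ho ho'
  obtain ⟨σ, h1, rfl⟩ := std_octad ho
  have h2 := (S1565.cen_oc h1).2
  have e0 : {x | x ∈ octads ∧ (σ • S 8536111 ∩ x).card = 0}.ncard = 30 := h2 1 (by norm_num)
  have e4 : {x | x ∈ octads ∧ (σ • S 8536111 ∩ x).card = 4}.ncard = 280 := h2 2 (by norm_num)
  have e2 : {x | x ∈ octads ∧ (σ • S 8536111 ∩ x).card = 2}.ncard = 448 := h2 3 (by norm_num)
  refine ⟨fun e => ?_, fun e => ?_, fun e => ?_⟩ <;> rw [e] at h
  · rw [e0] at h; omega
  · rw [e4] at h; omega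
  · rw [e2] at h; omega

end Cfsg.Agent.S5613
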