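import Cfsg.Statements.S5614
import Cfsg.Agent.H15.Octad
import Cfsg.Agent.S5613

set_option autoImplicit false
open scoped Pointwise
open Cfsg

namespace Cfsg.Agent.S5614

open scoped Pointwise
open H15 Finset MulAction
theorem aux : ∀ σ ∈ M24 ⊓ Fx 8388655, σ • S 2019456 = S 2019456 → σ = 1 := fun σ hσ h => by
  obtain ⟨g, h1, h2⟩ := m24_chain6.forall
    (Q := fun g => bimp (Nat.beq (act g 2019456) 2019456) (peq g pid)) (by decide +kernel) σ hσ
  rw [bimp_iff, Nat.beq_eq] at h2
  rw [h1.smul_S] at h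
  exact (h1.eq_iff Rep.one).2 (h2 (S_inj (h1.lt_act _) (by norm_num) h))

/-- In the group of the length-24 code, the joint stabiliser of two octads meeting in exactly two points is isomorphic to the symmetric group of degree 6. -/
theorem result (o o' : Finset Cfsg.GolayPt) (ho : o ∈ Cfsg.octads) (ho' : o' ∈ Cfsg.octads) (h₂ : (o ∩ o').card = 2) : Nonempty (↥(MulAction.stabilizer Cfsg.M24 o ⊓ MulAction.stabilizer Cfsg.M24 o') ≃* Equiv.Perm (Fin 6)) := by
  refine iso_perm_of_inj _ (o \ o') (fun g hg => ?_) (fun g hg h => ?_) (n := 6) ?_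
    ((S5613.result o o' ho ho').2.2 h₂)
  · rw [smul_finset_sdiff, mem_stabilizer_iff.1 hg.1, mem_stabilizer_iff.1 hg.2]
  · obtain ⟨τ, h1, rfl, rfl⟩ := oct_pair O0_mem (S_mem_octads (m := 2019456) (by decide +kernel)) ho ho'
      (by rw [h₂]; decide +kernel)
    rw [← smul_finset_sdiff, show S 8536111 \ S 2019456 = S 8388655 by decide +kernel] at h
    exact Subtype.ext (eq_one_of_conj (aux _ ⟨conj_mem_M24 h1 g.2, conj_mem_Fx_iff.2 h⟩
      ((conj_smul_eq_iff _ _ _).2 hg.2)))
  · have := card_sdiff_add_card_inter o o'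
    rw [ho.2] at this; omega

end Cfsg.Agent.S5614
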