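import Cfsg.Statements.S5618
import Cfsg.Agent.H15.Dod

set_option autoImplicit false
open scoped Pointwise
open Cfsg

namespace Cfsg.Agent.S5618

open H15 Finset
open scoped Pointwise

/-- For a dodecad d of the length-24 code and a hexad C on it (a 6-point intersection of d with an octad): the joint stabiliser of d and C in the code's group is isomorphic to the symmetric group of degree 6, and it acts faithfully both on the six points of C and on the six points of d outside C. -/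
theorem result (d : Finset Cfsg.GolayPt) (hd : d ∈ Cfsg.dodecads) (C : Finset Cfsg.GolayPt) (hC : C ∈ Cfsg.hexadsOn d) : Nonempty (↥(MulAction.stabilizer Cfsg.M24 d ⊓ MulAction.stabilizer Cfsg.M24 C) ≃* Equiv.Perm (Fin 6)) ∧ (∀ g ∈ MulAction.stabilizer Cfsg.M24 d ⊓ MulAction.stabilizer Cfsg.M24 C, (∀ p ∈ C, ((g : ↥Cfsg.M24) : Equiv.Perm Cfsg.GolayPt) p = p) → g = 1) ∧ ∀ g ∈ MulAction.stabilizer Cfsg.M24 d ⊓ MulAction.stabilizer Cfsg.M24 C, (∀ p ∈ d \ C, ((g : ↥Cfsg.M24) : Equiv.Perm Cfsg.GolayPt) p = p) → g = 1 := by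
  obtain ⟨h1, h2, -⟩ := (mem_hexadsOn hd).1 hC
  have h3 : ∀ s ⊆ d, s.card = 6 → ∀ g ∈ MulAction.stabilizer Cfsg.M24 d ⊓
      MulAction.stabilizer Cfsg.M24 C, (∀ p ∈ s, ((g : ↥Cfsg.M24) : Equiv.Perm Cfsg.GolayPt) p = p) →
      g = 1 := fun s hs h g hg hf => Subtype.ext (dod_fix_five hd g.2 hg.1 hs (by omega) hf)
  refine ⟨iso_perm_of_bij (MulAction.stabilizer Cfsg.M24 d ⊓ MulAction.stabilizer Cfsg.M24 C) C
    (fun g hg => hg.2) (h3 C h2 h1) h1
    (resHom_surj _ _ _ (n := 5) h1.le (by omega) fun x y hx hy hxC hyC => ?_), h3 C h2 h1,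
    h3 _ sdiff_subset (sdiff_mem_hexadsOn hd hC).1⟩
  obtain ⟨σ, h4, h5, h6⟩ := dod_multi le_rfl hd hd x y hx hy (fun i => h2 (hxC i))
    (fun i => h2 (hyC i))
  refine ⟨⟨σ, h4⟩, ⟨h5, hexad_eq_of_inter _ (h5 ▸ smul_mem_hexadsOn h4 hC) _ hC ?_⟩, h6⟩
  refine le_trans ?_ (card_le_card (s := univ.image y) fun p hp => ?_)
  · rw [card_image_of_injective _ hy]; simp
  · obtain ⟨i, -, rfl⟩ := mem_image.1 hp
    exact mem_inter.2 ⟨h6 i ▸ (apply_mem_smul_iff _ _ _).2 (hxC i), hyC i⟩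

end Cfsg.Agent.S5618
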