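import Cfsg.Statements.S5619
import Cfsg.Agent.H15.Dod

set_option autoImplicit false
open scoped Pointwise
open Cfsg

namespace Cfsg.Agent.S5619

open H15 Finset
open scoped Pointwise

/-- In the group of the length-24 code, the subgroup fixing a dodecad setwise and three of its points individually (a group of order 72) has a normal Sylow 3-subgroup that is elementary abelian of order 9, and its Sylow 2-subgroups are quaternion of order 8. -/
theorem result (d : Finset Cfsg.GolayPt) (hd : d ∈ Cfsg.dodecads) (p q r : Cfsg.GolayPt) (hp : p ∈ d) (hq : q ∈ d) (hr : r ∈ d) (hpq : p ≠ q) (hpr : p ≠ r) (hqr : q ≠ r) : (∀ Q : Sylow 3 ↥(MulAction.stabilizer Cfsg.M24 d ⊓ MulAction.stabilizer Cfsg.M24 p ⊓ MulAction.stabilizer Cfsg.M24 q ⊓ MulAction.stabilizer Cfsg.M24 r), (Q : Subgroup ↥(MulAction.stabilizer Cfsg.M24 d ⊓ MulAction.stabilizer Cfsg.M24 p ⊓ MulAction.stabilizer Cfsg.M24 q ⊓ MulAction.stabilizer Cfsg.M24 r)).Normal ∧ Nat.card ↥Q = 9 ∧ ∀ x ∈ (Q : Subgroup ↥(MulAction.stabilizer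 Cfsg.M24 d ⊓ MulAction.stabilizer Cfsg.M24 p ⊓ MulAction.stabilizer Cfsg.M24 q ⊓ MulAction.stabilizer Cfsg.M24 r)), x ^ 3 = 1) ∧ ∀ P : Sylow 2 ↥(MulAction.stabilizer Cfsg.M24 d ⊓ MulAction.stabilizer Cfsg.M24 p ⊓ MulAction.stabilizer Cfsg.M24 q ⊓ MulAction.stabilizer Cfsg.M24 r), Nonempty (↥P ≃* QuaternionGroup 2) := by
  obtain ⟨σ, h1, rfl, rfl, rfl, rfl⟩ := dod_std3 hd hp hq hr hpq hpr hqr
  have e := G3equiv h1
  generalize MulAction.stabilizer Cfsg.M24 (σ • S 340831) ⊓ MulAction.stabilizer Cfsg.M24 (σ (pt 0)) ⊓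
    MulAction.stabilizer Cfsg.M24 (σ (pt 1)) ⊓ MulAction.stabilizer Cfsg.M24 (σ (pt 2)) = K at e
  have hc : Nat.card K = 72 := (Nat.card_congr e.toEquiv).trans card_G3
  refine ⟨fun Q => ?_, fun P => ?_⟩
  · have h2 : Nat.card Q = 3 ^ 2 := by
      rw [Sylow.card_eq_multiplicity, hc, show 72 = 3 ^ 2 * 8 from rfl,
        Nat.factorization_mul (by norm_num) (by norm_num), Nat.factorization_pow]
      simp [Nat.prime_three.factorization, Nat.factorization_eq_zero_of_not_dvd]
    have h3 := sylow_mem_iff Q h2 (m := 4) (by norm_num) (fun x => by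
      obtain ⟨g, h3, h4⟩ := d_chain3.forall (Q := fun g => bor (cb1 g) (force (pmul g g) sq1))
        (by decide +kernel) _ (e x).2
      rw [bor_iff, force_eq, ← cb1_iff h3, ← sq1_iff (h3.mul h3)] at h4
      rw [← e.map_eq_one_iff, ← e.map_eq_one_iff (x := x ^ 4), map_pow, map_pow, Subtype.ext_iff,
        Subtype.ext_iff]
      simpa only [pow_succ, pow_zero, one_mul, Subgroup.coe_mul, Subgroup.coe_one, mul_assoc]
        using h4) (by
      have := d_chain3.ncard (q := fun σ => σ * σ * σ = 1) (fun _ _ h => cb1_iff h) Rep.one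
      rw [show sumC _ _ _ _ = 9 by decide +kernel] at this
      refine (Set.ncard_le_ncard_of_injOn (fun x => (e x : Equiv.Perm Cfsg.GolayPt)) (fun x hx => ?_)
        (Subtype.val_injective.comp e.injective).injOn (Set.toFinite _)).trans this.le
      refine ⟨(e x).2, ?_⟩
      have hx' : x ^ 3 = 1 := hx
      rw [← e.map_eq_one_iff, map_pow, Subtype.ext_iff] at hx'
      simpa only [pow_succ, pow_zero, one_mul, mul_one, Subgroup.coe_mul, Subgroup.coe_one]
        using hx')
    exact ⟨normal_of_pow (K := ⊤) (p := 3) (by simpa using h3), h2, fun x hx => (h3 x).1 hx⟩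
  · have h2 : Cfsg.Spor.M12 ⊓ Fx 15 ≤ Cfsg.Spor.M12 ⊓ Fx 7 := inf_le_inf_left _ (Fx_mono (by decide))
    obtain ⟨f⟩ := iso_of_table (Q := QuaternionGroup 2) (Cfsg.Spor.M12 ⊓ Fx 15)
      (fun q => getP 0x2bd47b11c65c5929d209aa2ed188208aa6fa22f2a96093ac8db31c6188202ccea5b1c9b448d7d506a42f21882089df3ac2eda150655992591c91882075576518ac3dd28a3e449b63018820bae957b6289ba44b1cd0524ac18820752cb3a4a455cd0acdac7ca2818820bdab49ca307b9ac5a928398a418820 (QuaternionGroup.rec (fun i => i.val) (fun i => 4 + i.val) q))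
      (fun q => inK_G (by revert q; decide +kernel))
      (by decide +kernel) (by decide +kernel) (by
        rw [card_G4, Nat.card_eq_fintype_card, QuaternionGroup.card])
    let g := (e.subgroupMap (((Cfsg.Spor.M12 ⊓ Fx 15).subgroupOf _).comap e.toMonoidHom)).trans
      ((MulEquiv.subgroupCongr (Subgroup.map_comap_eq_self_of_surjective e.surjective _)).trans
        (Subgroup.subgroupOfEquivOfLe h2))
    exact ⟨(Sylow.equiv P (Sylow.ofCard (((Cfsg.Spor.M12 ⊓ Fx 15).subgroupOf _).comap e.toMonoidHom) (by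
      rw [Nat.card_congr g.toEquiv, card_G4, hc, show 72 = 2 ^ 3 * 9 from rfl,
        Nat.factorization_mul (by norm_num) (by norm_num), Nat.factorization_pow]
      simp [Nat.prime_two.factorization, Nat.factorization_eq_zero_of_not_dvd]))).trans (g.trans f)⟩

end Cfsg.Agent.S5619
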