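import Cfsg.Statements.S5620
import Cfsg.Agent.H15.Dod

set_option autoImplicit false
open scoped Pointwise
open Cfsg

namespace Cfsg.Agent.S5620

open H15 Finset
open scoped Pointwise

/-- Inside the stabiliser of the dodecad of squares (a Mathieu group of degree 12), the stabiliser of the residue 0 (a point of the dodecad) and the stabiliser of the extra point (a point outside the dodecad) are isomorphic but not conjugate; conjugation by a suitable element of the code's group that maps the dodecad of squares onto its complement carries the first onto the second. -/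
theorem result : Nonempty (↥(Cfsg.Spor.M12 ⊓ MulAction.stabilizer (Equiv.Perm Cfsg.GolayPt) (none : Cfsg.GolayPt)) ≃* ↥Cfsg.Spor.M11) ∧ (¬ ∃ k ∈ Cfsg.Spor.M12, MulAut.conj k • Cfsg.Spor.M11 = Cfsg.Spor.M12 ⊓ MulAction.stabilizer (Equiv.Perm Cfsg.GolayPt) (none : Cfsg.GolayPt)) ∧ ∃ g ∈ Cfsg.M24, g • Cfsg.Spor.squareDodecad = Finset.univ \ Cfsg.Spor.squareDodecad ∧ MulAut.conj g • Cfsg.Spor.M11 = Cfsg.Spor.M12 ⊓ MulAction.stabilizer (Equiv.Perm Cfsg.GolayPt) (none : Cfsg.GolayPt) := by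
  rw [← pt_23, squareDodecad_eq]
  obtain ⟨g, h1, h2, h3⟩ := m24_trans_dodecad_point (compl_mem_dodecads D0_mem) (p := pt 23)
    (by decide +kernel)
  have h4 : MulAut.conj g • Cfsg.Spor.M11 = Cfsg.Spor.M12 ⊓
      MulAction.stabilizer (Equiv.Perm Cfsg.GolayPt) (pt 23) := by
    ext x
    rw [Subgroup.mem_pointwise_smul_iff_inv_smul_mem, MulAut.smul_def, MulAut.conj_inv_apply,
      mem_M11, conj_smul_eq_iff, conj_apply_eq_iff, h2, h3, smul_finset_compl', compl_inj_iff,
      Subgroup.mem_inf, mem_M12]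
    refine and_congr (and_congr_left' ⟨fun h => ?_, conj_mem_M24 h1⟩) Iff.rfl
    simpa [mul_assoc] using mul_mem (mul_mem h1 h) (inv_mem h1)
  refine ⟨⟨(MulEquiv.subgroupCongr h4.symm).trans (Subgroup.equivSMul _ _).symm⟩, ?_,
    g, h1, h2.trans (compl_eq_univ_sdiff _), h4⟩
  rintro ⟨k, hk, h5⟩
  obtain ⟨z, h6, h7⟩ := exists_mem_notMem (s := (S 340831)ᶜ) (t := {k⁻¹ (pt 23)})
    (by rw [card_singleton]; decide +kernel)
  obtain ⟨σ, h8, h9, h10, h11⟩ := dod_frame (n := 1) (by norm_num) D0_mem (p := pt 0)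
    (by decide +kernel) ![z] (Function.injective_of_subsingleton _) (by simpa using h6)
  obtain ⟨τ, h12, h13, h14, h15⟩ := dod_frame (n := 1) (by norm_num) D0_mem (p := pt 0)
    (by decide +kernel) ![k⁻¹ (pt 23)] (Function.injective_of_subsingleton _) (by
      simpa using fun h => absurd ((m12_maps (inv_mem hk)).1 h) (by decide +kernel))
  have h16 : MulAut.conj k • (σ * τ⁻¹) ∈ MulAut.conj k • Cfsg.Spor.M11 :=
    Subgroup.smul_mem_pointwise_smul _ _ _
      (mul_mem (mem_M11.2 ⟨⟨h8, h9⟩, h10⟩) (inv_mem (mem_M11.2 ⟨⟨h12, h13⟩, h14⟩)))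
  rw [h5] at h16
  have h17 : k (σ (τ⁻¹ (k⁻¹ (pt 23)))) = pt 23 := h16.2
  rw [← show τ (pt 23) = k⁻¹ (pt 23) from h15 0, inv_app, show σ (pt 23) = z from h11 0] at h17
  exact h7 (mem_singleton.2 (by rw [← h17, inv_app]))

end Cfsg.Agent.S5620
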