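import Cfsg.Statements.S5622
import Cfsg.Agent.H15.AbsGolay

set_option autoImplicit false
open Cfsg

namespace Cfsg.Agent.S5622

open H15 Finset
open scoped Pointwise

/-- Let C be a self-dual binary code of length 24 with minimum weight at least 8 (a 12-dimensional subspace of the 24-dimensional space over the field with two elements, any two of whose words have dot product zero, with no non-zero word of weight below 8 — an abstract extended binary Golay code). Then the minimum weight of C is exactly 8, and the supports of the words of weight 8 (the octads) form a Steiner system S(5, 8, 24) on the 24 coordinates: every 5 coordinates lie in the support of exactly one word of weight 8. -/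
theorem result (C : Submodule (ZMod 2) (Fin 24 → ZMod 2)) (hdim : Module.finrank (ZMod 2) C = 12) (horth : ∀ v ∈ C, ∀ w ∈ C, ∑ i, v i * w i = 0) (hmin : ∀ w ∈ C, w ≠ 0 → 8 ≤ hammingNorm w) : (∃ w ∈ C, hammingNorm w = 8) ∧ Cfsg.IsSteinerSystem 5 8 (Cfsg.wordsOfWeight (C : Set (Fin 24 → ZMod 2)) 8) := by
  have h := (aCode_of C hdim hmin).steiner (by simp)
  refine ⟨?_, h⟩
  obtain ⟨_, ⟨⟨w, h1, rfl⟩, h2⟩, -⟩ := steiner_exists h ∅ (by simp) (by simp)
  exact ⟨w, h1, (hammingNorm_eq_card w).trans h2⟩

end Cfsg.Agent.S5622
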