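import Cfsg.Statements.S5624
import Cfsg.Agent.H15.AbsGolay

set_option autoImplicit false
open Cfsg

namespace Cfsg.Agent.S5624

open H15 Finset
open scoped Pointwise

/-- Let C be a self-dual binary code of length 24 with minimum weight at least 8 (a 12-dimensional subspace of the 24-dimensional space over the field with two elements, any two of whose words have dot product zero, with no non-zero word of weight below 8 — an abstract extended binary Golay code). Then C is spanned, as a vector space over the field with two elements, by its words of weight 8. -/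
theorem result (C : Submodule (ZMod 2) (Fin 24 → ZMod 2)) (hdim : Module.finrank (ZMod 2) C = 12) (horth : ∀ v ∈ C, ∀ w ∈ C, ∑ i, v i * w i = 0) (hmin : ∀ w ∈ C, w ≠ 0 → 8 ≤ hammingNorm w) : Submodule.span (ZMod 2) {w : Fin 24 → ZMod 2 | w ∈ C ∧ hammingNorm w = 8} = C := by
  refine le_antisymm (Submodule.span_le.2 fun w hw => hw.1) fun w hw => ?_
  obtain ⟨e, he⟩ := (aCode_of C hdim hmin).iso (by simp)
  refine cw_induction (fun s => ∀ w, (support₂ w).map e.toEmbedding = s →
    w ∈ Submodule.span (ZMod 2) {w : Fin 24 → ZMod 2 | w ∈ C ∧ hammingNorm w = 8}) ?_ ?_ ?_ _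
    ((he _).1 (mem_supports_iff.2 hw)) w rfl
  · intro w h
    have : w = 0 := support₂_inj (by rw [map_eq_empty.1 h]; ext i; simp [mem_support₂])
    rw [this]; exact Submodule.zero_mem _
  · intro s t hs ht w h
    obtain ⟨u, hu⟩ := support₂_surj (s.map e.symm.toEmbedding)
    obtain ⟨v, hv⟩ := support₂_surj (t.map e.symm.toEmbedding)
    have : w = u + v := support₂_inj (by
      rw [support₂_add, hu, hv, ← fmap_symmDiff, ← h, map_map]; simp)
    rw [this]
    exact Submodule.add_mem _ (hs u (by rw [hu, map_map]; simp)) (ht v (by rw [hv, map_map]; simp))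
  · intro j hj w h
    refine Submodule.subset_span ⟨mem_supports_iff.1 ((he _).2 (h ▸ (ob_mem hj).1)), ?_⟩
    rw [hammingNorm_eq_card, ← card_map e.toEmbedding, h, (ob_mem hj).2]

end Cfsg.Agent.S5624
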