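import Cfsg.Statements.S5625
import Cfsg.Agent.H15.Steiner

set_option autoImplicit false
open Cfsg

namespace Cfsg.Agent.S5625

/-- In any Steiner system S(5, 8, 24) and for any set Y of three points, the blocks meeting Y in exactly 3, 2, 1 and 0 points number 21, 168, 360 and 210 respectively (so there are 759 blocks in all). -/
theorem result (α : Type*) [Fintype α] [DecidableEq α] (hα : Fintype.card α = 24) (B : Set (Finset α)) (hB : Cfsg.IsSteinerSystem 5 8 B) (Y : Finset α) (hY : Y.card = 3) : {b : Finset α | b ∈ B ∧ (b ∩ Y).card = 3}.ncard = 21 ∧ {b : Finset α | b ∈ B ∧ (b ∩ Y).card = 2}.ncard = 168 ∧ {b : Finset α | b ∈ B ∧ (b ∩ Y).card = 1}.ncard = 360 ∧ {b : Finset α | b ∈ B ∧ (b ∩ Y).card = 0}.ncard = 210 := by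
  have h := fun j => H15.meet_card_count_small hα hB (by norm_num) (Y := Y) (by omega) j
  simp only [hY, Finset.inter_comm Y] at h
  refine ⟨?_, ?_, ?_, ?_⟩
  · have h1 := h 3
    have : ((Nat.choose 3 3 : ℕ) : ℤ) * H15.tri (H15.lam 5 8 24) (3 - 3) 3 = 21 := by decide
    rw [this] at h1; exact_mod_cast h1
  · have h1 := h 2
    have : ((Nat.choose 3 2 : ℕ) : ℤ) * H15.tri (H15.lam 5 8 24) (3 - 2) 2 = 168 := by decide
    rw [this] at h1; exact_mod_cast h1
  · have h1 := h 1
    have : ((Nat.choose 3 1 : ℕ) : ℤ) * H15.tri (H15.lam 5 8 24) (3 - 1) 1 = 360 := by decide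
    rw [this] at h1; exact_mod_cast h1
  · have h1 := h 0
    have : ((Nat.choose 3 0 : ℕ) : ℤ) * H15.tri (H15.lam 5 8 24) (3 - 0) 0 = 210 := by decide
    rw [this] at h1; exact_mod_cast h1

end Cfsg.Agent.S5625
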