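import Cfsg.Statements.S5632
import Cfsg.Agent.H12.GeoBridge
-- import your own Cfsg.Agent.* helpers here

set_option autoImplicit false
set_option maxHeartbeats 400000
open Cfsg

namespace Cfsg.Agent.S5632

/-- For a finite field F and subspaces 0 < W < U of F^n with dim W + dim U = n, the elements of SL_n(F) stabilising both W and U form a subgroup that is not maximal in SL_n(F): some subgroup lies strictly between it and SL_n(F). -/
theorem result {F : Type*} [Field F] [Fintype F] (n : ℕ) (W U : Submodule F (Fin n → F)) (hW0 : W ≠ ⊥) (hWU : W < U) (hdim : Module.finrank F W + Module.finrank F U = n) : ∃ K : Subgroup (Matrix.GeneralLinearGroup (Fin n) F), Cfsg.Geo.subspaceStabilizer W ⊓ Cfsg.Geo.subspaceStabilizer U ⊓ Cfsg.Geo.specialLinear (Fin n) F < K ∧ K < Cfsg.Geo.specialLinear (Fin n) F := by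
  rw [H12.specialLinear_eq, H12.subspaceStabilizer_eq, H12.subspaceStabilizer_eq,
    ← Subgroup.comap_inf, ← Subgroup.comap_inf]
  have hU : U ≠ ⊤ := by
    rintro rfl
    have : Module.finrank F W = 0 := by simpa using hdim
    exact hW0 (Submodule.finrank_eq_zero.1 this)
  have hW1 : W ≠ ⊤ := (hWU.trans_le le_top).ne
  refine H12.exists_between_comap _ ⟨H12.glStab W ⊓ H12.SLV F _, lt_of_le_not_ge
    (inf_le_inf_right _ inf_le_left) fun h => hWU.ne ?_,
    lt_of_le_not_ge inf_le_right fun h => H12.not_SLV_le_glStab hW0 hW1 (h.trans inf_le_left)⟩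
  exact H12.eq_of_glStab_le hW0 hW1 (bot_le.trans_lt hWU).ne' hU
    (h.trans (inf_le_left.trans inf_le_right))

end Cfsg.Agent.S5632
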