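import Cfsg.Statements.S5633
import Cfsg.Agent.H12.GeoBridge
-- import your own Cfsg.Agent.* helpers here

set_option autoImplicit false
set_option maxHeartbeats 400000
open Cfsg

namespace Cfsg.Agent.S5633

/-- For a finite field F and complementary non-zero subspaces W ⊕ U = F^n with dim W < dim U, the elements of SL_n(F) stabilising both W and U form a subgroup that is not maximal in SL_n(F): some subgroup lies strictly between it and SL_n(F). -/
theorem result {F : Type*} [Field F] [Fintype F] (n : ℕ) (W U : Submodule F (Fin n → F)) (hW0 : W ≠ ⊥) (hWU : W ⊓ U = ⊥) (hWU' : W ⊔ U = ⊤) (hdim : Module.finrank F W < Module.finrank F U) : ∃ K : Subgroup (Matrix.GeneralLinearGroup (Fin n) F), Cfsg.Geo.subspaceStabilizer W ⊓ Cfsg.Geo.subspaceStabilizer U ⊓ Cfsg.Geo.specialLinear (Fin n) F < K ∧ K < Cfsg.Geo.specialLinear (Fin n) F := by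
  rw [H12.specialLinear_eq, H12.subspaceStabilizer_eq, H12.subspaceStabilizer_eq,
    ← Subgroup.comap_inf, ← Subgroup.comap_inf]
  have hU : U ≠ ⊤ := by
    rintro rfl
    exact hW0 (by simpa using hWU)
  have hW1 : W ≠ ⊤ := H12.ne_top_of_finrank_lt (hdim.trans_le (Submodule.finrank_le U))
  refine H12.exists_between_comap _ ⟨H12.glStab W ⊓ H12.SLV F _, lt_of_le_not_ge
    (inf_le_inf_right _ inf_le_left) fun h => ?_,
    lt_of_le_not_ge inf_le_right fun h => H12.not_SLV_le_glStab hW0 hW1 (h.trans inf_le_left)⟩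
  have := H12.eq_of_glStab_le hW0 hW1 (H12.ne_bot_of_finrank_pos (by omega)) hU
    (h.trans (inf_le_left.trans inf_le_right))
  rw [this] at hdim
  exact lt_irrefl _ hdim

end Cfsg.Agent.S5633
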