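import Cfsg.Statements.S5635
import Cfsg.Agent.H12.NonMax2
-- import your own Cfsg.Agent.* helpers here

set_option autoImplicit false
set_option maxHeartbeats 400000
open Cfsg

namespace Cfsg.Agent.S5635

/-- For a finite field F with q elements and n ≥ 13, let D be a decomposition of F^n into t ≥ 2 independent subspaces of equal dimension m spanning F^n, where m = 1 and q ≤ 4, or m = 2 and q = 2. Then the elements of SL_n(F) permuting the members of D form a subgroup that is not maximal: some subgroup lies strictly between it and SL_n(F). -/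
theorem result {F : Type*} [Field F] [Fintype F] (n : ℕ) (hn : 13 ≤ n) {t : ℕ} (m : ℕ) (D : Fin t → Submodule F (Fin n → F)) (hD : Cfsg.Geo.IsMDecomposition m D) (h : (m = 1 ∧ Fintype.card F ≤ 4) ∨ (m = 2 ∧ Fintype.card F = 2)) : ∃ K : Subgroup (Matrix.GeneralLinearGroup (Fin n) F), Cfsg.Geo.decompositionStabilizer D ⊓ Cfsg.Geo.specialLinear (Fin n) F < K ∧ K < Cfsg.Geo.specialLinear (Fin n) F := by
  obtain ⟨π, hπ⟩ := H12.exists_isProj hD.indep hD.iSup_eq_top
  have h1 := hπ.finrank_le hD.finrank_eq
  rw [Module.finrank_fin_fun, Fintype.card_fin] at h1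
  rw [H12.specialLinear_eq, H12.decompositionStabilizer_eq, ← Subgroup.comap_inf]
  refine H12.exists_between_comap _ ?_
  rcases h with ⟨rfl, h⟩ | ⟨rfl, h⟩
  · exact H12.sl_between_lines hπ h (by simp; omega) hD.finrank_eq
  · exact H12.sl_between_f2 hπ h (by simp; omega) hD.finrank_eq

end Cfsg.Agent.S5635
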