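import Cfsg.Statements.S5641
import Cfsg.Agent.H12.WR5
-- import your own Cfsg.Agent.* helpers here

set_option autoImplicit false
set_option maxHeartbeats 400000
open Cfsg

namespace Cfsg.Agent.S5641

/-- For a finite field F and n = m ^ t ≥ 13 with m ≥ 3 and t ≥ 2, the stabiliser in SL_n(F) of a tensor decomposition of F^n into t factors of dimension m (the conjugate by any P of the standard tensor-wreath subgroup transported along any bijection Fin n ≃ (Fin t → Fin m), intersected with SL_n(F)) is a maximal subgroup of SL_n(F). -/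
theorem result {F : Type*} [Field F] [Fintype F] (n : ℕ) (hn : 13 ≤ n) (m t : ℕ) (hm : 3 ≤ m) (ht : 2 ≤ t) (e : Fin n ≃ (Fin t → Fin m)) (P : Matrix.GeneralLinearGroup (Fin n) F) : Cfsg.Geo.IsMaximalIn (Cfsg.Geo.specialLinear (Fin n) F) (Cfsg.Geo.tensorWreathSubgroup m t e P ⊓ Cfsg.Geo.specialLinear (Fin n) F) := by
  obtain ⟨s, rfl⟩ : ∃ s, t = s + 1 := ⟨t - 1, by omega⟩
  have : NeZero m := ⟨by omega⟩
  obtain ⟨θ, π, H, ρ, h, e1, -⟩ := H12.exists_tpw e P
  rw [e1, H13.KL.specialLinear_eq_trE θ, ← Subgroup.comap_inf]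
  refine H12.isMaximalIn_comap _ (h.isMax_lin (by simpa) ?_ ?_)
  · simpa using (Nat.le_self_pow (by omega) m).trans' (by omega : 2 ≤ m)
  · simpa using (Nat.even_or_odd m).imp_right Odd.pow

end Cfsg.Agent.S5641
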