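import Cfsg.Statements.S5642
import Cfsg.Agent.H12.GeoForm
import Cfsg.Agent.H12.C8Lin
-- import your own Cfsg.Agent.* helpers here

set_option autoImplicit false
set_option maxHeartbeats 400000
open Cfsg

namespace Cfsg.Agent.S5642

/-- For a finite field F and n ≥ 13, let f be a non-degenerate symplectic form on F^n (so n is even). Then the elements of SL_n(F) that are similarities of f (f(gu, gv) = c f(u, v) for a non-zero scalar c depending on g) form a maximal subgroup of SL_n(F). -/
theorem result {F : Type*} [Field F] [Fintype F] (n : ℕ) (hn : 13 ≤ n) (f : (Fin n → F) → (Fin n → F) → F) (hf : Cfsg.Geo.IsSymplecticForm f) : Cfsg.Geo.IsMaximalIn (Cfsg.Geo.specialLinear (Fin n) F) (Cfsg.Geo.similarityGroup f ⊓ Cfsg.Geo.specialLinear (Fin n) F) := by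
  obtain ⟨C, hC, hB⟩ := H12.exists_cform_alt hf
  have hd : Module.finrank F (Fin n → F) = n := by simp
  rw [H12.specialLinear_eq, H12.similarityGroup_eq C hB, ← Subgroup.comap_inf]
  refine H12.isMaximalIn_comap _ (H12.isMaximalIn_of _ _ inf_le_right
    (fun h => H12.not_SLV_le_sim hC (by omega) (h.trans inf_le_left)) fun M h1 h2 g hg hg' => ?_)
  have hs : H12.Spec C (C.isom ⊓ H12.SLV F _) := by
    refine ⟨hC, H12.iso3_alt C, inf_le_left, fun P _ _ g hg => ⟨1, one_mem _, fun _ _ => rfl, ?_⟩⟩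
    rw [mul_one]
    refine ⟨hg, ?_⟩
    have : (⊤ : Subgroup C.isom) ≤ H11.sisom C := by
      rw [← H12.closure_tvSet_alt hC]
      exact H11.closure_tvSet_le.trans H11.iSup_tvGroup_le_sisom
    exact this (Subgroup.mem_top ⟨g, hg⟩)
  exact hs.SLV_le_of_not_sim (by omega) ((inf_le_inf_right _ C.isom_le_sim).trans h1) one_ne_zero
    (fun u hu => H12.tr_of_tv hu (H11.tvOk_alt 1)) hg fun h => hg' ⟨h, h2 hg⟩

end Cfsg.Agent.S5642
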