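import Cfsg.Statements.S5643
import Cfsg.Agent.H12.GeoForm
import Cfsg.Agent.H12.C8Lin
-- import your own Cfsg.Agent.* helpers here

set_option autoImplicit false
set_option maxHeartbeats 400000
open Cfsg

namespace Cfsg.Agent.S5643

/-- For a finite field F and n ≥ 13, let σ be a field automorphism of F of order two and f a non-degenerate unitary form on F^n with respect to σ. Then the elements of SL_n(F) that are similarities of f form a maximal subgroup of SL_n(F). -/
theorem result {F : Type*} [Field F] [Fintype F] (n : ℕ) (hn : 13 ≤ n) (σ : F ≃+* F) (f : (Fin n → F) → (Fin n → F) → F) (hf : Cfsg.Geo.IsUnitaryForm σ f) : Cfsg.Geo.IsMaximalIn (Cfsg.Geo.specialLinear (Fin n) F) (Cfsg.Geo.similarityGroup f ⊓ Cfsg.Geo.specialLinear (Fin n) F) := by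
  obtain ⟨C, hC, hB⟩ := H12.exists_cform_herm hf
  have hd : Module.finrank F (Fin n → F) = n := by simp
  have hσ := H12.ringEquiv_ne_id hf.ne_refl
  rw [H12.specialLinear_eq, H12.similarityGroup_eq' C hB, ← Subgroup.comap_inf]
  refine H12.isMaximalIn_comap _ (H12.isMaximalIn_of _ _ inf_le_right
    (fun h => H12.not_SLV_le_sim hC (by omega) (h.trans inf_le_left)) fun M h1 h2 g hg hg' => ?_)
  obtain ⟨c, hc0, hc⟩ := H12.exists_trace_zero' (hσ2 := hf.involutive) hσ
  exact (H12.spec_herm hσ (H12.exists_norm_of_finite hf.involutive hσ) hC).SLV_le_of_not_sim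
    (by omega) ((inf_le_inf_right _ C.isom_le_sim).trans h1) hc0
    (fun u hu => H12.tr_of_tv hu (H11.tvOk_herm.2 hc)) hg fun h => hg' ⟨h, h2 hg⟩

end Cfsg.Agent.S5643
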