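import Cfsg.Statements.S5644
import Cfsg.Agent.H12.GeoForm
import Cfsg.Agent.H12.C8Lin
-- import your own Cfsg.Agent.* helpers here

set_option autoImplicit false
set_option maxHeartbeats 400000
open Cfsg

namespace Cfsg.Agent.S5644

/-- For a finite field F of odd order and n ≥ 13, let Q be a non-degenerate quadratic form on F^n (its polar form is non-degenerate). Then the elements of SL_n(F) that are similarities of Q (Q(gv) = c Q(v) for a non-zero scalar c depending on g) form a maximal subgroup of SL_n(F). -/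
theorem result {F : Type*} [Field F] [Fintype F] (n : ℕ) (hn : 13 ≤ n) (hodd : Odd (Fintype.card F)) (Q : (Fin n → F) → F) (hQ : Cfsg.Geo.IsNondegenerateQuadraticForm Q) : Cfsg.Geo.IsMaximalIn (Cfsg.Geo.specialLinear (Fin n) F) (Cfsg.Geo.quadSimilarityGroup Q ⊓ Cfsg.Geo.specialLinear (Fin n) F) := by
  obtain ⟨Q, rfl, hQ'⟩ := H12.exists_quad hQ
  have hd : Module.finrank F (Fin n → F) = n := by simp
  rw [H12.specialLinear_eq, H12.quadSimilarityGroup_eq, H12.qsim_eq_sim Q (H12.odd_card_iff.1 hodd),
    ← Subgroup.comap_inf]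
  refine H12.isMaximalIn_comap _ (H12.isMaximalIn_of _ _ inf_le_right
    (fun h => H12.not_SLV_le_sim hQ' (by omega) (h.trans inf_le_left)) fun M h1 h2 g hg hg' => ?_)
  exact H12.SLV_le_of_not_sim_quad hQ' (by omega) ((le_inf (H12.OmegaV_le.trans
    (H12.CForm.isom_le_sim)) H12.OmegaV_le_SLV).trans h1) hg fun h => hg' ⟨h, h2 hg⟩

end Cfsg.Agent.S5644
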