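import Cfsg.Statements.S5645
import Cfsg.Agent.H12.GeoForm
import Cfsg.Agent.H12.Parabolic
-- import your own Cfsg.Agent.* helpers here

set_option autoImplicit false
set_option maxHeartbeats 400000
open Cfsg

namespace Cfsg.Agent.S5645

/-- For a finite field F and m ≥ 7, in the symplectic group Sp_2m(F) of the standard alternating form on F^(2m) (as a subgroup of GL_2m(F)), the stabiliser of any non-zero subspace on which the form vanishes identically is a maximal subgroup. -/
theorem result {F : Type*} [Field F] [Fintype F] (m : ℕ) (hm : 7 ≤ m) (W : Submodule F (Fin m ⊕ Fin m → F)) (hW0 : W ≠ ⊥) (hW : Cfsg.Geo.IsTotallySingularFor (Cfsg.sympForm m F) W) : Cfsg.Geo.IsMaximalIn (Cfsg.spGL m F) (Cfsg.Geo.subspaceStabilizer W ⊓ Cfsg.spGL m F) := by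
  have hC := H11.spForm_nondeg (ι := Fin m) (F := F)
  have hd : Module.finrank F (Fin m ⊕ Fin m → F) = m + m := by simp
  have hW' : (H11.spForm (Fin m) F).TS W := ⟨fun _ _ => rfl, fun x hx y hy => by
    rw [H11.spForm_B_eq]; exact hW x hx y hy⟩
  rw [H12.spGL_eq, H12.subspaceStabilizer_eq, ← Subgroup.comap_inf]
  refine H12.isMaximalIn_comap _ (H12.isMaximalIn_of _ _ inf_le_right
    (fun h => (H12.spec_alt hC).not_le_glStab (by omega) hW0 (hW'.ne_top hC hW0)
      (h.trans inf_le_left)) fun M h1 h2 g hg hg' => ?_)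
  exact (H12.rootData_alt hC).le_of_parabolic hW' (H12.alt_move hC hW') h1 hg (h2 hg)
    fun h => hg' ⟨h, h2 hg⟩

end Cfsg.Agent.S5645
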