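import Cfsg.Statements.S5646
import Cfsg.Agent.H12.NondegMax
-- import your own Cfsg.Agent.* helpers here

set_option autoImplicit false
set_option maxHeartbeats 400000
open Cfsg

namespace Cfsg.Agent.S5646

/-- For a finite field F and m ≥ 7, in the symplectic group Sp_2m(F) of the standard alternating form on F^(2m), the stabiliser of any non-zero subspace W on which the form is non-degenerate and with dim W < m is a maximal subgroup. -/
theorem result {F : Type*} [Field F] [Fintype F] (m : ℕ) (hm : 7 ≤ m) (W : Submodule F (Fin m ⊕ Fin m → F)) (hW0 : W ≠ ⊥) (hW : Cfsg.Geo.IsNondegenerateOn (Cfsg.sympForm m F) W) (hdim : Module.finrank F W < m) : Cfsg.Geo.IsMaximalIn (Cfsg.spGL m F) (Cfsg.Geo.subspaceStabilizer W ⊓ Cfsg.spGL m F) := by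
  have hC := H11.spForm_nondeg (ι := Fin m) (F := F)
  have hd : Module.finrank F (Fin m ⊕ Fin m → F) = m + m := by simp
  have hW' := H12.nondegOn_of_geo _ (Or.inl (H11.spForm_B_eq m)) hW
  have h1 := hC.finrank_add_finrank_perp W
  rw [H12.spGL_eq, H12.subspaceStabilizer_eq, ← Subgroup.comap_inf]
  exact H12.isMaximalIn_comap _ ((H12.enlarge_alt hC (d := 3) (by omega)
    (Or.inr le_rfl)).isMaximalIn_nondeg (H12.spec_alt hC) (by omega) hW' hW0 (by omega) (by omega)
    (H12.irr_alt W) (Or.inl (by omega)))

end Cfsg.Agent.S5646
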