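import Cfsg.Statements.S5647
import Cfsg.Agent.H12.NondegMax
-- import your own Cfsg.Agent.* helpers here

set_option autoImplicit false
set_option maxHeartbeats 400000
open Cfsg

namespace Cfsg.Agent.S5647

/-- For a finite field F with q elements and m ≥ 7, let D be a decomposition of F^(2m) into t ≥ 2 pairwise orthogonal subspaces of equal dimension k on each of which the standard alternating form is non-degenerate, spanning F^(2m). Unless k = 2 and q = 2, the elements of Sp_2m(F) permuting the members of D form a maximal subgroup of Sp_2m(F). -/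
theorem result {F : Type*} [Field F] [Fintype F] (m : ℕ) (hm : 7 ≤ m) {t : ℕ} (k : ℕ) (D : Fin t → Submodule F (Fin m ⊕ Fin m → F)) (hD : Cfsg.Geo.IsNondegenerateMDecomposition (Cfsg.sympForm m F) k D) (hex : ¬ (k = 2 ∧ Fintype.card F = 2)) : Cfsg.Geo.IsMaximalIn (Cfsg.spGL m F) (Cfsg.Geo.decompositionStabilizer D ⊓ Cfsg.spGL m F) := by
  have hC := H11.spForm_nondeg (ι := Fin m) (F := F)
  have hd : Module.finrank F (Fin m ⊕ Fin m → F) = m + m := by simp
  have h1 := fun i => H12.nondegOn_of_geo _ (Or.inl (H11.spForm_B_eq m)) (hD.nondegenerate i)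
  have h2 := hD.decomp.finrank_eq
  have hD' := H12.orthDec_of_geo _ (Or.inl (H11.spForm_B_eq m)) hD fun i j =>
    H12.alt_iso ((H12.CForm.restrict_nondeg_iff _).2 (h1 i)) ((H12.CForm.restrict_nondeg_iff _).2 (h1 j))
      (by rw [h2, h2])
  have h3 := hD.decomp.two_le
  have h4 := hD.decomp.pos
  haveI : Nontrivial (Fin t) := Fin.nontrivial_iff_two_le.2 h3
  obtain ⟨l, hl⟩ := H12.alt_even ((H12.CForm.restrict_nondeg_iff _).2 (h1 ⟨0, by omega⟩))
  rw [h2] at hl
  rw [H12.spGL_eq, H12.decompositionStabilizer_eq, ← Subgroup.comap_inf]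
  refine H12.isMaximalIn_comap _ ((H12.enlarge_alt hC h4 ?_).isMaximalIn_dec (H12.spec_alt hC)
    (by omega) hD' (fun i => by rw [h2]; omega) fun i => (h2 i).ge)
  by_cases h5 : k = 2
  · left
    by_contra h6
    push Not at h6
    refine hex ⟨h5, le_antisymm ?_ Fintype.one_lt_card⟩
    classical
    have : (Finset.univ : Finset F) ⊆ {0, 1} := fun a _ => by
      by_cases ha : a = 0
      · simp [ha]
      · simp [h6 a ha]
    exact (Finset.card_le_card this).trans Finset.card_le_two
  · right; omega

end Cfsg.Agent.S5647
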