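import Cfsg.Statements.S5648
import Cfsg.Agent.H12.NonMax2
-- import your own Cfsg.Agent.* helpers here

set_option autoImplicit false
set_option maxHeartbeats 400000
open Cfsg

namespace Cfsg.Agent.S5648

/-- Over the field with 2 elements and for m ≥ 7, let D be a decomposition of F^(2m) into t pairwise orthogonal non-degenerate 2-dimensional subspaces for the standard alternating form (t = m ≥ 2). Then the elements of Sp_2m(2) permuting the members of D form a subgroup that is not maximal: some subgroup lies strictly between it and Sp_2m(2). -/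
theorem result {F : Type*} [Field F] [Fintype F] (m : ℕ) (hm : 7 ≤ m) (hq : Fintype.card F = 2) {t : ℕ} (D : Fin t → Submodule F (Fin m ⊕ Fin m → F)) (hD : Cfsg.Geo.IsNondegenerateMDecomposition (Cfsg.sympForm m F) 2 D) : ∃ K : Subgroup (Matrix.GeneralLinearGroup (Fin m ⊕ Fin m) F), Cfsg.Geo.decompositionStabilizer D ⊓ Cfsg.spGL m F < K ∧ K < Cfsg.spGL m F := by
  have hC := H11.spForm_nondeg (ι := Fin m) (F := F)
  have hd : Module.finrank F (Fin m ⊕ Fin m → F) = m + m := by simp
  have h1 := fun i => H12.nondegOn_of_geo _ (Or.inl (H11.spForm_B_eq m)) (hD.nondegenerate i)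
  have h2 := hD.decomp.finrank_eq
  have hD' := H12.orthDec_of_geo _ (Or.inl (H11.spForm_B_eq m)) hD fun i j =>
    H12.alt_iso ((H12.CForm.restrict_nondeg_iff _).2 (h1 i))
      ((H12.CForm.restrict_nondeg_iff _).2 (h1 j)) (by rw [h2, h2])
  obtain ⟨π, hπ⟩ := hD'.exists_isProj
  have h3 := hπ.finrank_le h2
  rw [H12.spGL_eq, H12.decompositionStabilizer_eq, ← Subgroup.comap_inf]
  exact H12.exists_between_comap _ (H12.sp_between_f2 hC hq (by omega) hD' h2)

end Cfsg.Agent.S5648
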