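import Cfsg.Statements.S5649
import Cfsg.Agent.H12.LagPair
-- import your own Cfsg.Agent.* helpers here

set_option autoImplicit false
set_option maxHeartbeats 400000
open Cfsg

namespace Cfsg.Agent.S5649

/-- For a finite field F of odd order and m ≥ 7, let D be a decomposition of F^(2m) into two complementary subspaces of dimension m on each of which the standard alternating form vanishes identically. Then the elements of Sp_2m(F) preserving or interchanging the two subspaces form a maximal subgroup of Sp_2m(F). -/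
theorem result {F : Type*} [Field F] [Fintype F] (m : ℕ) (hm : 7 ≤ m) (hodd : Odd (Fintype.card F)) (D : Fin 2 → Submodule F (Fin m ⊕ Fin m → F)) (hD : Cfsg.Geo.IsMDecomposition m D) (hts : ∀ i, Cfsg.Geo.IsTotallySingularFor (Cfsg.sympForm m F) (D i)) : Cfsg.Geo.IsMaximalIn (Cfsg.spGL m F) (Cfsg.Geo.decompositionStabilizer D ⊓ Cfsg.spGL m F) := by
  have hC := H11.spForm_nondeg (ι := Fin m) (F := F)
  have hd : Module.finrank F (Fin m ⊕ Fin m → F) = m + m := by simp
  obtain ⟨π, hπ⟩ := H12.exists_isProj hD.indep hD.iSup_eq_top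
  have h2 := H12.odd_card_iff.1 hodd
  rw [H12.spGL_eq, H12.decompositionStabilizer_eq, ← Subgroup.comap_inf]
  refine H12.isMaximalIn_comap _ ((H12.rhoData_alt hC).isMaximalIn_lagPair (fun c _ => ⟨c / 2, ?_⟩)
    (by omega) hπ (fun i => ⟨⟨fun _ _ => rfl, fun x hx y hy => ?_⟩, by rw [hD.finrank_eq]; omega⟩)
    fun s hs _ => ⟨1, one_mem _, by simpa⟩)
  · change c / 2 - -1 * (c / 2) = c
    field_simp; ring
  · rw [H11.spForm_B_eq]; exact hts i x hx y hy

end Cfsg.Agent.S5649
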