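import Cfsg.Statements.S5650
import Cfsg.Agent.H12.RatFin
import Cfsg.Agent.H12.StabBridge
-- import your own Cfsg.Agent.* helpers here

set_option autoImplicit false
set_option maxHeartbeats 400000
open Cfsg

namespace Cfsg.Agent.S5650

/-- For a finite field F, a subfield F₀ with |F| = |F₀| ^ r for a prime r, and m ≥ 7, let P be an invertible matrix and ζ a non-zero scalar such that ζ times the standard alternating form takes values in F₀ on the F₀-span of the columns of P. Then the elements of Sp_2m(F) lying in the subfield group of P (the conjugate by P of the product of GL_2m(F₀) with the scalars) form a maximal subgroup of Sp_2m(F). -/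
theorem result {F : Type*} [Field F] [Fintype F] (m : ℕ) (hm : 7 ≤ m) (F₀ : Subfield F) (r : ℕ) (hr : r.Prime) (hcard : Fintype.card F = Nat.card F₀ ^ r) (P : Matrix.GeneralLinearGroup (Fin m ⊕ Fin m) F) (ζ : F) (hζ : ζ ≠ 0) (hP : Cfsg.Geo.IsFormRationalStructure (Cfsg.sympForm m F) F₀ ζ P) : Cfsg.Geo.IsMaximalIn (Cfsg.spGL m F) (Cfsg.Geo.subfieldSubgroup F₀ P ⊓ Cfsg.spGL m F) := by
  have hc : Nat.card F = Nat.card F₀ ^ r := by rwa [Nat.card_eq_fintype_card]
  rw [H12.spGL_eq, H12.subfieldSubgroup_eq, ← Subgroup.comap_inf]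
  exact H12.isMaximalIn_comap _ (H12.isMaximalIn_rat_alt (H12.rat_ratMap F₀ P)
    (H12.maxSub_subfield hr hc) (H12.exists_not_mem_subfield hr hc) (by simp; omega)
    (H11.spForm_nondeg) hζ fun x y => ⟨⟨_, hP _ _ (fun i => (x i).2) fun i => (y i).2⟩, by
      rw [H11.spForm_B_eq, H12.ratMap_apply, H12.ratMap_apply]; rfl⟩)

end Cfsg.Agent.S5650
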