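import Cfsg.Statements.S5653
import Cfsg.Agent.H12.GeoForm
import Cfsg.Agent.H12.Parabolic
-- import your own Cfsg.Agent.* helpers here

set_option autoImplicit false
set_option maxHeartbeats 400000
open Cfsg

namespace Cfsg.Agent.S5653

/-- Let F be the field with q² elements and n ≥ 13, and let SU_n(q) be the group of matrices of determinant one preserving the standard unitary form Σ u_i v_i^q on F^n (the intersection of the unitary group GU_n with the kernel of the determinant). The elements of SU_n(q) stabilising a non-zero subspace on which the form vanishes identically form a maximal subgroup of SU_n(q). -/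
theorem result {F : Type*} [Field F] [Fintype F] (n q : ℕ) (hF : Fintype.card F = q ^ 2) (hn : 13 ≤ n) (W : Submodule F (Fin n → F)) (hW0 : W ≠ ⊥) (hW : Cfsg.Geo.IsTotallySingularFor (Cfsg.hermForm n F q) W) : Cfsg.Geo.IsMaximalIn (Cfsg.GU n F q ⊓ Cfsg.Geo.specialLinear (Fin n) F) (Cfsg.Geo.subspaceStabilizer W ⊓ (Cfsg.GU n F q ⊓ Cfsg.Geo.specialLinear (Fin n) F)) := by
  have hC := H11.hermC_nondeg (ι := Fin n) hF
  have hd : Module.finrank F (Fin n → F) = n := by simp
  have hW' : (H11.hermC (Fin n) hF).TS W := ⟨fun x hx => by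
    rw [H11.hermC_N_eq]; exact hW x hx x hx, fun x hx y hy => by
    rw [H11.hermC_B_eq]; exact hW y hy x hx⟩
  have hσ := H11.frob_ne_id hF
  have hR := H12.rootData_herm hσ (H12.exists_norm_of_finite (H11.frob_frob hF) hσ) hC (by omega)
  rw [H12.SU_eq hF, H12.subspaceStabilizer_eq, ← Subgroup.comap_inf]
  refine H12.isMaximalIn_comap _ (H12.isMaximalIn_of _ _ inf_le_right
    (fun h => hR.spec.not_le_glStab (by omega) hW0 (hW'.ne_top hC hW0)
      (h.trans inf_le_left)) fun M h1 h2 g hg hg' => ?_)
  exact hR.le_of_parabolic hW' (H12.herm_move hσ hC hW') h1 hg (h2 hg)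
    fun h => hg' ⟨h, h2 hg⟩

end Cfsg.Agent.S5653
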