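import Cfsg.Statements.S5654
import Cfsg.Agent.H12.NondegMax
-- import your own Cfsg.Agent.* helpers here

set_option autoImplicit false
set_option maxHeartbeats 400000
open Cfsg

namespace Cfsg.Agent.S5654

/-- Let F be the field with q² elements and n ≥ 13. In SU_n(q) (determinant-one isometries of the standard unitary form on F^n) the stabiliser of a non-zero subspace W on which the form is non-degenerate and with 2 dim W < n is a maximal subgroup. -/
theorem result {F : Type*} [Field F] [Fintype F] (n q : ℕ) (hF : Fintype.card F = q ^ 2) (hn : 13 ≤ n) (W : Submodule F (Fin n → F)) (hW0 : W ≠ ⊥) (hW : Cfsg.Geo.IsNondegenerateOn (Cfsg.hermForm n F q) W) (hdim : 2 * Module.finrank F W < n) : Cfsg.Geo.IsMaximalIn (Cfsg.GU n F q ⊓ Cfsg.Geo.specialLinear (Fin n) F) (Cfsg.Geo.subspaceStabilizer W ⊓ (Cfsg.GU n F q ⊓ Cfsg.Geo.specialLinear (Fin n) F)) := by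
  have hC := H11.hermC_nondeg (ι := Fin n) hF
  have hd : Module.finrank F (Fin n → F) = n := by simp
  have hW' := H12.nondegOn_of_geo _ (Or.inr (H11.hermC_B_eq hF n)) hW
  have h1 := hC.finrank_add_finrank_perp W
  have hσ := H11.frob_ne_id hF
  have hN := H12.exists_norm_of_finite (H11.frob_frob hF) hσ
  rw [H12.SU_eq hF, H12.subspaceStabilizer_eq, ← Subgroup.comap_inf]
  exact H12.isMaximalIn_comap _ ((H12.enlarge_herm hσ hN hC).isMaximalIn_nondeg
    (H12.spec_herm hσ hN hC) (by omega) hW' hW0 (by omega) (by omega)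
    (H12.irr_herm hσ hN hW') (Or.inl (by omega)))

end Cfsg.Agent.S5654
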