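import Cfsg.Statements.S5655
import Cfsg.Agent.H12.UF6
import Cfsg.Agent.H12.NonMax2
import Cfsg.Agent.H12.TvBridge
-- import your own Cfsg.Agent.* helpers here

set_option autoImplicit false
set_option maxHeartbeats 400000
open Cfsg

namespace Cfsg.Agent.S5655

/-- Let F be the field with q² elements and n ≥ 13. Let D be a decomposition of F^n into t ≥ 2 pairwise orthogonal subspaces of equal dimension k, each non-degenerate for the standard unitary form, spanning F^n. Unless k = 2 and q = 2, the elements of SU_n(q) permuting the members of D form a maximal subgroup of SU_n(q). -/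
theorem result {F : Type*} [Field F] [Fintype F] (n q : ℕ) (hF : Fintype.card F = q ^ 2) (hn : 13 ≤ n) {t : ℕ} (k : ℕ) (D : Fin t → Submodule F (Fin n → F)) (hD : Cfsg.Geo.IsNondegenerateMDecomposition (Cfsg.hermForm n F q) k D) (hex : ¬ (k = 2 ∧ q = 2)) : Cfsg.Geo.IsMaximalIn (Cfsg.GU n F q ⊓ Cfsg.Geo.specialLinear (Fin n) F) (Cfsg.Geo.decompositionStabilizer D ⊓ (Cfsg.GU n F q ⊓ Cfsg.Geo.specialLinear (Fin n) F)) := by
  have hC := H11.hermC_nondeg (ι := Fin n) hF
  have hd : Module.finrank F (Fin n → F) = n := by simp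
  have h1 := fun i => H12.nondegOn_of_geo _ (Or.inr (H11.hermC_B_eq hF n)) (hD.nondegenerate i)
  have h2 := hD.decomp.finrank_eq
  have hD' := H12.orthDec_of_geo _ (Or.inr (H11.hermC_B_eq hF n)) hD fun i j =>
    H12.hermT_iso hF ((H12.CForm.restrict_nondeg_iff _).2 (h1 i))
      ((H12.CForm.restrict_nondeg_iff _).2 (h1 j)) (by rw [h2, h2])
  haveI : Nontrivial (Fin t) := Fin.nontrivial_iff_two_le.2 hD.decomp.two_le
  rw [H12.SU_eq hF, H12.decompositionStabilizer_eq, ← Subgroup.comap_inf]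
  have h3 := hD.decomp.pos
  refine H12.isMaximalIn_comap _ (hD'.isMaximalIn_herm (H11.frob_ne_id hF)
    (H12.exists_norm_of_finite (H11.frob_frob hF) (H11.frob_ne_id hF)) hC (by omega) h2 ?_)
  rcases (by omega : 3 ≤ k ∨ k = 2 ∨ k = 1) with h | h | h
  · exact Or.inl h
  · exact Or.inr (Or.inl ⟨h, H12.exists_fixed_ne hF fun e => hex ⟨h, e⟩⟩)
  · exact Or.inr (Or.inr ⟨h, by omega⟩)

end Cfsg.Agent.S5655
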