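import Cfsg.Statements.S5656
import Cfsg.Agent.H12.NonMax2
-- import your own Cfsg.Agent.* helpers here

set_option autoImplicit false
set_option maxHeartbeats 400000
open Cfsg

namespace Cfsg.Agent.S5656

/-- Let F be the field with 4 elements (q = 2) and n ≥ 13. Let D be a decomposition of F^n into t pairwise orthogonal 2-dimensional subspaces, each non-degenerate for the standard unitary form Σ u_i v_i². Then the elements of SU_n(2) permuting the members of D form a subgroup that is not maximal: some subgroup lies strictly between it and SU_n(2). -/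
theorem result {F : Type*} [Field F] [Fintype F] (n : ℕ) (hF : Fintype.card F = 4) (hn : 13 ≤ n) {t : ℕ} (D : Fin t → Submodule F (Fin n → F)) (hD : Cfsg.Geo.IsNondegenerateMDecomposition (Cfsg.hermForm n F 2) 2 D) : ∃ K : Subgroup (Matrix.GeneralLinearGroup (Fin n) F), Cfsg.Geo.decompositionStabilizer D ⊓ (Cfsg.GU n F 2 ⊓ Cfsg.Geo.specialLinear (Fin n) F) < K ∧ K < (Cfsg.GU n F 2 ⊓ Cfsg.Geo.specialLinear (Fin n) F) := by
  have hF' : Fintype.card F = 2 ^ 2 := hF
  have hC := H11.hermC_nondeg (ι := Fin n) hF'
  have hd : Module.finrank F (Fin n → F) = n := by simp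
  have h1 := fun i => H12.nondegOn_of_geo _ (Or.inr (H11.hermC_B_eq hF' n)) (hD.nondegenerate i)
  have h2 := hD.decomp.finrank_eq
  have hD' := H12.orthDec_of_geo _ (Or.inr (H11.hermC_B_eq hF' n)) hD fun i j =>
    H12.hermT_iso hF' ((H12.CForm.restrict_nondeg_iff _).2 (h1 i))
      ((H12.CForm.restrict_nondeg_iff _).2 (h1 j)) (by rw [h2, h2])
  haveI : Nontrivial (Fin t) := Fin.nontrivial_iff_two_le.2 hD.decomp.two_le
  rw [H12.SU_eq hF', H12.decompositionStabilizer_eq, ← Subgroup.comap_inf]
  refine H12.exists_between_comap _ (H12.su_between_f4 (H11.frob_ne_id hF') (fun a ha => ?_)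
    (H12.f4_two hF) hC (by omega) hD' h2)
  rw [H11.frob_apply] at ha
  exact (mul_eq_zero.1 (by linear_combination ha : a * (a - 1) = 0)).imp id sub_eq_zero.1

end Cfsg.Agent.S5656
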