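import Cfsg.Statements.S5657
import Cfsg.Agent.H12.LagPair
-- import your own Cfsg.Agent.* helpers here

set_option autoImplicit false
set_option maxHeartbeats 400000
open Cfsg

namespace Cfsg.Agent.S5657

/-- Let F be the field with q² elements and n = 2k ≥ 13. Let D be a decomposition of F^n into two complementary subspaces of dimension k on each of which the standard unitary form vanishes identically. Then the elements of SU_n(q) preserving or interchanging the two subspaces form a maximal subgroup of SU_n(q). -/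
theorem result {F : Type*} [Field F] [Fintype F] (n q : ℕ) (hF : Fintype.card F = q ^ 2) (hn : 13 ≤ n) (k : ℕ) (hk : 2 * k = n) (D : Fin 2 → Submodule F (Fin n → F)) (hD : Cfsg.Geo.IsMDecomposition k D) (hts : ∀ i, Cfsg.Geo.IsTotallySingularFor (Cfsg.hermForm n F q) (D i)) : Cfsg.Geo.IsMaximalIn (Cfsg.GU n F q ⊓ Cfsg.Geo.specialLinear (Fin n) F) (Cfsg.Geo.decompositionStabilizer D ⊓ (Cfsg.GU n F q ⊓ Cfsg.Geo.specialLinear (Fin n) F)) := by
  have hC := H11.hermC_nondeg (ι := Fin n) hF
  have hd : Module.finrank F (Fin n → F) = n := by simp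
  obtain ⟨π, hπ⟩ := H12.exists_isProj hD.indep hD.iSup_eq_top
  have hσ := H11.frob_ne_id hF
  have hσ2 := H11.frob_frob hF
  have hL : ∀ i, (H11.hermC (Fin n) hF).Lag (D i) := fun i => ⟨⟨fun x hx => by
    rw [H11.hermC_N_eq]; exact hts i x hx x hx, fun x hx y hy => by
    rw [H11.hermC_B_eq]; exact hts i y hy x hx⟩, by rw [hD.finrank_eq]; omega⟩
  rw [H12.SU_eq hF, H12.decompositionStabilizer_eq, ← Subgroup.comap_inf]
  refine H12.isMaximalIn_comap _ ((H12.rhoData_herm hσ (H12.exists_norm_of_finite hσ2 hσ) hC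
    (by omega)).isMaximalIn_lagPair (fun c hc => ?_) (by omega) hπ hL fun g hg _ => ?_)
  · obtain ⟨a, ha⟩ := H12.exists_ne_of_ne_id hσ
    have h1 : H11.frob hF a - a ≠ 0 := sub_ne_zero.2 ha
    have h2 : H11.frob hF c = -c := by
      have : 1 * c + H11.frob hF (1 * c) = 0 := hc
      rw [one_mul] at this
      linear_combination this
    refine ⟨c / (H11.frob hF a - a) * a, ?_⟩
    change H11.frob hF _ - 1 * _ = c
    rw [map_mul, map_div₀, map_sub, hσ2, h2, ← neg_sub (H11.frob hF a), neg_div_neg_eq]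
    field_simp
  · have h := H12.lagPair_of hπ hL
    obtain ⟨e, he, f, hf, hef⟩ := h.exists_hyp hC (by omega)
    have h1 := hC.σ_det_mul_det hg
    obtain ⟨a, ha, e'⟩ := H12.hilbert90 hσ hσ2 (d := H11.frob hF (LinearMap.det (g : (Fin n → F) →ₗ[F] (Fin n → F))))
      (by rw [hσ2]; exact h1)
    obtain ⟨k, h2, h3, h4, h5⟩ := hef.exists_torus hC ha
    refine ⟨k.1, h.torus_mem he hf hef h2 h3 h4, mul_mem hg k.2, H12.mem_SLV.2 ?_⟩
    rw [LinearEquiv.coe_toLinearMap_mul, map_mul, ← LinearEquiv.coe_det k.1, h5, mul_comm]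
    exact (congrArg (· * _) e').trans h1

end Cfsg.Agent.S5657
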