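import Cfsg.Statements.S5658
import Cfsg.Agent.H12.RatFin
import Cfsg.Agent.H12.StabBridge
-- import your own Cfsg.Agent.* helpers here

set_option autoImplicit false
set_option maxHeartbeats 400000
open Cfsg

namespace Cfsg.Agent.S5658

/-- Let F be the field with q² elements, n ≥ 13, and F₀ a subfield with |F| = |F₀| ^ r for an odd prime r. Let P be an invertible matrix such that the standard unitary form takes values in F₀ on the F₀-span of the columns of P. Then the elements of SU_n(q) lying in the subfield group of P (the conjugate by P of the product of GL_n(F₀) with the scalars) form a maximal subgroup of SU_n(q). -/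
theorem result {F : Type*} [Field F] [Fintype F] (n q : ℕ) (hF : Fintype.card F = q ^ 2) (hn : 13 ≤ n) (F₀ : Subfield F) (r : ℕ) (hr : r.Prime) (hro : Odd r) (hcard : Fintype.card F = Nat.card F₀ ^ r) (P : Matrix.GeneralLinearGroup (Fin n) F) (hP : Cfsg.Geo.IsFormRationalStructure (Cfsg.hermForm n F q) F₀ 1 P) : Cfsg.Geo.IsMaximalIn (Cfsg.GU n F q ⊓ Cfsg.Geo.specialLinear (Fin n) F) (Cfsg.Geo.subfieldSubgroup F₀ P ⊓ (Cfsg.GU n F q ⊓ Cfsg.Geo.specialLinear (Fin n) F)) := by
  have hc : Nat.card F = Nat.card F₀ ^ r := by rwa [Nat.card_eq_fintype_card]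
  rw [H12.SU_eq hF, H12.subfieldSubgroup_eq, ← Subgroup.comap_inf]
  refine H12.isMaximalIn_comap _ (H12.isMaximalIn_rat_herm (H12.rat_ratMap F₀ P)
    (H12.maxSub_subfield hr hc) (H12.exists_not_mem_subfield hr hc)
    (by simp; omega) (H11.frob_ne_id hF) (H11.hermC_nondeg hF)
    (σ₀ := (H11.frob hF).restrict F₀ F₀ fun x hx => pow_mem hx q) (fun _ => rfl) (fun h => ?_)
    fun x y => ⟨⟨_, hP _ _ (fun i => (y i).2) fun i => (x i).2⟩, by
      rw [H11.hermC_B_eq, H12.ratMap_apply, H12.ratMap_apply]; exact (one_mul _).symm⟩)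
  obtain ⟨θ, hθ⟩ := (H12.maxSub_subfield hr hc).two (H11.frob_ne_id hF) (H11.frob_frob hF)
    fun k => congrArg Subtype.val (RingHom.congr_fun h k)
  have := Nat.card_le_card_of_surjective (fun k : F₀ × F₀ => (k.1 : F) + k.2 * θ) fun α =>
    let ⟨k, k', e⟩ := hθ α; ⟨(k, k'), e.symm⟩
  rw [Nat.card_prod, hc, ← sq, Nat.pow_le_pow_iff_right Finite.one_lt_card] at this
  have := hr.two_le
  obtain rfl : r = 2 := by omega
  exact absurd hro (by decide)

end Cfsg.Agent.S5658
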