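import Cfsg.Statements.S5659
import Cfsg.Agent.H12.RatFin
import Cfsg.Agent.H12.StabBridge
-- import your own Cfsg.Agent.* helpers here

set_option autoImplicit false
set_option maxHeartbeats 400000
open Cfsg

namespace Cfsg.Agent.S5659

/-- Let F be the field with q² elements, q odd, n ≥ 13, and F₀ the subfield with q elements. Let P be an invertible matrix such that the standard unitary form takes values in F₀ on the F₀-span of the columns of P (so it restricts to a non-degenerate symmetric bilinear form there). Then the elements of SU_n(q) lying in the subfield group of P form a maximal subgroup of SU_n(q). -/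
theorem result {F : Type*} [Field F] [Fintype F] (n q : ℕ) (hF : Fintype.card F = q ^ 2) (hn : 13 ≤ n) (hodd : Odd q) (F₀ : Subfield F) (hcard : Fintype.card F = Nat.card F₀ ^ 2) (P : Matrix.GeneralLinearGroup (Fin n) F) (hP : Cfsg.Geo.IsFormRationalStructure (Cfsg.hermForm n F q) F₀ 1 P) : Cfsg.Geo.IsMaximalIn (Cfsg.GU n F q ⊓ Cfsg.Geo.specialLinear (Fin n) F) (Cfsg.Geo.subfieldSubgroup F₀ P ⊓ (Cfsg.GU n F q ⊓ Cfsg.Geo.specialLinear (Fin n) F)) := by
  have hc : Nat.card F = Nat.card F₀ ^ 2 := by rwa [Nat.card_eq_fintype_card]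
  have := Fintype.ofFinite F₀
  have hq : Fintype.card F₀ = q := by
    rw [← Nat.card_eq_fintype_card]; exact Nat.pow_left_injective two_ne_zero (hcard.symm.trans hF)
  rw [H12.SU_eq hF, H12.subfieldSubgroup_eq, ← Subgroup.comap_inf]
  exact H12.isMaximalIn_comap _ (H12.isMaximalIn_rat_herm_quad (H12.rat_ratMap F₀ P)
    (H12.maxSub_subfield Nat.prime_two hc) (H12.exists_not_mem_subfield Nat.prime_two hc)
    (by simp; omega) (H11.frob_ne_id hF) (H11.hermC_nondeg hF)
    (fun k => congrArg Subtype.val (hq ▸ FiniteField.pow_card k))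
    (H12.odd_card_iff.1 (hF ▸ hodd.pow)) fun x y =>
      ⟨⟨_, hP _ _ (fun i => (y i).2) fun i => (x i).2⟩, by
        rw [H11.hermC_B_eq, H12.ratMap_apply, H12.ratMap_apply]; exact (one_mul _).symm⟩)

end Cfsg.Agent.S5659
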