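import Cfsg.Statements.S5665
import Cfsg.Agent.H12.USp
import Cfsg.Agent.H12.UBridge
-- import your own Cfsg.Agent.* helpers here

set_option autoImplicit false
set_option maxHeartbeats 400000
open Cfsg

namespace Cfsg.Agent.S5665

/-- For a finite field F of odd order and m ≥ 7, let K be a subfield of the algebra of 2m × 2m matrices over F containing the scalars, of degree 2 over F, that is closed under adjoints for the standard alternating form on F^(2m) but whose elements are not all self-adjoint (so the adjoint map induces the automorphism of order two of K). Then the elements of Sp_2m(F) normalising K form a maximal subgroup of Sp_2m(F). -/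
theorem result {F : Type*} [Field F] [Fintype F] (m : ℕ) (hm : 7 ≤ m) (hodd : Odd (Fintype.card F)) (K : Subalgebra F (Matrix (Fin m ⊕ Fin m) (Fin m ⊕ Fin m) F)) (hK : Cfsg.Geo.IsFieldSubalgebra 2 K) (hac : Cfsg.Geo.IsAdjointClosedFor (Cfsg.sympForm m F) K) (hnsa : ¬ Cfsg.Geo.IsSelfAdjointFor (Cfsg.sympForm m F) K) : Cfsg.Geo.IsMaximalIn (Cfsg.spGL m F) (Cfsg.Geo.subalgebraNormalizer K ⊓ Cfsg.spGL m F) := by
  have : Nonempty (Fin m ⊕ Fin m) := ⟨.inl ⟨0, by omega⟩⟩
  obtain ⟨k, hk, hk', t, s, h1, h2⟩ := H12.exists_unitary_gen hK H11.spForm_nondeg (fun _ => rfl)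
    (H11.spForm_B_eq m) hac hnsa
  obtain ⟨H, h3, h4⟩ := H12.exists_isNorm hK hk hk'
  rw [H12.spGL_eq, h4, ← Subgroup.comap_inf]
  exact H12.isMaximalIn_comap _ (H12.isMaximalIn_usp' H11.spForm_nondeg
    (H27.Asch.two_ne_of_odd_card hodd) (by simp; omega) h1 h2 h3)

end Cfsg.Agent.S5665
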