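import Cfsg.Statements.S5666
import Cfsg.Agent.H12.Ten8
import Cfsg.Agent.H12.Classify
-- import your own Cfsg.Agent.* helpers here

set_option autoImplicit false
set_option maxHeartbeats 400000
open Cfsg

namespace Cfsg.Agent.S5666

/-- For a finite field F of odd order q and m ≥ 7, suppose the standard alternating form on F^(2m) is similar, through a change of basis P and a bijection of index sets e, to the tensor product of a non-degenerate symplectic form f₁ on F^(n₁) and a non-degenerate symmetric bilinear form f₂ on F^(n₂) with n₂ ≥ 3. Unless q = 3 and n₂ = 3, the elements of Sp_2m(F) in the stabiliser of this tensor decomposition (the conjugate by P of the Kronecker-product subgroup transported along e) form a maximal subgroup of Sp_2m(F). -/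
theorem result {F : Type*} [Field F] [Fintype F] (m : ℕ) (hm : 7 ≤ m) (hodd : Odd (Fintype.card F)) (n₁ n₂ : ℕ) (hn₂ : 3 ≤ n₂) (hex : ¬ (Fintype.card F = 3 ∧ n₂ = 3)) (e : (Fin m ⊕ Fin m) ≃ Fin n₁ × Fin n₂) (P : Matrix.GeneralLinearGroup (Fin m ⊕ Fin m) F) (f₁ : (Fin n₁ → F) → (Fin n₁ → F) → F) (f₂ : (Fin n₂ → F) → (Fin n₂ → F) → F) (hf₁ : Cfsg.Geo.IsSymplecticForm f₁) (hf₂ : Cfsg.Geo.IsSymmetricForm f₂) (hT : Cfsg.Geo.IsTensorFormStructure id (Cfsg.sympForm m F) f₁ f₂ e P) : Cfsg.Geo.IsMaximalIn (Cfsg.spGL m F) (Cfsg.Geo.tensorProductSubgroup n₁ n₂ e P ⊓ Cfsg.spGL m F) := by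
  have hn := H13.KL.card_eq_mul e
  have h2 := H12.odd_card_iff.1 hodd
  obtain ⟨c, hc, h⟩ := H13.KL.tf_bridge (fun _ _ => rfl) (H13.KL.formOfGram_bilin hf₁.bilinear)
    (H13.KL.formOfGram_bilin hf₂.bilinear) hT
  obtain ⟨C₁, d₁, e₁⟩ := H12.exists_cform_alt hf₁
  obtain ⟨Q₂, d₂, e₂⟩ := H12.exists_quad_sym hf₂ h2 hc
  obtain ⟨a, ha⟩ := H12.alt_even d₁
  simp only [Module.finrank_fin_fun, Fintype.card_sum, Fintype.card_fin] at ha hn
  have h0 : 0 < n₁ := Nat.pos_of_ne_zero (by rintro rfl; omega)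
  have hC := fun {V : Type _} [AddCommGroup V] [Module F V] (θ : V ≃ₗ[F] _) =>
    H13.KL.comap_nondeg (H11.spForm_nondeg (ι := Fin m) (F := F)) θ
  rcases lt_or_ge n₁ n₂ with hd | hd
  · rw [H13.KL.tensorProductSubgroup_eq, H13.KL.spGL_eq_trE (H13.KL.tenIso e P),
      ← Subgroup.comap_inf]
    refine H12.isMaximalIn_comap _ (H12.isMaximalIn_sp_o (hC _) d₁ d₂ h2 (fun u w u' w' => ?_)
      (by simpa) ?_ (by simpa))
    · simp only [H12.CForm.comap_B, H11.spForm_B_eq, LinearEquiv.coe_coe, h, e₁, e₂]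
      ring
    · by_contra h5
      simp only [Module.finrank_fin_fun] at h5
      have := Nat.mul_le_mul (show n₁ ≤ 3 by omega) (show n₂ ≤ 4 by omega)
      omega
  · rw [H13.KL.tensorProductSubgroup_eq', H13.KL.spGL_eq_trE ((TensorProduct.comm F _ _).trans
      (H13.KL.tenIso e P)), ← Subgroup.comap_inf]
    refine H12.isMaximalIn_comap _ (H12.isMaximalIn_o_sp (hC _) d₂ d₁ h2 (fun u w u' w' => ?_)
      (by simpa) (by simp; omega) (by simpa) ?_)
    · simp only [H12.CForm.comap_B, H11.spForm_B_eq, LinearEquiv.coe_coe, LinearEquiv.trans_apply,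
        TensorProduct.comm_tmul, h, e₁, e₂]
      ring
    · by_cases h3 : n₂ = 3
      · have := Fintype.one_lt_card (α := F)
        obtain ⟨r, hr⟩ := hodd
        exact .inr (H11.exists_sq_ne_one_of_card (by omega))
      · exact .inl (by simp; omega)

end Cfsg.Agent.S5666
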