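import Cfsg.Statements.S5667
import Cfsg.Agent.H13.TenNM

set_option autoImplicit false
open Cfsg

namespace Cfsg.Agent.S5667

/-- Over the field with 3 elements and for m ≥ 7, suppose the standard alternating form on F^(2m) is similar, through P and e, to the tensor product of a non-degenerate symplectic form f₁ on F^(n₁) and a non-degenerate symmetric bilinear form f₂ on F^3. Then the elements of Sp_2m(3) in the stabiliser of this tensor decomposition form a subgroup that is not maximal: some subgroup lies strictly between it and Sp_2m(3). -/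
theorem result {F : Type*} [Field F] [Fintype F] (m : ℕ) (hm : 7 ≤ m) (hq : Fintype.card F = 3) (n₁ : ℕ) (e : (Fin m ⊕ Fin m) ≃ Fin n₁ × Fin 3) (P : Matrix.GeneralLinearGroup (Fin m ⊕ Fin m) F) (f₁ : (Fin n₁ → F) → (Fin n₁ → F) → F) (f₂ : (Fin 3 → F) → (Fin 3 → F) → F) (hf₁ : Cfsg.Geo.IsSymplecticForm f₁) (hf₂ : Cfsg.Geo.IsSymmetricForm f₂) (hT : Cfsg.Geo.IsTensorFormStructure id (Cfsg.sympForm m F) f₁ f₂ e P) : ∃ K : Subgroup (Matrix.GeneralLinearGroup (Fin m ⊕ Fin m) F), Cfsg.Geo.tensorProductSubgroup n₁ 3 e P ⊓ Cfsg.spGL m F < K ∧ K < Cfsg.spGL m F := by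
  have hn := H13.KL.card_eq_mul e
  obtain ⟨c, hc, h⟩ := H13.KL.tf_bridge (fun _ _ => rfl) (H13.KL.formOfGram_bilin hf₁.bilinear)
    (H13.KL.formOfGram_bilin hf₂.bilinear) hT
  rw [H13.KL.tensorProductSubgroup_eq', H13.KL.spGL_eq_trE ((TensorProduct.comm F _ _).trans
    (H13.KL.tenIso e P)), ← Subgroup.comap_inf]
  have hC := H13.KL.comap_nondeg (H11.spForm_nondeg (ι := Fin m) (F := F))
    ((TensorProduct.comm F _ _).trans (H13.KL.tenIso e P))
  refine H12.exists_between_comap _ (H13.KL.between_frame (f₂ := fun w w' => c * f₁ w w')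
    (H12.rootG_alt hC) (H12.spec_alt hC) (fun _ _ => rfl)
    (fun u w u' w' => ?_) (by simp at hn ⊢; omega) (H13.KL.hasFrame_sym hq hf₂))
  simp only [H12.CForm.comap_B, H11.spForm_B_eq, LinearEquiv.coe_coe, LinearEquiv.trans_apply,
    TensorProduct.comm_tmul, h]
  ring

end Cfsg.Agent.S5667
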