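import Cfsg.Statements.S5668
import Cfsg.Agent.H12.WR16
import Cfsg.Agent.H12.TvBridge
-- import your own Cfsg.Agent.* helpers here

set_option autoImplicit false
set_option maxHeartbeats 400000
open Cfsg

namespace Cfsg.Agent.S5668

/-- For a finite field F of odd order q and m ≥ 7, suppose the standard alternating form on F^(2m) is similar, through a change of basis P and a bijection of index sets e, to the t-fold tensor power of a non-degenerate symplectic form f₁ on F^k, with t odd, t ≥ 3 and (q, k) ≠ (3, 2). Then the elements of Sp_2m(F) in the stabiliser of this decomposition (the conjugate by P of the standard tensor-wreath subgroup transported along e) form a maximal subgroup of Sp_2m(F). -/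
theorem result {F : Type*} [Field F] [Fintype F] (m : ℕ) (hm : 7 ≤ m) (hodd : Odd (Fintype.card F)) (k t : ℕ) (ht : Odd t) (ht3 : 3 ≤ t) (hex : ¬ (Fintype.card F = 3 ∧ k = 2)) (e : (Fin m ⊕ Fin m) ≃ (Fin t → Fin k)) (P : Matrix.GeneralLinearGroup (Fin m ⊕ Fin m) F) (f₁ : (Fin k → F) → (Fin k → F) → F) (hf₁ : Cfsg.Geo.IsSymplecticForm f₁) (hT : Cfsg.Geo.IsTensorPowerFormStructure id (Cfsg.sympForm m F) f₁ e P) : Cfsg.Geo.IsMaximalIn (Cfsg.spGL m F) (Cfsg.Geo.tensorWreathSubgroup k t e P ⊓ Cfsg.spGL m F) := by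
  obtain ⟨s, rfl⟩ : ∃ s, t = s + 1 := ⟨t - 1, by omega⟩
  have hn := Fintype.card_congr e
  have h2 := H12.odd_card_iff.1 hodd
  obtain ⟨C₂, d₂, e₂⟩ := H12.exists_cform_alt hf₁
  obtain ⟨a, ha⟩ := H12.alt_even d₂
  simp only [Module.finrank_fin_fun, Fintype.card_sum, Fintype.card_fin, Fintype.card_fun] at ha hn
  have : NeZero k := ⟨by rintro rfl; simp at hn; omega⟩
  have hk : 2 ≤ k := by have := NeZero.ne k; omega
  obtain ⟨θ, π, H, ρ, h, e1, e2⟩ := H12.exists_tpw e P
  obtain ⟨c, e3⟩ := H12.tp_bridge (fun _ => rfl) (H13.KL.formOfGram_bilin hf₁.bilinear) hT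
  rw [e1, H13.KL.spGL_eq_trE θ, ← Subgroup.comap_inf]
  have h' : H12.TPF ((H11.spForm (Fin m) F).comap θ.toLinearMap) C₂ H ρ 0 π c :=
    ⟨h, H13.KL.comap_nondeg H11.spForm_nondeg θ, d₂, fun _ => rfl, fun x y => by
      simp only [H12.CForm.comap_B, H11.spForm_B_eq, LinearEquiv.coe_coe, e2, e3, e₂],
      fun x y _ => by rw [H12.alt_N, H12.alt_N]⟩
  obtain ⟨Q₁, h''⟩ := h'.tw_sp h2 (by simpa) (by
    simpa using ((Nat.pow_le_pow_left hk 2).trans (Nat.pow_le_pow_right (by omega)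
      (by omega : 2 ≤ s))).trans' (by norm_num : 3 ≤ 2 ^ 2))
  refine H12.isMaximalIn_comap _ (h''.isMax_odd h2 fun h3 => H11.exists_sq_ne_one_of_card ?_)
  have := Fintype.one_lt_card (α := F)
  obtain ⟨r, hr⟩ := hodd
  simp at h3
  omega

end Cfsg.Agent.S5668
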