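import Cfsg.Statements.S5670
import Cfsg.Agent.H12.Ten9
import Cfsg.Agent.H12.TvBridge
-- import your own Cfsg.Agent.* helpers here

set_option autoImplicit false
set_option maxHeartbeats 400000
open Cfsg

namespace Cfsg.Agent.S5670

/-- Let F be the field with q² elements and n = n₁ n₂ ≥ 13 with 2 ≤ n₁ < n₂ and (n₁, q) ≠ (2, 2). Suppose the standard unitary form on F^n is similar, through a change of basis P and a bijection of index sets e, to the tensor product of non-degenerate unitary forms f₁ on F^(n₁) and f₂ on F^(n₂) (forms linear in the first argument with f_i(v, w) = f_i(w, v)^q). Then the elements of SU_n(q) in the stabiliser of this tensor decomposition form a maximal subgroup of SU_n(q). -/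
theorem result {F : Type*} [Field F] [Fintype F] (n q : ℕ) (hF : Fintype.card F = q ^ 2) (hn : 13 ≤ n) (n₁ n₂ : ℕ) (h1 : 2 ≤ n₁) (h12 : n₁ < n₂) (hex : ¬ (n₁ = 2 ∧ q = 2)) (e : Fin n ≃ Fin n₁ × Fin n₂) (P : Matrix.GeneralLinearGroup (Fin n) F) (f₁ : (Fin n₁ → F) → (Fin n₁ → F) → F) (f₂ : (Fin n₂ → F) → (Fin n₂ → F) → F) (hf₁ : Cfsg.Geo.IsUnitaryFormPow q f₁) (hf₂ : Cfsg.Geo.IsUnitaryFormPow q f₂) (hT : Cfsg.Geo.IsTensorFormStructure (fun x : F => x ^ q) (Cfsg.hermForm n F q) f₁ f₂ e P) : Cfsg.Geo.IsMaximalIn (Cfsg.GU n F q ⊓ Cfsg.Geo.specialLinear (Fin n) F) (Cfsg.Geo.tensorProductSubgroup n₁ n₂ e P ⊓ (Cfsg.GU n F q ⊓ Cfsg.Geo.specialLinear (Fin n) F)) := by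
  have hn' := H13.KL.card_eq_mul e
  have hσ := H11.frob_ne_id hF
  have hN := H12.exists_norm_of_finite (H11.frob_frob hF) hσ
  obtain ⟨c, hc, h⟩ := H13.KL.tf_bridge (fun _ _ => mul_pow _ _ _)
    (H13.KL.formOfGram_herm hF hf₁) (H13.KL.formOfGram_herm hF hf₂) hT
  obtain ⟨C₁, d₁, e₁⟩ := H12.exists_cform_herm' hσ (H11.frob_frob hF) hf₁.add_left hf₁.smul_left
    hf₁.herm hf₁.nondegenerate
  obtain ⟨C₂, d₂, e₂⟩ := H12.exists_cform_herm' hσ (H11.frob_frob hF) hf₂.add_left hf₂.smul_left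
    hf₂.herm hf₂.nondegenerate
  rw [Fintype.card_fin] at hn'
  have h5 : 5 ≤ n₂ := by
    by_contra h5
    have := Nat.mul_le_mul (show n₁ ≤ 3 by omega) (show n₂ ≤ 4 by omega)
    omega
  rw [H13.KL.tensorProductSubgroup_eq, H13.KL.SU_eq_trE hF (H13.KL.tenIso e P),
    ← Subgroup.comap_inf]
  have hC := H13.KL.comap_nondeg (H11.hermC_nondeg (ι := Fin n) hF) (H13.KL.tenIso e P)
  have hB : ∀ u w u' w', ((H11.hermC (Fin n) hF).comap (H13.KL.tenIso e P).toLinearMap).B
      (u ⊗ₜ w) (u' ⊗ₜ w') = c * C₁.B u u' * C₂.B w w' := fun u w u' w' => by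
    simp only [H12.CForm.comap_B, H11.hermC_B_eq, LinearEquiv.coe_coe, h, e₁, e₂]
    ring
  have hc' : H11.frob hF c = c := by
    obtain ⟨u, hu⟩ := Module.finrank_pos_iff_exists_ne_zero.1
      (show 0 < Module.finrank F (Fin n₁ → F) by simp; omega)
    obtain ⟨w, hw⟩ := Module.finrank_pos_iff_exists_ne_zero.1
      (show 0 < Module.finrank F (Fin n₂ → F) by simp; omega)
    obtain ⟨u', a⟩ := d₁.exists_eq hu 1
    obtain ⟨w', b⟩ := d₂.exists_eq hw 1
    have := hB u' w' u w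
    rw [H12.herm_symm, hB, H12.herm_symm u u', H12.herm_symm w w', a, b] at this
    simpa using this
  refine H12.isMaximalIn_comap _ (H12.isMaximalIn_u_u hσ hN hC
    (d₁.smulc (c := c) hc' (fun a => ?_) hc) d₂ hB (by simpa) (by simpa) (by simpa) ?_)
  · change c * a + H11.frob hF (c * a) = c * (a + H11.frob hF a)
    rw [map_mul, hc', mul_add]
  · by_cases hq : q = 2
    · exact .inl (by simp [hq] at hex ⊢; omega)
    · exact .inr (H12.exists_fixed_ne hF hq)

end Cfsg.Agent.S5670
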