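import Cfsg.Statements.S5671
import Cfsg.Agent.H13.TenNM

set_option autoImplicit false
open Cfsg

namespace Cfsg.Agent.S5671

/-- Let F be the field with 4 elements (q = 2) and n = 2 n₂ ≥ 13. Suppose the standard unitary form Σ u_i v_i² on F^n is similar, through P and e, to the tensor product of non-degenerate unitary forms f₁ on F^2 and f₂ on F^(n₂). Then the elements of SU_n(2) in the stabiliser of this tensor decomposition form a subgroup that is not maximal: some subgroup lies strictly between it and SU_n(2). -/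
theorem result {F : Type*} [Field F] [Fintype F] (n : ℕ) (hF : Fintype.card F = 4) (hn : 13 ≤ n) (n₂ : ℕ) (e : Fin n ≃ Fin 2 × Fin n₂) (P : Matrix.GeneralLinearGroup (Fin n) F) (f₁ : (Fin 2 → F) → (Fin 2 → F) → F) (f₂ : (Fin n₂ → F) → (Fin n₂ → F) → F) (hf₁ : Cfsg.Geo.IsUnitaryFormPow 2 f₁) (hf₂ : Cfsg.Geo.IsUnitaryFormPow 2 f₂) (hT : Cfsg.Geo.IsTensorFormStructure (fun x : F => x ^ 2) (Cfsg.hermForm n F 2) f₁ f₂ e P) : ∃ K : Subgroup (Matrix.GeneralLinearGroup (Fin n) F), Cfsg.Geo.tensorProductSubgroup 2 n₂ e P ⊓ (Cfsg.GU n F 2 ⊓ Cfsg.Geo.specialLinear (Fin n) F) < K ∧ K < (Cfsg.GU n F 2 ⊓ Cfsg.Geo.specialLinear (Fin n) F) := by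
  have hn := H13.KL.card_eq_mul e
  have hF' : Fintype.card F = 2 ^ 2 := hF
  have hσ := H11.frob_ne_id hF'
  have hN := H12.exists_norm_of_finite (H11.frob_frob hF') hσ
  obtain ⟨c, hc, h⟩ := H13.KL.tf_bridge (fun _ _ => mul_pow _ _ _)
    (H13.KL.formOfGram_herm hF' hf₁) (H13.KL.formOfGram_herm hF' hf₂) hT
  obtain ⟨C₁, n₁, e₁⟩ := H12.exists_cform_herm' hσ (H11.frob_frob hF') hf₁.add_left hf₁.smul_left
    hf₁.herm hf₁.nondegenerate
  rw [H13.KL.tensorProductSubgroup_eq, H13.KL.SU_eq_trE hF' (H13.KL.tenIso e P),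
    ← Subgroup.comap_inf]
  have hC := H13.KL.comap_nondeg (H11.hermC_nondeg (ι := Fin n) hF') (H13.KL.tenIso e P)
  refine H12.exists_between_comap _ (H13.KL.between_frame (f₂ := fun w w' => c * f₂ w' w)
    (H12.rootG_herm hσ hN hC (by simp; omega)) (H12.spec_herm hσ hN hC)
    (fun x hx => (H12.herm_B_self x).symm.trans hx)
    (fun u w u' w' => ?_) (by simp at hn ⊢; omega)
    (H13.KL.hasFrame_f4 hσ (fun a ha => ?_) (H12.f4_two hF) n₁ (by simp)))
  · simp only [H12.CForm.comap_B, H11.hermC_B_eq, LinearEquiv.coe_coe, h, e₁]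
    ring
  · rw [H11.frob_apply] at ha
    exact (mul_eq_zero.1 (by linear_combination ha : a * (a - 1) = 0)).imp id sub_eq_zero.1

end Cfsg.Agent.S5671
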