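import Cfsg.Statements.S5672
import Cfsg.Agent.H12.WR12
import Cfsg.Agent.H12.TvBridge
-- import your own Cfsg.Agent.* helpers here

set_option autoImplicit false
set_option maxHeartbeats 400000
open Cfsg

namespace Cfsg.Agent.S5672

/-- Let F be the field with q² elements and n = k^t ≥ 13 with k ≥ 3, t ≥ 2 and (q, k) ≠ (2, 3). Suppose the standard unitary form on F^n is similar, through a change of basis P and a bijection of index sets e, to the t-fold tensor power of a non-degenerate unitary form f₁ on F^k. Then the elements of SU_n(q) in the stabiliser of this decomposition (the conjugate by P of the standard tensor-wreath subgroup transported along e) form a maximal subgroup of SU_n(q). -/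
theorem result {F : Type*} [Field F] [Fintype F] (n q : ℕ) (hF : Fintype.card F = q ^ 2) (hn : 13 ≤ n) (k t : ℕ) (hk : 3 ≤ k) (ht : 2 ≤ t) (hex : ¬ (q = 2 ∧ k = 3)) (e : Fin n ≃ (Fin t → Fin k)) (P : Matrix.GeneralLinearGroup (Fin n) F) (f₁ : (Fin k → F) → (Fin k → F) → F) (hf₁ : Cfsg.Geo.IsUnitaryFormPow q f₁) (hT : Cfsg.Geo.IsTensorPowerFormStructure (fun x : F => x ^ q) (Cfsg.hermForm n F q) f₁ e P) : Cfsg.Geo.IsMaximalIn (Cfsg.GU n F q ⊓ Cfsg.Geo.specialLinear (Fin n) F) (Cfsg.Geo.tensorWreathSubgroup k t e P ⊓ (Cfsg.GU n F q ⊓ Cfsg.Geo.specialLinear (Fin n) F)) := by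
  obtain ⟨s, rfl⟩ : ∃ s, t = s + 1 := ⟨t - 1, by omega⟩
  have : NeZero k := ⟨by omega⟩
  have hσ := H11.frob_ne_id hF
  have hN := H12.exists_norm_of_finite (H11.frob_frob hF) hσ
  obtain ⟨θ, π, H, ρ, h, e1, e2⟩ := H12.exists_tpw e P
  obtain ⟨c, e3⟩ := H12.tp_bridge (fun x => (Finset.prod_pow _ q x).symm)
    (H13.KL.formOfGram_herm hF hf₁) hT
  obtain ⟨C₂, d₂, e₂⟩ := H12.exists_cform_herm' hσ (H11.frob_frob hF) hf₁.add_left hf₁.smul_left
    hf₁.herm hf₁.nondegenerate
  rw [e1, H13.KL.SU_eq_trE hF θ, ← Subgroup.comap_inf]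
  have h' : H12.TPF ((H11.hermC (Fin n) hF).comap θ.toLinearMap) C₂ H ρ 0 π c :=
    ⟨h, H13.KL.comap_nondeg (H11.hermC_nondeg (ι := Fin n) hF) θ, d₂, fun _ => rfl, fun x y => by
      simp only [H12.CForm.comap_B, H11.hermC_B_eq, LinearEquiv.coe_coe, e2, e3, e₂],
      fun x y a => by rwa [H12.herm_B_self, H12.herm_B_self] at a⟩
  obtain ⟨C₁, h''⟩ := h'.tw_herm hσ hN (by simpa)
    (by simpa using (Nat.le_self_pow (by omega) k).trans' hk)
    (by simpa [Module.finrank_tensorProduct] using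
      (Nat.even_or_odd k).imp_right fun a => a.pow.mul a)
  refine H12.isMaximalIn_comap _ ?_
  by_cases h3 : k = 3
  · obtain ⟨l, a, b, c⟩ := H12.exists_fixed_ne hF fun a => hex ⟨a, h3⟩
    exact h''.isMax_herm3 hσ hN (by simpa) a b c
  · exact h''.isMax_herm hσ hN (by simp; omega)

end Cfsg.Agent.S5672
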