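import Cfsg.Statements.S5674
import Cfsg.Agent.H12.GeoForm
import Cfsg.Agent.H12.Parabolic
-- import your own Cfsg.Agent.* helpers here

set_option autoImplicit false
set_option maxHeartbeats 400000
open Cfsg

namespace Cfsg.Agent.S5674

/-- Let F be a finite field of odd order, m ≥ 6, Q the standard quadratic form x₀² + Σ x_i y_i on F^(2m+1) and Ω the commutator subgroup of its isometry group inside GL_(2m+1)(F). The elements of Ω stabilising a non-zero subspace on which Q vanishes form a maximal subgroup of Ω. -/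
theorem result {F : Type*} [Field F] [Fintype F] (hodd : Odd (Fintype.card F)) (m : ℕ) (hm : 6 ≤ m) (W : Submodule F (Unit ⊕ (Fin m ⊕ Fin m) → F)) (hW0 : W ≠ ⊥) (hW : Cfsg.Geo.IsTotallySingularQuad (Cfsg.quadFormOdd m F) W) : Cfsg.Geo.IsMaximalIn (Cfsg.Geo.omegaGL (Cfsg.quadFormOdd m F)) (Cfsg.Geo.subspaceStabilizer W ⊓ Cfsg.Geo.omegaGL (Cfsg.quadFormOdd m F)) := by
  have hC := H11.qOdd_nondeg (H12.odd_card_iff.1 hodd) m
  have hd : Module.finrank F (Unit ⊕ (Fin m ⊕ Fin m) → F) = 1 + (m + m) := by simp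
  rw [← H11.coe_qOdd] at hW ⊢
  have hW' := (H12.ts_quad_iff (W := W) (H11.qOdd m F)).2 hW
  have hR := H12.rootData_quad hC (by omega)
  rw [H12.omegaGL_eq, H12.subspaceStabilizer_eq, ← Subgroup.comap_inf]
  refine H12.isMaximalIn_comap _ (H12.isMaximalIn_of _ _ inf_le_right
    (fun h => hR.spec.not_le_glStab (by omega) hW0 (hW'.ne_top hC hW0)
      (h.trans inf_le_left)) fun M h1 h2 g hg hg' => ?_)
  exact hR.le_of_parabolic hW' (H12.quad_move hC (Or.inr (by omega)) hW' (by omega)) h1 hg (h2 hg)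
    fun h => hg' ⟨h, h2 hg⟩

end Cfsg.Agent.S5674
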