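import Cfsg.Statements.S5675
import Cfsg.Agent.H12.NondegMax
-- import your own Cfsg.Agent.* helpers here

set_option autoImplicit false
set_option maxHeartbeats 400000
open Cfsg

namespace Cfsg.Agent.S5675

/-- Let F be a finite field of odd order q, m ≥ 6, Q the standard quadratic form on F^(2m+1) and Ω the commutator subgroup of its isometry group. Let W be a non-zero subspace of even dimension on which the polar form of Q is non-degenerate; exclude the case q = 3, dim W = 2 with Q vanishing on some line of W (a plus-type plane). Then the elements of Ω stabilising W (equivalently, stabilising its orthogonal complement, of odd dimension) form a maximal subgroup of Ω. -/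
theorem result {F : Type*} [Field F] [Fintype F] (hodd : Odd (Fintype.card F)) (m : ℕ) (hm : 6 ≤ m) (W : Submodule F (Unit ⊕ (Fin m ⊕ Fin m) → F)) (hW0 : W ≠ ⊥) (hev : Even (Module.finrank F W)) (hW : Cfsg.Geo.IsNondegenerateOn (QuadraticMap.polar (Cfsg.quadFormOdd m F)) W) (hex : ¬ (Fintype.card F = 3 ∧ Module.finrank F W = 2 ∧ Cfsg.Geo.IsPlusTypeOn (Cfsg.quadFormOdd m F) W)) : Cfsg.Geo.IsMaximalIn (Cfsg.Geo.omegaGL (Cfsg.quadFormOdd m F)) (Cfsg.Geo.subspaceStabilizer W ⊓ Cfsg.Geo.omegaGL (Cfsg.quadFormOdd m F)) := by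
  have hC := H11.qOdd_nondeg (H12.odd_card_iff.1 hodd) m
  have hd : Module.finrank F (Unit ⊕ (Fin m ⊕ Fin m) → F) = 1 + (m + m) := by simp
  rw [← H11.coe_qOdd] at hW hex ⊢
  have hW' := H12.nondegOn_of_geo (H12.CForm.ofQuad (H11.qOdd m F)) (Or.inl fun _ _ => rfl) hW
  have h1 := hC.finrank_add_finrank_perp W
  obtain ⟨k, hk⟩ := hev
  rw [H12.omegaGL_eq, H12.subspaceStabilizer_eq, ← Subgroup.comap_inf]
  refine H12.isMaximalIn_comap _ (H12.quad_isMaximalIn_nondeg hC (by omega) hW' hW0 (by
    rintro rfl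
    rw [finrank_top] at hk
    omega) (by omega) ?_)
  rintro U (rfl | rfl) ⟨h2, h3, u, hu, hu0, hu1⟩
  · refine hex ⟨?_, h3, _, (Submodule.span_singleton_le_iff_mem _ _).2 hu, fun w hw => ?_, by
      rw [finrank_span_singleton hu0, h3]⟩
    · obtain ⟨l, hl⟩ := hodd
      have := Fintype.one_lt_card (α := F)
      omega
    · obtain ⟨c, rfl⟩ := Submodule.mem_span_singleton.1 hw
      rw [QuadraticMap.map_smul, hu1, smul_zero]
  · omega

end Cfsg.Agent.S5675
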