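import Cfsg.Statements.S5676
import Cfsg.Agent.H12.NonMax2
-- import your own Cfsg.Agent.* helpers here

set_option autoImplicit false
set_option maxHeartbeats 400000
open Cfsg

namespace Cfsg.Agent.S5676

/-- Let F be the field with 3 elements, m ≥ 6, Q the standard quadratic form on F^(2m+1) and Ω the commutator subgroup of its isometry group. Let W be a 2-dimensional subspace on which the polar form is non-degenerate and which contains a line on which Q vanishes. Then the elements of Ω stabilising W form a subgroup that is not maximal: some subgroup lies strictly between it and Ω. -/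
theorem result {F : Type*} [Field F] [Fintype F] (hq : Fintype.card F = 3) (m : ℕ) (hm : 6 ≤ m) (W : Submodule F (Unit ⊕ (Fin m ⊕ Fin m) → F)) (hdim : Module.finrank F W = 2) (hW : Cfsg.Geo.IsNondegenerateOn (QuadraticMap.polar (Cfsg.quadFormOdd m F)) W) (hplus : Cfsg.Geo.IsPlusTypeOn (Cfsg.quadFormOdd m F) W) : ∃ K : Subgroup (Matrix.GeneralLinearGroup (Unit ⊕ (Fin m ⊕ Fin m)) F), Cfsg.Geo.subspaceStabilizer W ⊓ Cfsg.Geo.omegaGL (Cfsg.quadFormOdd m F) < K ∧ K < Cfsg.Geo.omegaGL (Cfsg.quadFormOdd m F) := by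
  have hC := H11.qOdd_nondeg (H12.f3_two hq) m
  have hd : Module.finrank F (Unit ⊕ (Fin m ⊕ Fin m) → F) = 1 + (m + m) := by simp
  rw [← H11.coe_qOdd] at hW hplus ⊢
  have hW' := H12.nondegOn_of_geo (H12.CForm.ofQuad (H11.qOdd m F)) (Or.inl fun _ _ => rfl) hW
  obtain ⟨U, h1, h2, h3⟩ := hplus
  obtain ⟨u, hu, hu0⟩ := Submodule.exists_mem_ne_zero_of_ne_bot
    (H12.ne_bot_of_finrank_pos (W := U) (by omega))
  rw [H12.omegaGL_eq, H12.subspaceStabilizer_eq, ← Subgroup.comap_inf]
  exact H12.exists_between_comap _ (H12.quad_between_plane hC hq.le (by omega) hW' hdim (h1 hu) hu0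
    (h2 u hu))

end Cfsg.Agent.S5676
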