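import Cfsg.Statements.S5677
import Cfsg.Agent.H12.RQ3
-- import your own Cfsg.Agent.* helpers here

set_option autoImplicit false
set_option maxHeartbeats 400000
open Cfsg

namespace Cfsg.Agent.S5677

/-- Let F be a finite field of odd order q, m ≥ 6, Q the standard quadratic form on F^(2m+1) and Ω the commutator subgroup of its isometry group. Let D be a decomposition of F^(2m+1) into t ≥ 2 pairwise orthogonal, pairwise Q-isometric subspaces of equal dimension k > 1 on which the polar form is non-degenerate. Unless q = 3 and k = 3, the elements of Ω permuting the members of D form a maximal subgroup of Ω. -/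
theorem result {F : Type*} [Field F] [Fintype F] (hodd : Odd (Fintype.card F)) (m : ℕ) (hm : 6 ≤ m) {t : ℕ} (k : ℕ) (hk : 1 < k) (D : Fin t → Submodule F (Unit ⊕ (Fin m ⊕ Fin m) → F)) (hD : Cfsg.Geo.IsOrthogonalMDecomposition (Cfsg.quadFormOdd m F) k D) (hex : ¬ (Fintype.card F = 3 ∧ k = 3)) : Cfsg.Geo.IsMaximalIn (Cfsg.Geo.omegaGL (Cfsg.quadFormOdd m F)) (Cfsg.Geo.decompositionStabilizer D ⊓ Cfsg.Geo.omegaGL (Cfsg.quadFormOdd m F)) := by
  have h2 := H12.odd_card_iff.1 hodd
  have hC := H11.qOdd_nondeg h2 m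
  have hd : Module.finrank F (Unit ⊕ (Fin m ⊕ Fin m) → F) = 1 + (m + m) := by simp
  rw [← H11.coe_qOdd] at hD ⊢
  have hD' := H12.orthDec_of_geo (H12.CForm.ofQuad (H11.qOdd m F)) (Or.inl fun _ _ => rfl) hD.decomp
    fun i j => H12.quad_iso_iff.2 (hD.isometric i j)
  haveI : Nontrivial (Fin t) := Fin.nontrivial_iff_two_le.2 hD.decomp.decomp.two_le
  rw [H12.omegaGL_eq, H12.decompositionStabilizer_eq, ← Subgroup.comap_inf]
  refine H12.isMaximalIn_comap _ (hD'.isMaximalIn_big hC (by omega) fun i => ?_)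
  have hk' := hD.decomp.decomp.finrank_eq i
  obtain ⟨π, hπ⟩ := hD'.exists_isProj
  have h3 := hπ.finrank_eq hD.decomp.decomp.finrank_eq
  have h4 : k ≠ 2 := by
    rintro rfl
    omega
  have := Fintype.one_lt_card (α := F)
  obtain ⟨l, hl⟩ := hodd
  exact ⟨hD'.nondeg i, (by omega : _ ∨ _ ∧ _).imp id fun h : _ ∧ _ => ⟨h.1, h2, h.2⟩, by omega⟩

end Cfsg.Agent.S5677
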