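import Cfsg.Statements.S5678
import Cfsg.Agent.H12.NonMax2
-- import your own Cfsg.Agent.* helpers here

set_option autoImplicit false
set_option maxHeartbeats 400000
open Cfsg

namespace Cfsg.Agent.S5678

/-- Let F be the field with 3 elements, m ≥ 6, Q the standard quadratic form on F^(2m+1) and Ω the commutator subgroup of its isometry group. Let D be a decomposition of F^(2m+1) into t pairwise orthogonal, pairwise Q-isometric 3-dimensional subspaces on which the polar form is non-degenerate. Then the elements of Ω permuting the members of D form a subgroup that is not maximal: some subgroup lies strictly between it and Ω. -/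
theorem result {F : Type*} [Field F] [Fintype F] (hq : Fintype.card F = 3) (m : ℕ) (hm : 6 ≤ m) {t : ℕ} (D : Fin t → Submodule F (Unit ⊕ (Fin m ⊕ Fin m) → F)) (hD : Cfsg.Geo.IsOrthogonalMDecomposition (Cfsg.quadFormOdd m F) 3 D) : ∃ K : Subgroup (Matrix.GeneralLinearGroup (Unit ⊕ (Fin m ⊕ Fin m)) F), Cfsg.Geo.decompositionStabilizer D ⊓ Cfsg.Geo.omegaGL (Cfsg.quadFormOdd m F) < K ∧ K < Cfsg.Geo.omegaGL (Cfsg.quadFormOdd m F) := by
  have hC := H11.qOdd_nondeg (H12.f3_two hq) m
  have hd : Module.finrank F (Unit ⊕ (Fin m ⊕ Fin m) → F) = 1 + (m + m) := by simp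
  rw [← H11.coe_qOdd] at hD ⊢
  have hD' := H12.orthDec_of_geo (H12.CForm.ofQuad (H11.qOdd m F)) (Or.inl fun _ _ => rfl) hD.decomp
    fun i j => H12.quad_iso_iff.2 (hD.isometric i j)
  haveI : Nontrivial (Fin t) := Fin.nontrivial_iff_two_le.2 hD.decomp.decomp.two_le
  rw [H12.omegaGL_eq, H12.decompositionStabilizer_eq, ← Subgroup.comap_inf]
  exact H12.exists_between_comap _ (H12.quad_between_f3_three hC hq (by omega) hD'
    hD.decomp.decomp.finrank_eq)

end Cfsg.Agent.S5678
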