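import Cfsg.Statements.S5681
import Cfsg.Agent.H12.Ten8
-- import your own Cfsg.Agent.* helpers here

set_option autoImplicit false
set_option maxHeartbeats 400000
open Cfsg

namespace Cfsg.Agent.S5681

/-- Let F be a finite field of odd order q, m ≥ 6, Q the standard quadratic form on F^(2m+1) and Ω the commutator subgroup of its isometry group. Suppose the polar form of Q is similar, through a change of basis P and a bijection of index sets e, to the tensor product of non-degenerate symmetric bilinear forms f₁ on F^(n₁) and f₂ on F^(n₂) with 3 ≤ n₁ < n₂. Unless q = 3 and n₁ = 3, the elements of Ω in the stabiliser of this tensor decomposition form a maximal subgroup of Ω. -/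
theorem result {F : Type*} [Field F] [Fintype F] (hodd : Odd (Fintype.card F)) (m : ℕ) (hm : 6 ≤ m) (n₁ n₂ : ℕ) (h1 : 3 ≤ n₁) (h12 : n₁ < n₂) (hex : ¬ (Fintype.card F = 3 ∧ n₁ = 3)) (e : (Unit ⊕ (Fin m ⊕ Fin m)) ≃ Fin n₁ × Fin n₂) (P : Matrix.GeneralLinearGroup (Unit ⊕ (Fin m ⊕ Fin m)) F) (f₁ : (Fin n₁ → F) → (Fin n₁ → F) → F) (f₂ : (Fin n₂ → F) → (Fin n₂ → F) → F) (hf₁ : Cfsg.Geo.IsSymmetricForm f₁) (hf₂ : Cfsg.Geo.IsSymmetricForm f₂) (hT : Cfsg.Geo.IsTensorFormStructure id (QuadraticMap.polar (Cfsg.quadFormOdd m F)) f₁ f₂ e P) : Cfsg.Geo.IsMaximalIn (Cfsg.Geo.omegaGL (Cfsg.quadFormOdd m F)) (Cfsg.Geo.tensorProductSubgroup n₁ n₂ e P ⊓ Cfsg.Geo.omegaGL (Cfsg.quadFormOdd m F)) := by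
  have hn := H13.KL.card_eq_mul e
  have h2 := H12.odd_card_iff.1 hodd
  obtain ⟨c, hc, h⟩ := H13.KL.tf_bridge (fun _ _ => rfl) (H13.KL.formOfGram_bilin hf₁.bilinear)
    (H13.KL.formOfGram_bilin hf₂.bilinear) hT
  obtain ⟨Q₁, d₁, e₁⟩ := H12.exists_quad_sym hf₁ h2 hc
  obtain ⟨Q₂, d₂, e₂⟩ := H12.exists_quad_sym hf₂ h2 one_ne_zero
  rw [← H11.coe_qOdd] at h ⊢
  rw [H13.KL.omegaGL_eq_trE _ (H13.KL.tenIso e P), H13.KL.tensorProductSubgroup_eq,
    ← Subgroup.comap_inf]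
  have ho : Odd (n₁ * n₂) := ⟨m, by simp at hn; omega⟩
  obtain ⟨⟨a, ha⟩, ⟨b, hb⟩⟩ := Nat.odd_mul.1 ho
  refine H12.isMaximalIn_comap _ (H12.isMaximalIn_o_o (H13.KL.qnondeg_comp (H11.qOdd_nondeg h2 m) _)
    d₁ d₂ h2 (fun u w u' w' => ?_) (by simpa) (by simp; omega) (by simpa) ?_ ?_)
  · rw [H13.KL.polar_comp', LinearEquiv.coe_coe, h, e₁, e₂]; ring
  · by_cases h3 : n₁ = 3
    · have := Fintype.one_lt_card (α := F)
      obtain ⟨r, hr⟩ := hodd
      exact .inr (H11.exists_sq_ne_one_of_card (by omega))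
    · exact .inl (by simp; omega)
  · by_cases h3 : n₁ = 3
    · exact .inr (H12.not_tsp_of_lt d₁ (by simp [h3]))
    · exact .inl (by simp; omega)

end Cfsg.Agent.S5681
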