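import Cfsg.Statements.S5683
import Cfsg.Agent.H12.RatFin
import Cfsg.Agent.H12.StabBridge
-- import your own Cfsg.Agent.* helpers here

set_option autoImplicit false
set_option maxHeartbeats 400000
open Cfsg

namespace Cfsg.Agent.S5683

/-- Let F be a finite field of odd order, m ≥ 6, Q the standard quadratic form on F^(2m+1) and Ω the commutator subgroup of its isometry group. Let F₀ be a subfield with |F| = |F₀| ^ r for a prime r and P an invertible matrix such that Q takes values in F₀ on the F₀-span of the columns of P. Then the elements of Ω lying in the subfield group of P (the conjugate by P of the product of GL_(2m+1)(F₀) with the scalars) form a maximal subgroup of Ω. -/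
theorem result {F : Type*} [Field F] [Fintype F] (hodd : Odd (Fintype.card F)) (m : ℕ) (hm : 6 ≤ m) (F₀ : Subfield F) (r : ℕ) (hr : r.Prime) (hcard : Fintype.card F = Nat.card F₀ ^ r) (P : Matrix.GeneralLinearGroup (Unit ⊕ (Fin m ⊕ Fin m)) F) (hP : Cfsg.Geo.IsQuadFormRationalStructure (Cfsg.quadFormOdd m F) F₀ P) : Cfsg.Geo.IsMaximalIn (Cfsg.Geo.omegaGL (Cfsg.quadFormOdd m F)) (Cfsg.Geo.subfieldSubgroup F₀ P ⊓ Cfsg.Geo.omegaGL (Cfsg.quadFormOdd m F)) := by
  have hc : Nat.card F = Nat.card F₀ ^ r := by rwa [Nat.card_eq_fintype_card]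
  rw [← H11.coe_qOdd] at hP ⊢
  rw [H12.omegaGL_eq, H12.subfieldSubgroup_eq, ← Subgroup.comap_inf]
  exact H12.isMaximalIn_comap _ (H12.isMaximalIn_rat_quad (H12.rat_ratMap F₀ P)
    (H12.maxSub_subfield hr hc) (H12.exists_not_mem_subfield hr hc) (by simp; omega)
    (H11.qOdd_nondeg (H12.odd_card_iff.1 hodd) m) one_ne_zero fun x => ⟨⟨_, hP _ fun i => (x i).2⟩, by
      rw [one_mul, H12.ratMap_apply]; rfl⟩)

end Cfsg.Agent.S5683
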