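import Cfsg.Statements.S5687
import Cfsg.Agent.H12.GeoForm
import Cfsg.Agent.H12.Parabolic
-- import your own Cfsg.Agent.* helpers here

set_option autoImplicit false
set_option maxHeartbeats 400000
open Cfsg

namespace Cfsg.Agent.S5687

/-- Let F be a finite field with q elements, n ≥ 13 even, Q a non-degenerate quadratic form on F^n of minus type (no subspace of dimension n/2 is totally singular), and Ω the commutator subgroup of the isometry group of Q, viewed inside GL_n(F). The elements of Ω stabilising a non-zero subspace on which Q vanishes form a maximal subgroup of Ω. -/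
theorem result {F : Type*} [Field F] [Fintype F] {n : ℕ} (hn : 13 ≤ n) (heven : Even n) (Q : (Fin n → F) → F) (hQ : Cfsg.Geo.IsNondegenerateQuadraticForm Q) (hminus : ¬ Cfsg.Geo.IsPlusTypeOn Q ⊤) (W : Submodule F (Fin n → F)) (hW0 : W ≠ ⊥) (hW : Cfsg.Geo.IsTotallySingularQuad Q W) : Cfsg.Geo.IsMaximalIn (Cfsg.Geo.omegaGL Q) (Cfsg.Geo.subspaceStabilizer W ⊓ Cfsg.Geo.omegaGL Q) := by
  obtain ⟨Q, rfl, hC⟩ := H12.exists_quad hQ
  have hd : Module.finrank F (Fin n → F) = n := by simp
  have hW' := (H12.ts_quad_iff Q).2 hW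
  have hR := H12.rootData_quad hC (by omega)
  rw [H12.omegaGL_eq, H12.subspaceStabilizer_eq, ← Subgroup.comap_inf]
  refine H12.isMaximalIn_comap _ (H12.isMaximalIn_of _ _ inf_le_right
    (fun h => hR.spec.not_le_glStab (by omega) hW0 (hW'.ne_top hC hW0)
      (h.trans inf_le_left)) fun M h1 h2 g hg hg' => ?_)
  refine hR.le_of_parabolic hW' (H12.quad_move hC (Or.inr (by omega)) hW' ?_) h1 hg (h2 hg)
    fun h => hg' ⟨h, h2 hg⟩
  rintro h ⟨U, hU, hU'⟩
  exact hminus ⟨U, le_top, hU.1, by rw [hU', h, finrank_top]⟩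

end Cfsg.Agent.S5687
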