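import Cfsg.Statements.S5689
import Cfsg.Agent.H12.NondegMax
-- import your own Cfsg.Agent.* helpers here

set_option autoImplicit false
set_option maxHeartbeats 400000
open Cfsg

namespace Cfsg.Agent.S5689

/-- Let F be a finite field with q elements, n ≥ 13 even, Q a non-degenerate quadratic form on F^n of minus type (no subspace of dimension n/2 is totally singular), and Ω the commutator subgroup of the isometry group of Q, viewed inside GL_n(F). Let W be a non-zero proper subspace on which the polar form of Q is non-degenerate, not of odd dimension n/2. Exclude the case q ≤ 3 in which W, or its orthogonal complement, is a plane containing a line on which Q vanishes. Then the elements of Ω stabilising W form a maximal subgroup of Ω. -/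
theorem result {F : Type*} [Field F] [Fintype F] {n : ℕ} (hn : 13 ≤ n) (heven : Even n) (Q : (Fin n → F) → F) (hQ : Cfsg.Geo.IsNondegenerateQuadraticForm Q) (hminus : ¬ Cfsg.Geo.IsPlusTypeOn Q ⊤) (W : Submodule F (Fin n → F)) (hW0 : W ≠ ⊥) (hW1 : W ≠ ⊤) (hdim : ¬ (2 * Module.finrank F W = n ∧ Odd (Module.finrank F W))) (hW : Cfsg.Geo.IsNondegenerateOn (QuadraticMap.polar Q) W) (hex : ¬ (Fintype.card F ≤ 3 ∧ (∃ U : Submodule F (Fin n → F), Module.finrank F U = 2 ∧ Cfsg.Geo.IsNondegenerateOn (QuadraticMap.polar Q) U ∧ Cfsg.Geo.IsPlusTypeOn Q U ∧ (U = W ∨ (Cfsg.Geo.AreOrthogonalFor (QuadraticMap.polar Q) U W ∧ Module.finrank F U + Module.finrank F W = n))))) : Cfsg.Geo.IsMaximalIn (Cfsg.Geo.omegaGL Q) (Cfsg.Geo.subspaceStabilizer W ⊓ Cfsg.Geo.omegaGL Q) := by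
  obtain ⟨Q, rfl, hC⟩ := H12.exists_quad hQ
  have hd : Module.finrank F (Fin n → F) = n := by simp
  have hW' := H12.nondegOn_of_geo (H12.CForm.ofQuad Q) (Or.inl fun _ _ => rfl) hW
  have h1 := hC.finrank_add_finrank_perp W
  rw [H12.omegaGL_eq, H12.subspaceStabilizer_eq, ← Subgroup.comap_inf]
  refine H12.isMaximalIn_comap _ (H12.quad_isMaximalIn_nondeg hC (by omega) hW' hW0 hW1
    (fun h h2 => by
      obtain ⟨U, -, h3, h4⟩ := H12.exists_ts_of_iso hW' le_rfl (Nat.not_odd_iff_even.1 fun h5 =>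
        hdim ⟨h.trans hd, h5⟩) h2
      exact hminus ⟨U, le_top, h3, by rw [h4, h, finrank_top]⟩) ?_)
  rintro U hU ⟨h2, h3, u, hu, hu0, hu1⟩
  refine hex ⟨h2, U, h3, H12.geo_of_nondegOn (H12.CForm.ofQuad Q) (Or.inl fun _ _ => rfl) ?_,
    ⟨_, (Submodule.span_singleton_le_iff_mem _ _).2 hu, fun w hw => ?_, by
      rw [finrank_span_singleton hu0, h3]⟩, hU.imp id ?_⟩
  · rcases hU with rfl | rfl
    exacts [hW', hC.nondegOn_perp hW']
  · obtain ⟨c, rfl⟩ := Submodule.mem_span_singleton.1 hw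
    rw [QuadraticMap.map_smul, hu1, smul_zero]
  · rintro rfl
    exact ⟨fun x hx y hy => (H12.CForm.ofQuad Q).mem_perp'.1 hx y hy, by omega⟩

end Cfsg.Agent.S5689
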