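import Cfsg.Statements.S5693
import Cfsg.Agent.H12.NonMax2
-- import your own Cfsg.Agent.* helpers here

set_option autoImplicit false
set_option maxHeartbeats 400000
open Cfsg

namespace Cfsg.Agent.S5693

/-- Let F be a finite field with q elements, n ≥ 13 even, Q a non-degenerate quadratic form on F^n of plus type (some subspace of dimension n/2 is totally singular), and Ω the commutator subgroup of the isometry group of Q, viewed inside GL_n(F). Let D be a decomposition of F^n into t ≥ 2 pairwise orthogonal, pairwise Q-isometric subspaces of equal dimension k on which the polar form is non-degenerate (with, for even k, all members of plus type or t even; for odd k, q odd and square discriminant), in one of the cases: k = 2 with q = 3; k = 2 with plus-type members and q ∈ {2, 4, 5}; k = 3 with q = 3; k = 4 with plus-type members and q = 2. Then the elements of Ω permuting the members of D form a subgroup that is not maximal: some subgroup lies strictly between it and Ω. -/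
theorem result {F : Type*} [Field F] [Fintype F] {n : ℕ} (hn : 13 ≤ n) (heven : Even n) (Q : (Fin n → F) → F) (hQ : Cfsg.Geo.IsNondegenerateQuadraticForm Q) (hplus : Cfsg.Geo.IsPlusTypeOn Q ⊤) {t : ℕ} (k : ℕ) (D : Fin t → Submodule F (Fin n → F)) (hD : Cfsg.Geo.IsOrthogonalMDecomposition Q k D) (hke : Even k → ((∀ i, Cfsg.Geo.IsPlusTypeOn Q (D i)) ∨ Even t)) (hko : Odd k → (Odd (Fintype.card F) ∧ Cfsg.Geo.HasSquareDiscriminant Q)) (hcase : ((k = 2 ∧ (Fintype.card F = 3 ∨ ((∀ i, Cfsg.Geo.IsPlusTypeOn Q (D i)) ∧ (Fintype.card F = 2 ∨ Fintype.card F = 4 ∨ Fintype.card F = 5)))) ∨ (k = 3 ∧ Fintype.card F = 3) ∨ (k = 4 ∧ Fintype.card F = 2 ∧ ∀ i, Cfsg.Geo.IsPlusTypeOn Q (D i)))) : ∃ K : Subgroup (Matrix.GeneralLinearGroup (Fin n) F), Cfsg.Geo.decompositionStabilizer D ⊓ Cfsg.Geo.omegaGL Q < K ∧ K < Cfsg.Geo.omegaGL Q := by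
  obtain ⟨Q, rfl, hC⟩ := H12.exists_quad hQ
  have hd : Module.finrank F (Fin n → F) = n := by simp
  have hD' := H12.orthDec_of_geo (H12.CForm.ofQuad Q) (Or.inl fun _ _ => rfl) hD.decomp
    fun i j => H12.quad_iso_iff.2 (hD.isometric i j)
  have h2 := hD.decomp.decomp.finrank_eq
  obtain ⟨π, hπ⟩ := hD'.exists_isProj
  have h3 := hπ.finrank_le h2
  haveI : Nontrivial (Fin t) := Fin.nontrivial_iff_two_le.2 hD.decomp.decomp.two_le
  have h4 : (∀ i, Cfsg.Geo.IsPlusTypeOn Q (D i)) → ∀ i, ∃ u ∈ D i, u ≠ 0 ∧ Q u = 0 := fun h i => by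
    obtain ⟨U, h1, h2, h3⟩ := h i
    obtain ⟨u, hu, hu0⟩ := Submodule.exists_mem_ne_zero_of_ne_bot
      (H12.ne_bot_of_finrank_pos (W := U) (by
        have := hD.decomp.decomp.finrank_eq i
        have := hD.decomp.decomp.pos
        omega))
    exact ⟨u, h1 hu, hu0, h2 u hu⟩
  rw [H12.omegaGL_eq, H12.decompositionStabilizer_eq, ← Subgroup.comap_inf]
  refine H12.exists_between_comap _ ?_
  rcases hcase with ⟨rfl, hq | ⟨hp, hq | hq | hq⟩⟩ | ⟨rfl, hq⟩ | ⟨rfl, hq, hp⟩
  · exact H12.quad_between_f3_two hC hq (by omega) hD' h2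
  · exact H12.quad_between_char2_plus hC (Or.inl hq) (by omega) (by omega) hD' h2 (h4 hp)
  · exact H12.quad_between_char2_plus hC (Or.inr hq) (by omega) (by omega) hD' h2 (h4 hp)
  · obtain ⟨i⟩ : Nonempty (Fin t) := inferInstance
    obtain ⟨u, hu, hu0, hu1⟩ := h4 hp i
    exact H12.quad_between_f5 hC hq (by omega) hD' h2 hu hu0 hu1
  · exact H12.quad_between_f3_three hC hq (by omega) hD' h2
  · refine H12.quad_between_f2_four hC hq (by omega) hD' h2 fun i => ?_
    obtain ⟨U, h5, h6, h7⟩ := hp i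
    exact ⟨U, h5, h6, by have := h2 i; omega⟩

end Cfsg.Agent.S5693
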