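import Cfsg.Statements.S5697
import Cfsg.Agent.H12.LagPair
-- import your own Cfsg.Agent.* helpers here

set_option autoImplicit false
set_option maxHeartbeats 400000
open Cfsg

namespace Cfsg.Agent.S5697

/-- Let F be a finite field with q elements, n ≥ 13 even, Q a non-degenerate quadratic form on F^n of plus type (some subspace of dimension n/2 is totally singular), and Ω the commutator subgroup of the isometry group of Q, viewed inside GL_n(F). Suppose n/2 is even and let D be a decomposition of F^n into two complementary subspaces of dimension n/2 on each of which Q vanishes. Then the elements of Ω preserving or interchanging the two subspaces form a maximal subgroup of Ω. -/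
theorem result {F : Type*} [Field F] [Fintype F] {n : ℕ} (hn : 13 ≤ n) (heven : Even n) (Q : (Fin n → F) → F) (hQ : Cfsg.Geo.IsNondegenerateQuadraticForm Q) (hplus : Cfsg.Geo.IsPlusTypeOn Q ⊤) (k : ℕ) (hk : 2 * k = n) (hke : Even k) (D : Fin 2 → Submodule F (Fin n → F)) (hD : Cfsg.Geo.IsMDecomposition k D) (hts : ∀ i, Cfsg.Geo.IsTotallySingularQuad Q (D i)) : Cfsg.Geo.IsMaximalIn (Cfsg.Geo.omegaGL Q) (Cfsg.Geo.decompositionStabilizer D ⊓ Cfsg.Geo.omegaGL Q) := by
  obtain ⟨Q, rfl, hC⟩ := H12.exists_quad hQ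
  have hd : Module.finrank F (Fin n → F) = n := by simp
  obtain ⟨π, hπ⟩ := H12.exists_isProj hD.indep hD.iSup_eq_top
  have hL : ∀ i, (H12.CForm.ofQuad Q).Lag (D i) := fun i =>
    ⟨(H12.ts_quad_iff Q).2 (hts i), by rw [hD.finrank_eq, hk, hd]⟩
  have hne : H12.NotExc F (Fin n → F) := Or.inr (by omega)
  rw [H12.omegaGL_eq, H12.decompositionStabilizer_eq, ← Subgroup.comap_inf]
  refine H12.isMaximalIn_comap _ ((H12.rhoData_quad hC (by omega)).isMaximalIn_lagPair
    (fun c hc => ⟨0, ?_⟩) (by omega) hπ hL fun g hg e => ?_)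
  · have : 1 * c = 0 := hc
    rw [one_mul] at this
    simp [this]
  · have h := H12.lagPair_of hπ hL
    obtain ⟨u, hu, f, hf, hef⟩ := h.exists_hyp hC (by omega)
    obtain ⟨s, h1, -, h2⟩ := H12.exists_mul_mem_OmegaV hC hne (H12.glStab (D 0) ⊓ H12.glStab (D 1)) hg
      (Or.inl ((H12.dickson_eq_one_iff_lag hC hne (hL 0) _).2 (by
        rw [e, h.disj.eq_bot, finrank_bot, hD.finrank_eq]; exact hke)))
      fun c hc => ⟨_, h.mem_stab hu hf fun x => ⟨_, _,
        H12.refl_hyp_mul hef.left hef.right hef.pair one_ne_zero hc x⟩,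
        H12.dickson_spinor_hyp hC hne hef.left hef.right hef.pair hc⟩
    exact ⟨s, h1, h2⟩

end Cfsg.Agent.S5697
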