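import Cfsg.Statements.S5699
import Cfsg.Agent.H12.NondegMax
-- import your own Cfsg.Agent.* helpers here

set_option autoImplicit false
set_option maxHeartbeats 400000
open Cfsg

namespace Cfsg.Agent.S5699

/-- Let F be a finite field with q elements, n ≥ 13 even, Q a non-degenerate quadratic form on F^n (of either type), and Ω the commutator subgroup of the isometry group of Q, viewed inside GL_n(F). Let D be a decomposition of F^n into two orthogonal subspaces of odd dimension n/2 on which the polar form is non-degenerate and which are not Q-isometric to each other. Then the elements of Ω permuting (necessarily fixing) the two subspaces form a maximal subgroup of Ω. -/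
theorem result {F : Type*} [Field F] [Fintype F] {n : ℕ} (hn : 13 ≤ n) (heven : Even n) (Q : (Fin n → F) → F) (hQ : Cfsg.Geo.IsNondegenerateQuadraticForm Q) (k : ℕ) (hk : 2 * k = n) (hko : Odd k) (D : Fin 2 → Submodule F (Fin n → F)) (hD : Cfsg.Geo.IsNondegenerateMDecomposition (QuadraticMap.polar Q) k D) (hni : ¬ Cfsg.Geo.AreIsometricFor Q (D 0) (D 1)) : Cfsg.Geo.IsMaximalIn (Cfsg.Geo.omegaGL Q) (Cfsg.Geo.decompositionStabilizer D ⊓ Cfsg.Geo.omegaGL Q) := by
  obtain ⟨Q, rfl, hC⟩ := H12.exists_quad hQ
  have hd : Module.finrank F (Fin n → F) = n := by simp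
  have h1 := fun i => H12.nondegOn_of_geo (H12.CForm.ofQuad Q) (Or.inl fun _ _ => rfl)
    (hD.nondegenerate i)
  have h2 := hD.decomp.finrank_eq
  have h3 := hC.finrank_add_finrank_perp (D 0)
  have h4 : D 1 = (H12.CForm.ofQuad Q).perp (D 0) := Submodule.eq_of_le_of_finrank_eq
    (fun x hx => (H12.CForm.ofQuad Q).mem_perp.2 fun y hy => hD.orthogonal 0 1 (by simp) y hy x hx)
    (by have := h2 0; have := h2 1; omega)
  have h5 : H12.decStab D ⊓ H12.OmegaV Q = H12.glStab (D 0) ⊓ H12.OmegaV Q := by
    refine Subgroup.ext fun g => and_congr_left fun hg => ⟨fun h => ?_, fun h => ?_⟩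
    · obtain ⟨τ, hτ⟩ := H12.mem_decStab.1 h
      have h6 := hτ 0
      by_cases h7 : τ 0 = 0
      · exact H12.mem_glStab_iff_map.2 (by rwa [h7] at h6)
      · rw [show τ 0 = 1 by omega] at h6
        exact absurd ⟨(g.submoduleMap (D 0)).trans (LinearEquiv.ofEq _ _ h6),
          fun w => (H12.OmegaV_le hg).2 _⟩ hni
    · refine H12.mem_decStab_of_stab (Fin.forall_fin_two.2 ⟨h, ?_⟩)
      rw [h4]
      exact H12.mem_glStab_perp (H12.OmegaV_le hg) h
  obtain ⟨l, hl⟩ := hko
  rw [H12.omegaGL_eq, H12.decompositionStabilizer_eq, ← Subgroup.comap_inf, h5]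
  refine H12.isMaximalIn_comap _ (H12.quad_isMaximalIn_nondeg hC (by omega) (h1 0) (fun e => ?_)
    (fun e => ?_) (fun _ h => hni ?_) ?_)
  · have := h2 0
    rw [e, finrank_bot] at this
    omega
  · have := h2 0
    rw [e, finrank_top] at this
    omega
  · rw [← h4] at h
    exact H12.quad_iso_iff.1 h
  · rintro U hU ⟨-, h6, -⟩
    rw [← h4] at hU
    rcases hU with rfl | rfl <;> rw [h2] at h6 <;> omega

end Cfsg.Agent.S5699
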