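import Cfsg.Statements.S5704
import Cfsg.Agent.H12.Ten6
import Cfsg.Agent.H12.Classify
import Cfsg.Agent.H12.RQ2
-- import your own Cfsg.Agent.* helpers here

set_option autoImplicit false
set_option maxHeartbeats 400000
open Cfsg

namespace Cfsg.Agent.S5704

/-- Let F be a finite field with q elements, n ≥ 13 even, Q a non-degenerate quadratic form on F^n of plus type (some subspace of dimension n/2 is totally singular), and Ω the commutator subgroup of the isometry group of Q, viewed inside GL_n(F). Suppose that, through a change of basis P and a bijection of index sets e, the polar form of Q is similar to the tensor product of non-degenerate symplectic forms f₁ on F^(n₁) and f₂ on F^(n₂) with n₁ < n₂, and Q vanishes on the images of all pure tensors. Unless q = 2 and n₁ = 2, the elements of Ω in the stabiliser of this tensor decomposition form a maximal subgroup of Ω. -/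
theorem result {F : Type*} [Field F] [Fintype F] {n : ℕ} (hn : 13 ≤ n) (heven : Even n) (Q : (Fin n → F) → F) (hQ : Cfsg.Geo.IsNondegenerateQuadraticForm Q) (hplus : Cfsg.Geo.IsPlusTypeOn Q ⊤) (n₁ n₂ : ℕ) (h12 : n₁ < n₂) (hex : ¬ (Fintype.card F = 2 ∧ n₁ = 2)) (e : (Fin n) ≃ Fin n₁ × Fin n₂) (P : Matrix.GeneralLinearGroup (Fin n) F) (f₁ : (Fin n₁ → F) → (Fin n₁ → F) → F) (f₂ : (Fin n₂ → F) → (Fin n₂ → F) → F) (hf₁ : Cfsg.Geo.IsSymplecticForm f₁) (hf₂ : Cfsg.Geo.IsSymplecticForm f₂) (hT : Cfsg.Geo.IsTensorFormStructure id (QuadraticMap.polar Q) f₁ f₂ e P) (hpure : (∀ (x₁ : Fin n₁ → F) (x₂ : Fin n₂ → F), Q (Matrix.mulVec (P : Matrix (Fin n) (Fin n) F) ((fun a : Fin n₁ × Fin n₂ => x₁ a.1 * x₂ a.2) ∘ e)) = 0)) : Cfsg.Geo.IsMaximalIn (Cfsg.Geo.omegaGL Q) (Cfsg.Geo.tensorProductSubgroup n₁ n₂ e P ⊓ Cfsg.Geo.omegaGL Q) := by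
  have hn' := H13.KL.card_eq_mul e
  obtain ⟨Q, rfl, hQ'⟩ := H12.exists_quad hQ
  obtain ⟨C₁, d₁, e₁⟩ := H12.exists_cform_alt hf₁
  obtain ⟨C₂, d₂, e₂⟩ := H12.exists_cform_alt hf₂
  obtain ⟨c, hc, h⟩ := H13.KL.tf_bridge (fun _ _ => rfl) (H13.KL.formOfGram_bilin hf₁.bilinear)
    (H13.KL.formOfGram_bilin hf₂.bilinear) hT
  obtain ⟨a, ha⟩ := H12.alt_even d₁
  obtain ⟨b, hb⟩ := H12.alt_even d₂
  simp only [Module.finrank_fin_fun, Fintype.card_fin] at ha hb hn'
  have h0 : 0 < n₁ := Nat.pos_of_ne_zero (by rintro rfl; omega)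
  have h5 : 5 ≤ n₂ := by
    by_contra h5
    have := Nat.mul_le_mul (show n₁ ≤ 2 by omega) (show n₂ ≤ 4 by omega)
    omega
  rw [H13.KL.omegaGL_eq_trE Q (H13.KL.tenIso e P), H13.KL.tensorProductSubgroup_eq,
    ← Subgroup.comap_inf]
  refine H12.isMaximalIn_comap _ (H12.isMaximalIn_sp_sp (H13.KL.qnondeg_comp hQ' _)
    (d₁.smulc (c := c) rfl (fun _ => by simp [H12.altType]) hc) d₂ (fun u w u' w' => ?_)
    (fun u w => ?_) (by simpa) (by simpa) (by simp; omega) ?_)
  · rw [H13.KL.polar_comp', LinearEquiv.coe_coe, h, ← e₁, ← e₂, ← mul_assoc]; rfl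
  · rw [QuadraticMap.comp_apply, LinearEquiv.coe_coe, H13.KL.tenIso_tmul]
    exact hpure u w
  · by_cases hq : Fintype.card F = 2
    · exact .inl (by simp [hq] at hex ⊢; omega)
    · exact .inr (H12.exists_ne_ne hq 1)

end Cfsg.Agent.S5704
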