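import Cfsg.Statements.S5707
import Cfsg.Agent.H12.WR17
import Cfsg.Agent.H12.TvBridge
-- import your own Cfsg.Agent.* helpers here

set_option autoImplicit false
set_option maxHeartbeats 400000
open Cfsg

namespace Cfsg.Agent.S5707

/-- Let F be a finite field with q elements, n ≥ 13 even, Q a non-degenerate quadratic form on F^n of plus type (some subspace of dimension n/2 is totally singular), and Ω the commutator subgroup of the isometry group of Q, viewed inside GL_n(F). Suppose q is even and that, through P and e, the polar form of Q is similar to the t-fold tensor power (t ≥ 2) of a non-degenerate symplectic form f₁ on F^k with k ≤ 4 and (q, k) ≠ (2, 2), Q vanishing on the images of all pure tensors. Then the elements of Ω in the stabiliser of this decomposition form a subgroup that is not maximal: some subgroup lies strictly between it and Ω. -/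
theorem result {F : Type*} [Field F] [Fintype F] {n : ℕ} (hn : 13 ≤ n) (heven : Even n) (Q : (Fin n → F) → F) (hQ : Cfsg.Geo.IsNondegenerateQuadraticForm Q) (hplus : Cfsg.Geo.IsPlusTypeOn Q ⊤) (hchar : ¬ Odd (Fintype.card F)) (k t : ℕ) (ht : 2 ≤ t) (hk : k ≤ 4) (hex1 : ¬ (Fintype.card F = 2 ∧ k = 2)) (e : (Fin n) ≃ (Fin t → Fin k)) (P : Matrix.GeneralLinearGroup (Fin n) F) (f₁ : (Fin k → F) → (Fin k → F) → F) (hf₁ : Cfsg.Geo.IsSymplecticForm f₁) (hT : Cfsg.Geo.IsTensorPowerFormStructure id (QuadraticMap.polar Q) f₁ e P) (hpure : (∀ xs : Fin t → (Fin k → F), Q (Matrix.mulVec (P : Matrix (Fin n) (Fin n) F) ((fun a : Fin t → Fin k => ∏ i, xs i (a i)) ∘ e)) = 0)) : ∃ K : Subgroup (Matrix.GeneralLinearGroup (Fin n) F), Cfsg.Geo.tensorWreathSubgroup k t e P ⊓ Cfsg.Geo.omegaGL Q < K ∧ K < Cfsg.Geo.omegaGL Q := by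
  obtain ⟨s, rfl⟩ : ∃ s, t = s + 1 := ⟨t - 1, by omega⟩
  have hn' := Fintype.card_congr e
  obtain ⟨Q, rfl, hQ'⟩ := H12.exists_quad hQ
  obtain ⟨C₂, d₂, e₂⟩ := H12.exists_cform_alt hf₁
  obtain ⟨a, ha⟩ := H12.alt_even d₂
  simp only [Module.finrank_fin_fun, Fintype.card_fin, Fintype.card_fun] at ha hn'
  have : NeZero k := ⟨by rintro rfl; simp at hn'; omega⟩
  have hk' : k = 2 ∨ k = 4 := by have := NeZero.ne k; omega
  obtain ⟨θ, π, H, ρ, h, e1, e2⟩ := H12.exists_tpw e P
  obtain ⟨c, e3⟩ := H12.tp_bridge (fun _ => rfl) (H13.KL.formOfGram_bilin hf₁.bilinear) hT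
  rw [H13.KL.omegaGL_eq_trE Q θ, e1, ← Subgroup.comap_inf]
  have h0 : ∀ x, Q.comp θ.toLinearMap (π x) = 0 := fun x => by
    rw [QuadraticMap.comp_apply, LinearEquiv.coe_coe, e2]; exact hpure x
  have h' : H12.TPF (H12.CForm.ofQuad (Q.comp θ.toLinearMap)) C₂ H ρ 0 π c :=
    ⟨h, H13.KL.qnondeg_comp hQ' θ, d₂, fun _ => rfl, fun x y => by
      simp only [e₂, ← e3, ← e2]; exact H13.KL.polar_comp' ..,
      fun x y _ => (h0 x).trans (h0 y).symm⟩
  have h2 : (2 : F) = 0 := by_contra fun h => hchar (H12.odd_card_iff.2 h)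
  have hV := θ.finrank_eq
  rw [Module.finrank_fin_fun] at hV
  refine H12.exists_between_comap _ ?_
  rcases hk' with rfl | rfl
  · have : 2 ≤ s := by
      by_contra h3
      obtain rfl : s = 1 := by omega
      omega
    exact h'.spin_two h0 h2 (by omega) (by simp) (j₁ := ⟨1, by omega⟩) (l := ⟨2, by omega⟩)
      (by simp [Fin.ext_iff]) (by simp [Fin.ext_iff]) (by simp [Fin.ext_iff])
  · exact h'.spin_four h0 h2 (by omega) (by simp) (j₁ := ⟨1, by omega⟩) (by simp [Fin.ext_iff])

end Cfsg.Agent.S5707
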