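import Cfsg.Statements.S5709
import Cfsg.Agent.H12.Ten8
-- import your own Cfsg.Agent.* helpers here

set_option autoImplicit false
set_option maxHeartbeats 400000
open Cfsg

namespace Cfsg.Agent.S5709

/-- Let F be a finite field with q elements, n ≥ 13 even, Q a non-degenerate quadratic form on F^n of minus type (no subspace of dimension n/2 is totally singular), and Ω the commutator subgroup of the isometry group of Q, viewed inside GL_n(F). Suppose q is odd and that, through a change of basis P and a bijection of index sets e, the polar form of Q is similar to the tensor product of non-degenerate symmetric bilinear forms f₁ on F^(n₁), n₁ odd and at least 3, and f₂ on F^(n₂), n₂ even and at least 4 with no totally isotropic subspace of dimension n₂/2 (minus type). Unless q = 3 and n₁ = 3, the elements of Ω in the stabiliser of this tensor decomposition form a maximal subgroup of Ω. -/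
theorem result {F : Type*} [Field F] [Fintype F] {n : ℕ} (hn : 13 ≤ n) (heven : Even n) (Q : (Fin n → F) → F) (hQ : Cfsg.Geo.IsNondegenerateQuadraticForm Q) (hminus : ¬ Cfsg.Geo.IsPlusTypeOn Q ⊤) (hodd : Odd (Fintype.card F)) (n₁ n₂ : ℕ) (h1 : 3 ≤ n₁) (h1o : Odd n₁) (h2 : 4 ≤ n₂) (h2e : Even n₂) (hex : ¬ (Fintype.card F = 3 ∧ n₁ = 3)) (e : (Fin n) ≃ Fin n₁ × Fin n₂) (P : Matrix.GeneralLinearGroup (Fin n) F) (f₁ : (Fin n₁ → F) → (Fin n₁ → F) → F) (f₂ : (Fin n₂ → F) → (Fin n₂ → F) → F) (hf₁ : Cfsg.Geo.IsSymmetricForm f₁) (hf₂ : Cfsg.Geo.IsSymmetricForm f₂) (hf₂m : ¬ Cfsg.Geo.IsPlusTypeOn (fun v : Fin n₂ → F => f₂ v v) ⊤) (hT : Cfsg.Geo.IsTensorFormStructure id (QuadraticMap.polar Q) f₁ f₂ e P) : Cfsg.Geo.IsMaximalIn (Cfsg.Geo.omegaGL Q) (Cfsg.Geo.tensorProductSubgroup n₁ n₂ e P ⊓ Cfsg.Geo.omegaGL Q) := by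
  have hn' := H13.KL.card_eq_mul e
  have h2' := H12.odd_card_iff.1 hodd
  obtain ⟨Q, rfl, hQ'⟩ := H12.exists_quad hQ
  obtain ⟨c, hc, h⟩ := H13.KL.tf_bridge (fun _ _ => rfl) (H13.KL.formOfGram_bilin hf₁.bilinear)
    (H13.KL.formOfGram_bilin hf₂.bilinear) hT
  obtain ⟨Q₁, d₁, e₁⟩ := H12.exists_quad_sym hf₁ h2' hc
  obtain ⟨Q₂, d₂, e₂⟩ := H12.exists_quad_sym hf₂ h2' one_ne_zero
  obtain ⟨a, ha⟩ := h1o
  obtain ⟨b, hb⟩ := h2e
  rw [Fintype.card_fin] at hn'
  rcases lt_or_ge n₁ n₂ with hd | hd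
  · rw [H13.KL.omegaGL_eq_trE _ (H13.KL.tenIso e P), H13.KL.tensorProductSubgroup_eq,
      ← Subgroup.comap_inf]
    refine H12.isMaximalIn_comap _ (H12.isMaximalIn_o_o (H13.KL.qnondeg_comp hQ' _)
      d₁ d₂ h2' (fun u w u' w' => ?_) (by simpa) ?_ (by simpa) ?_ ?_)
    · rw [H13.KL.polar_comp', LinearEquiv.coe_coe, h, e₁, e₂]; ring
    · by_contra h5
      simp only [Module.finrank_fin_fun] at h5
      have := Nat.mul_le_mul (show n₁ ≤ 3 by omega) (show n₂ ≤ 4 by omega)
      omega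
    · by_cases h3 : n₁ = 3
      · have := Fintype.one_lt_card (α := F)
        obtain ⟨r, hr⟩ := hodd
        exact .inr (H11.exists_sq_ne_one_of_card (by omega))
      · exact .inl (by simp; omega)
    · by_cases h3 : n₁ = 3
      · exact .inr (H12.not_tsp_of_lt d₁ (by simp [h3]))
      · exact .inl (by simp; omega)
  · rw [H13.KL.omegaGL_eq_trE _ ((TensorProduct.comm F _ _).trans (H13.KL.tenIso e P)),
      H13.KL.tensorProductSubgroup_eq', ← Subgroup.comap_inf]
    refine H12.isMaximalIn_comap _ (H12.isMaximalIn_o_o (H13.KL.qnondeg_comp hQ' _)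
      d₂ d₁ h2' (fun u w u' w' => ?_) (by simp; omega) (by simp; omega) (by simp; omega)
      (.inl (by simpa)) ?_)
    · rw [H13.KL.polar_comp']
      simp only [LinearEquiv.coe_coe, LinearEquiv.trans_apply, TensorProduct.comm_tmul, h, e₁, e₂]
      ring
    · by_cases h3 : n₂ = 4
      · refine .inr fun e b t => hf₂m ⟨Submodule.span F {e, b}, le_top, fun w hw => ?_, 
          by simp [t.finrank_eq, h3]⟩
        simpa using (e₂ w w).symm.trans (t.ts.2 w hw w hw)
      · exact .inl (by simp; omega)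

end Cfsg.Agent.S5709
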