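import Cfsg.Statements.S5790
import Cfsg.Agent.H27.Asch27
-- import your own Cfsg.Agent.* helpers here

set_option autoImplicit false
open Cfsg

namespace Cfsg.Agent.S5790


/-- Every maximal subgroup of Sp_4(q), q ≥ 4 even, is of one of the listed geometric types or lies in the residual class. Let F be a finite field of even order q ≥ 4, f the standard alternating form on F^4 (coordinates Fin 2 ⊕ Fin 2), and H a maximal subgroup of Sp_4(F) (inside GL_4(F)). Then H is the intersection with Sp_4(F) of one of: the stabiliser of a non-zero totally isotropic subspace; the stabiliser of a decomposition into two orthogonal non-degenerate 2-spaces; the normaliser of a degree-2 subfield K of the matrix algebra, self-adjoint with f(k v, v) = 0; a subfield group whose F₀-structure carries a non-zero multiple of f, |F| = |F₀|^r with r prime; the similarity group of a non-degenerate quadratic form whose polar form is f — or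 else H lies in the residual class of the symplectic case. -/
theorem result {F : Type*} [Field F] [Fintype F] (heven : ¬ Odd (Fintype.card F)) (h4 : 4 ≤ Fintype.card F) (H : Subgroup (Matrix.GeneralLinearGroup (Fin 2 ⊕ Fin 2) F)) (hH : Cfsg.Geo.IsMaximalIn (Cfsg.spGL 2 F) H) :
    (∃ W : Submodule F (Fin 2 ⊕ Fin 2 → F), W ≠ ⊥ ∧ Cfsg.Geo.IsTotallySingularFor (Cfsg.sympForm 2 F) W ∧ H = Cfsg.Geo.subspaceStabilizer W ⊓ Cfsg.spGL 2 F) ∨
    (∃ D : Fin 2 → Submodule F (Fin 2 ⊕ Fin 2 → F), Cfsg.Geo.IsNondegenerateMDecomposition (Cfsg.sympForm 2 F) 2 D ∧ H = Cfsg.Geo.decompositionStabilizer D ⊓ Cfsg.spGL 2 F) ∨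
    (∃ K : Subalgebra F (Matrix (Fin 2 ⊕ Fin 2) (Fin 2 ⊕ Fin 2) F), Cfsg.Geo.IsFieldSubalgebra 2 K ∧ Cfsg.Geo.IsSelfAdjointFor (Cfsg.sympForm 2 F) K ∧ (∀ k ∈ K, ∀ v : (Fin 2 ⊕ Fin 2 → F), (Cfsg.sympForm 2 F) (Matrix.mulVec k v) v = 0) ∧ H = Cfsg.Geo.subalgebraNormalizer K ⊓ Cfsg.spGL 2 F) ∨
    (∃ (F₀ : Subfield F) (r : ℕ) (P : Matrix.GeneralLinearGroup (Fin 2 ⊕ Fin 2) F) (ζ : F), r.Prime ∧ Fintype.card F = Nat.card F₀ ^ r ∧ ζ ≠ 0 ∧ Cfsg.Geo.IsFormRationalStructure (Cfsg.sympForm 2 F) F₀ ζ P ∧ H = Cfsg.Geo.subfieldSubgroup F₀ P ⊓ Cfsg.spGL 2 F) ∨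
    (∃ Q : (Fin 2 ⊕ Fin 2 → F) → F, Cfsg.Geo.IsNondegenerateQuadraticForm Q ∧ (∀ u v : (Fin 2 ⊕ Fin 2 → F), QuadraticMap.polar Q u v = (Cfsg.sympForm 2 F) u v) ∧ H = Cfsg.Geo.quadSimilarityGroup Q ⊓ Cfsg.spGL 2 F) ∨
    Cfsg.Geo.InSymplecticResidualClass H := by
  rcases H27.Asch.spE_main (by norm_num) (H27.Asch.qs_Sp (by norm_num) (by omega)) hH with (h | ⟨a, h⟩ |
    ⟨t, k, D, a, b, c, d, h⟩ | ⟨a, b, h⟩ | ⟨r, K, a, b, h⟩ | ⟨a, b, h⟩ | ⟨o, k, l, e, P, f₁, f₂, a, b, c, d, g, h⟩ | h |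
    ⟨k, R, a, b, c, h⟩ | ⟨o, k, t, e, P, f₁, a, b, c, d, h⟩ | h) | h
  · exact Or.inl h
  · omega
  · have : t ≤ 4 := Nat.le_of_dvd (by norm_num) ⟨k, a⟩
    obtain ⟨rfl, rfl⟩ : (t = 2 ∧ k = 2) := by
      interval_cases t <;> omega
    · exact Or.inr (Or.inl ⟨D, h⟩)
  · exact absurd a heven
  · have := Nat.le_of_dvd (by norm_num) b
    have := a.two_le
    obtain rfl : r = 2 := by
      interval_cases r <;> first | omega | exact absurd a (by norm_num)
    · exact Or.inr (Or.inr (Or.inl ⟨K, h⟩))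
  · exact absurd a heven
  · have : l ≤ 4 := Nat.le_of_dvd (by norm_num) ⟨k, a.trans (mul_comm _ _)⟩
    interval_cases l <;> omega
  · exact Or.inr (Or.inr (Or.inr (Or.inl h)))
  · exact absurd c heven
  · obtain ⟨rfl, rfl⟩ := H27.Asch.wreath_two a b c (by norm_num)
    omega
  · exact Or.inr (Or.inr (Or.inr (Or.inr (Or.inl h.2))))
  · exact Or.inr (Or.inr (Or.inr (Or.inr (Or.inr (h)))))

end Cfsg.Agent.S5790
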