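import Cfsg.Statements.S5796
import Cfsg.Agent.H27.Asch33
-- import your own Cfsg.Agent.* helpers here

set_option autoImplicit false
open Cfsg

namespace Cfsg.Agent.S5796


/-- Every maximal subgroup of SU_5(q) is of one of the listed geometric types or lies in the residual class. Let F be the field with q² elements (characteristic p), f the standard unitary form Σ u_i v_i^q on F^5, and H a maximal subgroup of SU_5(q) (inside GL_5(F)). Then H is the intersection with SU_5(q) of one of: the stabiliser of a non-zero totally isotropic subspace; the stabiliser of a non-degenerate 1-space or 2-space; the stabiliser of a decomposition into five mutually orthogonal non-degenerate 1-spaces; for q ≥ 3, the normaliser of an adjoint-closed degree-5 subfield of the matrix algebra; a subfield group of odd prime index whose F₀-structure carries f; for q odd, a subfield group of index 2 whose F₀-structure carries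 f; for q = p ≡ 4 mod 5 or q = p² with p ≡ 2, 3 mod 5, the normaliser of an absolutely irreducible 5-group of exponent 5, order 125 and centre of order 5 with all characteristic abelian subgroups cyclic inside the similarity group of f — or else H lies in the residual class of the unitary case. -/
theorem result {F : Type*} [Field F] [Fintype F] (q : ℕ) (hF : Fintype.card F = q ^ 2) (H : Subgroup (Matrix.GeneralLinearGroup (Fin 5) F)) (hH : Cfsg.Geo.IsMaximalIn (Cfsg.GU 5 F q ⊓ Cfsg.Geo.specialLinear (Fin 5) F) H) :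
    (∃ W : Submodule F (Fin 5 → F), W ≠ ⊥ ∧ Cfsg.Geo.IsTotallySingularFor (Cfsg.hermForm 5 F q) W ∧ H = Cfsg.Geo.subspaceStabilizer W ⊓ (Cfsg.GU 5 F q ⊓ Cfsg.Geo.specialLinear (Fin 5) F)) ∨
    (∃ W : Submodule F (Fin 5 → F), W ≠ ⊥ ∧ Cfsg.Geo.IsNondegenerateOn (Cfsg.hermForm 5 F q) W ∧ 2 * Module.finrank F W < 5 ∧ H = Cfsg.Geo.subspaceStabilizer W ⊓ (Cfsg.GU 5 F q ⊓ Cfsg.Geo.specialLinear (Fin 5) F)) ∨
    (∃ D : Fin 5 → Submodule F (Fin 5 → F), Cfsg.Geo.IsNondegenerateMDecomposition (Cfsg.hermForm 5 F q) 1 D ∧ H = Cfsg.Geo.decompositionStabilizer D ⊓ (Cfsg.GU 5 F q ⊓ Cfsg.Geo.specialLinear (Fin 5) F)) ∨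
    (3 ≤ q ∧ ∃ K : Subalgebra F (Matrix (Fin 5) (Fin 5) F), Cfsg.Geo.IsFieldSubalgebra 5 K ∧ Cfsg.Geo.IsAdjointClosedFor (Cfsg.hermForm 5 F q) K ∧ H = Cfsg.Geo.subalgebraNormalizer K ⊓ (Cfsg.GU 5 F q ⊓ Cfsg.Geo.specialLinear (Fin 5) F)) ∨
    (∃ (F₀ : Subfield F) (r : ℕ) (P : Matrix.GeneralLinearGroup (Fin 5) F), r.Prime ∧ Odd r ∧ Fintype.card F = Nat.card F₀ ^ r ∧ Cfsg.Geo.IsFormRationalStructure (Cfsg.hermForm 5 F q) F₀ 1 P ∧ H = Cfsg.Geo.subfieldSubgroup F₀ P ⊓ (Cfsg.GU 5 F q ⊓ Cfsg.Geo.specialLinear (Fin 5) F)) ∨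
    (Odd q ∧ ∃ (F₀ : Subfield F) (P : Matrix.GeneralLinearGroup (Fin 5) F), Fintype.card F = Nat.card F₀ ^ 2 ∧ Cfsg.Geo.IsFormRationalStructure (Cfsg.hermForm 5 F q) F₀ 1 P ∧ H = Cfsg.Geo.subfieldSubgroup F₀ P ⊓ (Cfsg.GU 5 F q ⊓ Cfsg.Geo.specialLinear (Fin 5) F)) ∨
    (∃ (p : ℕ) (R : Subgroup (Matrix.GeneralLinearGroup (Fin 5) F)), p.Prime ∧ CharP F p ∧ ((q = p ∧ p % 5 = 4) ∨ (q = p ^ 2 ∧ (p % 5 = 2 ∨ p % 5 = 3))) ∧ Cfsg.Geo.IsSymplecticTypeGroup 5 R ∧ Cfsg.Geo.ActsAbsolutelyIrreducibly (Cfsg.Geo.matrixSet R) ∧ R ≤ Cfsg.Geo.similarityGroup (Cfsg.hermForm 5 F q) ∧ Nat.card R = 125 ∧ Nat.card (Subgroup.center R) = 5 ∧ H = Cfsg.Geo.subgroupNormalizer R ⊓ (Cfsg.GU 5 F q ⊓ Cfsg.Geo.specialLinear (Fin 5) F)) ∨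
    Cfsg.Geo.InUnitaryResidualClass H := by
  rcases H27.Asch.suE_main (hF := hF) (H27.Asch.qs_SU hF (by norm_num) (by omega)) hH with (h | h |
    ⟨t, m, D, a, b, c, d, h⟩ | ⟨m, D, a, b, h⟩ | ⟨r, K, a, b, c, h⟩ | ⟨k, m, e, P, f₁, f₂, a, b, c, d, h⟩ | h | ⟨a, h⟩ | h |
    ⟨r, m, p, d, z, R, a, b, c, e, f, g, h⟩ | ⟨k, t, e, P, f₁, a, b, c, d, h⟩) | h
  · exact Or.inl h
  · exact Or.inr (Or.inl h)
  · have : t ≤ 5 := Nat.le_of_dvd (by norm_num) ⟨m, a⟩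
    obtain ⟨rfl, rfl⟩ : (t = 5 ∧ m = 1) := by
      interval_cases t <;> omega
    · exact Or.inr (Or.inr (Or.inl ⟨D, h⟩))
  · omega
  · have := Nat.le_of_dvd (by norm_num) c
    rw [Nat.odd_iff] at b
    obtain rfl : r = 5 := by
      interval_cases r <;> first | omega | exact absurd a (by norm_num)
    exact Or.inr (Or.inr (Or.inr (Or.inl ⟨H27.Asch.su5_field hF hH h, K, h⟩)))
  · have : k ≤ 5 := Nat.le_of_dvd (by norm_num) ⟨m, a⟩
    interval_cases k <;> omega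
  · exact Or.inr (Or.inr (Or.inr (Or.inr (Or.inl h))))
  · exact absurd a (by decide)
  · exact Or.inr (Or.inr (Or.inr (Or.inr (Or.inr (Or.inl h)))))
  · obtain rfl : r = 5 := H27.Asch.prime_eq_of_pow a (by norm_num) (k := 0) b
    rcases g with ⟨rfl, g1, g2, g3, g4⟩ | g
    swap
    · omega
    refine Or.inr (Or.inr (Or.inr (Or.inr (Or.inr (Or.inr (Or.inl ⟨p, R, c, e, ?_, h⟩))))))
    rcases (by set_option synthInstance.maxSize 1000 in decide : ∀ s < 5, ∀ d < 5, 0 < d → 2 * d < 5 →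
      H27.Asch.OrdM 5 s (2 * d) → d = 1 ∧ s = 4 ∨ d = 2 ∧ (s = 2 ∨ s = 3)) _ (Nat.mod_lt p (by norm_num)) d (by omega) g1 g2 g3 with ⟨rfl, k⟩ | ⟨rfl, k⟩
    exacts [Or.inl ⟨by simpa using f, k⟩, Or.inr ⟨f, k⟩]
  · obtain ⟨rfl, rfl⟩ := H27.Asch.wreath_small a b c (by norm_num)
    omega
  · exact Or.inr (Or.inr (Or.inr (Or.inr (Or.inr (Or.inr (Or.inr (h)))))))

end Cfsg.Agent.S5796
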