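import Cfsg.Statements.S5858
import Cfsg.Agent.H12.OF7
import Cfsg.Agent.H12.RatFin
import Cfsg.Agent.H12.StabBridge
import Cfsg.Agent.H12.Parabolic
-- import your own Cfsg.Agent.* helpers here

set_option autoImplicit false
set_option maxHeartbeats 400000
open Cfsg

namespace Cfsg.Agent.S5858

/-- Maximal subgroups of Ω_11(q) of geometric type, q odd. Let F be a finite field of odd order q, Q the standard quadratic form x₀² + Σ x_i y_i on F^11 (coordinates Unit ⊕ (Fin 5 ⊕ Fin 5)), and Ω = Ω_11(q) the commutator subgroup of its isometry group, inside GL_11(F). Each of the following, intersected with Ω, is a maximal subgroup of Ω: (1) the stabiliser of any non-zero subspace on which Q vanishes identically (totally singular 1- to 5-spaces); (2) the stabiliser of any non-zero even-dimensional subspace W (dimension 2 to 10) on which the polar form of Q is non-degenerate (equivalently of its odd-dimensional orthogonal complement), except when q = 3 and W is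 a 2-space containing a non-zero singular vector (a plus-type plane); (3) for q = p prime, the stabiliser of any decomposition of F^11 into eleven pairwise orthogonal, pairwise Q-isometric non-degenerate 1-spaces; (4) every subfield group for a subfield F₀ with |F| = |F₀|^r, r prime, whose F₀-structure carries Q. -/
theorem result {F : Type*} [Field F] [Fintype F] (hodd : Odd (Fintype.card F)) :
    (∀ W : Submodule F (Unit ⊕ (Fin 5 ⊕ Fin 5) → F), W ≠ ⊥ → Cfsg.Geo.IsTotallySingularQuad (Cfsg.quadFormOdd 5 F) W → Cfsg.Geo.IsMaximalIn (Cfsg.Geo.omegaGL (Cfsg.quadFormOdd 5 F)) (Cfsg.Geo.subspaceStabilizer W ⊓ Cfsg.Geo.omegaGL (Cfsg.quadFormOdd 5 F))) ∧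
    (∀ W : Submodule F (Unit ⊕ (Fin 5 ⊕ Fin 5) → F), W ≠ ⊥ → Even (Module.finrank F W) → Cfsg.Geo.IsNondegenerateOn (QuadraticMap.polar (Cfsg.quadFormOdd 5 F)) W → ¬ (Fintype.card F = 3 ∧ Module.finrank F W = 2 ∧ Cfsg.Geo.IsPlusTypeOn (Cfsg.quadFormOdd 5 F) W) → Cfsg.Geo.IsMaximalIn (Cfsg.Geo.omegaGL (Cfsg.quadFormOdd 5 F)) (Cfsg.Geo.subspaceStabilizer W ⊓ Cfsg.Geo.omegaGL (Cfsg.quadFormOdd 5 F))) ∧
    ((Fintype.card F).Prime → ∀ D : Fin 11 → Submodule F (Unit ⊕ (Fin 5 ⊕ Fin 5) → F), Cfsg.Geo.IsOrthogonalMDecomposition (Cfsg.quadFormOdd 5 F) 1 D → Cfsg.Geo.IsMaximalIn (Cfsg.Geo.omegaGL (Cfsg.quadFormOdd 5 F)) (Cfsg.Geo.decompositionStabilizer D ⊓ Cfsg.Geo.omegaGL (Cfsg.quadFormOdd 5 F))) ∧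
    (∀ (F₀ : Subfield F) (r : ℕ) (P : Matrix.GeneralLinearGroup (Unit ⊕ (Fin 5 ⊕ Fin 5)) F), r.Prime → Fintype.card F = Nat.card F₀ ^ r → Cfsg.Geo.IsQuadFormRationalStructure (Cfsg.quadFormOdd 5 F) F₀ P → Cfsg.Geo.IsMaximalIn (Cfsg.Geo.omegaGL (Cfsg.quadFormOdd 5 F)) (Cfsg.Geo.subfieldSubgroup F₀ P ⊓ Cfsg.Geo.omegaGL (Cfsg.quadFormOdd 5 F))) := by
  have h2 := H12.odd_card_iff.1 hodd
  have hC := H11.qOdd_nondeg h2 5
  have hd : Module.finrank F (Unit ⊕ (Fin 5 ⊕ Fin 5) → F) = 11 := by simp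
  rw [← H11.coe_qOdd, H12.omegaGL_eq]
  refine ⟨fun W hW0 hW => ?_, fun W hW0 hev hW hex => ?_, fun hp D hD => ?_,
    fun F₀ r P hr hcard hP => ?_⟩
  · have hW' := (H12.ts_quad_iff (W := W) (H11.qOdd 5 F)).2 hW
    have hR := H12.rootData_quad hC (by omega)
    rw [H12.subspaceStabilizer_eq, ← Subgroup.comap_inf]
    refine H12.isMaximalIn_comap _ (H12.isMaximalIn_of _ _ inf_le_right
      (fun h => hR.spec.not_le_glStab (by omega) hW0 (hW'.ne_top hC hW0)
        (h.trans inf_le_left)) fun M h1 h2 g hg hg' => ?_)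
    exact hR.le_of_parabolic hW' (H12.quad_move hC (Or.inr (by omega)) hW' (by omega)) h1 hg (h2 hg)
      fun h => hg' ⟨h, h2 hg⟩
  · have hW' := H12.nondegOn_of_geo (H12.CForm.ofQuad (H11.qOdd 5 F)) (Or.inl fun _ _ => rfl) hW
    have h1 := hC.finrank_add_finrank_perp W
    obtain ⟨k, hk⟩ := hev
    rw [H12.subspaceStabilizer_eq, ← Subgroup.comap_inf]
    refine H12.isMaximalIn_comap _ (H12.quad_isMaximalIn_nondeg' hC (by omega) hW' hW0 (by
      rintro rfl
      rw [finrank_top] at hk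
      omega) (by omega) ?_)
    rintro U (rfl | rfl) ⟨h2, h3, u, hu, hu0, hu1⟩
    · refine hex ⟨?_, h3, _, (Submodule.span_singleton_le_iff_mem _ _).2 hu, fun w hw => ?_, by
        rw [finrank_span_singleton hu0, h3]⟩
      · obtain ⟨l, hl⟩ := hodd
        have := Fintype.one_lt_card (α := F)
        omega
      · obtain ⟨c, rfl⟩ := Submodule.mem_span_singleton.1 hw
        rw [QuadraticMap.map_smul, hu1, smul_zero]
    · omega
  · rw [H12.decompositionStabilizer_eq, ← Subgroup.comap_inf]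
    exact H12.isMaximalIn_comap _ ((H12.orthDec_of_geo (H12.CForm.ofQuad (H11.qOdd 5 F))
      (Or.inl fun _ _ => rfl) hD.decomp fun i j => H12.quad_iso_iff.2 (hD.isometric i j)
      ).isMaximalIn_frame hC h2 hp hD.decomp.decomp.finrank_eq (Or.inr (by simp)))
  · have hc : Nat.card F = Nat.card F₀ ^ r := by rwa [Nat.card_eq_fintype_card]
    rw [H12.subfieldSubgroup_eq, ← Subgroup.comap_inf]
    exact H12.isMaximalIn_comap _ (H12.isMaximalIn_rat_quad (H12.rat_ratMap F₀ P)
      (H12.maxSub_subfield hr hc) (H12.exists_not_mem_subfield hr hc) (by simp) hC one_ne_zero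
      fun x => ⟨⟨_, hP _ fun i => (x i).2⟩, by rw [one_mul, H12.ratMap_apply]; rfl⟩)

end Cfsg.Agent.S5858
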