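import Cfsg.Statements.S5876
import Cfsg.Agent.H27.Asch2
-- import your own Cfsg.Agent.* helpers here

set_option autoImplicit false
open Cfsg

namespace Cfsg.Agent.S5876

open scoped commutatorElement in
open Subgroup in
theorem grp {G : Type*} [Group G] [Finite G] [Group.IsSolvable G] {g : G} (hg : g ≠ 1) :
    ∃ (A : Subgroup G) (x y : G), A.Normal ∧ (∀ a ∈ A, ∀ b ∈ A, a * b = b * a) ∧
      ∃ a ∈ A, a ≠ 1 ∧ a ∈ closure {g, x * g * x⁻¹, y * g * y⁻¹, y * x * g * (y * x)⁻¹} := by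
  by_cases hz : g ∈ center G
  · exact ⟨center G, 1, 1, inferInstance, fun a ha b _ => (mem_center_iff.1 ha b).symm, g, hz, hg,
      subset_closure (by simp)⟩
  obtain ⟨R, ⟨hR, hgR⟩, hmin⟩ := WellFounded.has_min (wellFounded_lt (α := Subgroup G))
    {R | R.Normal ∧ g ∉ centralizer (R : Set G)}
    ⟨⊤, inferInstance, fun h => hz (mem_center_iff.2 fun x => h x (mem_top x))⟩
  set N := normalClosure ({g} : Set G) with hN
  have hgN : g ∈ N := subset_normalClosure rfl
  have key : ∀ S : Subgroup G, S.Normal → S < R → ∀ s ∈ S, ∀ x ∈ N, s * x = x * s := by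
    intro S hS hSR s hs x hx
    have h1 : g ∈ centralizer (S : Set G) := by
      by_contra h
      exact hmin S ⟨hS, h⟩ hSR
    have : N ≤ centralizer (S : Set G) := normalClosure_le_normal (by simpa using h1)
    exact this hx s hs
  obtain ⟨x, hx, hxg⟩ : ∃ x ∈ R, x * g ≠ g * x := by
    by_contra! h
    exact hgR h
  have hu : ⁅x, g⁆ ∈ ⁅R, N⁆ := commutator_mem_commutator hx hgN
  have hu1 : ⁅x, g⁆ ≠ 1 := fun h => hxg (commutatorElement_eq_one_iff_mul_comm.1 h)
  have hc : ∀ y, ⁅x, g⁆ ∈ closure {g, x * g * x⁻¹, y * g * y⁻¹, y * x * g * (y * x)⁻¹} := fun y =>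
    mul_mem (subset_closure (by simp)) (inv_mem (subset_closure (by simp)))
  rcases (commutator_le_left R N).lt_or_eq with h | h
  · exact ⟨⁅R, N⁆, x, 1, inferInstance, fun a ha b hb => key _ inferInstance h a ha b
      (commutator_le_right R N hb), _, hu, hu1, hc 1⟩
  have hRN : R ≤ N := h ▸ commutator_le_right R N
  have hlt : ⁅R, R⁆ < R := Group.IsSolvable.commutator_lt_of_ne_bot (by
    rintro rfl
    exact hxg (by rw [mem_bot.1 hx]; simp))
  by_cases h2 : ⁅x, g⁆ ∈ centralizer (R : Set G)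
  · exact ⟨R ⊓ centralizer (R : Set G), x, 1, inferInstance, fun a ha b hb => hb.2 a ha.1, _,
      ⟨h ▸ hu, h2⟩, hu1, hc 1⟩
  obtain ⟨y, hy, hyu⟩ : ∃ y ∈ R, y * ⁅x, g⁆ ≠ ⁅x, g⁆ * y := by
    by_contra! h
    exact h2 h
  refine ⟨⁅R, R⁆, x, y, inferInstance, fun a ha b hb => key _ inferInstance hlt a ha b
    (hRN (hlt.le hb)), ⁅y, ⁅x, g⁆⁆, commutator_mem_commutator hy (h ▸ hu),
    fun h => hyu (commutatorElement_eq_one_iff_mul_comm.1 h), ?_⟩
  have : ⁅y, ⁅x, g⁆⁆ = y * x * g * (y * x)⁻¹ * (y * g * y⁻¹)⁻¹ * ⁅x, g⁆⁻¹ := by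
    simp only [commutatorElement_def]; group
  rw [this]
  exact mul_mem (mul_mem (subset_closure (by simp)) (inv_mem (subset_closure (by simp))))
    (inv_mem (hc y))

theorem dim_inf {F V : Type*} [Field F] [AddCommGroup V] [Module F V] [Module.Finite F V]
    (A B : Submodule F V) : Module.finrank F A + Module.finrank F B ≤
      Module.finrank F V + Module.finrank F (A ⊓ B : Submodule F V) := by
  have := Submodule.finrank_sup_add_finrank_inf_eq A B
  have := Submodule.finrank_le (A ⊔ B)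
  omega

open Matrix Cfsg.Geo H27.Asch in

/-- Fixed-point spaces in primitive soluble linear groups. Let F be a finite field and G a soluble subgroup of GL_n(F) that acts irreducibly on F^n and primitively (G preserves no decomposition of F^n into two or more independent subspaces of equal dimension). Then every non-identity element g of G has fixed-point space {v : g v = v} of dimension at most 3n/4. -/
theorem result {F : Type*} [Field F] [Fintype F] {n : ℕ} (G : Subgroup (Matrix.GeneralLinearGroup (Fin n) F)) (hsol : IsSolvable G) (hirr : Cfsg.Geo.ActsIrreducibly (Cfsg.Geo.matrixSet G)) (hprim : ∀ (m t : ℕ) (D : Fin t → Submodule F (Fin n → F)), 2 ≤ t → Cfsg.Geo.IsMDecomposition m D → ¬ G ≤ Cfsg.Geo.decompositionStabilizer D) (g : Matrix.GeneralLinearGroup (Fin n) F) (hg : g ∈ G) (hg1 : g ≠ 1) :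
    4 * Module.finrank F (Module.End.eigenspace (Matrix.toLin' (g : Matrix (Fin n) (Fin n) F)) 1) ≤ 3 * n := by
  haveI : Nonempty (Fin n) := by
    rcases n with _ | n
    · exact absurd (Subsingleton.elim _ _) hg1
    · infer_instance
  have hI : Irr G := fun W hW => hirr W (by
    rintro _ ⟨s, hs, rfl⟩ _ ⟨w, hw, rfl⟩
    exact hW s hs w hw)
  haveI : Group.IsSolvable G := hsol
  obtain ⟨A, x, y, hA, hc, a, ha, ha1, hcl⟩ := grp (g := (⟨g, hg⟩ : G))
    (fun h => hg1 (congrArg Subtype.val h))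
  have hK : Inv G (alg (A.map G.subtype)) := inv_alg (by
    rintro h hh _ ⟨b, hb, rfl⟩
    exact ⟨_, hA.conj_mem b hb ⟨h, hh⟩, rfl⟩)
  have hcomm : Comm (alg (A.map G.subtype)) := by
    have h1 : alg (A.map G.subtype) ≤ Subalgebra.centralizer F (matrixSet (A.map G.subtype)) :=
      alg_le.2 (by
        rintro _ ⟨b, hb, rfl⟩ _ ⟨_, ⟨c, hc', rfl⟩, rfl⟩
        exact congrArg (fun z : G => z.1.val) (hc c hc' b hb))
    have h2 : alg (A.map G.subtype) ≤ Subalgebra.centralizer F (alg (A.map G.subtype)) :=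
      alg_le.2 fun b hb c hc' => (h1 hc' _ ⟨b, hb, rfl⟩).symm
    exact fun b hb c hc' => h2 hc' b hb
  have hfpf : ∀ v, a.1.val *ᵥ v = v → v = 0 := by
    rcases comm_cases hI hK hcomm with ⟨e, h1, h2, h3, h4, h5⟩ | hi
    · obtain ⟨t, e', hs, -, h6⟩ := exists_iSys hI h2 h3 fun g hg =>
        atom_eq_or hcomm h1 h2 h5 (hK g hg e h1) (by rw [← map_mul, h2]) (atom_map h5 hK hg)
      obtain ⟨i, hi⟩ := h6 1 (one_mem _)
      have := hs.two_le i (by rwa [hi, cA_one])
      exact absurd hs.le_stab (hprim _ _ _ this (hs.decomp this i))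
    · intro v hv
      have hm : a.1.val - 1 ∈ alg (A.map G.subtype) := sub_mem (mem_alg ⟨a, ha, rfl⟩) (one_mem _)
      obtain ⟨b, hb, h⟩ := hi _ hm
        (fun h => ha1 (Subtype.ext (Units.ext (sub_eq_zero.1 h))))
      rw [hcomm _ hm _ hb] at h
      rw [← one_mulVec v, ← h, ← mulVec_mulVec, sub_mulVec, hv, one_mulVec, sub_self, mulVec_zero]
  set W := Module.End.eigenspace (toLin' g.val) 1 with hW
  let M : G → Submodule F (Fin n → F) := fun z => W.map (toLin' z.1.val)
  have hM : ∀ z, Module.finrank F (M z) = Module.finrank F W := fun z => finrank_map_gl z.1 W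
  have hf : ∀ z : G, ∀ v ∈ M z, (z * ⟨g, hg⟩ * z⁻¹).1.val *ᵥ v = v := by
    rintro z _ ⟨w, hw, rfl⟩
    have : g.val *ᵥ w = w := by simpa [hW, Module.End.mem_eigenspace_iff] using hw
    change (z.1 * g * z.1⁻¹).val *ᵥ (z.1.val *ᵥ w) = z.1.val *ᵥ w
    rw [← cA_coe, cA_mulVec, this]
  have h0 : M 1 ⊓ M x ⊓ (M y ⊓ M (y * x)) = ⊥ := by
    rw [eq_bot_iff]
    rintro v ⟨⟨h1, h2⟩, h3, h4⟩
    refine hfpf v ?_
    refine Subgroup.closure_induction (p := fun z _ => z.1.val *ᵥ v = v) ?_ (one_mulVec v) ?_ ?_ hcl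
    · rintro z (rfl | rfl | rfl | rfl)
      exacts [by simpa using hf 1 v h1, hf x v h2, hf y v h3, hf _ v h4]
    · intro z w _ _ hz hw
      rw [Subgroup.coe_mul, Units.val_mul, ← mulVec_mulVec, hw, hz]
    · intro z _ hz
      rw [Subgroup.coe_inv]
      conv_lhs => rw [← hz]
      exact inv_mulVec_mulVec z.1 v
  have d1 := dim_inf (M 1) (M x)
  have d2 := dim_inf (M y) (M (y * x))
  have d3 := dim_inf (M 1 ⊓ M x) (M y ⊓ M (y * x))
  rw [h0, finrank_bot] at d3
  simp only [hM, Module.finrank_fintype_fun_eq_card, Fintype.card_fin] at d1 d2 d3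
  omega

end Cfsg.Agent.S5876
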