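import Cfsg.Statements.S5877
import Cfsg.Agent.H22.Eig2

set_option autoImplicit false
open Cfsg

namespace Cfsg.Agent.S5877

open scoped commutatorElement


/-- Eigenspaces of elements normalising an absolutely irreducible extraspecial group. Let F be a finite field, r a prime, and R ≤ GL_n(F) an absolutely irreducible extraspecial r-group (an r-group whose centre equals its derived subgroup and has order r) of exponent r or 4. Let g ∈ GL_n(F) normalise the product of R with the scalar matrices, have prime order ϖ and not be scalar, and let W be the eigenspace of g for any c ∈ F (W may be the zero subspace). Then dim W ≤ 3n/4 if ϖ = 2, dim W ≤ 2n/3 if ϖ = 3, and dim W ≤ n/2 if ϖ > 3; moreover if ϖ = 3 and 3 does not divide n then dim W ≤ n/2. -/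
theorem result {F : Type*} [Field F] [Fintype F] {n r ϖ : ℕ} (R : Subgroup (Matrix.GeneralLinearGroup (Fin n) F)) (hr : r.Prime) (hR : IsPGroup r R) (hZ : Nat.card (Subgroup.center R) = r) (hext : commutator R = Subgroup.center R) (hexp : Monoid.exponent R = r ∨ Monoid.exponent R = 4) (hirr : Cfsg.Geo.ActsAbsolutelyIrreducibly (Cfsg.Geo.matrixSet R)) (g : Matrix.GeneralLinearGroup (Fin n) F) (hg : g ∈ Cfsg.Geo.subgroupNormalizer (R ⊔ Cfsg.Geo.scalars (Fin n) F)) (hϖ : ϖ.Prime) (hord : orderOf g = ϖ) (hns : g ∉ Cfsg.Geo.scalars (Fin n) F) (c : F) :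
    (ϖ = 2 → 4 * Module.finrank F (Module.End.eigenspace (Matrix.toLin' (g : Matrix (Fin n) (Fin n) F)) c) ≤ 3 * n) ∧
    (ϖ = 3 → 3 * Module.finrank F (Module.End.eigenspace (Matrix.toLin' (g : Matrix (Fin n) (Fin n) F)) c) ≤ 2 * n) ∧
    (3 < ϖ → 2 * Module.finrank F (Module.End.eigenspace (Matrix.toLin' (g : Matrix (Fin n) (Fin n) F)) c) ≤ n) ∧
    (ϖ = 3 → ¬ 3 ∣ n → 2 * Module.finrank F (Module.End.eigenspace (Matrix.toLin' (g : Matrix (Fin n) (Fin n) F)) c) ≤ n) := by
  let ρ : Matrix.GeneralLinearGroup (Fin n) F →* Module.End F (Fin n → F) :=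
    (Matrix.toLinAlgEquiv' : Matrix (Fin n) (Fin n) F ≃ₐ[F] _).toMonoidHom.comp (Units.coeHom _)
  have hρ' : ∀ x, ρ x = Matrix.toLinAlgEquiv' (x : Matrix (Fin n) (Fin n) F) := fun _ => rfl
  have hρ : Function.Injective ρ := fun x y h =>
    Units.ext (Matrix.toLinAlgEquiv'.injective ((hρ' x).symm.trans (h.trans (hρ' y))))
  have hsc : ∀ (z : Matrix.GeneralLinearGroup (Fin n) F) (s : F),
      ρ z = s • 1 ↔ (z : Matrix (Fin n) (Fin n) F) = s • 1 := fun z s => by
    rw [hρ', ← Matrix.toLinAlgEquiv'.injective.eq_iff, map_smul, map_one]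
  rcases Nat.eq_zero_or_pos n with rfl | hn
  · exact absurd (by rw [Subsingleton.elim g 1]; exact one_mem _) hns
  have : Nonempty (Fin n) := ⟨⟨0, hn⟩⟩
  have cen : ∀ z ∈ Cfsg.Geo.scalars (Fin n) F, ∀ x, x * z = z * x := fun z hz x => by
    obtain ⟨s, h⟩ := (Cfsg.Geo.mem_scalars_iff z).1 hz
    exact Units.ext (by simp [h])
  have : (Cfsg.Geo.scalars (Fin n) F).Normal := ⟨fun z hz x => by
    rwa [cen z hz x, mul_inv_cancel_right]⟩
  have hs : ∀ z : Matrix.GeneralLinearGroup (Fin n) F, (∀ x ∈ R, z * x = x * z) →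
      ∃ s : F, ρ z = s • 1 := fun z hz => by
    obtain ⟨s, h⟩ := hirr.2 z (by
      rintro _ ⟨x, hx, rfl⟩
      exact congrArg Units.val (hz x hx))
    exact ⟨s, (hsc z s).2 h⟩
  change (ϖ = 2 → 4 * Module.finrank F (Module.End.eigenspace (ρ g) c) ≤ 3 * n) ∧
    (ϖ = 3 → 3 * Module.finrank F (Module.End.eigenspace (ρ g) c) ≤ 2 * n) ∧
    (3 < ϖ → 2 * Module.finrank F (Module.End.eigenspace (ρ g) c) ≤ n) ∧
    (ϖ = 3 → ¬ 3 ∣ n → 2 * Module.finrank F (Module.End.eigenspace (ρ g) c) ≤ n)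
  by_cases hd : 2 * Module.finrank F (Module.End.eigenspace (ρ g) c) ≤ n
  · exact ⟨fun _ => by omega, fun _ => by omega, fun _ => hd, fun _ _ => hd⟩
  have hV : Module.finrank F (Fin n → F) = n := by simp
  have := H22.Eig.main ρ hρ (R ⊔ Cfsg.Geo.scalars (Fin n) F) hr hϖ (fun x hx y hy => by
      obtain ⟨a, ha, z, hz, rfl⟩ := Subgroup.mem_sup_of_normal_right.1 hx
      obtain ⟨b, hb, w, hw, rfl⟩ := Subgroup.mem_sup_of_normal_right.1 hy
      have e : ⁅a * z, b * w⁆ = ⁅a, b⁆ := by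
        simp only [commutatorElement_def, mul_inv_rev]
        calc _ = a * (z * (b * w) * z⁻¹) * (a⁻¹ * w⁻¹) * b⁻¹ := by group
          _ = _ := by rw [← cen z hz, cen _ (inv_mem hw) a⁻¹]; group
      have h1 : ⁅(⟨a, ha⟩ : R), (⟨b, hb⟩ : R)⁆ ∈ Subgroup.center R :=
        hext ▸ Subgroup.commutator_mem_commutator (Subgroup.mem_top _) (Subgroup.mem_top _)
      obtain ⟨s, h2⟩ := hs ⁅a, b⁆ (fun u hu =>
        congrArg Subtype.val (Subgroup.mem_center_iff.1 h1 ⟨u, hu⟩).symm)
      have h3 : ⁅a, b⁆ ^ r = 1 := by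
        have := pow_card_eq_one' (x := (⟨_, h1⟩ : Subgroup.center R))
        rw [hZ] at this
        exact congrArg (fun u : Subgroup.center R => ((u : R) : Matrix.GeneralLinearGroup (Fin n) F)) this
      refine ⟨s, ?_, e ▸ h2⟩
      have h4 := congrArg ρ h3
      rw [map_pow, h2, smul_pow, one_pow, map_one] at h4
      exact smul_left_injective F one_ne_zero (h4.trans (one_smul F _).symm))
    (fun z hz => hs z fun x hx => hz x (Subgroup.mem_sup_left hx)) hg (hord ▸ pow_orderOf_eq_one g)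
    (fun ⟨s, h⟩ => hns ((Cfsg.Geo.mem_scalars_iff g).2 ⟨Units.mk0 s (fun e => by
      rw [hsc, e, zero_smul] at h; exact g.ne_zero h), (hsc g s).1 h⟩)) c (by omega)
  rw [hV] at this
  obtain ⟨h1, h2, h3⟩ := this
  have := hr.two_le
  refine ⟨fun _ => by nlinarith, fun h => ?_, fun h => by omega, fun h h4 => ?_⟩
  · obtain rfl : r = 3 := by omega
    omega
  · obtain rfl : r = 3 := by omega
    exact absurd h2 h4

end Cfsg.Agent.S5877
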