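import Cfsg.Statements.S5938
import Cfsg.Agent.H27.PSL2Max
-- import your own Cfsg.Agent.* helpers here

set_option autoImplicit false
open Cfsg

namespace Cfsg.Agent.S5938


/-- Let p be a prime with p ≡ ±1 (mod 8) and F a field with p elements. Then PSL_2(F) has a maximal subgroup isomorphic to the symmetric group S_4. -/
theorem result {F : Type*} [Field F] [Fintype F] (p : ℕ) [Fact p.Prime] (hF : Fintype.card F = p) (hp : p % 8 = 1 ∨ p % 8 = 7) : ∃ H : Subgroup (Matrix.ProjectiveSpecialLinearGroup (Fin 2) F), IsCoatom H ∧ Nonempty (H ≃* Equiv.Perm (Fin 4)) := by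
  have h1 := (Fact.out : p.Prime).one_lt
  subst hF
  have h2 : (2 : F) ≠ 0 := H27.two_ne_zero_iff_odd.2 (by rw [Nat.odd_iff]; omega)
  obtain ⟨ψ, hψ, -⟩ := H27.exists_S4 h2
  have e : Nonempty (ψ.range ≃* Equiv.Perm (Fin 4)) := ⟨(MonoidHom.ofInjective hψ).symm⟩
  exact H27.exists_coatom_of_maxIn (H27.maxIn_S4 Fact.out (by omega)
    ((H27.S4_le_pglOf h2 ⊤ e).2.2 (by rw [FiniteField.isSquare_two_iff]; omega)) e) e

end Cfsg.Agent.S5938
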