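import Cfsg.Statements.S5941
import Cfsg.Agent.H27.PSL2Max
-- import your own Cfsg.Agent.* helpers here

set_option autoImplicit false
open Cfsg

namespace Cfsg.Agent.S5941


/-- Let K and F be finite fields of odd characteristic with #F = (#K)². Then PSL_2(F) has a maximal subgroup isomorphic to PGL_2(K). -/
theorem result {F K : Type*} [Field F] [Fintype F] [Field K] [Fintype K] (q : ℕ) (hK : Fintype.card K = q) (hF : Fintype.card F = q ^ 2) (hq : Odd q) : ∃ H : Subgroup (Matrix.ProjectiveSpecialLinearGroup (Fin 2) F), IsCoatom H ∧ Nonempty (H ≃* Matrix.ProjGenLinGroup (Fin 2) K) := by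
  subst hK
  have hc : Nat.card F = Nat.card K ^ 2 := by simp only [Nat.card_eq_fintype_card, hF]
  obtain ⟨F₀, ⟨e⟩⟩ := H27.exists_subfield_equiv hc
  have hK0 : Nat.card K = Nat.card F₀ := Nat.card_congr e.toEquiv
  rw [hK0] at hc
  rw [← Nat.card_eq_fintype_card, hK0] at hq
  have h2 := H27.two_le_card_subfield F₀
  refine H27.exists_coatom_of_maxIn (H27.maxIn_pglOf Nat.prime_two (by
    rw [Nat.odd_iff] at hq; omega) hc
    ((H27.pglOf_le_PS_iff hc ((H27.odd_card_subfield F₀).1 hq)).2 even_two))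
    ⟨(H27.pglOfEquiv F₀).symm.trans (H11.pglCongr (Equiv.refl _) e.symm)⟩

end Cfsg.Agent.S5941
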