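import Cfsg.Statements.S5942
import Cfsg.Agent.H27.PSL2Max
-- import your own Cfsg.Agent.* helpers here

set_option autoImplicit false
open Cfsg

namespace Cfsg.Agent.S5942


/-- Let K and F be finite fields of odd characteristic with #F = (#K)^r for an odd prime r. Then PSL_2(F) has a maximal subgroup isomorphic to PSL_2(K). -/
theorem result {F K : Type*} [Field F] [Fintype F] [Field K] [Fintype K] (q r : ℕ) (hK : Fintype.card K = q) (hF : Fintype.card F = q ^ r) (hq : Odd q) (hr : r.Prime) (hr2 : r ≠ 2) : ∃ H : Subgroup (Matrix.ProjectiveSpecialLinearGroup (Fin 2) F), IsCoatom H ∧ Nonempty (H ≃* Matrix.ProjectiveSpecialLinearGroup (Fin 2) K) := by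
  subst hK
  have hc : Nat.card F = Nat.card K ^ r := by simp only [Nat.card_eq_fintype_card, hF]
  obtain ⟨F₀, ⟨e⟩⟩ := H27.exists_subfield_equiv hc
  have hK0 : Nat.card K = Nat.card F₀ := Nat.card_congr e.toEquiv
  rw [hK0] at hc
  rw [← Nat.card_eq_fintype_card, hK0] at hq
  exact H27.exists_coatom_of_maxIn (H27.maxIn_pslOf hr (hr.odd_of_ne_two hr2)
    ((H27.odd_card_subfield F₀).1 hq) hc)
    ⟨(H27.pslOfEquiv F₀).symm.trans (H11.pslCongr (Equiv.refl _) e.symm)⟩

end Cfsg.Agent.S5942
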