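import Cfsg.Statements.S5943
import Cfsg.Agent.H27.PSL2Max
-- import your own Cfsg.Agent.* helpers here

set_option autoImplicit false
open Cfsg

namespace Cfsg.Agent.S5943


/-- Let K and F be finite fields of characteristic 2 with #K = q > 2 and #F = q^r for a prime r. Then PSL_2(F) has a maximal subgroup isomorphic to PSL_2(K) (which equals PGL_2(K) in characteristic 2). -/
theorem result {F K : Type*} [Field F] [Fintype F] [Field K] [Fintype K] (q r : ℕ) (hK : Fintype.card K = q) (hF : Fintype.card F = q ^ r) (hq : Even q) (hq2 : q ≠ 2) (hr : r.Prime) : ∃ H : Subgroup (Matrix.ProjectiveSpecialLinearGroup (Fin 2) F), IsCoatom H ∧ Nonempty (H ≃* Matrix.ProjectiveSpecialLinearGroup (Fin 2) K) := by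
  subst hK
  have hc : Nat.card F = Nat.card K ^ r := by simp only [Nat.card_eq_fintype_card, hF]
  obtain ⟨F₀, ⟨e⟩⟩ := H27.exists_subfield_equiv hc
  have hK0 : Nat.card K = Nat.card F₀ := Nat.card_congr e.toEquiv
  rw [hK0] at hc
  rw [← Nat.card_eq_fintype_card, hK0] at hq hq2
  have h2 := H27.two_le_card_subfield F₀
  have he : Even (Fintype.card F) := by
    rw [← Nat.card_eq_fintype_card, ← Nat.not_odd_iff_even, ← H27.odd_card_subfield F₀,
      Nat.not_odd_iff_even]
    exact hq
  have h3 : H27.pslOf F₀ = H27.pglOf F₀ := by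
    refine Subgroup.eq_of_le_of_card_ge (H27.pslOf_le_pglOf F₀) ?_
    rw [H27.card_pglOf, ← H27.card_pslOf, H27.gcd_two_of_even hq Nat.card_pos, one_mul]
  exact H27.exists_coatom_of_maxIn (h3 ▸ H27.maxIn_pglOf hr (by omega) hc
    (by rw [H27.PS_eq_top he]; exact le_top))
    ⟨(H27.pslOfEquiv F₀).symm.trans (H11.pslCongr (Equiv.refl _) e.symm)⟩

end Cfsg.Agent.S5943
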