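import Cfsg.Statements.S5952
-- import your own Cfsg.Agent.* helpers here

set_option autoImplicit false
set_option maxHeartbeats 400000
open Cfsg

namespace Cfsg.Agent.S5952

/-- Which dimensions of invariant subspaces a semisimple linear map has. Let `V` be a finite-dimensional vector space over a field `F` and `f` an invertible semisimple linear map of `V`. Suppose `V` is the internal direct sum of the fixed space `C_V(f)` (the eigenspace for 1) and subspaces `U_1, …, U_s`, each `f`-invariant of dimension `a ≥ 1` on which `f` acts irreducibly (no `f`-invariant subspaces other than 0 and `U_j`). Let `0 < m < dim V` and `ℓ = m mod a`. Then `f` leaves some `m`-dimensional subspace invariant if and only if `dim C_V(f) ≥ m`, or `a ≤ m` and `dim C_V(f) ≥ ℓ`. -/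
theorem result {F V : Type*} [Field F] [AddCommGroup V] [Module F V]
    [FiniteDimensional F V] (f : V →ₗ[F] V) (hf : Function.Bijective f) (hss : Module.End.IsSemisimple f)
    {s a : ℕ} (ha : 1 ≤ a) (U : Fin s → Submodule F V)
    (hUinv : ∀ j, (U j).map f ≤ U j) (hUdim : ∀ j, Module.finrank F ↥(U j) = a)
    (hUirr : ∀ j, ∀ W : Submodule F V, W ≤ U j → W.map f ≤ W → W = ⊥ ∨ W = U j)
    (hdec : DirectSum.IsInternal (fun o : Option (Fin s) => o.elim (Module.End.eigenspace f 1) U))
    (m : ℕ) (hm : 0 < m) (hmV : m < Module.finrank F V) :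
    (∃ W : Submodule F V, Module.finrank F ↥W = m ∧ W.map f ≤ W) ↔
    (m ≤ Module.finrank F ↥(Module.End.eigenspace f 1) ∨
      (a ≤ m ∧ m % a ≤ Module.finrank F ↥(Module.End.eigenspace f 1))) := by
  classical
  set C := Module.End.eigenspace f 1
  have hC : ∀ x, x ∈ C ↔ f x = x := fun x => by simp [C]
  have h1 : Module.finrank F V = Module.finrank F C + s * a := by
    rw [← (LinearEquiv.ofBijective (DirectSum.coeLinearMap _) hdec).finrank_eq,
      Module.finrank_directSum, Fintype.sum_option]
    change Module.finrank F C + ∑ i, Module.finrank F (U i) = _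
    simp [hUdim]
  have hind := hdec.submodule_iSupIndep
  have sub : ∀ k ≤ Module.finrank F C, ∀ l ≤ s, ∃ W : Submodule F V,
      Module.finrank F W = k + l * a ∧ W.map f ≤ W := fun k hk l hl => by
    obtain ⟨W, a1, a2⟩ : ∃ W ≤ C, Module.finrank F W = k := by
      obtain ⟨b, hb⟩ := exists_linearIndependent_of_le_finrank hk
      exact ⟨_, Submodule.map_subtype_le C (Submodule.span F (Set.range b)), by
        rw [Submodule.finrank_map_subtype_eq, finrank_span_eq_card hb, Fintype.card_fin]⟩
    obtain ⟨t, -, ht⟩ := Finset.exists_subset_card_eq (s := (Finset.univ : Finset (Fin s))) (n := l)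
      (by simpa)
    have key : ∀ t : Finset (Fin s), Module.finrank F ↥(W ⊔ ⨆ j ∈ t, U j) = k + t.card * a := by
      intro t
      induction t using Finset.induction_on with
      | empty => rw [show (W ⊔ ⨆ j ∈ (∅ : Finset (Fin s)), U j) = W by simp, a2]; simp
      | insert j t hj ih =>
        have := Submodule.finrank_sup_add_finrank_inf_eq (U j) (W ⊔ ⨆ j ∈ t, U j)
        have hd : Disjoint (U j) (W ⊔ ⨆ j ∈ t, U j) := (hind (some j)).mono_right (sup_le
          (a1.trans (le_iSup₂_of_le none (by simp) le_rfl))
          (iSup₂_le fun i hi => le_iSup₂_of_le (some i) (by rintro ⟨⟩; exact hj hi) le_rfl))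
        rw [hd.eq_bot, finrank_bot, ih, hUdim] at this
        rw [Finset.iSup_insert, sup_left_comm, Finset.card_insert_of_notMem hj]
        linarith
    refine ⟨_, ht ▸ key t, ?_⟩
    rw [Submodule.map_sup, Submodule.map_iSup]
    refine sup_le_sup ?_ (iSup_mono fun j => by rw [Submodule.map_iSup]; exact iSup_mono fun _ => hUinv j)
    rintro _ ⟨x, hx, rfl⟩
    rwa [(hC x).1 (a1 hx)]
  constructor
  · rintro ⟨W, rfl, hW⟩
    have hCi : C.map f ≤ C := by
      rintro _ ⟨x, hx, rfl⟩
      rwa [(hC x).1 hx]
    have key : ∀ t : Finset (Fin s), ∃ l ≤ t.card, Module.finrank F ↥(W ⊔ C ⊔ ⨆ j ∈ t, U j) =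
        Module.finrank F ↥(W ⊔ C) + l * a := by
      intro t
      induction t using Finset.induction_on with
      | empty => exact ⟨0, le_rfl, by
          rw [show (W ⊔ C ⊔ ⨆ j ∈ (∅ : Finset (Fin s)), U j) = W ⊔ C by simp]; simp⟩
      | insert j t hj ih =>
        obtain ⟨l, a1, a2⟩ := ih
        have := Submodule.finrank_sup_add_finrank_inf_eq (U j) (W ⊔ C ⊔ ⨆ j ∈ t, U j)
        rw [Finset.iSup_insert, sup_left_comm, Finset.card_insert_of_notMem hj]
        rcases hUirr j (U j ⊓ (W ⊔ C ⊔ ⨆ j ∈ t, U j)) inf_le_left ((Submodule.map_inf_le _).trans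
          (inf_le_inf (hUinv j) (by
            rw [Submodule.map_sup, Submodule.map_sup, Submodule.map_iSup]
            exact sup_le_sup (sup_le_sup hW hCi) (iSup_mono fun j => by
              rw [Submodule.map_iSup]; exact iSup_mono fun _ => hUinv j)))) with e | e
        · rw [e, finrank_bot, hUdim] at this
          exact ⟨l + 1, by omega, by linarith⟩
        · rw [e] at this
          exact ⟨l, by omega, by omega⟩
    obtain ⟨l, a1, a2⟩ := key Finset.univ
    have a3 : W ⊔ C ⊔ ⨆ j ∈ (Finset.univ : Finset (Fin s)), U j = ⊤ :=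
      eq_top_iff.2 (hdec.submodule_iSup_eq_top.ge.trans (iSup_le fun o => by
        cases o with
        | none => exact le_sup_right.trans le_sup_left
        | some j => exact le_sup_of_le_right (le_iSup₂_of_le j (Finset.mem_univ j) le_rfl)))
    have a4 := Submodule.finrank_sup_add_finrank_inf_eq W C
    have a5 : Module.finrank F ↥(W ⊓ C) ≤ Module.finrank F C := Submodule.finrank_mono inf_le_right
    rw [a3, finrank_top, h1] at a2
    obtain ⟨d, rfl⟩ := Nat.exists_eq_add_of_le (show l ≤ s by simpa using a1)
    have a6 : Module.finrank F W = Module.finrank F ↥(W ⊓ C) + d * a := by linarith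
    rcases d with _ | d
    · exact Or.inl (by omega)
    · exact Or.inr ⟨by nlinarith, by
        rw [a6, Nat.add_mul_mod_self_right]; exact (Nat.mod_le _ _).trans a5⟩
  · rintro (h | ⟨h, h'⟩)
    · simpa using sub m h 0 s.zero_le
    · by_cases hs : m / a ≤ s
      · simpa [Nat.mod_add_div'] using sub _ h' _ hs
      · have : s * a ≤ m := (Nat.le_div_iff_mul_le ha).1 (by omega)
        simpa [Nat.sub_add_cancel this] using sub (m - s * a) (by omega) s le_rfl

end Cfsg.Agent.S5952
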