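import Cfsg.Statements.S5953
import Cfsg.Agent.H22.EL10

set_option autoImplicit false
open scoped MatrixGroups
open Cfsg

namespace Cfsg.Agent.S5953

/-- Elements of prime order of PSU_n(q) with no fixed totally isotropic `m`-space. Here `T = PSU_n(q)` (`n ≥ 3`, `(n, q) ≠ (3, 2)`), realised through the matrices of determinant 1 over the field `F` with `q²` elements preserving the Hermitian form `h(u, v) = Σ u_i v_i^q`; an element of `T` of prime order `r` is such a matrix `x` with `x^r` scalar and `x` not scalar. For `r ≠ p` let `i` be the multiplicative order of `q` modulo `r`, `b = i/2` for `i` even and `b = i` for `i` odd, `c = i, i/2, 2i` according as `i ≡ 0, 2 (mod 4)` or `i` odd, and write `k = n mod c`, `ℓ = m mod b`, `ℓ' = m mod c`, `n' = ⌊n/b⌋`, `m' = ⌊m/b⌋`, `s = (r−1)/b`; `(a)_r` is the `r`-part of `a`. Let `1 ≤ m ≤ n/2` and let `r` be a prime dividing the number of totally isotropic `m`-spaces. Then every element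 of `T` of order `r` fixes a totally isotropic `m`-space if and only if either (i) `r = 2`, `p ≠ 2`, and (`m < n/2` or `(q+1)_2 ≤ (n)_2`); or (ii) `r ≠ p`, `r > 2`, `b ≤ m`, `k ≥ 2ℓ`, and either `i ≢ 2 (mod 4)`, or `i ≡ 2 (mod 4)`, `n' − 2m' ≥ s` and (`i > 2`, or `i = 2` and (`r ∣ m` or `(q+1)_r ≥ (n)_r`)). -/
theorem result {F : Type*} [Field F] [Fintype F] {p : ℕ} [Fact p.Prime] [CharP F p] {q : ℕ} (hq : Fintype.card F = q ^ 2)
    (n m : ℕ) (hn : 3 ≤ n) (hT : (n, q) ≠ (3, 2)) (hm : 1 ≤ m) (hmn : 2 * m ≤ n)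
    (r : ℕ) [Fact r.Prime]
    (hrΩ : r ∣ Nat.card {W : Submodule F (Fin n → F) // Module.finrank F ↥W = m ∧ (∀ u ∈ W, ∀ v ∈ W, Cfsg.hermForm n F q u v = 0)})
    (i b c : ℕ) (hi : i = orderOf (q : ZMod r)) (hb : b = if Even i then i / 2 else i)
    (hc : c = if i % 4 = 0 then i else if i % 4 = 2 then i / 2 else 2 * i) :
    (∀ x : Matrix.SpecialLinearGroup (Fin n) F, x ∈ Cfsg.SU n F q →
      (∃ z : F, ((x ^ r : Matrix.SpecialLinearGroup (Fin n) F) : Matrix (Fin n) (Fin n) F) = z • (1 : Matrix (Fin n) (Fin n) F)) →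
      (∀ z : F, (x : Matrix (Fin n) (Fin n) F) ≠ z • (1 : Matrix (Fin n) (Fin n) F)) →
      ∃ W : Submodule F (Fin n → F), Module.finrank F ↥W = m ∧ (∀ u ∈ W, ∀ v ∈ W, Cfsg.hermForm n F q u v = 0) ∧
        W.map (Matrix.toLin' (x : Matrix (Fin n) (Fin n) F)) ≤ W) ↔
    ((r = 2 ∧ p ≠ 2 ∧ (2 * m < n ∨ padicValNat 2 (q + 1) ≤ padicValNat 2 n)) ∨
     (r ≠ p ∧ 2 < r ∧ b ≤ m ∧ 2 * (m % b) ≤ n % c ∧
       (i % 4 ≠ 2 ∨ (i % 4 = 2 ∧ (r - 1) / b + 2 * (m / b) ≤ n / b ∧
         (2 < i ∨ (i = 2 ∧ (r ∣ m ∨ padicValNat r n ≤ padicValNat r (q + 1)))))))) := by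
  have hr : r.Prime := Fact.out
  have hC := H11.hermC_nondeg (ι := Fin n) hq
  have hd' : Module.finrank F (Fin n → F) = n := by simp
  have := Fin.nontrivial_iff_two_le.2 (show 2 ≤ n by omega)
  have hq2 : p ≠ 2 → 2 ∣ q + 1 := fun h => by
    have := H22.odd_card_iff' (F := F).2 h
    rw [hq, Nat.odd_pow_iff two_ne_zero] at this; grind
  have hΩ : ∀ X : Submodule F (Fin n → F), (Module.finrank F X = m ∧ ∀ u ∈ X, ∀ v ∈ X, Cfsg.hermForm n F q u v = 0) ↔
      Module.finrank F X = m ∧ (H11.hermC (Fin n) hq).TS X := fun X => and_congr_right fun _ =>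
    ⟨fun h => ⟨fun x hx => h x hx x hx, fun x hx y hy => h y hy x hx⟩, fun h x hx y hy => h.2 y hy x hx⟩
  obtain ⟨a, ha⟩ : ∃ a, H11.frob hq a ≠ a := by
    by_contra! h
    exact H11.frob_ne_id hq (RingHom.ext h)
  have h1 : r ≠ p := H22.ts_ne_char hC (H12.hermT_hasTS hq m hC (by omega))
    (.inl ⟨H11.frob hq a - a, sub_ne_zero.2 ha, by
      change (H11.frob hq a - a) + H11.frob hq _ = 0
      rw [map_sub, H11.frob_frob]; ring⟩) hΩ hrΩ
  simp only [← and_assoc]
  rw [H22.el_su hq]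
  simp only [and_assoc]
  have h0 := H22.cast_ne_char (F := F) hr h1
  by_cases h2 : r = 2
  · subst h2
    rw [H22.ts_su_two hq (by omega) hmn hΩ (hq2 h1.symm)]
    simp [h1.symm]
  · have : 2 < r := by have := hr.two_le; omega
    have h3 := H22.ts_gu h0 h2 hi hb hc hC hd' hmn hΩ hrΩ
    have h4 := hi ▸ H22.ord_two_iff (q := q) h2
    by_cases hd : r ∣ q + 1
    · have h5 := h4.2 hd
      rw [H22.ts_su_odd hq (by omega) hmn hΩ h2 hd hm fun h => h3.2 (by simpa [hb, hc, h5, hm, Nat.mod_one]),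
        H25.El.nlc_iff (by simp) hd (by omega)]
      simp [h1, h2, this, h5, hb, hc, hm, Nat.mod_one]
    · rw [H22.el_su_gu hd hC, h3]
      have := h4.not.2 hd
      simp only [h1, h2, false_and, false_or, ne_eq, not_false_iff, true_and, ‹2 < r›]
      grind

end Cfsg.Agent.S5953
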