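import Cfsg.Statements.S5954
import Cfsg.Agent.H22.EL10

set_option autoImplicit false
open scoped MatrixGroups
open Cfsg

namespace Cfsg.Agent.S5954

/-- Elements of prime order of PSU_n(q) with no fixed nondegenerate `m`-space. Here `T = PSU_n(q)` (`n ≥ 3`, `(n, q) ≠ (3, 2)`), realised through the matrices of determinant 1 over the field `F` with `q²` elements preserving the Hermitian form `h(u, v) = Σ u_i v_i^q`; an element of `T` of prime order `r` is such a matrix `x` with `x^r` scalar and `x` not scalar. For `r ≠ p` let `i` be the multiplicative order of `q` modulo `r`, `b = i/2` for `i` even and `b = i` for `i` odd, `c = i, i/2, 2i` according as `i ≡ 0, 2 (mod 4)` or `i` odd, and write `k = n mod c`, `ℓ = m mod b`, `ℓ' = m mod c`, `n' = ⌊n/b⌋`, `m' = ⌊m/b⌋`, `s = (r−1)/b`; `(a)_r` is the `r`-part of `a`. Let `1 ≤ m < n/2` and let `r` be a prime dividing the number of nondegenerate `m`-spaces. Then every element of `T` of order `r`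 fixes a nondegenerate `m`-space if and only if one of: (i) `r = p > 2` and every partition of `n` into parts of size at most `p` contains (as a sub-multiset) a partition of `m`; (ii) `r = p = 2` and (`n` is odd or `m` is even); (iii) `r = 2 ≠ p` and (`n` is odd, or `m` is even, or `(q+1)_2 ≥ (n)_2` and `q ≡ 3 (mod 4)`); (iv) `r ≠ p`, `r > 2`, and either `i ≠ 2`, `c ≤ m` and `k ≥ ℓ'`, or `i = 2` and (`r ∣ m` or `(q+1)_r ≥ (n)_r`). -/
theorem result {F : Type*} [Field F] [Fintype F] {p : ℕ} [Fact p.Prime] [CharP F p] {q : ℕ} (hq : Fintype.card F = q ^ 2)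
    (n m : ℕ) (hn : 3 ≤ n) (hT : (n, q) ≠ (3, 2)) (hm : 1 ≤ m) (hmn : 2 * m < n)
    (r : ℕ) [Fact r.Prime]
    (hrΩ : r ∣ Nat.card {W : Submodule F (Fin n → F) // Module.finrank F ↥W = m ∧ (∀ u ∈ W, u ≠ 0 → ∃ v ∈ W, Cfsg.hermForm n F q u v ≠ 0)})
    (i b c : ℕ) (hi : i = orderOf (q : ZMod r)) (hb : b = if Even i then i / 2 else i)
    (hc : c = if i % 4 = 0 then i else if i % 4 = 2 then i / 2 else 2 * i) :
    (∀ x : Matrix.SpecialLinearGroup (Fin n) F, x ∈ Cfsg.SU n F q →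
      (∃ z : F, ((x ^ r : Matrix.SpecialLinearGroup (Fin n) F) : Matrix (Fin n) (Fin n) F) = z • (1 : Matrix (Fin n) (Fin n) F)) →
      (∀ z : F, (x : Matrix (Fin n) (Fin n) F) ≠ z • (1 : Matrix (Fin n) (Fin n) F)) →
      ∃ W : Submodule F (Fin n → F), Module.finrank F ↥W = m ∧ (∀ u ∈ W, u ≠ 0 → ∃ v ∈ W, Cfsg.hermForm n F q u v ≠ 0) ∧
        W.map (Matrix.toLin' (x : Matrix (Fin n) (Fin n) F)) ≤ W) ↔
    ((r = p ∧ 2 < p ∧ (∀ μ : Multiset ℕ, (∀ a ∈ μ, 0 < a ∧ a ≤ p) → μ.sum = n → ∃ ν : Multiset ℕ, ν ≤ μ ∧ ν.sum = m)) ∨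
     (r = p ∧ p = 2 ∧ (Odd n ∨ Even m)) ∨
     (r = 2 ∧ p ≠ 2 ∧ (Odd n ∨ Even m ∨ (padicValNat 2 n ≤ padicValNat 2 (q + 1) ∧ q % 4 = 3))) ∨
     (r ≠ p ∧ 2 < r ∧ ((i ≠ 2 ∧ c ≤ m ∧ m % c ≤ n % c) ∨ (i = 2 ∧ (r ∣ m ∨ padicValNat r n ≤ padicValNat r (q + 1)))))) := by
  have hr : r.Prime := Fact.out
  have hC := H11.hermC_nondeg (ι := Fin n) hq
  have hd' : Module.finrank F (Fin n → F) = n := by simp
  have := Fin.nontrivial_iff_two_le.2 (show 2 ≤ n by omega)
  have hq2 : p ≠ 2 → 2 ∣ q + 1 := fun h => by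
    have := H22.odd_card_iff' (F := F).2 h
    rw [hq, Nat.odd_pow_iff two_ne_zero] at this; grind
  obtain ⟨W₀, -, hW, hW'⟩ := H22.exists_sub_herm hC ((H12.CForm.nondegOn_top _).2 hC) (k := m) (by simp; omega)
  have hΩ' : ∀ X : Submodule F (Fin n → F), (Module.finrank F X = m ∧ ∀ u ∈ X, u ≠ 0 → ∃ v ∈ X,
      Cfsg.hermForm n F q u v ≠ 0) ↔ (H11.hermC (Fin n) hq).NondegOn X ∧ Module.finrank F X = Module.finrank F W₀ := fun X => by
    rw [and_comm, hW', ← H22.nd_iff_ex]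
    refine and_congr_left fun _ => forall₃_congr fun u _ _ => exists_congr fun v => and_congr_right fun _ => ?_
    rw [← H11.hermC_B_eq hq, ne_eq, ne_eq, H12.CForm.B_eq_zero_comm]
  have hΩ := fun X => (hΩ' X).trans (H22.herm_nd_iff hW X)
  simp only [← and_assoc]
  rw [H22.el_su hq]
  simp only [and_assoc]
  by_cases h1 : r = p
  · subst h1
    rw [H22.unip_su r hC hW hΩ', hd', hW']
    by_cases h2 : r = 2
    · subst h2
      simp [H22.part_two (show m ≤ n by omega)]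
    · have := hr.two_le
      simp [h2, show 2 < r by omega]
  have h0 := H22.cast_ne_char (F := F) hr h1
  by_cases h2 : r = 2
  · subst h2
    rw [H22.nd_su (hq2 (Ne.symm h1)) hC hW hΩ (by simp), hd', hW', H25.El.nlc_iff (by simp) (hq2 (Ne.symm h1)) (by omega)]
    have : Odd n → padicValNat 2 n = 0 := fun h => padicValNat.eq_zero_of_not_dvd (by grind)
    simp only [h1, Ne.symm h1, false_and, false_or, true_and, ne_eq, not_false_iff, lt_irrefl, or_false, and_false]
    grind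
  · have : 2 < r := by have := hr.two_le; omega
    have h3 := H22.nd_gu h0 h2 hi hb hc hC hd' hW hW' hΩ hrΩ
    have h4 := hi ▸ H22.ord_two_iff (q := q) h2
    by_cases hd : r ∣ q + 1
    · have h5 := h4.2 hd
      rw [H22.nd_su hd hC hW hΩ fun _ => h3.2 (by simp [hc, h5, hm, Nat.mod_one]), hd', hW',
        H25.El.nlc_iff (by simp) hd (by omega)]
      simp [h1, h2, this, h5]
    · rw [H22.el_su_gu hd hC, h3]
      simp [h1, h2, this, h4, hd]

end Cfsg.Agent.S5954
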