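import Cfsg.Statements.S5955
import Cfsg.Agent.H25.El15

set_option autoImplicit false
open scoped MatrixGroups
open Cfsg

namespace Cfsg.Agent.S5955
open _root_.H25 Subgroup

/-- Elements of prime order of PSp_n(q) with no fixed totally isotropic `m`-space. Here `T = PSp_n(q)` with `n = 2d ≥ 4`, `(n, q) ≠ (4, 2)`, realised through the symplectic matrices over the field `F` with `q` elements (preserving the standard alternating form); an element of `T` of prime order `r` is such a matrix `x` with `x^r` scalar and `x` not scalar. For `r ≠ p` let `i` be the multiplicative order of `q` modulo `r`, `c = i` for `i` even and `c = 2i` for `i` odd, and write `k = n mod c`, `ℓ = m mod i`, `ℓ' = m mod c`, `n' = ⌊n/i⌋`, `m' = ⌊m/i⌋`, `t = (r−1)/i`. Let `1 ≤ m ≤ n/2` and let `r` be a prime dividing the number of totally isotropic `m`-spaces. Then every element of `T` of order `r` fixes a totally isotropic `m`-space if and only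 if either (i) `r = 2 ≠ p` and (`m` is even or `q ≡ 1 (mod 4)`); or (ii) `r ≠ p`, `r > 2`, `i ≤ m`, `k ≥ 2ℓ`, and (`i` is odd or `n' − 2m' ≥ t`). -/
theorem result {F : Type*} [Field F] [Fintype F] {p : ℕ} [Fact p.Prime] [CharP F p] {q : ℕ} (hq : Fintype.card F = q)
    (d m : ℕ) (hd : 2 ≤ d) (hT : (d, q) ≠ (2, 2)) (hm : 1 ≤ m) (hmd : m ≤ d)
    (r : ℕ) [Fact r.Prime]
    (hrΩ : r ∣ Nat.card {W : Submodule F (Fin d ⊕ Fin d → F) // Module.finrank F ↥W = m ∧ (∀ u ∈ W, ∀ v ∈ W, Cfsg.sympForm d F u v = 0)})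
    (i c : ℕ) (hi : i = orderOf (q : ZMod r)) (hc : c = if Even i then i else 2 * i) :
    (∀ x : ↥(Matrix.symplecticGroup (Fin d) F),
      (∃ z : F, ((x ^ r : ↥(Matrix.symplecticGroup (Fin d) F)) : Matrix (Fin d ⊕ Fin d) (Fin d ⊕ Fin d) F) = z • (1 : Matrix (Fin d ⊕ Fin d) (Fin d ⊕ Fin d) F)) →
      (∀ z : F, (x : Matrix (Fin d ⊕ Fin d) (Fin d ⊕ Fin d) F) ≠ z • (1 : Matrix (Fin d ⊕ Fin d) (Fin d ⊕ Fin d) F)) →
      ∃ W : Submodule F (Fin d ⊕ Fin d → F), Module.finrank F ↥W = m ∧ (∀ u ∈ W, ∀ v ∈ W, Cfsg.sympForm d F u v = 0) ∧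
        W.map (Matrix.toLin' (x : Matrix (Fin d ⊕ Fin d) (Fin d ⊕ Fin d) F)) ≤ W) ↔
    ((r = 2 ∧ p ≠ 2 ∧ (Even m ∨ q % 4 = 1)) ∨
     (r ≠ p ∧ 2 < r ∧ i ≤ m ∧ 2 * (m % i) ≤ (2 * d) % c ∧ (Odd i ∨ (r - 1) / i + 2 * (m / i) ≤ (2 * d) / i))) := by
  have hV : Module.finrank F (Fin d ⊕ Fin d → F) = 2 * d := by simp [two_mul]
  obtain rfl : Nat.card F = q := by rw [← hq, Nat.card_eq_fintype_card]
  have hC := H11.spForm_nondeg (ι := Fin d) (F := F)
  simp only [El.map_le_iff, ← H11.spForm_B_eq, ← El.ts_alt, ← and_assoc, and_comm (a := Module.finrank F _ = m) (b := H12.CForm.TS _ _)] at hrΩ ⊢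
  have hr : r ≠ p := by
    rintro rfl; exact El.ts_p_alt hC hm (by omega) hrΩ
  have ht := (H12.alt_hasTS' hC hV).mono hmd
  refine (El.sp_lhs (fun u => ∃ W, ((H11.spForm (Fin d) F).TS W ∧ Module.finrank F W = m) ∧ ∀ x ∈ W, u x ∈ W)).trans ?_
  by_cases h2 : r = 2
  · subst h2
    have f2 : (2 : F) ≠ 0 := by simpa using El.cast_ne (F := F) hr
    rw [El.ts_two f2 (El.nl_alt f2) (fun _ => rfl) hC hV rfl (by omega) (fun _ h => h) (t := 1)
      (fun u a α b c d => iff_of_true b (El.alt_ex.1 d.ex)) (fun u d b _ _ _ => iff_of_true b (one_pow _)) El.fi_alt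
      (fun a h => El.alt_ex.2 ⟨h, rfl⟩) ht, El.sq_neg f2]
    simp [hr.symm, or_comm, El.altCls]
  · rw [El.alt_ts (El.cast_ne hr) h2 hi hc hC hV hrΩ ht]
    simp [h2, hr, (Fact.out : r.Prime).two_le.lt_of_ne' h2, and_assoc]

end Cfsg.Agent.S5955
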