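import Cfsg.Statements.S5972
import Cfsg.Agent.H25.El15

set_option autoImplicit false
open scoped MatrixGroups
open Cfsg

namespace Cfsg.Agent.S5972
open _root_.H25 Subgroup

/-- Elements of prime order of Ω_n(q), n = 2d+1 ≥ 7, q odd, with no fixed totally singular `m`-space. Here `T = Ω_n(q)` is realised as the commutator subgroup of the isometry group of the quadratic form `x₀² + Σ xᵢyᵢ` over the field `F` with `q` elements (it has trivial centre, so its elements of prime order `r` are used directly); let `1 ≤ m ≤ d` and let `r` be a prime dividing the number of totally singular `m`-spaces. For `r ≠ p` let `i` be the multiplicative order of `q` modulo `r`, `c = i` for `i` even and `c = 2i` for `i` odd, and write `k = n mod c`, `ℓ = m mod i`, `n' = ⌊n/i⌋`, `m' = ⌊m/i⌋`, `t = (r−1)/i`. Then every element of `T` of order `r` fixes some totally singular `m`-space if and only if either (i) `r = 2` and (`m < (n−1)/2` or `q ≡ 1 (mod 4)`);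 or (ii) `r ≠ p` is odd, `i ≤ m`, `k > 2ℓ`, and (`i` is odd or `n' − 2m' ≥ t`). -/
theorem result {F : Type*} [Field F] [Fintype F] {p : ℕ} [Fact p.Prime] [CharP F p] {q : ℕ} (hq : Fintype.card F = q) (hqodd : Odd q)
    (d m : ℕ) (hd : 3 ≤ d) (hm : 1 ≤ m) (hmd : m ≤ d)
    (r : ℕ) [Fact r.Prime]
    (hrΩ : r ∣ Nat.card {W : Submodule F (Unit ⊕ (Fin d ⊕ Fin d) → F) // Module.finrank F ↥W = m ∧ (∀ w ∈ W, Cfsg.quadFormOdd d F w = 0)})
    (i c : ℕ) (hi : i = orderOf (q : ZMod r)) (hc : c = if Even i then i else 2 * i) :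
    (∀ x : GL (Unit ⊕ (Fin d ⊕ Fin d)) F, x ∈ Cfsg.Geo.omegaGL (Cfsg.quadFormOdd d F) → orderOf x = r →
      ∃ W : Submodule F (Unit ⊕ (Fin d ⊕ Fin d) → F), Module.finrank F ↥W = m ∧ (∀ w ∈ W, Cfsg.quadFormOdd d F w = 0) ∧
        W.map (Matrix.toLin' (x : Matrix (Unit ⊕ (Fin d ⊕ Fin d)) (Unit ⊕ (Fin d ⊕ Fin d)) F)) ≤ W) ↔
    ((r = 2 ∧ (m < d ∨ q % 4 = 1)) ∨
     (r ≠ p ∧ 2 < r ∧ i ≤ m ∧ 2 * (m % i) < (2 * d + 1) % c ∧ (Odd i ∨ (r - 1) / i + 2 * (m / i) ≤ (2 * d + 1) / i))) := by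
  have hV : Module.finrank F (Unit ⊕ (Fin d ⊕ Fin d) → F) = 2 * d + 1 := by simp [two_mul, add_comm]
  have f2 : (2 : F) ≠ 0 := H12.odd_card_iff.1 (hq ▸ hqodd)
  obtain rfl : Nat.card F = q := by rw [← hq, Nat.card_eq_fintype_card]
  have hQ := H11.qOdd_nondeg f2 d
  simp only [El.map_le_iff, ← H11.coe_qOdd, ← H12.ts_quad_iff, ← and_assoc, and_comm (a := Module.finrank F _ = m) (b := H12.CForm.TS _ _)] at hrΩ ⊢
  have hr : r ≠ p := by
    rintro rfl; exact El.ts_p_quad hQ hm (by omega) hrΩ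
  have ht := H12.quad_hasTS m hQ (by omega)
  refine (El.om_lhs_odd (fun u => ∃ W, ((H12.CForm.ofQuad (H11.qOdd d F)).TS W ∧ Module.finrank F W = m) ∧
    ∀ x ∈ W, u x ∈ W) f2 hQ (by simp [← two_mul])).trans ?_
  by_cases h2 : r = 2
  · subst h2
    rw [El.ts_two f2 (El.nl_quad f2) (fun _ => rfl) hQ hV rfl (by omega) (fun _ h => h.isom) (El.om_inv f2 hQ)
      (El.om_cx f2 hQ) El.fi_quad (fun a h => El.quad_ex.2 ⟨fun _ => h, fun _ => rfl⟩) ht, El.qs_neg f2, El.sg_eq_one,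
      and_iff_left (by omega)]
    omega
  · rw [El.quad_ts (El.cast_ne hr) h2 hi hc hQ (H12.notExc_of_two_ne_zero f2) hV (X := True) (by omega) hrΩ ht]
    obtain ⟨a, ha⟩ := El.c_even hc
    have := Nat.div_add_mod (2 * d + 1) c
    have : c * ((2 * d + 1) / c) = 2 * (a * ((2 * d + 1) / c)) := by rw [← mul_assoc, ← ha]
    simp only [h2, hr, (Fact.out : r.Prime).two_le.lt_of_ne' h2, Nat.odd_iff, Nat.even_iff, ne_eq, not_false_iff,
      true_and, false_and, false_or, and_true, and_false, iff_true, iff_false, not_true, or_false]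
    omega

end Cfsg.Agent.S5972
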