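import Cfsg.Statements.S5973
import Cfsg.Agent.H25.El15

set_option autoImplicit false
open scoped MatrixGroups
open Cfsg

namespace Cfsg.Agent.S5973
open _root_.H25 Subgroup

/-- Elements of prime order of PΩ⁺_n(q), n = 2d ≥ 8, with no fixed totally singular `m`-space, `m < n/2`. Here `T = PΩ⁺_n(q)` is realised through `Ω⁺_n(q)`, the commutator subgroup of the isometry group of the quadratic form `Σ xᵢyᵢ` over the field `F` with `q` elements; an element of `T` of prime order `r` is an element `x` of `Ω⁺_n(q)` with `x^r` scalar and `x` not scalar. Let `1 ≤ m < d` and let `r` be a prime dividing the number of totally singular `m`-spaces. For `r ≠ p` let `i` be the multiplicative order of `q` modulo `r`, `c = i` for `i` even and `c = 2i` for `i` odd, and write `k = n mod c`, `ℓ = m mod i`, `n' = ⌊n/i⌋`, `m' = ⌊m/i⌋`, `t = (r−1)/i`. Then every element of `T` of order `r` fixes some totally singular `m`-space if and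 only if one of: (i) `r = 2 ≠ p` and either `q ≡ 1 (mod 4)`, or `q ≡ 3 (mod 4)`, `m ≤ n/2 − 2` and (`m` even or `n ≡ 2 (mod 4)`); (ii) `r ≠ p` odd, `i` odd, `i ≤ m` and `k ≥ 2ℓ`; (iii) `r ≠ p` odd, `i` even, `i ≤ m`, `n' − 2m' ≥ t`, and one of: `i ≥ 2ℓ`, `k = 0`, `n/i` odd and `n' − 2m' > t`; or `k ≥ 2ℓ` and `n'` even; or `k > 2ℓ` and `n'` odd. -/
theorem result {F : Type*} [Field F] [Fintype F] {p : ℕ} [Fact p.Prime] [CharP F p] {q : ℕ} (hq : Fintype.card F = q)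
    (d m : ℕ) (hd : 4 ≤ d) (hm : 1 ≤ m) (hmd : m < d)
    (r : ℕ) [Fact r.Prime]
    (hrΩ : r ∣ Nat.card {W : Submodule F (Fin d ⊕ Fin d → F) // Module.finrank F ↥W = m ∧ (∀ w ∈ W, Cfsg.quadFormPlus d F w = 0)})
    (i c : ℕ) (hi : i = orderOf (q : ZMod r)) (hc : c = if Even i then i else 2 * i) :
    (∀ x : GL (Fin d ⊕ Fin d) F, x ∈ Cfsg.Geo.omegaGL (Cfsg.quadFormPlus d F) →
      (∃ z : F, ((x ^ r : GL (Fin d ⊕ Fin d) F) : Matrix (Fin d ⊕ Fin d) (Fin d ⊕ Fin d) F) = z • (1 : Matrix (Fin d ⊕ Fin d) (Fin d ⊕ Fin d) F)) →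
      (∀ z : F, (x : Matrix (Fin d ⊕ Fin d) (Fin d ⊕ Fin d) F) ≠ z • (1 : Matrix (Fin d ⊕ Fin d) (Fin d ⊕ Fin d) F)) →
      ∃ W : Submodule F (Fin d ⊕ Fin d → F), Module.finrank F ↥W = m ∧ (∀ w ∈ W, Cfsg.quadFormPlus d F w = 0) ∧
        W.map (Matrix.toLin' (x : Matrix (Fin d ⊕ Fin d) (Fin d ⊕ Fin d) F)) ≤ W) ↔
    ((r = 2 ∧ p ≠ 2 ∧ (q % 4 = 1 ∨ (q % 4 = 3 ∧ m + 2 ≤ d ∧ (Even m ∨ (2 * d) % 4 = 2)))) ∨
     (r ≠ p ∧ 2 < r ∧ Odd i ∧ i ≤ m ∧ 2 * (m % i) ≤ (2 * d) % c) ∨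
     (r ≠ p ∧ 2 < r ∧ Even i ∧ i ≤ m ∧ (r - 1) / i + 2 * (m / i) ≤ (2 * d) / i ∧
       ((2 * (m % i) ≤ i ∧ (2 * d) % c = 0 ∧ Odd ((2 * d) / i) ∧ (r - 1) / i + 2 * (m / i) < (2 * d) / i) ∨
        (2 * (m % i) ≤ (2 * d) % c ∧ Even ((2 * d) / i)) ∨
        (2 * (m % i) < (2 * d) % c ∧ Odd ((2 * d) / i))))) := by
  have hV : Module.finrank F (Fin d ⊕ Fin d → F) = 2 * d := by simp [two_mul]
  obtain rfl : Nat.card F = q := by rw [← hq, Nat.card_eq_fintype_card]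
  have hQ := H11.qPlus_nondeg (F := F) d
  simp only [El.map_le_iff, ← H11.coe_qPlus, ← H12.ts_quad_iff, ← and_assoc, and_comm (a := Module.finrank F _ = m) (b := H12.CForm.TS _ _)] at hrΩ ⊢
  have hr : r ≠ p := by
    rintro rfl; exact El.ts_p_quad hQ hm (by omega) hrΩ
  have ht := H12.quad_hasTS m hQ (by omega)
  refine (El.om_lhs (fun u => ∃ W, ((H12.CForm.ofQuad (H11.qPlus d F)).TS W ∧ Module.finrank F W = m) ∧
    ∀ x ∈ W, u x ∈ W) (H11.qPlus d F)).trans ?_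
  by_cases h2 : r = 2
  · subst h2
    have f2 : (2 : F) ≠ 0 := by simpa using El.cast_ne (F := F) hr
    have := El.card_odd f2
    rw [El.ts_two f2 (El.nl_quad f2) (fun _ => rfl) hQ hV (El.cl_even hQ hV) (by omega) (fun _ h => h.isom) (El.om_inv f2 hQ)
      (El.om_cx f2 hQ) El.fi_quad (fun a h => El.quad_ex.2 ⟨fun _ => h, fun _ => rfl⟩) ht]
    simp only [El.qs_neg f2, El.qs_two f2, El.sq_neg f2, El.sg_pow, El.sg_mul, El.sg_inj, El.sg_eq_one, H12.qPlus_hasTS,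
      Nat.even_iff, mul_right_inj' two_ne_zero, forall_eq', hr.symm, ne_eq, not_false_iff, true_and, false_and, false_or, and_true,
      and_false, iff_true, iff_false, true_iff, false_iff, not_true, or_false, lt_self_iff_false]
    omega
  · rw [El.quad_ts (El.cast_ne hr) h2 hi hc hQ (.inr (by omega)) hV (X := True)
      (fun e he => by obtain rfl : d = e := by omega
                      simp [H12.qPlus_hasTS]) hrΩ ht]
    simp only [h2, hr, (Fact.out : r.Prime).two_le.lt_of_ne' h2, Nat.odd_iff, Nat.even_iff, ne_eq, not_false_iff,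
      true_and, false_and, false_or, and_true, and_false, iff_true, iff_false, not_true, or_false]
    omega

end Cfsg.Agent.S5973
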