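import Cfsg.Statements.S5974
import Cfsg.Agent.H22.EL7

set_option autoImplicit false
open scoped MatrixGroups
open Cfsg

namespace Cfsg.Agent.S5974

/-- Elements of prime order of PΩ⁺_n(q), n = 2d ≥ 8, with no fixed nondegenerate hyperbolic `m`-space. Here `T = PΩ⁺_n(q)` is realised through `Ω⁺_n(q)`, the commutator subgroup of the isometry group of `Q = Σ xᵢyᵢ` over the field `F` with `q` elements; an element of `T` of prime order `r` is an element `x` of `Ω⁺_n(q)` with `x^r` scalar and `x` not scalar. A hyperbolic `m`-space is a subspace `W` of even dimension `m` on which the polar form of `Q` is nondegenerate and which contains a totally singular subspace of dimension `m/2`. Let `m` be even with `2 ≤ m < n/2`, and let `r` be a prime dividing the number of hyperbolic `m`-spaces, with `r = 2` or `r ≠ p`. For `r ≠ p` let `i` be the multiplicative order of `q` modulo `r`, `c = i` for `i` even and `c = 2i` for `i`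 odd, and write `k = n mod c`, `ℓ' = m mod c`. Then every element of `T` of order `r` fixes some hyperbolic `m`-space if and only if one of: (i) `r = 2` and (`n ≡ 2 (mod 4)`, or `m ≡ 0 (mod 4)`, or `q ≡ 1 (mod 4)`); (ii) `r ≠ p` odd, `i` odd, `c ≤ m` and `k ≥ ℓ'`; (iii) `r ≠ p` odd, `i` even, and either `k = 0` and (`n/i` odd, or `ℓ' = 0` and `m/i` even), or `i ≤ m` and (`k > ℓ' > 0`, or `k = ℓ' > 0` and `(n + m − 2k)/i` even, or `k > ℓ' = 0` and `m/i` even). -/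
theorem result {F : Type*} [Field F] [Fintype F] {p : ℕ} [Fact p.Prime] [CharP F p] {q : ℕ} (hq : Fintype.card F = q)
    (d m : ℕ) (hd : 4 ≤ d) (hm : 2 ≤ m) (hme : Even m) (hmd : m < d)
    (r : ℕ) [Fact r.Prime] (hr : r = 2 ∨ r ≠ p)
    (hrΩ : r ∣ Nat.card {W : Submodule F (Fin d ⊕ Fin d → F) // (Module.finrank F ↥W = m ∧ (∀ u ∈ W, u ≠ 0 → ∃ v ∈ W, QuadraticMap.polar (Cfsg.quadFormPlus d F) u v ≠ 0) ∧
          ∃ U : Submodule F (Fin d ⊕ Fin d → F), U ≤ W ∧ 2 * Module.finrank F ↥U = m ∧ ∀ u ∈ U, Cfsg.quadFormPlus d F u = 0)})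
    (i c : ℕ) (hi : i = orderOf (q : ZMod r)) (hc : c = if Even i then i else 2 * i) :
    (∀ x : GL (Fin d ⊕ Fin d) F, x ∈ Cfsg.Geo.omegaGL (Cfsg.quadFormPlus d F) →
      (∃ z : F, ((x ^ r : GL (Fin d ⊕ Fin d) F) : Matrix (Fin d ⊕ Fin d) (Fin d ⊕ Fin d) F) = z • (1 : Matrix (Fin d ⊕ Fin d) (Fin d ⊕ Fin d) F)) →
      (∀ z : F, (x : Matrix (Fin d ⊕ Fin d) (Fin d ⊕ Fin d) F) ≠ z • (1 : Matrix (Fin d ⊕ Fin d) (Fin d ⊕ Fin d) F)) →
      ∃ W : Submodule F (Fin d ⊕ Fin d → F), (Module.finrank F ↥W = m ∧ (∀ u ∈ W, u ≠ 0 → ∃ v ∈ W, QuadraticMap.polar (Cfsg.quadFormPlus d F) u v ≠ 0) ∧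
          ∃ U : Submodule F (Fin d ⊕ Fin d → F), U ≤ W ∧ 2 * Module.finrank F ↥U = m ∧ ∀ u ∈ U, Cfsg.quadFormPlus d F u = 0) ∧
        W.map (Matrix.toLin' (x : Matrix (Fin d ⊕ Fin d) (Fin d ⊕ Fin d) F)) ≤ W) ↔
    ((r = 2 ∧ ((2 * d) % 4 = 2 ∨ m % 4 = 0 ∨ q % 4 = 1)) ∨
     (r ≠ p ∧ 2 < r ∧ Odd i ∧ c ≤ m ∧ m % c ≤ (2 * d) % c) ∨
     (r ≠ p ∧ 2 < r ∧ Even i ∧
       (((2 * d) % c = 0 ∧ (Odd ((2 * d) / i) ∨ (m % c = 0 ∧ Even (m / i)))) ∨
        (i ≤ m ∧ ((m % c < (2 * d) % c ∧ 0 < m % c) ∨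
                  ((2 * d) % c = m % c ∧ 0 < m % c ∧ Even ((2 * d + m - 2 * ((2 * d) % c)) / i)) ∨
                  (0 < (2 * d) % c ∧ m % c = 0 ∧ Even (m / i))))))) := by
  subst hq
  have hr' : r.Prime := Fact.out
  have hC := H11.qPlus_nondeg (F := F) d
  have hd' : Module.finrank F (Fin d ⊕ Fin d → F) = 2 * d := by simp [two_mul]
  have hN := H12.qPlus_hasTS (F := F) d
  have hP : ∀ k, 2 * d = 2 * k → ((H12.CForm.ofQuad (H11.qPlus d F)).HasTS k ↔ True) := fun k e =>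
    iff_true_intro ((show k = d by omega) ▸ hN)
  obtain ⟨k, hk⟩ := hme
  obtain rfl : m = 2 * k := by omega
  have hΩ : ∀ X : Submodule F (Fin d ⊕ Fin d → F), (Module.finrank F X = 2 * k ∧ (∀ u ∈ X, u ≠ 0 → ∃ v ∈ X,
      QuadraticMap.polar (Cfsg.quadFormPlus d F) u v ≠ 0) ∧ ∃ U ≤ X, 2 * Module.finrank F ↥U = 2 * k ∧
        ∀ u ∈ U, Cfsg.quadFormPlus d F u = 0) ↔ H22.OT (H12.CForm.ofQuad (H11.qPlus d F)) k True X := fun X => by
    simp only [H22.OT, iff_true, H22.hasTS_restrict, H12.ts_quad_iff, ← H22.nd_iff_ex, H12.CForm.ofQuad_B, H11.coe_qPlus,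
      Nat.mul_right_inj two_ne_zero, and_comm (a := _ = k)]
  rw [H22.el_omega (H11.coe_qPlus d)]
  by_cases h4 : r = 2
  · subst h4
    have := H22.odd_card_iff' (F := F) (p := p)
    by_cases hp : p = 2
    · subst hp
      rw [H22.nd_two_OT hC (by omega) hd' (by omega) (by omega) (iff_true_intro hN) hΩ]
      simp [Nat.odd_iff] at this ⊢; omega
    · rw [H22.nd2_OT (H22.two_ne_char hp) hC hd' (by omega) (by omega) (iff_true_intro hN) hΩ]
      simp [Nat.odd_iff, hp] at this ⊢; omega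
  · have : 2 < r := by have := hr'.two_le; omega
    have h1 := hr.resolve_left h4
    have h0 := H22.cast_ne_char (F := F) hr' h1
    obtain ⟨a1, a2, a3⟩ := H22.nd_OT hr' h0 h4 hi hc hC (by omega) hd' (by omega) (by omega) (.inr (even_two_mul _)) hP hΩ hrΩ
    obtain ⟨a4, a5⟩ := H22.nm_of hr' h0 h4 hi hc
    obtain ⟨A, a, B, b, D, e, e1, e2, e3, e4, e5, e6, h⟩ := H22.nd_num (c := c) (m := 2 * k) (n := 2 * d) (by omega) (by omega)
    obtain ⟨M, f1, f2⟩ := H22.mq_true i e1 e2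
    obtain ⟨M₀, f3, f4⟩ := H22.mq_true i e3 e4
    obtain ⟨M₁, f5, f6⟩ := H22.mq_true i e5 e6
    simp only [iff_self, true_iff, false_iff, iff_false, not_true, not_false_iff, f1, f3, f5] at a1 a2 a3
    rw [a1]
    simp only [Nat.odd_iff, Nat.even_iff, h1, h4, this, false_and, false_or, ne_eq, not_false_iff, true_and, e2, e4]
    obtain ⟨rfl, g⟩ | ⟨rfl, g⟩ := a5
    · simp only [g, e1, e3, true_and, zero_ne_one, false_and, false_or]
      generalize (2 * d + 2 * k - 2 * a) / c = t at h ⊢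
      clear * - h f2 f4 f6 a2 a3 g hm hd hmd
      grind (splits := 40)
    · clear * - h f2 f4 f6 a2 a3 g hm hd hmd
      grind (splits := 40)

end Cfsg.Agent.S5974
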