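import Cfsg.Statements.S5987
import Cfsg.Agent.H25.El15

set_option autoImplicit false
open scoped MatrixGroups
open Cfsg

namespace Cfsg.Agent.S5987
open _root_.H25 Subgroup

/-- Elements of prime order of PΩ⁻_n(q) with no fixed totally singular `m`-space. Here `T = PΩ⁻_n(F)`, `n = 2d ≥ 8`, realised through `Ω⁻_n(q)`, the commutator subgroup of the isometry group of `Q = Σ_{i<d−1} xᵢyᵢ + z₁² + a z₁z₂ + b z₂²` with `z₁² + a z₁z₂ + b z₂²` anisotropic, over the field `F` with `q` elements; an element of `T` of prime order `r` is an element `x` of `Ω⁻_n(q)` with `x^r` scalar and `x` not scalar. Let `1 ≤ m ≤ d − 1` and let `r` be a prime dividing the number of totally singular `m`-spaces (subspaces of dimension `m` on which `Q` vanishes); for `r ≠ p` let `i` be the multiplicative order of `q` modulo `r`, `c = i` for `i` even and `c = 2i` for `i` odd, and write `k = n mod c`, `ℓ = m mod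 i`, `n' = ⌊n/i⌋`, `m' = ⌊m/i⌋`, `t = (r−1)/i`. Then every element of `T` of order `r` fixes some totally singular `m`-space if and only if one of: (i) `r = 2 ≠ p` and (`n ≡ 0 (mod 4)`, or `m` is even, or `q ≢ 7 (mod 8)`); (ii) `r ≠ p` odd, `i` odd, `i ≤ m` and (`k = 0` or `k > 2ℓ`); (iii) `r ≠ p` odd, `i` even, `i ≤ m`, `n' − 2m' ≥ t`, and one of: (a) `i ≥ 2ℓ`, `k = 0`, `n/i` even and `n' − 2m' > t` (all four); (b) `k ≥ 2ℓ` and `n'` odd; (c) `k > 2ℓ` and `n'` even. -/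
theorem result {F : Type*} [Field F] [Fintype F] {p : ℕ} [Fact p.Prime] [CharP F p] {q : ℕ} (hq : Fintype.card F = q)
    (d m : ℕ) (hd : 4 ≤ d) (hm : 1 ≤ m) (hmd : m + 1 ≤ d) (a b : F) (hab : ∀ x y : F, x ^ 2 + a * x * y + b * y ^ 2 = 0 → x = 0 ∧ y = 0)
    (r : ℕ) [Fact r.Prime]
    (hrΩ : r ∣ Nat.card {W : Submodule F ((Fin (d - 1) ⊕ Fin (d - 1)) ⊕ Fin 2 → F) // Module.finrank F ↥W = m ∧ Cfsg.Geo.IsTotallySingularQuad (Cfsg.quadFormMinus (d - 1) F a b) W})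
    (i c : ℕ) (hi : i = orderOf (q : ZMod r)) (hc : c = if Even i then i else 2 * i) :
    (∀ x : GL ((Fin (d - 1) ⊕ Fin (d - 1)) ⊕ Fin 2) F, x ∈ Cfsg.Geo.omegaGL (Cfsg.quadFormMinus (d - 1) F a b) →
      (∃ z : F, ((x ^ r : GL ((Fin (d - 1) ⊕ Fin (d - 1)) ⊕ Fin 2) F) : Matrix ((Fin (d - 1) ⊕ Fin (d - 1)) ⊕ Fin 2) ((Fin (d - 1) ⊕ Fin (d - 1)) ⊕ Fin 2) F) = z • (1 : Matrix ((Fin (d - 1) ⊕ Fin (d - 1)) ⊕ Fin 2) ((Fin (d - 1) ⊕ Fin (d - 1)) ⊕ Fin 2) F)) →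
      (∀ z : F, (x : Matrix ((Fin (d - 1) ⊕ Fin (d - 1)) ⊕ Fin 2) ((Fin (d - 1) ⊕ Fin (d - 1)) ⊕ Fin 2) F) ≠ z • (1 : Matrix ((Fin (d - 1) ⊕ Fin (d - 1)) ⊕ Fin 2) ((Fin (d - 1) ⊕ Fin (d - 1)) ⊕ Fin 2) F)) →
      ∃ W : Submodule F ((Fin (d - 1) ⊕ Fin (d - 1)) ⊕ Fin 2 → F), (Module.finrank F ↥W = m ∧ Cfsg.Geo.IsTotallySingularQuad (Cfsg.quadFormMinus (d - 1) F a b) W) ∧ W.map (Matrix.toLin' (x : Matrix ((Fin (d - 1) ⊕ Fin (d - 1)) ⊕ Fin 2) ((Fin (d - 1) ⊕ Fin (d - 1)) ⊕ Fin 2) F)) ≤ W) ↔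
    ((r = 2 ∧ p ≠ 2 ∧ (Even d ∨ Even m ∨ q % 8 ≠ 7)) ∨
     (r ≠ p ∧ 2 < r ∧ Odd i ∧ i ≤ m ∧ ((2 * d) % c = 0 ∨ 2 * (m % i) < (2 * d) % c)) ∨
     (r ≠ p ∧ 2 < r ∧ Even i ∧ i ≤ m ∧ (r - 1) / i + 2 * (m / i) ≤ (2 * d) / i ∧
       ((2 * (m % i) ≤ i ∧ (2 * d) % c = 0 ∧ Even ((2 * d) / i) ∧ (r - 1) / i + 2 * (m / i) < (2 * d) / i) ∨
        (2 * (m % i) ≤ (2 * d) % c ∧ Odd ((2 * d) / i)) ∨
        (2 * (m % i) < (2 * d) % c ∧ Even ((2 * d) / i))))) := by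
  obtain ⟨d, rfl⟩ : ∃ e, d = e + 1 := ⟨d - 1, by omega⟩
  have hV : Module.finrank F ((Fin d ⊕ Fin d) ⊕ Fin 2 → F) = 2 * (d + 1) := by simp; ring
  obtain rfl : Nat.card F = q := by rw [← hq, Nat.card_eq_fintype_card]
  have hQ := H11.qMinus_nondeg d (H11.disc_ne_zero_of_aniso hab)
  have hM := H12.qMinus_not_hasTS d (H11.disc_ne_zero_of_aniso hab) hab
  simp only [El.map_le_iff, Nat.add_sub_cancel, Geo.IsTotallySingularQuad, ← H11.coe_qMinus, ← H12.ts_quad_iff,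
    and_comm (a := Module.finrank F _ = m) (b := H12.CForm.TS _ _)] at hrΩ ⊢
  have hr : r ≠ p := by
    rintro rfl; exact El.ts_p_quad hQ hm (by omega) hrΩ
  have ht := H12.quad_hasTS m hQ (by omega)
  refine (El.om_lhs (fun u => ∃ W, ((H12.CForm.ofQuad (H11.qMinus d F a b)).TS W ∧ Module.finrank F W = m) ∧
    ∀ x ∈ W, u x ∈ W) (H11.qMinus d F a b)).trans ?_
  by_cases h2 : r = 2
  · subst h2
    have f2 : (2 : F) ≠ 0 := by simpa using El.cast_ne (F := F) hr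
    have := El.card_odd f2
    rw [El.ts_two f2 (El.nl_quad f2) (fun _ => rfl) hQ hV (El.cl_even hQ hV) (by omega) (fun _ h => h.isom) (El.om_inv f2 hQ)
      (El.om_cx f2 hQ) El.fi_quad (fun a h => El.quad_ex.2 ⟨fun _ => h, fun _ => rfl⟩) ht]
    simp only [El.qs_neg f2, El.qs_two f2, El.sq_neg f2, El.sg_pow, El.sg_mul, El.sg_inj, El.sg_eq_one, hM,
      Nat.even_iff, mul_right_inj' two_ne_zero, forall_eq', hr.symm, ne_eq, not_false_iff, true_and, false_and, false_or, and_true,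
      and_false, iff_true, iff_false, true_iff, false_iff, not_true, or_false, lt_self_iff_false]
    omega
  · rw [El.quad_ts (El.cast_ne hr) h2 hi hc hQ (.inr (by omega)) hV (X := False)
      (fun e he => by obtain rfl : d + 1 = e := by omega
                      simp [hM]) hrΩ ht]
    obtain ⟨a, ha⟩ := El.c_even hc
    simp only [h2, hr, (Fact.out : r.Prime).two_le.lt_of_ne' h2, Nat.odd_iff, Nat.even_iff, ne_eq, not_false_iff,
      true_and, false_and, false_or, and_true, and_false, iff_true, iff_false, not_true, or_false]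
    omega

end Cfsg.Agent.S5987
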