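import Cfsg.Statements.S5988
import Cfsg.Agent.H25.El18

set_option autoImplicit false
open scoped MatrixGroups
open Cfsg

namespace Cfsg.Agent.S5988
open _root_.H25 Subgroup

/-- Elements of prime order of PΩ⁺_n(q) with no fixed elliptic `m`-space. Here `T = PΩ⁺_n(F)`, `n = 2d ≥ 8`, realised through `Ω⁺_n(q)`, the commutator subgroup of the isometry group of `Q = Σ xᵢyᵢ` over the field `F` with `q` elements; an element of `T` of prime order `r` is an element `x` of `Ω⁺_n(q)` with `x^r` scalar and `x` not scalar; a nondegenerate `m`-space (even `m`) is a subspace on which the polar form of `Q` is nondegenerate; it is hyperbolic if it contains an `m/2`-dimensional subspace on which `Q` vanishes, elliptic otherwise. Let `m` be even with `2 ≤ m < n/2` and let `r` be a prime dividing the number of elliptic `m`-spaces; for `r ≠ p` let `i` be the multiplicative order of `q` modulo `r`, `c = i` for `i` even and `c = 2i` for `i` odd, and write `k = n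 mod c`, `ℓ = m mod i`, `ℓ' = m mod c`, `n' = ⌊n/i⌋`, `m' = ⌊m/i⌋`, `t = (r−1)/i`. Then every element of `T` of order `r` fixes some elliptic `m`-space if and only if one of: (i) `r = 2 ≠ p` and either `n ≡ 0 (mod 4)`, `q ≡ 3 (mod 4)` and `m ≡ 2 (mod 4)`, or `n ≡ 2 (mod 4)` and `q ≢ 1 (mod 8)`; (ii) `r ≠ p` odd, `i` odd, `c ≤ m` and `k > ℓ' > 0`; (iii) `r ≠ p` odd, `i` even, and either `k = 0` and (`n/i` odd, or `ℓ' = 0` and `m/i` odd), or `i ≤ m` and (`k > ℓ' > 0`, or `k = ℓ' > 0` and `(n + m − 2k)/i` odd, or `k > ℓ' = 0` and `m/i` odd). (For `r = p` there is always an element of order `p` fixing no elliptic `m`-space.) -/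
theorem result {F : Type*} [Field F] [Fintype F] {p : ℕ} [Fact p.Prime] [CharP F p] {q : ℕ} (hq : Fintype.card F = q)
    (d m : ℕ) (hd : 4 ≤ d) (hm : 2 ≤ m) (hme : Even m) (hmd : m < d)
    (r : ℕ) [Fact r.Prime]
    (hrΩ : r ∣ Nat.card {W : Submodule F (Fin d ⊕ Fin d → F) // Module.finrank F ↥W = m ∧ Cfsg.Geo.IsNondegenerateOn (QuadraticMap.polar (Cfsg.quadFormPlus d F)) W ∧ ¬ Cfsg.Geo.IsPlusTypeOn (Cfsg.quadFormPlus d F) W})
    (i c : ℕ) (hi : i = orderOf (q : ZMod r)) (hc : c = if Even i then i else 2 * i) :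
    (∀ x : GL (Fin d ⊕ Fin d) F, x ∈ Cfsg.Geo.omegaGL (Cfsg.quadFormPlus d F) →
      (∃ z : F, ((x ^ r : GL (Fin d ⊕ Fin d) F) : Matrix (Fin d ⊕ Fin d) (Fin d ⊕ Fin d) F) = z • (1 : Matrix (Fin d ⊕ Fin d) (Fin d ⊕ Fin d) F)) →
      (∀ z : F, (x : Matrix (Fin d ⊕ Fin d) (Fin d ⊕ Fin d) F) ≠ z • (1 : Matrix (Fin d ⊕ Fin d) (Fin d ⊕ Fin d) F)) →
      ∃ W : Submodule F (Fin d ⊕ Fin d → F), (Module.finrank F ↥W = m ∧ Cfsg.Geo.IsNondegenerateOn (QuadraticMap.polar (Cfsg.quadFormPlus d F)) W ∧ ¬ Cfsg.Geo.IsPlusTypeOn (Cfsg.quadFormPlus d F) W) ∧ W.map (Matrix.toLin' (x : Matrix (Fin d ⊕ Fin d) (Fin d ⊕ Fin d) F)) ≤ W) ↔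
    ((r = 2 ∧ p ≠ 2 ∧ ((Even d ∧ q % 4 = 3 ∧ m % 4 = 2) ∨ (Odd d ∧ q % 8 ≠ 1))) ∨
     (r ≠ p ∧ 2 < r ∧ Odd i ∧ c ≤ m ∧ 0 < m % c ∧ m % c < (2 * d) % c) ∨
     (r ≠ p ∧ 2 < r ∧ Even i ∧
       (((2 * d) % c = 0 ∧ (Odd ((2 * d) / i) ∨ (m % c = 0 ∧ Odd (m / i)))) ∨
        (i ≤ m ∧ ((0 < m % c ∧ m % c < (2 * d) % c) ∨
                  (0 < m % c ∧ m % c = (2 * d) % c ∧ Odd ((2 * d + m - 2 * ((2 * d) % c)) / i)) ∨
                  (m % c = 0 ∧ 0 < (2 * d) % c ∧ Odd (m / i))))))) := by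
  have hV : Module.finrank F (Fin d ⊕ Fin d → F) = 2 * d := by simp [two_mul]
  obtain rfl : Nat.card F = q := by rw [← hq, Nat.card_eq_fintype_card]
  have hQ := H11.qPlus_nondeg (F := F) d
  obtain ⟨e, rfl⟩ : ∃ e, m = 2 * e := ⟨m / 2, by rw [Nat.even_iff] at hme; omega⟩
  simp only [El.map_le_iff, ← H11.coe_qPlus, El.geo_minus rfl] at hrΩ ⊢
  refine (El.om_lhs (fun u => ∃ W, (El.quadCls F).ND (H12.CForm.ofQuad (H11.qPlus d F)) W (2 * e) _ ∧
    ∀ x ∈ W, u x ∈ W) (H11.qPlus d F)).trans ?_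
  by_cases h2 : r = 2
  · subst h2
    by_cases hp : p = 2
    · subst hp
      rw [El.quad_nd_two hQ (.inr (by omega)) hV (X := True) (by simp [H12.qPlus_hasTS]) (by omega) (by omega)]
      simp
    have f2 : (2 : F) ≠ 0 := by simpa using El.cast_ne (F := F) (r := 2) (Ne.symm hp)
    have := El.card_odd f2
    rw [El.nd_two_quad f2 hQ hV (El.cl_even hQ hV) (by omega) (by omega)]
    simp only [El.qs_neg f2, El.qs_two f2, El.sg_pow, El.sg_mul, El.sg_eq_one, H12.qPlus_hasTS, hp, Nat.odd_iff,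
      Nat.even_iff, mul_right_inj' two_ne_zero, forall_eq', ne_eq, not_false_iff, true_and, false_and, false_or, and_true,
      and_false, iff_true, iff_false, true_iff, false_iff, not_true, or_false, lt_self_iff_false]
    omega
  by_cases hr : r = p
  · subst hr
    have f2 : (2 : F) ≠ 0 := by simpa using El.cast_ne (F := F) (r := 2) (Ne.symm h2)
    refine iff_of_false (fun H => ?_) (by simp [h2])
    have c := El.cl_even hQ hV
    rw [El.sg_pos (H12.qPlus_hasTS d), one_mul] at c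
    obtain ⟨a₁, a₂, b₁, b₂, c₁, c₂, h⟩ := El.om_test f2 hQ hV c (by omega) (by omega) H (2 * (d % 2)) (d - d % 2) 0 (by omega)
      (by omega) ((Nat.mod_two_eq_zero_or_one d).elim (fun h => .inr (by simp [h])) fun h => .inl (by omega))
    simp only [El.qs_eq, El.sg_pow, El.sg_mul, El.sg_eq_one, Nat.even_iff] at h
    by_cases IsSquare (-1 : F) <;> simp only [*, true_or, false_or, false_iff, iff_true, not_true, imp_false] at h <;> omega
  · rw [El.quad_nd (El.cast_ne hr) h2 hi hc hQ (.inr (by omega)) hV (X := True)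
      (fun e he => by obtain rfl : d = e := by omega
                      simp [H12.qPlus_hasTS]) (Y := False) (fun e' he => by rw [show e' = e by omega]) (.inr hme) hrΩ
      (fun _ => hme) (by omega) (by omega)]
    have := El.num_aux hc (2 * d) (m := 2 * e) (by omega)
    simp only [h2, hr, (Fact.out : r.Prime).two_le.lt_of_ne' h2, Nat.odd_iff, Nat.even_iff, ne_eq, not_false_iff,
      true_and, false_and, false_or, and_true, and_false, iff_true, iff_false, not_true, or_false]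
    omega

end Cfsg.Agent.S5988
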