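import Cfsg.Statements.S5989
import Cfsg.Agent.H25.El18

set_option autoImplicit false
open scoped MatrixGroups
open Cfsg

namespace Cfsg.Agent.S5989
open _root_.H25 Subgroup

/-- Elements of prime order of PΩ⁺_n(q), q odd, with no fixed nondegenerate `m`-space of odd dimension. Here `T = PΩ⁺_n(F)`, `n = 2d ≥ 8`, realised through `Ω⁺_n(q)`, the commutator subgroup of the isometry group of `Q = Σ xᵢyᵢ` over the field `F` with `q` elements; an element of `T` of prime order `r` is an element `x` of `Ω⁺_n(q)` with `x^r` scalar and `x` not scalar; `q` and `m` are odd, `1 ≤ m < n/2`. The nondegenerate `m`-spaces (subspaces on which the polar form is nondegenerate) fall into two isometry classes, each an orbit of `T`, and the two actions are equivalent; fix one such space `W₀` and let Ω be the set of nondegenerate `m`-spaces isometric to `W₀` (some linear isomorphism preserves `Q`). Let `r` be a prime dividing the size of Ω; for `r ≠ p` let `i` be the multiplicative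 order of `q` modulo `r`, `c = i` for `i` even and `c = 2i` for `i` odd, and write `k = n mod c`, `ℓ = m mod i`, `ℓ' = m mod c`, `n' = ⌊n/i⌋`, `m' = ⌊m/i⌋`, `t = (r−1)/i`. Then every element of `T` of order `r` fixes a member of Ω if and only if one of: (i) `r = 2`, `n ≡ 2 (mod 4)` and `q ≢ 1 (mod 8)`; (ii) `r ≠ p` odd, `i` odd, `c ≤ m` and `k > ℓ' > 0`; (iii) `r ≠ p` odd, `i` even, and either `k = 0` and `n/i` odd, or `i ≤ m` and `k > ℓ' > 0`. (For `r = p` there is always an element of order `p` fixing no member of Ω.) -/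
theorem result {F : Type*} [Field F] [Fintype F] {p : ℕ} [Fact p.Prime] [CharP F p] {q : ℕ} (hq : Fintype.card F = q)
    (hodd : Odd q) (d m : ℕ) (hd : 4 ≤ d) (hm : Odd m) (hmd : m < d)
    (W₀ : Submodule F (Fin d ⊕ Fin d → F)) (hW₀ : Module.finrank F ↥W₀ = m ∧ Cfsg.Geo.IsNondegenerateOn (QuadraticMap.polar (Cfsg.quadFormPlus d F)) W₀)
    (r : ℕ) [Fact r.Prime]
    (hrΩ : r ∣ Nat.card {W : Submodule F (Fin d ⊕ Fin d → F) // Module.finrank F ↥W = m ∧ Cfsg.Geo.IsNondegenerateOn (QuadraticMap.polar (Cfsg.quadFormPlus d F)) W ∧ Cfsg.Geo.AreIsometricFor (Cfsg.quadFormPlus d F) W W₀})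
    (i c : ℕ) (hi : i = orderOf (q : ZMod r)) (hc : c = if Even i then i else 2 * i) :
    (∀ x : GL (Fin d ⊕ Fin d) F, x ∈ Cfsg.Geo.omegaGL (Cfsg.quadFormPlus d F) →
      (∃ z : F, ((x ^ r : GL (Fin d ⊕ Fin d) F) : Matrix (Fin d ⊕ Fin d) (Fin d ⊕ Fin d) F) = z • (1 : Matrix (Fin d ⊕ Fin d) (Fin d ⊕ Fin d) F)) →
      (∀ z : F, (x : Matrix (Fin d ⊕ Fin d) (Fin d ⊕ Fin d) F) ≠ z • (1 : Matrix (Fin d ⊕ Fin d) (Fin d ⊕ Fin d) F)) →
      ∃ W : Submodule F (Fin d ⊕ Fin d → F), (Module.finrank F ↥W = m ∧ Cfsg.Geo.IsNondegenerateOn (QuadraticMap.polar (Cfsg.quadFormPlus d F)) W ∧ Cfsg.Geo.AreIsometricFor (Cfsg.quadFormPlus d F) W W₀) ∧ W.map (Matrix.toLin' (x : Matrix (Fin d ⊕ Fin d) (Fin d ⊕ Fin d) F)) ≤ W) ↔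
    ((r = 2 ∧ Odd d ∧ q % 8 ≠ 1) ∨
     (r ≠ p ∧ 2 < r ∧ Odd i ∧ c ≤ m ∧ 0 < m % c ∧ m % c < (2 * d) % c) ∨
     (r ≠ p ∧ 2 < r ∧ Even i ∧ (((2 * d) % c = 0 ∧ Odd ((2 * d) / i)) ∨ (i ≤ m ∧ 0 < m % c ∧ m % c < (2 * d) % c)))) := by
  have hV : Module.finrank F (Fin d ⊕ Fin d → F) = 2 * d := by simp [two_mul]
  have f2 : (2 : F) ≠ 0 := H12.odd_card_iff.1 (hq ▸ hodd)
  obtain rfl : Nat.card F = q := by rw [← hq, Nat.card_eq_fintype_card]
  have hQ := H11.qPlus_nondeg (F := F) d
  simp only [El.map_le_iff, ← H11.coe_qPlus] at hrΩ hW₀ ⊢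
  simp only [El.geo_iso hW₀] at hrΩ ⊢
  refine (El.om_lhs (fun u => ∃ W, (El.quadCls F).ND (H12.CForm.ofQuad (H11.qPlus d F)) W m _ ∧
    ∀ x ∈ W, u x ∈ W) (H11.qPlus d F)).trans ?_
  rw [Nat.odd_iff] at hm
  by_cases h2 : r = 2
  · subst h2
    have := El.card_odd f2
    rw [El.nd_two_quad f2 hQ hV (El.cl_even hQ hV) (by omega) (by omega)]
    simp only [El.qs_neg f2, El.qs_two f2, El.sg_pow, El.sg_mul, El.sg_eq_one, H12.qPlus_hasTS, Nat.odd_iff, hm, one_ne_zero,
      Nat.even_iff, mul_right_inj' two_ne_zero, forall_eq', ne_eq, not_false_iff, true_and, false_and, false_or, and_true,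
      and_false, iff_true, iff_false, true_iff, false_iff, not_true, or_false, lt_self_iff_false, imp_false]
    omega
  by_cases hr : r = p
  · subst hr
    exact iff_of_false (fun H => El.om_not_odd f2 hQ hV rfl (by omega) (by omega) H hm (by omega) (by omega)) (by simp [h2])
  · rw [El.quad_nd (El.cast_ne hr) h2 hi hc hQ (.inr (by omega)) hV (X := True)
      (fun e he => by obtain rfl : d = e := by omega
                      simp [H12.qPlus_hasTS]) (Y := True) (by omega) (.inl (by simp)) hrΩ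
      (fun h => absurd h f2) (by omega) (by omega)]
    have := El.num_aux hc (2 * d) (m := m) (by omega)
    simp only [h2, hr, (Fact.out : r.Prime).two_le.lt_of_ne' h2, Nat.odd_iff, Nat.even_iff, ne_eq, not_false_iff,
      true_and, false_and, false_or, and_true, and_false, iff_true, iff_false, not_true, or_false]
    omega

end Cfsg.Agent.S5989
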