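import Cfsg.Statements.S5990
import Cfsg.Agent.H22.EL7

set_option autoImplicit false
open scoped MatrixGroups
open Cfsg

namespace Cfsg.Agent.S5990

/-- Elements of prime order of PΩ⁻_n(q) with no fixed elliptic `m`-space. Here `T = PΩ⁻_n(F)`, `n = 2d ≥ 8`, realised through `Ω⁻_n(q)`, the commutator subgroup of the isometry group of `Q = Σ_{i<d−1} xᵢyᵢ + z₁² + a z₁z₂ + b z₂²` with `z₁² + a z₁z₂ + b z₂²` anisotropic, over the field `F` with `q` elements; an element of `T` of prime order `r` is an element `x` of `Ω⁻_n(q)` with `x^r` scalar and `x` not scalar; a nondegenerate `m`-space (even `m`) is a subspace on which the polar form of `Q` is nondegenerate; it is hyperbolic if it contains an `m/2`-dimensional subspace on which `Q` vanishes, elliptic otherwise. Let `m` be even with `2 ≤ m ≤ n − 2` (no restriction `m < n/2`: fixing an elliptic `m`-space is the same as fixing its hyperbolic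 orthogonal complement) and let `r` be a prime dividing the number of elliptic `m`-spaces, with `r = 2` or `r ≠ p`; for `r ≠ p` let `i` be the multiplicative order of `q` modulo `r`, `c = i` for `i` even and `c = 2i` for `i` odd, and write `k = n mod c`, `ℓ = m mod i`, `ℓ' = m mod c`, `n' = ⌊n/i⌋`, `m' = ⌊m/i⌋`, `t = (r−1)/i`. Then every element of `T` of order `r` fixes some elliptic `m`-space if and only if one of: (i) `r = p = 2` and (`n ≡ 0 (mod 4)` or `m ≡ 2 (mod 4)`); (ii) `r = 2 ≠ p` and (`n ≡ 0 (mod 4)`, or `q ≢ 7 (mod 8)`, or `m ≡ 2 (mod 4)`); (iii) `r ≠ p` odd, `i` odd, and `k = 0` or (`c ≤ m` and `k ≥ ℓ' > 0`); (iv) `r ≠ p` odd, `i` even, and either `k = 0` and (`n/i` even, or `ℓ' = 0` and `m/i` odd), or `k > 0`, `i ≤ m` and (`k > ℓ' > 0`, or `ℓ' = 0` and `m/i` odd, or `k = ℓ'` and `(n + m − 2k)/i` even). (Odd `r = p` is not covered by this statement.) -/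
theorem result {F : Type*} [Field F] [Fintype F] {p : ℕ} [Fact p.Prime] [CharP F p] {q : ℕ} (hq : Fintype.card F = q)
    (d m : ℕ) (hd : 4 ≤ d) (hm : 2 ≤ m) (hme : Even m) (hmn : m + 2 ≤ 2 * d) (a b : F) (hab : ∀ x y : F, x ^ 2 + a * x * y + b * y ^ 2 = 0 → x = 0 ∧ y = 0)
    (r : ℕ) [Fact r.Prime] (hr : r = 2 ∨ r ≠ p)
    (hrΩ : r ∣ Nat.card {W : Submodule F ((Fin (d - 1) ⊕ Fin (d - 1)) ⊕ Fin 2 → F) // Module.finrank F ↥W = m ∧ Cfsg.Geo.IsNondegenerateOn (QuadraticMap.polar (Cfsg.quadFormMinus (d - 1) F a b)) W ∧ ¬ Cfsg.Geo.IsPlusTypeOn (Cfsg.quadFormMinus (d - 1) F a b) W})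
    (i c : ℕ) (hi : i = orderOf (q : ZMod r)) (hc : c = if Even i then i else 2 * i) :
    (∀ x : GL ((Fin (d - 1) ⊕ Fin (d - 1)) ⊕ Fin 2) F, x ∈ Cfsg.Geo.omegaGL (Cfsg.quadFormMinus (d - 1) F a b) →
      (∃ z : F, ((x ^ r : GL ((Fin (d - 1) ⊕ Fin (d - 1)) ⊕ Fin 2) F) : Matrix ((Fin (d - 1) ⊕ Fin (d - 1)) ⊕ Fin 2) ((Fin (d - 1) ⊕ Fin (d - 1)) ⊕ Fin 2) F) = z • (1 : Matrix ((Fin (d - 1) ⊕ Fin (d - 1)) ⊕ Fin 2) ((Fin (d - 1) ⊕ Fin (d - 1)) ⊕ Fin 2) F)) →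
      (∀ z : F, (x : Matrix ((Fin (d - 1) ⊕ Fin (d - 1)) ⊕ Fin 2) ((Fin (d - 1) ⊕ Fin (d - 1)) ⊕ Fin 2) F) ≠ z • (1 : Matrix ((Fin (d - 1) ⊕ Fin (d - 1)) ⊕ Fin 2) ((Fin (d - 1) ⊕ Fin (d - 1)) ⊕ Fin 2) F)) →
      ∃ W : Submodule F ((Fin (d - 1) ⊕ Fin (d - 1)) ⊕ Fin 2 → F), (Module.finrank F ↥W = m ∧ Cfsg.Geo.IsNondegenerateOn (QuadraticMap.polar (Cfsg.quadFormMinus (d - 1) F a b)) W ∧ ¬ Cfsg.Geo.IsPlusTypeOn (Cfsg.quadFormMinus (d - 1) F a b) W) ∧ W.map (Matrix.toLin' (x : Matrix ((Fin (d - 1) ⊕ Fin (d - 1)) ⊕ Fin 2) ((Fin (d - 1) ⊕ Fin (d - 1)) ⊕ Fin 2) F)) ≤ W) ↔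
    ((r = 2 ∧ p = 2 ∧ (Even d ∨ m % 4 = 2)) ∨
     (r = 2 ∧ p ≠ 2 ∧ (Even d ∨ q % 8 ≠ 7 ∨ m % 4 = 2)) ∨
     (r ≠ p ∧ 2 < r ∧ Odd i ∧ ((2 * d) % c = 0 ∨ (c ≤ m ∧ 0 < m % c ∧ m % c ≤ (2 * d) % c))) ∨
     (r ≠ p ∧ 2 < r ∧ Even i ∧
       (((2 * d) % c = 0 ∧ (Even ((2 * d) / i) ∨ (m % c = 0 ∧ Odd (m / i)))) ∨
        (0 < (2 * d) % c ∧ i ≤ m ∧ ((0 < m % c ∧ m % c < (2 * d) % c) ∨ (m % c = 0 ∧ Odd (m / i)) ∨
                                    (m % c = (2 * d) % c ∧ Even ((2 * d + m - 2 * ((2 * d) % c)) / i))))))) := by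
  subst hq
  obtain ⟨e, he, rfl⟩ : ∃ e, d - 1 = e ∧ d = e + 1 := ⟨d - 1, rfl, by omega⟩
  generalize e + 1 - 1 = d at *
  subst he
  have hr' : r.Prime := Fact.out
  have hD := H11.disc_ne_zero_of_aniso hab
  have hC := H11.qMinus_nondeg d hD
  have hd' : Module.finrank F ((Fin d ⊕ Fin d) ⊕ Fin 2 → F) = 2 * (d + 1) := by simp; ring
  have hN := H12.qMinus_not_hasTS d hD hab
  have hP : ∀ k, 2 * (d + 1) = 2 * k → ((H12.CForm.ofQuad (H11.qMinus d F a b)).HasTS k ↔ False) := fun k e =>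
    iff_false_intro ((show k = d + 1 by omega) ▸ hN)
  obtain ⟨k, hk⟩ := hme
  obtain rfl : m = 2 * k := by omega
  have hΩ := H22.geo_ot_minus (k := k) (H11.coe_qMinus d a b)
  rw [H22.el_omega (H11.coe_qMinus d a b)]
  by_cases h4 : r = 2
  · subst h4
    have := H22.odd_card_iff' (F := F) (p := p)
    by_cases hp : p = 2
    · subst hp
      rw [H22.nd_two_OT hC (by omega) hd' (by omega) (by omega) (iff_false_intro hN) hΩ]
      simp [Nat.even_iff]; omega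
    · rw [H22.nd2_OT (H22.two_ne_char hp) hC hd' (by omega) (by omega) (iff_false_intro hN) hΩ]
      simp [Nat.odd_iff, Nat.even_iff, hp] at this ⊢; omega
  · have : 2 < r := by have := hr'.two_le; omega
    have h1 := hr.resolve_left h4
    have h0 := H22.cast_ne_char (F := F) hr' h1
    obtain ⟨a1, a2, a3⟩ := H22.nd_OT hr' h0 h4 hi hc hC (by omega) hd' (by omega) (by omega) (.inr (even_two_mul _)) hP hΩ hrΩ
    obtain ⟨a4, a5⟩ := H22.nm_of hr' h0 h4 hi hc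
    obtain ⟨A, a, B, b, D, e, e1, e2, e3, e4, e5, e6, h⟩ := H22.nd_num (c := c) (m := 2 * k) (n := 2 * (d + 1)) (by omega) (by omega)
    obtain ⟨M, f1, f2⟩ := H22.mq_false i e1 e2
    obtain ⟨M₀, f3, f4⟩ := H22.mq_false i e3 e4
    obtain ⟨M₁, f5, f6⟩ := H22.mq_true i e5 e6
    simp only [iff_self, true_iff, false_iff, iff_false, not_true, not_false_iff, f1, f3, f5] at a1 a2 a3
    rw [a1]
    simp only [Nat.odd_iff, Nat.even_iff, h1, h4, this, false_and, false_or, ne_eq, not_false_iff, true_and, e2, e4]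
    obtain ⟨rfl, g⟩ | ⟨rfl, g⟩ := a5
    · simp only [g, e1, e3, true_and, zero_ne_one, false_and, false_or]
      generalize (2 * (d + 1) + 2 * k - 2 * a) / c = t at h ⊢
      clear * - h f2 f4 f6 a2 a3 g hm hd hmn
      grind (splits := 40)
    · clear * - h f2 f4 f6 a2 a3 g hm hd hmn
      grind (splits := 40)

end Cfsg.Agent.S5990
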