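import Cfsg.Statements.S5992
import Cfsg.Agent.H22.EL7

set_option autoImplicit false
open scoped MatrixGroups
open Cfsg

namespace Cfsg.Agent.S5992

/-- Elements of prime order r ≠ p of Ω_n(q), nq odd, with no fixed hyperbolic `m`-space. Here `T = Ω_n(F)`, `n = 2d+1 ≥ 7`, `q` odd, realised as the commutator subgroup of the isometry group of `Q = x₀² + Σ xᵢyᵢ` over the field `F` with `q` elements (trivial centre, so its elements of prime order `r` are used directly); a nondegenerate `m`-space (even `m`) is a subspace on which the polar form of `Q` is nondegenerate; it is hyperbolic if it contains an `m/2`-dimensional subspace on which `Q` vanishes, elliptic otherwise. Let `m` be even with `2 ≤ m ≤ n − 1` (no restriction `m < n/2`) and let `r ≠ p` be a prime dividing the number of hyperbolic `m`-spaces; for `r ≠ p` let `i` be the multiplicative order of `q` modulo `r`, `c = i` for `i` even and `c = 2i` for `i` odd, and write `k = n mod c`, `ℓ' = m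 mod c`. Then every element of `T` of order `r` fixes some hyperbolic `m`-space if and only if `r = 2`, or `r` is odd and one of: (i) `i` odd, `c ≤ m` and either `k > ℓ' > 0` or `ℓ' = 0`; (ii) `i` even, `i ≤ m`, `k > ℓ'`, and `m/i` even whenever `ℓ' = 0`. (`r = p` is not covered by this statement.) -/
theorem result {F : Type*} [Field F] [Fintype F] {p : ℕ} [Fact p.Prime] [CharP F p] {q : ℕ} (hq : Fintype.card F = q) (hqodd : Odd q)
    (d m : ℕ) (hd : 3 ≤ d) (hm : 2 ≤ m) (hme : Even m) (hmn : m ≤ 2 * d)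
    (r : ℕ) [Fact r.Prime] (hrp : r ≠ p)
    (hrΩ : r ∣ Nat.card {W : Submodule F (Unit ⊕ (Fin d ⊕ Fin d) → F) // Module.finrank F ↥W = m ∧ Cfsg.Geo.IsNondegenerateOn (QuadraticMap.polar (Cfsg.quadFormOdd d F)) W ∧ Cfsg.Geo.IsPlusTypeOn (Cfsg.quadFormOdd d F) W})
    (i c : ℕ) (hi : i = orderOf (q : ZMod r)) (hc : c = if Even i then i else 2 * i) :
    (∀ x : GL (Unit ⊕ (Fin d ⊕ Fin d)) F, x ∈ Cfsg.Geo.omegaGL (Cfsg.quadFormOdd d F) → orderOf x = r →
      ∃ W : Submodule F (Unit ⊕ (Fin d ⊕ Fin d) → F), (Module.finrank F ↥W = m ∧ Cfsg.Geo.IsNondegenerateOn (QuadraticMap.polar (Cfsg.quadFormOdd d F)) W ∧ Cfsg.Geo.IsPlusTypeOn (Cfsg.quadFormOdd d F) W) ∧ W.map (Matrix.toLin' (x : Matrix (Unit ⊕ (Fin d ⊕ Fin d)) (Unit ⊕ (Fin d ⊕ Fin d)) F)) ≤ W) ↔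
    (r = 2 ∨
     (2 < r ∧ Odd i ∧ c ≤ m ∧ (m % c = 0 ∨ (0 < m % c ∧ m % c < (2 * d + 1) % c))) ∨
     (2 < r ∧ Even i ∧ i ≤ m ∧ m % c < (2 * d + 1) % c ∧ (0 < m % c ∨ Even (m / i)))) := by
  subst hq
  have hr' : r.Prime := Fact.out
  have hp := H22.odd_card_iff'.1 hqodd
  have h2 : (2 : F) ≠ 0 := H22.two_ne_char hp
  have hC := H11.qOdd_nondeg h2 d
  have hd' : Module.finrank F (Unit ⊕ (Fin d ⊕ Fin d) → F) = 2 * d + 1 := by simp; ring
  obtain ⟨k, hk⟩ := hme
  obtain rfl : m = 2 * k := by omega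
  have hΩ := H22.geo_ot_plus (k := k) (H11.coe_qOdd (F := F) d)
  rw [H22.el_omega_odd (H11.coe_qOdd d) hC h2 (by simp) hr']
  by_cases h4 : r = 2
  · subst h4
    obtain ⟨W₀, hW⟩ := H22.exists_OT hC (k := k) (by omega) (by omega) (.inl h2) True
    have := hW.1
    rw [H22.nd2_O h2 hC hW.2.1 (by omega) (by omega) fun X => (hΩ X).trans (hW.iff X)]
    exact iff_of_true (by omega) (.inl rfl)
  · have : 2 < r := by have := hr'.two_le; omega
    have h1 := hrp
    have h0 := H22.cast_ne_char (F := F) hr' h1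
    obtain ⟨a1, a2, a3⟩ := H22.nd_OT hr' h0 h4 hi hc hC (by omega) hd' (by omega) (by omega) (.inl h2) (P := True) (by omega) hΩ hrΩ
    obtain ⟨a4, a5⟩ := H22.nm_of hr' h0 h4 hi hc
    obtain ⟨A, a, B, b, D, e, e1, e2, e3, e4, e5, e6, h⟩ := H22.nd_num (c := c) (m := 2 * k) (n := 2 * d + 1) (by omega) (by omega)
    obtain ⟨M, f1, f2⟩ := H22.mq_true i e1 e2
    obtain ⟨M₀, f3, f4⟩ := H22.mq_true i e3 e4
    obtain ⟨M₁, f5, f6⟩ := H22.mq_true i e5 e6
    simp only [iff_self, true_iff, false_iff, iff_false, not_true, not_false_iff, f1, f3, f5] at a1 a2 a3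
    rw [a1]
    simp only [Nat.odd_iff, Nat.even_iff, h1, h4, this, false_and, false_or, ne_eq, not_false_iff, true_and, e2, e4]
    obtain ⟨rfl, g⟩ | ⟨rfl, g⟩ := a5
    · simp only [g, e1, e3, true_and, zero_ne_one, false_and, false_or]
      generalize (2 * d + 1 + 2 * k - 2 * a) / c = t at h ⊢
      clear * - h f2 f4 f6 a2 a3 g hm hd hmn
      grind (splits := 40)
    · clear * - h f2 f4 f6 a2 a3 g hm hd hmn
      grind (splits := 40)

end Cfsg.Agent.S5992
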