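import Cfsg.Statements.S5993
import Cfsg.Agent.H25.El18

set_option autoImplicit false
open scoped MatrixGroups
open Cfsg

namespace Cfsg.Agent.S5993
open _root_.H25 Subgroup

/-- Elements of prime order of Ω_n(q), nq odd, with no fixed elliptic `m`-space. Here `T = Ω_n(F)`, `n = 2d+1 ≥ 7`, `q` odd, realised as the commutator subgroup of the isometry group of `Q = x₀² + Σ xᵢyᵢ` over the field `F` with `q` elements (trivial centre, so its elements of prime order `r` are used directly); a nondegenerate `m`-space (even `m`) is a subspace on which the polar form of `Q` is nondegenerate; it is hyperbolic if it contains an `m/2`-dimensional subspace on which `Q` vanishes, elliptic otherwise. Let `m` be even with `2 ≤ m ≤ n − 1` (no restriction `m < n/2`) and let `r` be a prime dividing the number of elliptic `m`-spaces; for `r ≠ p` let `i` be the multiplicative order of `q` modulo `r`, `c = i` for `i` even and `c = 2i` for `i` odd, and write `k = n mod c`, `ℓ'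 = m mod c`. Then every element of `T` of order `r` fixes some elliptic `m`-space if and only if `r = 2`, or `r ≠ p` is odd and one of: (i) `i` odd, `c ≤ m` and `k > ℓ' > 0`; (ii) `i` even, `i ≤ m`, `k > ℓ'`, and `m/i` odd whenever `ℓ' = 0`. (For `r = p` there is always an element of order `p` fixing no elliptic `m`-space.) -/
theorem result {F : Type*} [Field F] [Fintype F] {p : ℕ} [Fact p.Prime] [CharP F p] {q : ℕ} (hq : Fintype.card F = q) (hqodd : Odd q)
    (d m : ℕ) (hd : 3 ≤ d) (hm : 2 ≤ m) (hme : Even m) (hmn : m ≤ 2 * d)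
    (r : ℕ) [Fact r.Prime]
    (hrΩ : r ∣ Nat.card {W : Submodule F (Unit ⊕ (Fin d ⊕ Fin d) → F) // Module.finrank F ↥W = m ∧ Cfsg.Geo.IsNondegenerateOn (QuadraticMap.polar (Cfsg.quadFormOdd d F)) W ∧ ¬ Cfsg.Geo.IsPlusTypeOn (Cfsg.quadFormOdd d F) W})
    (i c : ℕ) (hi : i = orderOf (q : ZMod r)) (hc : c = if Even i then i else 2 * i) :
    (∀ x : GL (Unit ⊕ (Fin d ⊕ Fin d)) F, x ∈ Cfsg.Geo.omegaGL (Cfsg.quadFormOdd d F) → orderOf x = r →
      ∃ W : Submodule F (Unit ⊕ (Fin d ⊕ Fin d) → F), (Module.finrank F ↥W = m ∧ Cfsg.Geo.IsNondegenerateOn (QuadraticMap.polar (Cfsg.quadFormOdd d F)) W ∧ ¬ Cfsg.Geo.IsPlusTypeOn (Cfsg.quadFormOdd d F) W) ∧ W.map (Matrix.toLin' (x : Matrix (Unit ⊕ (Fin d ⊕ Fin d)) (Unit ⊕ (Fin d ⊕ Fin d)) F)) ≤ W) ↔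
    (r = 2 ∨
     (r ≠ p ∧ 2 < r ∧ Odd i ∧ c ≤ m ∧ 0 < m % c ∧ m % c < (2 * d + 1) % c) ∨
     (r ≠ p ∧ 2 < r ∧ Even i ∧ i ≤ m ∧ m % c < (2 * d + 1) % c ∧ (0 < m % c ∨ Odd (m / i)))) := by
  have hV : Module.finrank F (Unit ⊕ (Fin d ⊕ Fin d) → F) = 2 * d + 1 := by simp [two_mul, add_comm]
  have f2 : (2 : F) ≠ 0 := H12.odd_card_iff.1 (hq ▸ hqodd)
  obtain rfl : Nat.card F = q := by rw [← hq, Nat.card_eq_fintype_card]
  have hQ := H11.qOdd_nondeg f2 d
  obtain ⟨e, rfl⟩ : ∃ e, m = 2 * e := ⟨m / 2, by rw [Nat.even_iff] at hme; omega⟩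
  simp only [El.map_le_iff, ← H11.coe_qOdd, El.geo_minus rfl] at hrΩ ⊢
  refine (El.om_lhs_odd (fun u => ∃ W, (El.quadCls F).ND (H12.CForm.ofQuad (H11.qOdd d F)) W (2 * e) _ ∧
    ∀ x ∈ W, u x ∈ W) f2 hQ (by simp [← two_mul])).trans ?_
  by_cases h2 : r = 2
  · subst h2
    rw [El.nd_two_quad f2 hQ hV rfl (by omega) (by omega)]
    exact iff_of_true (by omega) (.inl rfl)
  by_cases hr : r = p
  · subst hr
    refine iff_of_false (fun H => ?_) (by simp [h2])
    obtain ⟨a₁, a₂, b₁, b₂, c₁, c₂, h1, h3, h4, h5, h6, h, -⟩ := El.om_test f2 hQ hV rfl (by omega) (by omega) H (1 - d % 2)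
      (d - d % 2) (d % 2) (by omega) (by omega) (.inl (by omega))
    simp only [El.qs_eq, El.sg_pow, El.sg_mul, El.sg_eq_one, Nat.even_iff, false_iff, not_or] at h
    rcases Nat.mod_two_eq_zero_or_one d with k | k <;> rw [k] at h1 h3 h4 <;> omega
  · rw [El.quad_nd (El.cast_ne hr) h2 hi hc hQ (H12.notExc_of_two_ne_zero f2) hV (X := True) (by omega)
      (Y := False) (fun e' he => by rw [show e' = e by omega]) (.inr hme) hrΩ (fun _ => hme) (by omega) (by omega)]
    have := El.num_aux hc (2 * d + 1) (m := 2 * e) (by omega)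
    simp only [h2, hr, (Fact.out : r.Prime).two_le.lt_of_ne' h2, Nat.odd_iff, Nat.even_iff, ne_eq, not_false_iff,
      true_and, false_and, false_or, and_true, and_false, iff_true, iff_false, not_true, or_false]
    omega

end Cfsg.Agent.S5993
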