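import Cfsg.Statements.S5994
import Cfsg.Agent.H25.El18

set_option autoImplicit false
open scoped MatrixGroups
open Cfsg

namespace Cfsg.Agent.S5994
open _root_.H25 Subgroup

/-- A necessary condition for every element of order p of PΩ⁻_n(q), q odd, to fix an elliptic `m`-space. Here `T = PΩ⁻_n(F)`, `n = 2d ≥ 8`, realised through `Ω⁻_n(q)`, the commutator subgroup of the isometry group of `Q = Σ_{i<d−1} xᵢyᵢ + z₁² + a z₁z₂ + b z₂²` with `z₁² + a z₁z₂ + b z₂²` anisotropic, over the field `F` with `q` elements; an element of `T` of prime order `r` is an element `x` of `Ω⁻_n(q)` with `x^r` scalar and `x` not scalar; `q` is odd; a nondegenerate `m`-space (even `m`) is a subspace on which the polar form of `Q` is nondegenerate; it is hyperbolic if it contains an `m/2`-dimensional subspace on which `Q` vanishes, elliptic otherwise. Let `m` be even with `2 ≤ m ≤ n − 2` and suppose `p` divides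 the number of elliptic `m`-spaces. If every element of `T` of order `p` fixes some elliptic `m`-space, then `n ≡ m (mod 4)` and every partition of `n` into parts of size at most `p` in which every even part has even multiplicity contains (as a sub-multiset) a partition of `m` in which every even part has even multiplicity. -/
theorem result {F : Type*} [Field F] [Fintype F] {p : ℕ} [Fact p.Prime] [CharP F p] {q : ℕ} (hq : Fintype.card F = q) (hqodd : Odd q)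
    (d m : ℕ) (hd : 4 ≤ d) (hm : 2 ≤ m) (hme : Even m) (hmn : m + 2 ≤ 2 * d) (a b : F) (hab : ∀ x y : F, x ^ 2 + a * x * y + b * y ^ 2 = 0 → x = 0 ∧ y = 0)
    (hpΩ : p ∣ Nat.card {W : Submodule F ((Fin (d - 1) ⊕ Fin (d - 1)) ⊕ Fin 2 → F) // Module.finrank F ↥W = m ∧ Cfsg.Geo.IsNondegenerateOn (QuadraticMap.polar (Cfsg.quadFormMinus (d - 1) F a b)) W ∧ ¬ Cfsg.Geo.IsPlusTypeOn (Cfsg.quadFormMinus (d - 1) F a b) W}) :
    (∀ x : GL ((Fin (d - 1) ⊕ Fin (d - 1)) ⊕ Fin 2) F, x ∈ Cfsg.Geo.omegaGL (Cfsg.quadFormMinus (d - 1) F a b) →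
      (∃ z : F, ((x ^ p : GL ((Fin (d - 1) ⊕ Fin (d - 1)) ⊕ Fin 2) F) : Matrix ((Fin (d - 1) ⊕ Fin (d - 1)) ⊕ Fin 2) ((Fin (d - 1) ⊕ Fin (d - 1)) ⊕ Fin 2) F) = z • (1 : Matrix ((Fin (d - 1) ⊕ Fin (d - 1)) ⊕ Fin 2) ((Fin (d - 1) ⊕ Fin (d - 1)) ⊕ Fin 2) F)) →
      (∀ z : F, (x : Matrix ((Fin (d - 1) ⊕ Fin (d - 1)) ⊕ Fin 2) ((Fin (d - 1) ⊕ Fin (d - 1)) ⊕ Fin 2) F) ≠ z • (1 : Matrix ((Fin (d - 1) ⊕ Fin (d - 1)) ⊕ Fin 2) ((Fin (d - 1) ⊕ Fin (d - 1)) ⊕ Fin 2) F)) →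
      ∃ W : Submodule F ((Fin (d - 1) ⊕ Fin (d - 1)) ⊕ Fin 2 → F), (Module.finrank F ↥W = m ∧ Cfsg.Geo.IsNondegenerateOn (QuadraticMap.polar (Cfsg.quadFormMinus (d - 1) F a b)) W ∧ ¬ Cfsg.Geo.IsPlusTypeOn (Cfsg.quadFormMinus (d - 1) F a b) W) ∧ W.map (Matrix.toLin' (x : Matrix ((Fin (d - 1) ⊕ Fin (d - 1)) ⊕ Fin 2) ((Fin (d - 1) ⊕ Fin (d - 1)) ⊕ Fin 2) F)) ≤ W) →
    ((2 * d) % 4 = m % 4 ∧ (∀ μ : Multiset ℕ, (∀ e ∈ μ, 0 < e ∧ e ≤ p) → (∀ e : ℕ, Even e → Even (μ.count e)) → μ.sum = 2 * d →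
        ∃ ν : Multiset ℕ, ν ≤ μ ∧ ν.sum = m ∧ ∀ e : ℕ, Even e → Even (ν.count e))) := by
  obtain ⟨d, rfl⟩ : ∃ e, d = e + 1 := ⟨d - 1, by omega⟩
  have hV : Module.finrank F ((Fin d ⊕ Fin d) ⊕ Fin 2 → F) = 2 * (d + 1) := by simp; ring
  have f2 : (2 : F) ≠ 0 := H12.odd_card_iff.1 (hq ▸ hqodd)
  have hQ := H11.qMinus_nondeg d (H11.disc_ne_zero_of_aniso hab)
  obtain ⟨e, rfl⟩ : ∃ e, m = 2 * e := ⟨m / 2, by rw [Nat.even_iff] at hme; omega⟩
  simp only [El.map_le_iff, Nat.add_sub_cancel, ← H11.coe_qMinus, El.geo_minus rfl]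
  intro H
  replace H := (El.om_lhs (fun u => ∃ W, (El.quadCls F).ND (H12.CForm.ofQuad (H11.qMinus d F a b)) W (2 * e) _ ∧
    ∀ x ∈ W, u x ∈ W) (H11.qMinus d F a b)).1 H
  refine ⟨?_, fun μ => El.gd_swap (fun μ h1 h2 h3 h4 => El.om_part f2 hQ hV rfl (by omega) (by omega) H μ h1 h2 h3 (.inl h4))
    ((Fact.out : p.Prime).odd_of_ne_two (by rintro rfl; exact f2 (CharP.cast_eq_zero F 2))) hme (by omega)⟩
  obtain ⟨a₁, a₂, b₁, b₂, c₁, c₂, h1, h3, h4, h5, h6, h, -⟩ := El.om_test f2 hQ hV rfl (by omega) (by omega) H (2 - d % 2)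
    (d - d % 2 * 1) (d % 2) (by omega) (by omega) (.inl (by omega))
  simp only [El.qs_eq, El.sg_pow, El.sg_mul, El.sg_eq_one, Nat.even_iff, false_iff, not_or] at h
  have : a₁ + c₁ ≠ 0 := fun z => (h z).2 (by omega)
  rcases Nat.mod_two_eq_zero_or_one d with k | k <;> rw [k] at h1 h3 h4
  · omega
  · obtain rfl | rfl : c₁ = 0 ∨ c₁ = 1 := by omega
    all_goals omega

end Cfsg.Agent.S5994
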