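import Cfsg.Statements.S5995
import Cfsg.Agent.H25.El18

set_option autoImplicit false
open scoped MatrixGroups
open Cfsg

namespace Cfsg.Agent.S5995
open _root_.H25 Subgroup

/-- A necessary condition for every element of order p of Ω_n(q), nq odd, to fix a hyperbolic `m`-space. Here `T = Ω_n(F)`, `n = 2d+1 ≥ 7`, `q` odd, realised as the commutator subgroup of the isometry group of `Q = x₀² + Σ xᵢyᵢ` over the field `F` with `q` elements (trivial centre, so its elements of prime order `r` are used directly); a nondegenerate `m`-space (even `m`) is a subspace on which the polar form of `Q` is nondegenerate; it is hyperbolic if it contains an `m/2`-dimensional subspace on which `Q` vanishes, elliptic otherwise. Let `m` be even with `2 ≤ m ≤ n − 1` and suppose `p` divides the number of hyperbolic `m`-spaces. If every element of `T` of order `p` fixes some hyperbolic `m`-space, then `m ≡ 0 (mod 4)` and every partition of `n` into parts of size at most `p`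 in which every even part has even multiplicity contains (as a sub-multiset) a partition of `m` in which every even part has even multiplicity. -/
theorem result {F : Type*} [Field F] [Fintype F] {p : ℕ} [Fact p.Prime] [CharP F p] {q : ℕ} (hq : Fintype.card F = q) (hqodd : Odd q)
    (d m : ℕ) (hd : 3 ≤ d) (hm : 2 ≤ m) (hme : Even m) (hmn : m ≤ 2 * d)
    (hpΩ : p ∣ Nat.card {W : Submodule F (Unit ⊕ (Fin d ⊕ Fin d) → F) // Module.finrank F ↥W = m ∧ Cfsg.Geo.IsNondegenerateOn (QuadraticMap.polar (Cfsg.quadFormOdd d F)) W ∧ Cfsg.Geo.IsPlusTypeOn (Cfsg.quadFormOdd d F) W}) :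
    (∀ x : GL (Unit ⊕ (Fin d ⊕ Fin d)) F, x ∈ Cfsg.Geo.omegaGL (Cfsg.quadFormOdd d F) → orderOf x = p →
      ∃ W : Submodule F (Unit ⊕ (Fin d ⊕ Fin d) → F), (Module.finrank F ↥W = m ∧ Cfsg.Geo.IsNondegenerateOn (QuadraticMap.polar (Cfsg.quadFormOdd d F)) W ∧ Cfsg.Geo.IsPlusTypeOn (Cfsg.quadFormOdd d F) W) ∧ W.map (Matrix.toLin' (x : Matrix (Unit ⊕ (Fin d ⊕ Fin d)) (Unit ⊕ (Fin d ⊕ Fin d)) F)) ≤ W) →
    (m % 4 = 0 ∧ (∀ μ : Multiset ℕ, (∀ e ∈ μ, 0 < e ∧ e ≤ p) → (∀ e : ℕ, Even e → Even (μ.count e)) → μ.sum = 2 * d + 1 →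
        ∃ ν : Multiset ℕ, ν ≤ μ ∧ ν.sum = m ∧ ∀ e : ℕ, Even e → Even (ν.count e))) := by
  have hV : Module.finrank F (Unit ⊕ (Fin d ⊕ Fin d) → F) = 2 * d + 1 := by simp [two_mul, add_comm]
  have f2 : (2 : F) ≠ 0 := H12.odd_card_iff.1 (hq ▸ hqodd)
  have hQ := H11.qOdd_nondeg f2 d
  obtain ⟨e, rfl⟩ : ∃ e, m = 2 * e := ⟨m / 2, by rw [Nat.even_iff] at hme; omega⟩
  simp only [El.map_le_iff, ← H11.coe_qOdd, El.geo_plus rfl]
  intro H
  replace H := (El.om_lhs_odd (fun u => ∃ W, (El.quadCls F).ND (H12.CForm.ofQuad (H11.qOdd d F)) W (2 * e) _ ∧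
    ∀ x ∈ W, u x ∈ W) f2 hQ (by simp [← two_mul])).1 H
  refine ⟨?_, fun μ h1 h2 h3 => El.om_part f2 hQ hV rfl (by omega) (by omega) H μ h1 h2 h3 (.inl (by_contra fun h => ?_))⟩
  · obtain ⟨a₁, a₂, b₁, b₂, c₁, c₂, h1, h3, h4, h5, h6, -⟩ := El.om_test f2 hQ hV rfl (by omega) (by omega) H (1 - d % 2)
      (d - d % 2) (d % 2) (by omega) (by omega) (.inl (by omega))
    rcases Nat.mod_two_eq_zero_or_one d with k | k <;> rw [k] at h1 h3 h4 <;> omega
  · have := Multiset.sum_induction Even μ (fun _ _ => Even.add) (by simp) fun a ha => Nat.not_odd_iff_even.1 fun o => h ⟨a, ha, o⟩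
    rw [h3, Nat.even_iff] at this
    omega

end Cfsg.Agent.S5995
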